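import Cfsg.Statements.S0824
import Cfsg.Agent.Lib.GF4
import Cfsg.Agent.Lib.Heart
import Cfsg.Agent.Lib.FormDisc

set_option autoImplicit false
open Cfsg

namespace Cfsg.Agent.S0824

open Cfsg.Agent.Lib.FormDisc Matrix

/-- The quotient map. -/
def matA : Matrix ((Fin 1 ⊕ Fin 1) ⊕ Fin 2) (Fin 5) (ZMod 2) :=
  Sum.elim (Sum.elim ![![1, 0, 1, 1, 1]] ![![0, 1, 1, 1, 1]]) ![![0, 0, 1, 0, 1], ![0, 0, 0, 1, 1]]

/-- The section, transposed. -/
def matC : Matrix ((Fin 1 ⊕ Fin 1) ⊕ Fin 2) (Fin 5) (ZMod 2) :=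
  Sum.elim (Sum.elim ![![0, 1, 1, 1, 1]] ![![1, 0, 1, 1, 1]]) ![![0, 0, 0, 1, 1], ![0, 0, 1, 0, 1]]

theorem heart : Lib.Heart.IsHeart matA.mulVecLin matCᵀ.mulVecLin :=
  Lib.Heart.isHeart_of_matrix matA matCᵀ 0 1
    (by decide +kernel) (by decide +kernel) (by decide +kernel) (by decide +kernel)

theorem norm_eq : ∀ i j : Fin 5, i ≠ j →
    quadFormMinus 1 (ZMod 2) 1 1 (matA *ᵥ (Pi.single i 1 - Pi.single j 1)) = 1 := by
  decide +kernel

theorem polar_eq : ∀ i j : Fin 5, i ≠ j → ∀ v,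
    QuadraticMap.polar (quadFormMinus 1 (ZMod 2) 1 1) (matA *ᵥ (Pi.single i 1 - Pi.single j 1)) v =
      (matCᵀ *ᵥ v) i - (matCᵀ *ᵥ v) j := by
  decide +kernel

theorem nonsing : ∀ v, quadFormMinus 1 (ZMod 2) 1 1 v ≠ 0 →
    ∃ i j : Fin 5, i ≠ j ∧ v = matA *ᵥ (Pi.single i 1 - Pi.single j 1) := by
  decide +kernel

theorem sep : ∀ u, (∀ v, QuadraticMap.polar (quadFormMinus 1 (ZMod 2) 1 1) u v = 0) → u = 0 := by
  decide +kernel

set_option synthInstance.maxSize 1024 in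
theorem witt : ∀ u v, quadFormMinus 1 (ZMod 2) 1 1 u = 0 → quadFormMinus 1 (ZMod 2) 1 1 v = 0 →
    QuadraticMap.polar (quadFormMinus 1 (ZMod 2) 1 1) u v = 0 → u = 0 ∨ v = 0 ∨ u = v := by
  decide +kernel


/-- O⁻_4(2) ≅ S_5: the isometry group of the form x y + z_1² + z_1 z_2 + z_2² over the field with 2 elements is isomorphic to the symmetric group on 5 letters. -/
theorem result {F : Type*} [Field F] [Fintype F] (hF : Fintype.card F = 2) : Nonempty (↥(Cfsg.isometryGroup F (Cfsg.quadFormMinus 1 F 1 1)) ≃* Equiv.Perm (Fin 5)) := by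
  obtain ⟨e⟩ := Lib.GF4.nonempty_equiv_zmod 2 hF
  have hQ : (QuadraticMap.polarBilin (qMinus 1 (ZMod 2) 1 1)).SeparatingLeft := sep
  obtain ⟨f⟩ := heart.nonempty_equiv (Q := qMinus 1 (ZMod 2) 1 1) (by simp)
    (fun i j hij v => by
      rw [show qMinus 1 (ZMod 2) 1 1 (matA.mulVecLin _) = 1 from norm_eq i j hij, inv_one, one_mul]
      exact polar_eq i j hij v)
    (Lib.FormOrth.eq_top_of_refl_siegel hQ _ Subgroup.subset_closure (by
      rintro _ ⟨u, v, hu, hv, hv0, rfl⟩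
      rcases witt u v hu hv0 hv with rfl | rfl | rfl
      · rw [Lib.FormOrth.siegel_zero_left]; exact one_mem _
      · rw [Lib.FormOrth.siegel_eq_one _ _ (Submodule.zero_mem _)]; exact one_mem _
      · rw [Lib.FormOrth.siegel_eq_one _ _ (Submodule.mem_span_singleton_self _)]; exact one_mem _))
    nonsing
  exact ⟨(Lib.GF4.isometryCongr e _ (quadFormMinus 1 (ZMod 2) 1 1) fun v => by
    simp [quadFormMinus]).trans ((Lib.FormMatrix.orthEquiv (qMinus 1 (ZMod 2) 1 1)).trans f)⟩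

end Cfsg.Agent.S0824
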