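import Cfsg.Statements.S0881
import Cfsg.Agent.Lib.ZassSimple

set_option autoImplicit false
open Cfsg

namespace Cfsg.Agent.S0881

open Lib.Zassenhaus Lib.ZassSimple Lib.CharBasic Lib.CharOrth Lib.CharInd Lib.CharTI Finset
open scoped ComplexConjugate

theorem result {G Ω : Type*} [Group G] [Fintype G] [MulAction G Ω] [Fintype Ω] (hZ : Cfsg.IsZassenhausGroup G Ω) {a b : Ω} (hab : a ≠ b) [IsSimpleGroup G] (hodd : Odd (Nat.card ↥(MulAction.stabilizer G a ⊓ MulAction.stabilizer G b : Subgroup G))) (hlt : Nat.card ↥(MulAction.stabilizer G a ⊓ MulAction.stabilizer G b : Subgroup G) < Fintype.card Ω - 2) (H : Subgroup G) (hHa : H ≤ MulAction.stabilizer G a) (hHcard : Nat.card H + 1 = Fintype.card Ω) (hHfix : ∀ u ∈ H, u ≠ 1 → ∀ c : Ω, u • c = c → c = a) (μ : MulAction.stabilizer G a → ℂ) (hμ : Cfsg.IsCharacter (MulAction.stabilizer G a) μ ∧ μ 1 = 1) (hμH : ∀ u : MulAction.stabilizer G a, (u : G) ∈ H → μ u = 1) (hμne : μ ≠ fun _ => 1) : Cfsg.IsIrrCharacter G (Cfsg.indFun (MulAction.stabilizer G a) μ) ∧ ∀ u ∈ H, u ≠ 1 →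 Cfsg.indFun (MulAction.stabilizer G a) μ u = 1 := by
  classical
  have hcl := char_classFun hμ.1
  have hH : ∀ u ∈ H, u ≠ 1 → indFun (MulAction.stabilizer G a) μ u = 1 := by
    intro u hu hu1
    rw [← hμH ⟨u, hHa hu⟩ hu]
    refine indFun_eq_of_not_conj (MulAction.stabilizer G a) hcl ⟨u, hHa hu⟩ (fun g hg h => ?_)
    exfalso
    apply hg
    rw [MulAction.mem_stabilizer_iff, mul_smul, mul_smul, inv_smul_eq_iff] at h
    exact hHfix u hu hu1 _ h
  refine ⟨irr_of_inner_self (isChar_indFun _ hμ.1) ?_, hH⟩
  have hN := card_stab hZ hab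
  have hE : ∀ x : MulAction.stabilizer G a, (x : G) ∉ H →
      indFun (MulAction.stabilizer G a) μ x = μ x + conj (μ x) := by
    intro x hx
    rw [mem_kernel_iff hZ hHa hHcard hHfix] at hx
    push Not at hx
    obtain ⟨hx1, hx2⟩ := hx
    obtain ⟨c, hc, hca⟩ := hx2 x.2
    obtain ⟨t, hta, htc⟩ := exists_smul_eq_two hZ hca.symm hca
    have hinv := swap_inverts hZ hca.symm (by rwa [card_stab2_eq hZ hab hca.symm]) hta htc
      (mem_stab2.mpr ⟨x.2, hc⟩)
    have hval : ∀ g : G, extendByZero (MulAction.stabilizer G a) μ (g⁻¹ * x * g) =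
        (if g • a = a then μ x else 0) + if g • a = c then conj (μ x) else 0 := by
      intro g
      by_cases h1 : g • a = a
      · rw [if_pos h1, if_neg (by rw [h1]; exact hca.symm), add_zero,
          ← classFun_conj' hcl x ⟨g, h1⟩, ← extendByZero_coe _ μ]
        rfl
      · by_cases h2 : g • a = c
        · have h3 : (t * g) • a = a := by rw [mul_smul, h2, htc]
          rw [if_neg h1, if_pos h2, zero_add, ← char_inv hμ.1,
            ← classFun_conj' hcl x⁻¹ ⟨t * g, h3⟩, ← extendByZero_coe _ μ]
          congr 1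
          simp only [Subgroup.coe_mul, Subgroup.coe_inv]
          rw [← hinv]
          group
        · rw [if_neg h1, if_neg h2, add_zero, extendByZero_of_not_mem]
          intro h
          rw [MulAction.mem_stabilizer_iff, mul_smul, mul_smul, inv_smul_eq_iff] at h
          exact (eq_or_eq_of_fix hZ hca.symm hx1 x.2 hc h).elim h1 h2
    rw [indFun_apply]
    simp only [hval, Finset.sum_add_distrib, ← Finset.sum_filter, Finset.sum_const, nsmul_eq_mul]
    have h1 := card_filter_one hZ hab a
    have h2 := card_filter_one hZ hab c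
    rw [← hN] at h1 h2
    have h0 : (Nat.card (MulAction.stabilizer G a) : ℂ) ≠ 0 := card_ne_zero
    rw [h1, h2]
    field_simp
  have hidx : (MulAction.stabilizer G a).index = Nat.card H + 1 := by
    have := isPretransitive hZ
    rw [MulAction.index_stabilizer_of_transitive, hHcard, Nat.card_eq_fintype_card]
  have hres : (fun x : MulAction.stabilizer G a => indFun (MulAction.stabilizer G a) μ x) =
      μ + star μ + fun x : MulAction.stabilizer G a =>
        (if x = 1 then (Nat.card H : ℂ) else 0) - if (x : G) ∈ H then 1 else 0 := by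
    funext x
    simp only [Pi.add_apply, Pi.star_apply]
    by_cases hx : (x : G) ∈ H
    · rw [hμH x hx, if_pos hx]
      by_cases hx1 : x = 1
      · rw [if_pos hx1, hx1, Subgroup.coe_one, indFun_one_apply, hidx, hμ.2]
        simp; ring
      · rw [if_neg hx1, hH x hx (fun h => hx1 (Subtype.ext h))]
        simp
    · rw [hE x hx, if_neg hx, if_neg (by rintro rfl; exact hx H.one_mem)]
      simp
  have hirr := irr_of_linear hμ.1 hμ.2
  have hne : star μ ≠ μ := by
    intro h
    apply hμne
    funext x
    have hn : (H.subgroupOf (MulAction.stabilizer G a)).Normal := by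
      constructor
      intro u hu g
      exact conj_mem_kernel hZ hHa hHcard hHfix g.2 hu
    have hi : (H.subgroupOf (MulAction.stabilizer G a)).index =
        Nat.card ↥(MulAction.stabilizer G a ⊓ MulAction.stabilizer G b : Subgroup G) := by
      have h1 := (H.subgroupOf (MulAction.stabilizer G a)).index_mul_card
      rw [Nat.card_congr (Subgroup.subgroupOfEquivOfLe hHa).toEquiv, hN, ← hHcard,
        Nat.add_sub_cancel, mul_comm] at h1
      exact Nat.eq_of_mul_eq_mul_left Nat.card_pos h1
    have h1 := hμH _ (Subgroup.mem_subgroupOf.mp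
      ((H.subgroupOf (MulAction.stabilizer G a)).pow_index_mem x))
    obtain ⟨j, hj⟩ := hodd
    have h2 : μ x * μ x = 1 := by
      have := linear_mul_conj hμ.1 hμ.2 x
      rwa [show conj (μ x) = μ x from congrFun h x] at this
    rwa [linear_pow hμ.1 hμ.2, hi, hj, pow_succ, pow_mul, sq, h2, one_pow, one_mul] at h1
  rw [cinner_indFun_right _ _ (indFun_classFun _ _), hres, cinner_add_left, cinner_add_left,
    cinner_irr_self hirr, cinner_irr_ne (irr_of_linear (isChar_star hμ.1) (by simp [hμ.2])) hirr hne]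
  unfold classInner
  simp only [sub_mul, ite_mul, zero_mul, Finset.sum_sub_distrib, Finset.sum_ite_eq', Finset.mem_univ,
    if_true, hμ.2, ← Finset.sum_filter]
  rw [Finset.sum_congr rfl (g := fun _ => (1 : ℂ)) (fun x hx => by
    rw [hμH x (by simpa using hx)]; simp), Finset.sum_const]
  have h1 : #{x : MulAction.stabilizer G a | (x : G) ∈ H} = Nat.card H := by
    rw [← Nat.card_congr (Subgroup.subgroupOfEquivOfLe hHa).toEquiv, ← card_filter_mem]
    rfl
  rw [h1]
  simp

end Cfsg.Agent.S0881
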