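import Cfsg.Statements.S0884
import Cfsg.Agent.Lib.ZassSimple

set_option autoImplicit false
open Cfsg

namespace Cfsg.Agent.S0884

open Lib.Zassenhaus Lib.ZassSimple Finset

open Classical in
theorem sum_card_centralizer {G : Type*} [Group G] [Fintype G] (T : Finset (ConjClasses G)) :
    ∑ g : G with ConjClasses.mk g ∈ T, Nat.card (Subgroup.centralizer ({g} : Set G)) =
      #T * Nat.card G := by
  rw [← Finset.sum_fiberwise_of_maps_to (t := T) (g := ConjClasses.mk) (fun g hg => by simpa using hg),
    ← smul_eq_mul, ← Finset.sum_const]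
  refine Finset.sum_congr rfl fun C hC => ?_
  obtain ⟨x, rfl⟩ := ConjClasses.mk_surjective C
  have h1 := Lib.ConjCount.card_filter_isConj_mul x
  have hpos : 0 < #{y : G | IsConj x y} := Finset.card_pos.mpr ⟨x, by simpa using ⟨1, by simp⟩⟩
  rw [← h1, ← smul_eq_mul, ← Finset.sum_const]
  refine Finset.sum_congr ?_ fun y hy => ?_
  · ext y
    simp only [Finset.mem_filter, Finset.mem_univ, true_and]
    constructor
    · rintro ⟨-, h⟩
      exact (ConjClasses.mk_eq_mk_iff_isConj.mp h).symm
    · intro h
      have := (ConjClasses.mk_eq_mk_iff_isConj.mpr h).symm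
      exact ⟨this ▸ hC, this⟩
  · simp only [Finset.mem_filter, Finset.mem_univ, true_and] at hy
    have h2 := Lib.ConjCount.card_filter_isConj_mul y
    rw [show ({z : G | IsConj y z} : Finset G) = ({z : G | IsConj x z} : Finset G) by
      ext z
      simp only [Finset.mem_filter, Finset.mem_univ, true_and]
      exact ⟨fun h => hy.trans h, fun h => hy.symm.trans h⟩] at h2
    exact Nat.eq_of_mul_eq_mul_left hpos (h2.trans h1.symm)

theorem result {G Ω : Type*} [Group G] [Finite G] [MulAction G Ω] [Fintype Ω] (hZ : Cfsg.IsZassenhausGroup G Ω) {a b : Ω} (hab : a ≠ b) [IsSimpleGroup G] (h e : ℕ) (hh : Fintype.card Ω = h + 1) (he : Nat.card ↥(MulAction.stabilizer G a ⊓ MulAction.stabilizer G b : Subgroup G) = e) (hodd : Odd e) (hlt : 2 * e < h - 1) (H : Subgroup G) (hHa : H ≤ MulAction.stabilizer G a) (hHcard : Nat.card H + 1 = Fintype.card Ω) (hHfix : ∀ u ∈ H, u ≠ 1 → ∀ c : Ω, u • c = c → c = a) : e ≤ Nat.card {C : ConjClasses G // ∀ g : G, ConjClasses.mk g = C → g ∉ H} := by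
  classical
  have := Fintype.ofFinite G
  have hodd' := he ▸ hodd
  let T : Finset (ConjClasses G) := {C | ∀ g : G, ConjClasses.mk g = C → g ∉ H}
  have hT : Nat.card {C : ConjClasses G // ∀ g : G, ConjClasses.mk g = C → g ∉ H} = #T := by
    apply Nat.subtype_card
    simp [T]
  rw [hT]
  let I : Finset G := {x | orderOf x = 2}
  have hI : #I = if Even h then e * (h + 1) else e * h := card_involutions hZ hab hh he hodd
  have hsq : ∀ x ∈ I, x⁻¹ = x := by
    intro x hx
    simp only [I, Finset.mem_filter, Finset.mem_univ, true_and] at hx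
    exact inv_eq_of_mul_eq_one_right (by rw [← sq, ← hx, pow_orderOf_eq_one])
  have hA : ∑ x ∈ I, #{y ∈ I | ConjClasses.mk (x * y) ∈ T} ≤ #T * Nat.card G := by
    calc ∑ x ∈ I, #{y ∈ I | ConjClasses.mk (x * y) ∈ T}
        ≤ ∑ x ∈ I, #{g : G | ConjClasses.mk g ∈ T ∧ x * g * x⁻¹ = g⁻¹} := by
          refine Finset.sum_le_sum fun x hx => ?_
          refine Finset.card_le_card_of_injOn (fun y => x * y) (fun y hy => ?_)
            (fun y _ z _ h => mul_left_cancel h)
          simp only [Finset.coe_filter, Set.mem_setOf_eq, Finset.mem_univ, true_and] at hy ⊢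
          refine ⟨hy.2, ?_⟩
          rw [mul_inv_rev, hsq y hy.1, ← mul_assoc]
          nth_rewrite 1 [← hsq x hx]
          simp
      _ ≤ ∑ x : G, #{g : G | ConjClasses.mk g ∈ T ∧ x * g * x⁻¹ = g⁻¹} :=
          Finset.sum_le_sum_of_subset (Finset.subset_univ _)
      _ = ∑ g : G with ConjClasses.mk g ∈ T, #{x : G | x * g * x⁻¹ = g⁻¹} := by
          simp only [Finset.card_filter, Finset.sum_filter]
          rw [Finset.sum_comm]
          refine Finset.sum_congr rfl fun g _ => ?_
          split_ifs with hg <;> simp [hg]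
      _ ≤ ∑ g : G with ConjClasses.mk g ∈ T, Nat.card (Subgroup.centralizer ({g} : Set G)) := by
          refine Finset.sum_le_sum fun g _ => ?_
          by_cases hc : IsConj g g⁻¹
          · exact (Lib.ConjCount.card_filter_conj_eq hc).le
          · rw [Finset.card_eq_zero.mpr]
            · exact Nat.zero_le _
            · rw [Finset.filter_eq_empty_iff]
              exact fun x _ hx => hc (isConj_iff.mpr ⟨x, hx⟩)
      _ = #T * Nat.card G := sum_card_centralizer T
  have hB : ∀ x ∈ I, ∀ y ∈ I, ConjClasses.mk (x * y) ∉ T → y = x ∨ ∃ c : Ω, x • c = c ∧ y • c = c := by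
    intro x hx y hy hxy
    simp only [T, Finset.mem_filter, Finset.mem_univ, true_and, not_forall, not_not] at hxy
    obtain ⟨u, hu, huH⟩ := hxy
    obtain ⟨k, hk⟩ := isConj_iff.mp (ConjClasses.mk_eq_mk_iff_isConj.mp hu)
    by_cases hu1 : u = 1
    · left
      rw [hu1, mul_one, mul_inv_cancel, eq_comm, mul_eq_one_iff_inv_eq] at hk
      rw [← hk, hsq x hx]
    · right
      have hu' : u = k⁻¹ * (x * y) * k := by rw [← hk]; group
      have hinv : u⁻¹ = k⁻¹ * (y * x) * k := by
        rw [hu', ← hsq x hx, ← hsq y hy]; simp only [mul_inv_rev, inv_inv]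
        rw [hsq x hx, hsq y hy]; group
      have h1 : (k⁻¹ * x * k) • a = a := kernel_ti hHa hHfix (H.inv_mem huH) (inv_ne_one.mpr hu1) (by
        convert huH using 1
        rw [hinv, hu']; group)
      have h2 : (k⁻¹ * y * k) • a = a := kernel_ti hHa hHfix huH hu1 (by
        convert H.inv_mem huH using 1
        rw [hinv, hu']; group)
      rw [mul_smul, mul_smul, inv_smul_eq_iff] at h1 h2
      exact ⟨k • a, h1, h2⟩
  have hfix : ∀ x ∈ I, #{c : Ω | x • c = c} = (h + 1) % 2 := by
    intro x hx
    rw [← hh]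
    exact card_fix_involution hZ hab hodd' (by simpa [I] using hx)
  have hsplit : ∀ m : ℕ, (∀ x ∈ I, #{y ∈ I | ConjClasses.mk (x * y) ∉ T} ≤ m) →
      #I * #I ≤ #T * Nat.card G + #I * m := by
    intro m hm
    calc #I * #I = ∑ x ∈ I, (#{y ∈ I | ConjClasses.mk (x * y) ∈ T} +
          #{y ∈ I | ConjClasses.mk (x * y) ∉ T}) := by
          simp only [Finset.card_filter_add_card_filter_not, Finset.sum_const, smul_eq_mul]
      _ ≤ #T * Nat.card G + #I * m := by
          rw [Finset.sum_add_distrib]
          refine add_le_add hA ?_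
          rw [← smul_eq_mul]
          exact Finset.sum_le_card_nsmul _ _ _ hm
  have hG : Nat.card G = (h + 1) * (h * e) := by
    rw [card_group hZ hab, hh, he, Nat.add_sub_cancel]
  have he1 : 1 < e := he ▸ one_lt_card_stab2 hZ hab
  rw [hG] at hsplit
  generalize #T = s at *
  by_cases hev : Even h
  · rw [if_pos hev] at hI
    have hmod : (h + 1) % 2 = 1 := by obtain ⟨k, rfl⟩ := hev; omega
    rw [hmod] at hfix
    have hconst : ∀ c : Ω, #{y ∈ I | y • c = c} = #{y ∈ I | y • a = a} := by
      intro c
      have := isPretransitive hZ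
      obtain ⟨g, rfl⟩ := MulAction.exists_smul_eq G a c
      symm
      apply Finset.card_equiv (MulAut.conj g).toEquiv
      intro y
      simp only [I, Finset.mem_filter, Finset.mem_univ, true_and, MulEquiv.toEquiv_eq_coe,
        EquivLike.coe_coe, MulEquiv.orderOf_eq]
      rw [MulAut.conj_apply, mul_smul, mul_smul, inv_smul_smul, smul_left_cancel_iff]
    have hsum : ∑ c : Ω, #{y ∈ I | y • c = c} = #I := by
      simp only [Finset.card_filter]
      rw [Finset.sum_comm]
      simp only [← Finset.card_filter]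
      rw [Finset.sum_congr rfl hfix]
      simp
    simp only [hconst, Finset.sum_const, Finset.card_univ, smul_eq_mul, hh, hI] at hsum
    have hm : #{y ∈ I | y • a = a} = e :=
      Nat.eq_of_mul_eq_mul_left (Nat.succ_pos h) (hsum.trans (mul_comm _ _))
    have h1 := hsplit e (fun x hx => by
      obtain ⟨c, hc⟩ := Finset.card_eq_one.mp (hfix x hx)
      rw [← hm, ← hconst c]
      apply Finset.card_le_card
      intro y hy
      simp only [Finset.mem_filter] at hy ⊢
      refine ⟨hy.1, ?_⟩
      have hxc : x • c = c := by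
        have : c ∈ ({c : Ω | x • c = c} : Finset Ω) := hc ▸ Finset.mem_singleton_self c
        simpa using this
      rcases hB x hx y hy.1 hy.2 with rfl | ⟨d, hd1, hd2⟩
      · exact hxc
      · have : d ∈ ({c : Ω | x • c = c} : Finset Ω) := by simpa using hd1
        rw [hc, Finset.mem_singleton] at this
        exact this ▸ hd2)
    rw [hI] at h1
    have h2 : (e * (h + 1) * h) * e ≤ (e * (h + 1) * h) * s := by nlinarith
    exact Nat.le_of_mul_le_mul_left h2 (Nat.mul_pos (by positivity) (by omega))
  · rw [if_neg hev] at hI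
    have hmod : (h + 1) % 2 = 0 := by
      obtain ⟨k, rfl⟩ := Nat.not_even_iff_odd.mp hev; omega
    rw [hmod] at hfix
    have h1 := hsplit 1 (fun x hx => by
      rw [← Finset.card_singleton x]
      apply Finset.card_le_card
      intro y hy
      simp only [Finset.mem_filter] at hy
      rcases hB x hx y hy.1 hy.2 with rfl | ⟨d, hd1, -⟩
      · simp
      · have : d ∈ ({c : Ω | x • c = c} : Finset Ω) := by simpa using hd1
        rw [Finset.card_eq_zero.mp (hfix x hx)] at this
        simp at this)
    rw [hI] at h1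
    have h2 : (e * h) * (e * h) ≤ (e * h) * (s * (h + 1) + 1) := by nlinarith
    have h3 := Nat.le_of_mul_le_mul_left h2 (Nat.mul_pos (by omega) (by omega))
    by_contra hcon
    have h4 : s + 1 ≤ e := by omega
    have h5 : (s + 1) * h ≤ e * h := Nat.mul_le_mul_right _ h4
    have h6 : (s + 1) * h = s * h + h := by ring
    have h7 : s * (h + 1) = s * h + s := by ring
    omega

end Cfsg.Agent.S0884
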