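import Cfsg.Statements.S0529
import Cfsg.Agent.Lib.Supersolvable

set_option autoImplicit false
open Cfsg

namespace Cfsg.Agent.S0529

open Subgroup Cfsg.Agent.Lib.SolvBasic Cfsg.Agent.Lib.Supersolvable

/-- A finite supersolvable group has a chain of normal subgroups, from the trivial subgroup to the whole group, in which every step has prime index and the primes occurring are non-increasing as one goes up the chain. -/
theorem result {G : Type*} [Group G] [Finite G] (hG : Cfsg.IsSupersolvable G) : ∃ (n : ℕ) (H : Fin (n + 1) → Subgroup G), H 0 = ⊥ ∧ H (Fin.last n) = ⊤ ∧ (∀ i, (H i).Normal) ∧ (∀ i : Fin n, H i.castSucc ≤ H i.succ ∧ ((H i.castSucc).relIndex (H i.succ)).Prime) ∧ ∀ i j : Fin n, i ≤ j → (H j.castSucc).relIndex (H j.succ) ≤ (H i.castSucc).relIndex (H i.succ) := by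
  revert hG
  refine card_induction (P := fun G _ _ => IsSupersolvable G → ∃ (n : ℕ) (H : Fin (n + 1) → Subgroup G), H 0 = ⊥ ∧ H (Fin.last n) = ⊤ ∧ (∀ i, (H i).Normal) ∧ (∀ i : Fin n, H i.castSucc ≤ H i.succ ∧ ((H i.castSucc).relIndex (H i.succ)).Prime) ∧ ∀ i j : Fin n, i ≤ j → (H j.castSucc).relIndex (H j.succ) ≤ (H i.castSucc).relIndex (H i.succ)) (fun G _ _ ih => ?_) G
  intro h
  rcases subsingleton_or_nontrivial G with h1 | h1
  · exact ⟨0, fun _ => ⊥, rfl, Subsingleton.elim _ _, fun _ => inferInstance, fun i => i.elim0,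
      fun i => i.elim0⟩
  have hne : ((Nat.card G).primeFactors).Nonempty :=
    Nat.nonempty_primeFactors.mpr Finite.one_lt_card
  set p := (Nat.card G).primeFactors.max' hne
  have hp := Nat.mem_primeFactors.mp ((Nat.card G).primeFactors.max'_mem hne)
  have hmax : ∀ q : ℕ, q.Prime → q ∣ Nat.card G → q ≤ p := fun q hq hd =>
    Finset.le_max' _ q (Nat.mem_primeFactors.mpr ⟨hq, hd, hp.2.2⟩)
  obtain ⟨N, hN, hc⟩ := exists_normal_card_eq_max_prime h hp.1 hp.2.1 hmax
  have hN0 : N ≠ ⊥ := by rintro rfl; rw [card_bot] at hc; exact hp.1.ne_one hc.symm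
  obtain ⟨n, H, h0, hl, hHN, hs, hmono⟩ := ih _ (card_quotient_lt hN0) (ss_quotient h N)
  have hsurj := QuotientGroup.mk'_surjective N
  have hri : ∀ A B : Subgroup (G ⧸ N), (A.comap (QuotientGroup.mk' N)).relIndex
      (B.comap (QuotientGroup.mk' N)) = A.relIndex B := fun A B => by
    rw [relIndex_comap, map_comap_eq_self_of_surjective hsurj]
  have hH0 : (H 0).comap (QuotientGroup.mk' N) = N := by
    rw [h0, MonoidHom.comap_bot, QuotientGroup.ker_mk']
  have hfirst : (⊥ : Subgroup G).relIndex ((H 0).comap (QuotientGroup.mk' N)) = p := by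
    rw [hH0, relIndex_bot_left, hc]
  refine ⟨n + 1, Fin.cons ⊥ (fun i => (H i).comap (QuotientGroup.mk' N)), rfl, ?_, fun i => ?_,
    fun i => ?_, fun i j hij => ?_⟩
  · change (H (Fin.last n)).comap _ = ⊤
    rw [hl, comap_top]
  · refine Fin.cases (inferInstanceAs (⊥ : Subgroup G).Normal) (fun j => (hHN j).comap _) i
  · refine Fin.cases ⟨bot_le, ?_⟩ (fun j => ⟨comap_mono (hs j).1, ?_⟩) i
    · exact hfirst ▸ hp.1
    · exact hri _ _ ▸ (hs j).2
  · induction j using Fin.cases with
    | zero => rw [Fin.le_zero_iff.mp hij]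
    | succ j =>
      have e1 : ∀ j : Fin n, ((Fin.cons ⊥ (fun i => (H i).comap (QuotientGroup.mk' N)) :
          Fin (n + 2) → Subgroup G) j.succ.castSucc).relIndex
          ((Fin.cons ⊥ (fun i => (H i).comap (QuotientGroup.mk' N)) :
          Fin (n + 2) → Subgroup G) j.succ.succ) = (H j.castSucc).relIndex (H j.succ) :=
        fun j => hri _ _
      induction i using Fin.cases with
      | zero =>
        rw [e1]
        refine le_trans (hmax _ (hs j).2 ?_) hfirst.ge
        exact (relIndex_dvd_card _ _).trans ((card_subgroup_dvd_card _).trans (card_quotient_dvd_card N))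
      | succ i =>
        rw [e1, e1]
        exact hmono i j (Fin.succ_le_succ_iff.mp hij)

end Cfsg.Agent.S0529
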