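import Cfsg.Statements.S0530
import Cfsg.Agent.Lib.Supersolvable

set_option autoImplicit false
open Cfsg

namespace Cfsg.Agent.S0530

open Subgroup Cfsg.Agent.Lib.SolvBasic Cfsg.Agent.Lib.Supersolvable

/-- A finite group whose order is twice a prime power is supersolvable. -/
theorem result {G : Type*} [Group G] [Finite G] (p n : ℕ) (hp : p.Prime) (hG : Nat.card G = 2 * p ^ n) : Cfsg.IsSupersolvable G := by
  revert n
  refine card_induction (P := fun G _ _ => ∀ n : ℕ, Nat.card G = 2 * p ^ n → IsSupersolvable G)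
    (fun G _ _ ih => ?_) G
  intro n hG
  have := Fact.mk hp
  obtain ⟨P, hP⟩ := Sylow.exists_subgroup_card_pow_prime (G := G) p (n := n) (hG ▸ dvd_mul_left _ _)
  have hi : P.index = 2 := by
    have := P.index_mul_card
    rw [hG, hP] at this
    exact Nat.eq_of_mul_eq_mul_right (pow_pos hp.pos n) this
  have hPn := normal_of_index_eq_two hi
  by_cases hP0 : P = ⊥
  · rw [hP0, index_bot] at hi
    have := Fact.mk Nat.prime_two
    have : IsCyclic G := isCyclic_of_prime_card hi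
    exact ss_of_isCyclic
  have : Nontrivial P := (nontrivial_iff_ne_bot P).mpr hP0
  obtain ⟨x, hx, hx1⟩ := (bot_or_exists_ne_one _).resolve_left
    (IsPGroup.of_card hP).bot_lt_center.ne'
  obtain ⟨t, ht⟩ : ∃ t, t ∉ P := by
    by_contra! hc
    rw [(eq_top_iff' P).mpr hc, index_top] at hi
    exact absurd hi (by norm_num)
  have hxc : ∀ g ∈ P, g * x * g⁻¹ = x := fun g hg => by
    have := congrArg Subtype.val (mem_center_iff.mp hx ⟨g, hg⟩)
    simp only [coe_mul] at this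
    rw [this, mul_inv_cancel_right]
  -- a criterion for normality
  have crit : ∀ y ∈ P, (∀ g ∈ P, g * y * g⁻¹ = y) → t * y * t⁻¹ ∈ zpowers y → (zpowers y).Normal := by
    intro y _ h1 h2
    refine ⟨fun a ha g => ?_⟩
    obtain ⟨k, rfl⟩ := mem_zpowers_iff.mp ha
    rw [← conj_zpow]
    refine zpow_mem ?_ k
    by_cases hg : g ∈ P
    · rw [h1 g hg]; exact mem_zpowers y
    · have : t⁻¹ * g ∈ P := (mul_mem_iff_of_index_two hi).mpr (by simp [ht, hg])
      have h3 : g * y * g⁻¹ = t * ((t⁻¹ * g) * y * (t⁻¹ * g)⁻¹) * t⁻¹ := by group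
      rw [h3, h1 _ this]; exact h2
  obtain ⟨y, hy, hy1, hyn⟩ : ∃ y ∈ P, y ≠ 1 ∧ (zpowers y).Normal := by
    by_cases hc : (x : G) * (t * x * t⁻¹) = 1
    · refine ⟨x, x.2, fun h => hx1 (Subtype.ext h), crit x x.2 hxc ?_⟩
      rw [eq_inv_of_mul_eq_one_right hc]; exact inv_mem (mem_zpowers _)
    · have hm : t * x * t⁻¹ ∈ P := hPn.conj_mem _ x.2 t
      refine ⟨_, mul_mem x.2 hm, hc, crit _ (mul_mem x.2 hm) (fun g hg => ?_) ?_⟩
      · have h1 := hxc (t⁻¹ * g * t) (hPn.conj_mem' g hg t)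
        calc g * (x * (t * x * t⁻¹)) * g⁻¹
            = (g * x * g⁻¹) * (t * ((t⁻¹ * g * t) * x * (t⁻¹ * g * t)⁻¹) * t⁻¹) := by group
          _ = _ := by rw [h1, hxc g hg]
      · have h1 := hxc (t * t) (mul_self_mem_of_index_two hi t)
        have h2 := hxc _ hm
        have : t * (x * (t * x * t⁻¹)) * t⁻¹ = x * (t * x * t⁻¹) := by
          calc t * (x * (t * x * t⁻¹)) * t⁻¹ = (t * x * t⁻¹) * ((t * t) * x * (t * t)⁻¹) := by group
            _ = ((t * x * t⁻¹) * x * (t * x * t⁻¹)⁻¹) * (t * x * t⁻¹) := by rw [h1]; group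
            _ = _ := by rw [h2]
        rw [this]; exact mem_zpowers _
  have hd : Nat.card (zpowers y) ∣ p ^ n := hP ▸ card_dvd_of_le (zpowers_le.mpr hy)
  obtain ⟨k, hk, hk'⟩ := (Nat.dvd_prime_pow hp).mp hd
  refine ss_of_cyclic_normal (zpowers y) (ih _ (card_quotient_lt (by rwa [Ne, zpowers_eq_bot]))
    (n - k) ?_)
  have h1 := card_eq_card_quotient_mul_card_subgroup (zpowers y)
  rw [hG, hk', ← Nat.sub_add_cancel hk, pow_add, ← mul_assoc] at h1
  exact (Nat.eq_of_mul_eq_mul_right (pow_pos hp.pos k) h1).symm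

end Cfsg.Agent.S0530
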