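import Cfsg.Statements.S0532
import Cfsg.Agent.Lib.Supersolvable

set_option autoImplicit false
open Cfsg

namespace Cfsg.Agent.S0532

open Subgroup Cfsg.Agent.Lib.SolvBasic

theorem clt_congr {G H : Type*} [Group G] [Group H] (e : G ≃* H) (h : HasSubgroupOfEveryOrder G) :
    HasSubgroupOfEveryOrder H := fun d hd => by
  obtain ⟨K, hK⟩ := h d (by rwa [Nat.card_congr e.toEquiv])
  exact ⟨K.map e.toMonoidHom, by rw [card_map_of_injective e.injective, hK]⟩

theorem hered_subgroup {G : Type*} [Group G] (h : ∀ H : Subgroup G, HasSubgroupOfEveryOrder H)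
    (K : Subgroup G) (H : Subgroup K) : HasSubgroupOfEveryOrder H :=
  clt_congr (H.equivMapOfInjective K.subtype K.subtype_injective).symm (h _)

theorem exists_index_eq {G : Type*} [Group G] [Finite G]
    (h : ∀ H : Subgroup G, HasSubgroupOfEveryOrder H) {q : ℕ} (hq : q ∣ Nat.card G) :
    ∃ H : Subgroup G, H.index = q := by
  obtain ⟨d, hd⟩ := hq
  obtain ⟨H, hH⟩ := clt_congr topEquiv (h ⊤) d ⟨q, by rw [hd, mul_comm]⟩
  refine ⟨H, ?_⟩
  have := H.index_mul_card
  rw [hd, hH] at this
  exact Nat.eq_of_mul_eq_mul_right (hH ▸ Nat.card_pos) this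

theorem aux {G : Type*} [Group G] [Finite G] (h : ∀ H : Subgroup G, HasSubgroupOfEveryOrder H)
    (p : ℕ) [hp : Fact p.Prime] (hmax : ∀ q : ℕ, q.Prime → q ∣ Nat.card G → q ≤ p)
    (P : Sylow p G) : (P : Subgroup G).Normal := by
  revert h hmax P
  refine card_induction (P := fun G _ _ => (∀ H : Subgroup G, HasSubgroupOfEveryOrder H) →
    (∀ q : ℕ, q.Prime → q ∣ Nat.card G → q ≤ p) → ∀ P : Sylow p G, (P : Subgroup G).Normal)
    (fun G _ _ ih => ?_) G
  intro h hmax P
  rcases subsingleton_or_nontrivial G with h1 | h1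
  · rw [Subsingleton.elim (P : Subgroup G) ⊥]; infer_instance
  have hq : (Nat.card G).minFac.Prime := Nat.minFac_prime Finite.one_lt_card.ne'
  by_cases hpq : (Nat.card G).minFac = p
  · have : IsPGroup p G := isPGroup_of_forall_prime fun q hq hd =>
      le_antisymm (hmax q hq hd) (hpq ▸ Nat.minFac_le_of_dvd hq.two_le hd)
    rw [← P.is_maximal' (this.to_subgroup ⊤) le_top]; infer_instance
  obtain ⟨H, hH⟩ := exists_index_eq h (Nat.minFac_dvd (Nat.card G))
  have := normal_of_index_eq_minFac_card hH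
  have hPH : (P : Subgroup G) ≤ H := by
    refine le_of_coprime_card_index ?_
    obtain ⟨k, hk⟩ := IsPGroup.iff_card.mp P.isPGroup'
    rw [hk, hH]
    exact ((Nat.coprime_primes hp.out hq).mpr (Ne.symm hpq)).pow_left k
  have hHt : H ≠ ⊤ := by rintro rfl; rw [index_top] at hH; exact hq.ne_one hH.symm
  have h2 := ih H (card_lt_of_ne_top hHt) (hered_subgroup h H)
    (fun q hq hd => hmax q hq (hd.trans (card_subgroup_dvd_card H))) (P.subtype hPH)
  have := (P.subtype hPH).characteristic_of_normal h2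
  rw [← map_subgroupOf_eq_of_le hPH]
  exact inferInstanceAs ((P.subtype hPH : Subgroup H).map H.subtype).Normal

/-- If each subgroup of a finite group satisfies the converse of Lagrange's theorem, then a Sylow subgroup for the largest prime dividing the group order is normal. -/
theorem result {G : Type*} [Group G] [Finite G] (h : ∀ H : Subgroup G, Cfsg.HasSubgroupOfEveryOrder H) (p : ℕ) [Fact p.Prime] (hdvd : p ∣ Nat.card G) (hmax : ∀ q : ℕ, q.Prime → q ∣ Nat.card G → q ≤ p) (P : Sylow p G) : (P : Subgroup G).Normal := by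
  exact aux h p hmax P

end Cfsg.Agent.S0532
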