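import Cfsg.Statements.S0533
import Cfsg.Agent.Lib.Supersolvable
import Cfsg.Agent.Lib.CoprimeBasic
import Cfsg.Agent.S0532

set_option autoImplicit false
open Cfsg

namespace Cfsg.Agent.S0533

open Subgroup Cfsg.Agent.Lib.SolvBasic Cfsg.Agent.Lib.Supersolvable Cfsg.Agent.S0532
open Cfsg.Agent.Lib.SchurZassenhausConj

/-- If every subgroup of a finite group has subgroups of all orders dividing its order, then the group is supersolvable. -/
theorem result {G : Type*} [Group G] [Finite G] (h : ∀ H : Subgroup G, Cfsg.HasSubgroupOfEveryOrder H) : Cfsg.IsSupersolvable G := by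
  revert h
  refine card_induction (P := fun G _ _ => (∀ H : Subgroup G, HasSubgroupOfEveryOrder H) →
    IsSupersolvable G) (fun G _ _ ih => ?_) G
  intro h
  rcases subsingleton_or_nontrivial G with h1 | h1
  · exact ss_of_subsingleton
  have hne : ((Nat.card G).primeFactors).Nonempty :=
    Nat.nonempty_primeFactors.mpr Finite.one_lt_card
  set p := (Nat.card G).primeFactors.max' hne
  have hp := Nat.mem_primeFactors.mp ((Nat.card G).primeFactors.max'_mem hne)
  have hmax : ∀ q : ℕ, q.Prime → q ∣ Nat.card G → q ≤ p := fun q hq hd =>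
    Finset.le_max' _ q (Nat.mem_primeFactors.mpr ⟨hq, hd, hp.2.2⟩)
  have := Fact.mk hp.1
  obtain ⟨P⟩ : Nonempty (Sylow p G) := inferInstance
  have hPn := aux h p hmax P
  have hproper : ∀ K : Subgroup G, K ≠ ⊤ → IsSupersolvable K := fun K hK =>
    ih K (card_lt_of_ne_top hK) (hered_subgroup h K)
  obtain ⟨M, hM⟩ := exists_index_eq h hp.2.1
  have hMt : M ≠ ⊤ := by rintro rfl; rw [index_top] at hM; exact hp.1.ne_one hM.symm
  have hPM : (P : Subgroup G) ⊔ M = ⊤ := sup_eq_top_of_coprime_index (by
    rw [hM]; exact (hp.1.coprime_iff_not_dvd.mpr P.not_dvd_index).symm)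
  -- `G / P` is supersolvable
  have hGP : IsSupersolvable (G ⧸ (P : Subgroup G)) := by
    refine ss_of_surjective ((QuotientGroup.mk' (P : Subgroup G)).comp M.subtype) ?_ (hproper M hMt)
    rw [← MonoidHom.range_eq_top, MonoidHom.range_comp, range_subtype, map_mk_eq_top_iff, sup_comm,
      hPM]
  -- `N = M ∩ P` is normal of index `p` in `P`
  set N := M ⊓ (P : Subgroup G) with hNdef
  have hri : N.relIndex P = p := by
    rw [hNdef, inf_relIndex_right, ← Lib.SubnormalJoin.relIndex_sup_normal, sup_comm, hPM,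
      relIndex_top_right, hM]
  have hNn : N.Normal := by
    refine normal_of_sup_eq_top ?_ (le_normalizer_inf_of_normal M P) hPM
    rw [← normal_subgroupOf_iff_le_normalizer inf_le_right]
    apply normal_of_index_eq_minFac_card
    obtain ⟨k, hk⟩ := IsPGroup.iff_card.mp P.isPGroup'
    have hk0 : k ≠ 0 := by
      rintro rfl
      exact P.ne_bot_of_dvd_card hp.2.1 (card_eq_one.mp (by simpa using hk))
    rw [hk, hp.1.pow_minFac hk0]; exact hri
  have hGN : IsSupersolvable (G ⧸ N) := by
    have := Normal.map hPn _ (QuotientGroup.mk'_surjective N)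
    refine ss_of_prime_normal ((P : Subgroup G).map (QuotientGroup.mk' N)) ?_ ?_
    · rw [← relIndex_ker, QuotientGroup.ker_mk', hri]; exact hp.1
    · exact ss_of_surjective _ (QuotientGroup.quotientQuotientEquivQuotient N P
        inf_le_right).symm.surjective hGP
  refine ss_of_forall_quotient' N hGN fun K _ hK => ?_
  have hsurj := QuotientGroup.mk'_surjective K
  set f := QuotientGroup.mk' K
  have h1 : (N.map f).Normal := hNn.map f hsurj
  have h2 : ((P : Subgroup G).map f).Normal := hPn.map f hsurj
  have hA : N.map f ⊓ centralizer ((P : Subgroup G).map f : Set (G ⧸ K)) ≠ ⊥ :=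
    Lib.CoprimeBasic.inf_centralizer_ne_bot ((P.isPGroup'.to_le inf_le_right).map f)
      (P.isPGroup'.map f) (le_normalizer_of_normal' _ _) (by rwa [Ne, map_mk_eq_bot_iff])
  set A := N.map f ⊓ centralizer ((P : Subgroup G).map f : Set (G ⧸ K))
  have hAM : A ≤ M.map f := inf_le_left.trans (map_mono inf_le_left)
  obtain ⟨x, hx, hx1, hxn⟩ := exists_cyclic_normal_le (ss_map f (hproper M hMt))
    (A.subgroupOf (M.map f)) (by rwa [Ne, subgroupOf_eq_bot, disjoint_iff, inf_of_le_left hAM])
  refine ⟨x, fun h => hx1 (Subtype.ext h), normal_of_sup_eq_top (H := (P : Subgroup G).map f)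
    (K := M.map f) ?_ ?_ (by rw [← Subgroup.map_sup, hPM, map_top_of_surjective _ hsurj])⟩
  · refine le_trans ?_ (centralizer_le_normalizer _)
    rw [le_centralizer_iff]
    exact zpowers_le.mpr hx.2
  · have := le_normalizer_map (H := zpowers x) (M.map f).subtype
    rwa [normalizer_eq_top, ← MonoidHom.range_eq_map, range_subtype, MonoidHom.map_zpowers] at this

end Cfsg.Agent.S0533
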