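import Cfsg.Statements.S0534
import Cfsg.Agent.Lib.Supersolvable

set_option autoImplicit false
open Cfsg

namespace Cfsg.Agent.S0534

open Subgroup Cfsg.Agent.Lib.SolvBasic Cfsg.Agent.Lib.Supersolvable Cfsg.Agent.Lib.Hall

/-- Let G be a finite solvable group and A a finite abelian group such that every prime dividing the order of A divides the order of G and, for each prime p dividing the order of G, the exponent of p in the order of A is one less than its exponent in the order of G. Then G × A has a subgroup of every order dividing its order. -/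
theorem result {G A : Type*} [Group G] [CommGroup A] [Finite G] [Finite A] [Group.IsSolvable G] (hA : ∀ p : ℕ, p.Prime → p ∣ Nat.card A → p ∣ Nat.card G) (hexp : ∀ p : ℕ, p.Prime → p ∣ Nat.card G → (Nat.card A).factorization p + 1 = (Nat.card G).factorization p) : Cfsg.HasSubgroupOfEveryOrder (G × A) := by
  intro d hd
  rw [Nat.card_prod] at hd
  have hG0 : Nat.card G ≠ 0 := Nat.card_pos.ne'
  have hA0 : Nat.card A ≠ 0 := Nat.card_pos.ne'
  have hd0 : d ≠ 0 := ne_zero_of_dvd_ne_zero (mul_ne_zero hG0 hA0) hd
  obtain ⟨H, hH⟩ := exists_hall {p | (Nat.card G).factorization p ≤ d.factorization p} G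
  have hH0 : Nat.card H ≠ 0 := Nat.card_pos.ne'
  have hfac : ∀ p : ℕ, p.Prime → (Nat.card H).factorization p =
      if (Nat.card G).factorization p ≤ d.factorization p then (Nat.card G).factorization p else 0 := by
    intro p hp
    split_ifs with h
    · rw [← H.card_mul_index, Nat.factorization_mul hH0 index_ne_zero_of_finite, Finsupp.add_apply,
        Nat.factorization_eq_zero_of_not_dvd (hH.2 p hp h), add_zero]
    · exact Nat.factorization_eq_zero_of_not_dvd fun hd => h (hH.1 p hp hd)
  have h1 : Nat.card H ∣ d := by
    rw [← Nat.factorization_prime_le_iff_dvd hH0 hd0]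
    intro p hp
    rw [hfac p hp]
    split_ifs with h
    · exact h
    · exact Nat.zero_le _
  obtain ⟨e, rfl⟩ := h1
  have he0 : e ≠ 0 := right_ne_zero_of_mul hd0
  have h2 : e ∣ Nat.card A := by
    rw [← Nat.factorization_prime_le_iff_dvd he0 hA0]
    intro p hp
    have h3 := (Nat.factorization_prime_le_iff_dvd hd0 (mul_ne_zero hG0 hA0)).mpr hd p hp
    have h4 := hfac p hp
    rw [Nat.factorization_mul hH0 he0, Finsupp.add_apply] at h3 h4
    rw [Nat.factorization_mul hG0 hA0, Finsupp.add_apply] at h3
    by_cases hpd : p ∣ Nat.card G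
    · have := hexp p hp hpd
      split_ifs at h4 <;> omega
    · have := Nat.factorization_eq_zero_of_not_dvd hpd
      omega
  obtain ⟨B, hB⟩ := clt_of_ss (ss_of_isNilpotent (G := A)) e h2
  exact ⟨H.prod B, by rw [Nat.card_congr (H.prodEquiv B).toEquiv, Nat.card_prod, hB]⟩

end Cfsg.Agent.S0534
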