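import Cfsg.Statements.S0535
import Cfsg.Agent.Lib.Schmidt
import Cfsg.Agent.Lib.BurnsidePQ

set_option autoImplicit false
open Cfsg

namespace Cfsg.Agent.S0535

open Subgroup Cfsg.Agent.Lib.SolvBasic Cfsg.Agent.Lib.SchurZassenhausConj
open scoped Pointwise

/-- Wielandt: three solvable subgroups of pairwise coprime indices. -/
theorem wielandt (G : Type*) [Group G] [Finite G] : ∀ H K L : Subgroup G, Group.IsSolvable H →
    Group.IsSolvable K → Group.IsSolvable L → H.index.Coprime K.index → H.index.Coprime L.index →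
    K.index.Coprime L.index → Group.IsSolvable G := by
  refine card_induction (P := fun G _ _ => ∀ H K L : Subgroup G, Group.IsSolvable H →
    Group.IsSolvable K → Group.IsSolvable L → H.index.Coprime K.index → H.index.Coprime L.index →
    K.index.Coprime L.index → Group.IsSolvable G) (fun G _ _ ih => ?_) G
  intro H K L hH hK hL c1 c2 c3
  by_cases hH0 : H = ⊥
  · rw [hH0, index_bot] at c1
    have : K = ⊤ := index_eq_one.mp (Nat.eq_one_of_dvd_coprimes c1 (index_dvd_card K) dvd_rfl)
    exact Group.isSolvable_of_surjective (f := K.subtype) fun x => ⟨⟨x, this ▸ mem_top x⟩, rfl⟩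
  have : Nontrivial H := (nontrivial_iff_ne_bot H).mpr hH0
  obtain ⟨M₀, hM₀⟩ := exists_minNormal (G := H)
  obtain ⟨p, hp, -, hpM, -⟩ := hM₀.exists_prime
  have := Fact.mk hp
  have := hM₀.normal
  set M := M₀.map H.subtype
  have hM0 : M ≠ ⊥ := fun h =>
    hM₀.ne_bot ((map_eq_bot_iff_of_injective _ H.subtype_injective).mp h)
  have hHM : H ≤ normalizer (M : Set G) := Lib.FStar.le_normalizer_map_subtype M₀
  have key : ∀ K : Subgroup G, Group.IsSolvable K → H.index.Coprime K.index → ¬ p ∣ K.index →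
      ∃ N : Subgroup G, N.Normal ∧ N ≠ ⊥ ∧ Group.IsSolvable N := by
    intro K hK c hd
    obtain ⟨P⟩ : Nonempty (Sylow p K) := inferInstance
    obtain ⟨g, -, hg⟩ := exists_le_conj_of_isPGroup (P.isPGroup'.map K.subtype) le_top
      (by
        rw [relIndex_top_right, index_map_subtype]
        exact fun h => (hp.dvd_mul.mp h).elim P.not_dvd_index hd)
      (hpM.map H.subtype) le_top
    have hMK : M ≤ MulAut.conj g • K := hg.trans (conj_smul_mono g (map_subtype_le _))
    have := isSolvable_conj_smul g K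
    refine ⟨(MulAut.conj g • K).normalCore, inferInstance, fun h => hM0 ?_,
      isSolvable_of_le (normalCore_le _)⟩
    rw [eq_bot_iff, ← h]
    intro x hx y
    obtain ⟨k, hk, a, ha, rfl⟩ := exists_mul_eq_of_coprime_index
      (show H.index.Coprime (MulAut.conj g • K).index by rwa [index_smul]) y
    have : k * a * x * (k * a)⁻¹ = k * (a * x * a⁻¹) * k⁻¹ := by group
    rw [this]
    exact mul_mem (mul_mem hk (hMK ((mem_normalizer_iff.mp (hHM ha) x).mp hx))) (inv_mem hk)
  obtain ⟨N, hN, hN0, hNs⟩ : ∃ N : Subgroup G, N.Normal ∧ N ≠ ⊥ ∧ Group.IsSolvable N := by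
    by_cases hd : p ∣ K.index
    · exact key L hL c2 fun h => hp.ne_one (Nat.eq_one_of_dvd_coprimes c3 hd h)
    · exact key K hK c1 hd
  have hsurj := QuotientGroup.mk'_surjective N
  refine (Group.isSolvable_iff_subgroup_quotient N).mpr ⟨hNs, ih _ (card_quotient_lt hN0)
    _ _ _ (isSolvable_map (QuotientGroup.mk' N) H) (isSolvable_map (QuotientGroup.mk' N) K)
    (isSolvable_map (QuotientGroup.mk' N) L) ?_ ?_ ?_⟩
  · exact (c1.coprime_dvd_left (index_map_dvd _ hsurj)).coprime_dvd_right (index_map_dvd _ hsurj)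
  · exact (c2.coprime_dvd_left (index_map_dvd _ hsurj)).coprime_dvd_right (index_map_dvd _ hsurj)
  · exact (c3.coprime_dvd_left (index_map_dvd _ hsurj)).coprime_dvd_right (index_map_dvd _ hsurj)

theorem transport {A B : Type*} [Group A] [Group B] (e : A ≃* B) {p : ℕ}
    (h : ∃ K : Subgroup A, K ≠ ⊤ ∧ ∃ k : ℕ, K.index = p ^ k) :
    ∃ K : Subgroup B, K ≠ ⊤ ∧ ∃ k : ℕ, K.index = p ^ k := by
  obtain ⟨K, hK, k, hk⟩ := h
  refine ⟨K.map (e : A →* B), fun ht => hK ?_, k, by rw [index_map_equiv, hk]⟩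
  rw [← index_eq_one, ← index_map_equiv K e, ht, index_top]

/-- Suppose that for every nontrivial subgroup H of a finite group and every prime p dividing the order of H there is a proper subgroup of H whose index in H is a power of p. Then the group is solvable. -/
theorem result {G : Type*} [Group G] [Finite G] (h : ∀ H : Subgroup G, H ≠ ⊥ → ∀ p : ℕ, p.Prime → p ∣ Nat.card H → ∃ K : Subgroup H, K ≠ ⊤ ∧ ∃ k : ℕ, K.index = p ^ k) : Group.IsSolvable G := by
  revert h
  refine card_induction (P := fun G _ _ => (∀ H : Subgroup G, H ≠ ⊥ → ∀ p : ℕ, p.Prime →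
    p ∣ Nat.card H → ∃ K : Subgroup H, K ≠ ⊤ ∧ ∃ k : ℕ, K.index = p ^ k) → Group.IsSolvable G)
    (fun G _ _ ih => ?_) G
  intro h
  by_cases h2 : (Nat.card G).primeFactors.card ≤ 2
  · exact Lib.BurnsidePQ.isSolvable_of_card_primeFactors_le h2
  obtain ⟨p, q, r, hp, hq, hr, hpq, hpr, hqr⟩ := Finset.two_lt_card_iff.mp (not_le.mp h2)
  have key : ∀ p ∈ (Nat.card G).primeFactors,
      ∃ K : Subgroup G, Group.IsSolvable K ∧ ∃ k : ℕ, K.index = p ^ k := by
    intro p hp
    obtain ⟨hp1, hp2, -⟩ := Nat.mem_primeFactors.mp hp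
    have : Nontrivial G := Finite.one_lt_card_iff_nontrivial.mp
      (hp1.one_lt.trans_le (Nat.le_of_dvd Nat.card_pos hp2))
    obtain ⟨K, hK, hk⟩ := transport topEquiv (h ⊤ top_ne_bot p hp1 (by rwa [card_top]))
    refine ⟨K, ih K (card_lt_of_ne_top hK) fun H hH s hs hd => ?_, hk⟩
    refine transport (H.equivMapOfInjective K.subtype K.subtype_injective).symm
      (h _ ?_ s hs (by rwa [card_map_subtype]))
    rwa [Ne, map_eq_bot_iff_of_injective _ K.subtype_injective]
  obtain ⟨H, hH, a, ha⟩ := key p hp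
  obtain ⟨K, hK, b, hb⟩ := key q hq
  obtain ⟨L, hL, c, hc⟩ := key r hr
  have h1 := Nat.prime_of_mem_primeFactors hp
  have h2 := Nat.prime_of_mem_primeFactors hq
  have h3 := Nat.prime_of_mem_primeFactors hr
  exact wielandt G H K L hH hK hL (ha ▸ hb ▸ Nat.coprime_pow_primes a b h1 h2 hpq)
    (ha ▸ hc ▸ Nat.coprime_pow_primes a c h1 h3 hpr) (hb ▸ hc ▸ Nat.coprime_pow_primes b c h2 h3 hqr)

end Cfsg.Agent.S0535
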