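import Cfsg.Statements.S0537
import Cfsg.Agent.Lib.Schmidt

set_option autoImplicit false
open Cfsg

namespace Cfsg.Agent.S0537

open Subgroup Cfsg.Agent.Lib.SolvBasic Cfsg.Agent.Lib.Schmidt
open Cfsg.Agent.Lib.SchurZassenhausConj

/-- A finite non-abelian group in which every proper subgroup is abelian is either of prime-power order, or is generated by a cyclic Sylow p-subgroup and a normal Sylow q-subgroup that is elementary abelian, for distinct primes p and q. -/
theorem result {G : Type*} [Group G] [Finite G] (hna : ¬ IsMulCommutative G) (h : ∀ H : Subgroup G, H ≠ ⊤ → IsMulCommutative H) : (∃ p : ℕ, p.Prime ∧ IsPGroup p G) ∨ ∃ p q : ℕ, p.Prime ∧ q.Prime ∧ p ≠ q ∧ ∃ (P : Sylow p G) (Q : Sylow q G), IsCyclic P ∧ (Q : Subgroup G).Normal ∧ Cfsg.IsElementaryAbelian q (Q : Subgroup G) ∧ (P : Subgroup G) ⊔ Q = ⊤ := by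
  by_cases hnil : Group.IsNilpotent G
  · left
    by_contra! hc
    refine hna (isMulCommutative_of_sylow fun p hp P => h _ fun ht => hc p hp.out ?_)
    exact P.isPGroup'.of_surjective (P : Subgroup G).subtype fun x => ⟨⟨x, ht ▸ mem_top x⟩, rfl⟩
  right
  obtain ⟨p, q, hp, hq, hpq, P, Q, h1, h2, h3, h4⟩ := structure_min_non_nilpotent
    ⟨hnil, fun H hH => have := h H hH; isNilpotent_of_comm⟩
  have := Fact.mk hp
  have := Fact.mk hq
  have hQt : (Q : Subgroup G) ≠ ⊤ := fun ht => hnil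
    (Q.isPGroup'.of_surjective (Q : Subgroup G).subtype
      fun x => ⟨⟨x, ht ▸ mem_top x⟩, rfl⟩).isNilpotent
  have hQc := h _ hQt
  have hc := IsPGroup.coprime_card_of_ne p q hpq _ _ P.isPGroup' Q.isPGroup'
  refine ⟨p, q, hp, hq, hpq, P, Q, h1, h2, ⟨hQc, ?_⟩, h3⟩
  let K : Subgroup G :=
    { carrier := {a | a ∈ (Q : Subgroup G) ∧ a ^ q = 1}
      mul_mem' := by
        rintro a b ⟨ha, ha'⟩ ⟨hb, hb'⟩
        refine ⟨mul_mem ha hb, ?_⟩
        rw [Commute.mul_pow (setLike_mul_comm ha hb), ha', hb', one_mul]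
      one_mem' := ⟨one_mem _, one_pow _⟩
      inv_mem' := by
        rintro a ⟨ha, ha'⟩
        exact ⟨inv_mem ha, by rw [inv_pow, ha', inv_one]⟩ }
  have hK : K.Normal := ⟨by
    rintro a ⟨ha, ha'⟩ g
    exact ⟨h2.conj_mem a ha g, by rw [conj_pow, ha']; group⟩⟩
  have hKQ : K ≤ Q := fun a ha => ha.1
  by_cases ht : K ⊔ (P : Subgroup G) = ⊤
  · have := dedekind_normal_left (B := (P : Subgroup G)) hKQ
    rw [ht, top_inf_eq, inf_bot_of_coprime hc, sup_bot_eq] at this
    intro a ha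
    rw [this] at ha
    exact ha.2
  · exfalso
    have := h _ ht
    have hKP : K ≤ centralizer ((P : Subgroup G) : Set G) :=
      (le_sup_left.trans (le_centralizer (K ⊔ (P : Subgroup G)))).trans 
        (centralizer_le (show (P : Subgroup G) ≤ K ⊔ (P : Subgroup G) from le_sup_right))
    have h5 := Lib.CoprimeBasic.centralizer_inf_commutator_eq_bot
      (le_normalizer_of_normal' (P : Subgroup G) (Q : Subgroup G)) hc
    have h6 : ⁅(Q : Subgroup G), (P : Subgroup G)⁆ ≠ ⊥ := by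
      rwa [Ne, commutator_comm, commutator_eq_bot_iff_le_centralizer]
    have h7 : ⁅(Q : Subgroup G), (P : Subgroup G)⁆ ≤ Q := commutator_le_left _ _
    obtain ⟨y, hy⟩ := exists_prime_orderOf_dvd_card' q
      ((Q.isPGroup'.to_le h7).card_eq_or_dvd.resolve_left ((one_lt_card_iff_ne_bot _).mpr h6).ne')
    have hy1 : (y : G) ∈ K := ⟨h7 y.2, orderOf_dvd_iff_pow_eq_one.mp (by rw [Subgroup.orderOf_coe, hy])⟩
    have hy2 : (y : G) = 1 := mem_bot.mp (h5 ▸ ⟨hKP hy1, y.2⟩)
    rw [OneMemClass.coe_eq_one] at hy2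
    rw [hy2, orderOf_one] at hy
    exact hq.ne_one hy.symm

end Cfsg.Agent.S0537
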