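import Cfsg.Statements.S0541
import Cfsg.Agent.Lib.SubnormalJoin

set_option autoImplicit false
open Pointwise
open Cfsg

namespace Cfsg.Agent.S0541

open Subgroup Cfsg.Agent.Lib.SolvBasic Cfsg.Agent.Lib.SubnormalJoin

/-- Let Z and Y be subgroups of a finite group G and p a prime. Suppose that for every g in G the subgroup generated by the conjugates of g Z g⁻¹ under Y is a p-group. Then there is a Sylow p-subgroup P of G such that Y normalizes the subgroup generated by all conjugates of Z contained in P. -/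
theorem result {G : Type*} [Group G] [Finite G] (p : ℕ) [Fact p.Prime] (Z Y : Subgroup G) (h : ∀ g : G, IsPGroup p ↥(⨆ y ∈ Y, MulAut.conj (y * g) • Z)) : ∃ P : Sylow p G, Y ≤ Subgroup.normalizer ((⨆ g ∈ {g : G | MulAut.conj g • Z ≤ (P : Subgroup G)}, MulAut.conj g • Z : Subgroup G) : Set G) := by
  let Sg : Subgroup G → Set (Subgroup G) := fun V => {B | (∃ g : G, B = MulAut.conj g • Z) ∧ B ≤ V}
  obtain ⟨Q, ⟨hQp, hYQ, hQ⟩, hmax⟩ :=
    WellFounded.has_min (wellFounded_gt (α := Subgroup G))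
      {Q : Subgroup G | IsPGroup p Q ∧ Y ≤ normalizer (Q : Set G) ∧ Q ≤ sSup (Sg Q)}
      ⟨⊥, IsPGroup.of_bot, le_normalizer_of_normal' _ _, bot_le⟩
  have hQ' : sSup (Sg Q) = Q := le_antisymm (sSup_le fun B hB => hB.2) hQ
  obtain ⟨P, hP⟩ := hQp.exists_le_sylow
  refine ⟨P, ?_⟩
  have hsub : Sg Q ⊆ Sg P := fun B hB => ⟨hB.1, hB.2.trans hP⟩
  have heq : (⨆ g ∈ {g : G | MulAut.conj g • Z ≤ (P : Subgroup G)}, MulAut.conj g • Z : Subgroup G)
      = sSup (Sg P) := by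
    apply le_antisymm
    · exact iSup₂_le fun g hg => le_sSup ⟨⟨g, rfl⟩, hg⟩
    · refine sSup_le ?_
      rintro _ ⟨⟨g, rfl⟩, hg⟩
      exact le_iSup₂_of_le (f := fun g (_ : g ∈ {g : G | MulAut.conj g • Z ≤ (P : Subgroup G)}) =>
        MulAut.conj g • Z) g hg le_rfl
  rw [heq]
  rcases hsub.eq_or_ssubset with he | hss
  · rw [← he, hQ']; exact hYQ
  exfalso
  have := P.isPGroup'.isNilpotent
  obtain ⟨X, ⟨⟨g, rfl⟩, hXP⟩, hX', hXN⟩ := exists_mem_diff_le_normalizer (V := (P : Subgroup G))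
    (fun U hU => hU.2) (fun U _ => isSubnormal_of_isNilpotent _)
    (by
      rintro _ ⟨⟨g, rfl⟩, hB⟩ x hx
      refine ⟨⟨x * g, conj_smul_conj_smul _ _ _⟩, ?_⟩
      rw [← conj_smul_eq_of_mem hx]; exact conj_smul_mono x hB) hss
  rw [hQ'] at hXN
  set W : Subgroup G := ⨆ y ∈ Y, MulAut.conj (y * g) • Z with hW
  have hWN : W ≤ normalizer (Q : Set G) := by
    refine iSup₂_le fun y hy => ?_
    rw [← conj_smul_conj_smul, ← conj_smul_eq_iff.mpr (hYQ hy), normalizer_conj_smul]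
    exact conj_smul_mono y hXN
  have hle : ∀ y ∈ Y, MulAut.conj (y * g) • Z ≤ W := fun y hy =>
    le_iSup₂_of_le (f := fun y (_ : y ∈ Y) => MulAut.conj (y * g) • Z) y hy le_rfl
  have hYW : Y ≤ normalizer (W : Set G) := by
    have : W = sSup {B | ∃ y ∈ Y, B = MulAut.conj (y * g) • Z} := by
      apply le_antisymm
      · exact iSup₂_le fun y hy => le_sSup ⟨y, hy, rfl⟩
      · refine sSup_le ?_
        rintro _ ⟨y, hy, rfl⟩
        exact hle y hy
    rw [this]
    refine le_normalizer_sSup ?_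
    rintro _ ⟨y, hy, rfl⟩ x hx
    exact ⟨x * y, mul_mem hx hy, by rw [conj_smul_conj_smul, mul_assoc]⟩
  refine hmax (W ⊔ Q) ⟨(h g).to_sup_of_normal_right' hQp hWN,
    (le_inf hYW hYQ).trans (normalizer_inf_le_normalizer_sup' _ _), sup_le ?_ ?_⟩ ?_
  · exact iSup₂_le fun y hy => le_sSup ⟨⟨_, rfl⟩, (hle y hy).trans le_sup_left⟩
  · exact hQ.trans (sSup_le_sSup fun B hB => ⟨hB.1, hB.2.trans le_sup_right⟩)
  · refine lt_of_le_of_ne le_sup_right fun he => hX' ⟨⟨g, rfl⟩, ?_⟩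
    have := hle 1 (one_mem _)
    rw [one_mul] at this
    exact this.trans (le_sup_left.trans he.ge)

end Cfsg.Agent.S0541
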