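import Cfsg.Statements.S0547
import Cfsg.Agent.Lib.FrattiniFacts

set_option autoImplicit false
open Cfsg

namespace Cfsg.Agent.S0547

open Subgroup Cfsg.Agent.Lib.SolvBasic MulAction

theorem trans_of_normal {G : Type*} [Group G] {Ω : Type*} [MulAction G Ω] [FaithfulSMul G Ω]
    (hprim : IsPreprimitive G Ω) (M : Subgroup G) [M.Normal] (hM : M ≠ ⊥) :
    IsPretransitive M Ω := by
  refine IsQuasiPreprimitive.isPretransitive_of_normal fun h => hM ?_
  rw [eq_bot_iff]
  intro x hx
  rw [mem_bot]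
  refine eq_of_smul_eq_smul (α := Ω) fun ω => ?_
  rw [one_smul]
  exact (h ▸ Set.mem_univ ω : ω ∈ fixedPoints M Ω) ⟨x, hx⟩

/-- an element centralizing a transitive subgroup and fixing a point is trivial. -/
theorem eq_one_of_centralizes {G : Type*} [Group G] {Ω : Type*} [MulAction G Ω] [FaithfulSMul G Ω]
    (M : Subgroup G) [IsPretransitive M Ω] {g : G} (hg : g ∈ centralizer (M : Set G)) {ω : Ω}
    (h : g • ω = ω) : g = 1 := by
  refine eq_of_smul_eq_smul (α := Ω) fun a => ?_
  obtain ⟨m, rfl⟩ := exists_smul_eq M ω a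
  rw [one_smul, Subgroup.smul_def, ← mul_smul, ← hg m m.2, mul_smul, h]

/-- Let a finite solvable group G act faithfully and primitively on a set, and let M be a minimal normal subgroup of G. Then M is transitive with trivial point stabilizers, and the number of points equals the order of M, which is a prime power p ^ d with d ≥ 1. -/
theorem result {G : Type*} [Group G] [Finite G] [Group.IsSolvable G] {Ω : Type*} [Nonempty Ω] [MulAction G Ω] [FaithfulSMul G Ω] (hprim : MulAction.IsPreprimitive G Ω) (M : Subgroup G) [M.Normal] (hM : M ≠ ⊥) (hmin : ∀ K : Subgroup G, K.Normal → K ≤ M → K = ⊥ ∨ K = M) : MulAction.IsPretransitive M Ω ∧ (∀ ω : Ω, MulAction.stabilizer M ω = ⊥) ∧ ∃ p d : ℕ, p.Prime ∧ 0 < d ∧ Nat.card Ω = p ^ d ∧ Nat.card M = p ^ d := by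
  have hM' : IsMinNormal M := ⟨inferInstance, hM, hmin⟩
  have := hM'.isMulCommutative
  have ht := trans_of_normal hprim M hM
  have hs : ∀ ω : Ω, stabilizer M ω = ⊥ := fun ω => by
    rw [eq_bot_iff]
    intro x hx
    exact Subtype.ext (eq_one_of_centralizes M (le_centralizer M x.2) hx)
  refine ⟨ht, hs, ?_⟩
  obtain ⟨p, hp, hd, hpM, -⟩ := hM'.exists_prime
  have := Fact.mk hp
  obtain ⟨d, hd'⟩ := IsPGroup.iff_card.mp hpM
  refine ⟨p, d, hp, Nat.pos_of_ne_zero ?_, ?_, hd'⟩
  · rintro rfl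
    rw [hd', pow_zero, Nat.dvd_one] at hd
    exact hp.ne_one hd
  · obtain ⟨ω⟩ := ‹Nonempty Ω›
    rw [← index_stabilizer_of_transitive M ω, hs, index_bot, hd']

end Cfsg.Agent.S0547
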