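import Cfsg.Statements.S0548
import Cfsg.Agent.Lib.FrattiniFacts
import Cfsg.Agent.S0547

set_option autoImplicit false
open Cfsg

namespace Cfsg.Agent.S0548

open Subgroup Cfsg.Agent.Lib.SolvBasic Cfsg.Agent.Lib.FrattiniFacts MulAction Cfsg.Agent.S0547

/-- Let a finite solvable group G act faithfully and primitively on a set, let M be a minimal normal subgroup and H the stabilizer of a point. Then H is a complement to M, no non-identity element of H centralizes M, and the only subgroups of M normalized by H are the trivial subgroup and M. -/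
theorem result {G : Type*} [Group G] [Finite G] [Group.IsSolvable G] {Ω : Type*} [MulAction G Ω] [FaithfulSMul G Ω] (hprim : MulAction.IsPreprimitive G Ω) (M : Subgroup G) [M.Normal] (hM : M ≠ ⊥) (hmin : ∀ K : Subgroup G, K.Normal → K ≤ M → K = ⊥ ∨ K = M) (ω : Ω) : Subgroup.IsComplement' M (MulAction.stabilizer G ω) ∧ MulAction.stabilizer G ω ⊓ Subgroup.centralizer (M : Set G) = ⊥ ∧ ∀ K : Subgroup G, K ≤ M → MulAction.stabilizer G ω ≤ Subgroup.normalizer (K : Set G) → K = ⊥ ∨ K = M := by
  have hM' : IsMinNormal M := ⟨inferInstance, hM, hmin⟩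
  have := hM'.isMulCommutative
  have ht := trans_of_normal hprim M hM
  have h1 : stabilizer G ω ⊓ centralizer (M : Set G) = ⊥ := by
    rw [eq_bot_iff]
    intro x hx
    exact eq_one_of_centralizes M hx.2 hx.1
  have hc : IsComplement' M (stabilizer G ω) :=
    isComplement'_stabilizer ω
      (fun h hh => Subtype.ext (eq_one_of_centralizes M (le_centralizer M h.2) hh))
      (fun g => exists_smul_eq M (g • ω) ω)
  refine ⟨hc, h1, fun K hKM hK => hmin K (normal_of_sup_eq_top ?_ hK hc.sup_eq_top) hKM⟩
  exact ((le_centralizer M).trans (centralizer_le hKM)).trans (centralizer_le_normalizer _)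

end Cfsg.Agent.S0548
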