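import Cfsg.Statements.S0550
import Cfsg.Agent.Lib.FrattiniFacts

set_option autoImplicit false
open Cfsg

namespace Cfsg.Agent.S0550

open Subgroup Cfsg.Agent.Lib.SolvBasic Cfsg.Agent.Lib.FrattiniFacts

/-- Let U be a maximal subgroup with trivial normal core in a finite group G, and A ≠ B two minimal normal subgroups. Then A is the centralizer of B and B that of A, U complements each of them, A and B are non-abelian, and A, B and (A ⊔ B) ∩ U are pairwise isomorphic. -/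
theorem result {G : Type*} [Group G] [Finite G] (U : Subgroup G) (hU : IsCoatom U) (hcore : U.normalCore = ⊥) (A B : Subgroup G) [A.Normal] [B.Normal] (hA : A ≠ ⊥) (hB : B ≠ ⊥) (hAmin : ∀ K : Subgroup G, K.Normal → K ≤ A → K = ⊥ ∨ K = A) (hBmin : ∀ K : Subgroup G, K.Normal → K ≤ B → K = ⊥ ∨ K = B) (hAB : A ≠ B) : Subgroup.centralizer (B : Set G) = A ∧ Subgroup.centralizer (A : Set G) = B ∧ Subgroup.IsComplement' A U ∧ Subgroup.IsComplement' B U ∧ ¬ IsMulCommutative A ∧ Nonempty (A ≃* B) ∧ Nonempty (A ≃* ↥((A ⊔ B) ⊓ U)) := by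
  have hA' : IsMinNormal A := ⟨inferInstance, hA, hAmin⟩
  have hB' : IsMinNormal B := ⟨inferInstance, hB, hBmin⟩
  have hAB0 : A ⊓ B = ⊥ := hA'.inf_eq_bot hB' hAB
  have hBA0 : B ⊓ A = ⊥ := by rw [inf_comm, hAB0]
  have h1 : centralizer (B : Set G) = A :=
    (eq_centralizer_of_corefree hU hcore hB hA (le_centralizer_of_inf_eq_bot hAB0)).symm
  have h2 : centralizer (A : Set G) = B :=
    (eq_centralizer_of_corefree hU hcore hA hB (le_centralizer_of_inf_eq_bot hBA0)).symm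
  have hAU : A ⊓ U = ⊥ := h1 ▸ centralizer_inf_eq_bot_of_corefree hU hcore hB
  have hBU : B ⊓ U = ⊥ := h2 ▸ centralizer_inf_eq_bot_of_corefree hU hcore hA
  have hsA := sup_eq_top_of_corefree hU hcore hA
  have hsB := sup_eq_top_of_corefree hU hcore hB
  have e1 : Nonempty (A ≃* ↥((A ⊔ B) ⊓ U)) := by
    refine nonempty_mulEquiv_of_sup_eq hBA0 (le_bot_iff.mp (hBU ▸ inf_le_inf_left _ inf_le_right)) ?_
    rw [sup_comm _ B, sup_comm _ B, inf_comm _ U, ← dedekind_normal_left le_sup_left, hsB, top_inf_eq]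
  have e2 : Nonempty (B ≃* ↥((A ⊔ B) ⊓ U)) := by
    refine nonempty_mulEquiv_of_sup_eq hAB0 (le_bot_iff.mp (hAU ▸ inf_le_inf_left _ inf_le_right)) ?_
    rw [sup_comm _ A, sup_comm _ A, inf_comm _ U, ← dedekind_normal_left le_sup_left, hsA, top_inf_eq]
  refine ⟨h1, h2, isComplement'_of_inf_sup hAU hsA, isComplement'_of_inf_sup hBU hsB, fun hc => ?_,
    ?_, e1⟩
  · have : A ≤ B := h2 ▸ le_centralizer A
    exact hA (by rw [← hAB0, inf_of_le_left this])
  · obtain ⟨e1⟩ := e1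
    obtain ⟨e2⟩ := e2
    exact ⟨e1.trans e2.symm⟩

end Cfsg.Agent.S0550
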