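import Cfsg.Statements.S0551
import Cfsg.Agent.Lib.FrattiniFacts

set_option autoImplicit false
open Pointwise
open Cfsg

namespace Cfsg.Agent.S0551

open Subgroup Cfsg.Agent.Lib.SolvBasic Cfsg.Agent.Lib.FrattiniFacts
open Cfsg.Agent.Lib.SchurZassenhausConj

/-- In a finite solvable group all core-free maximal subgroups are conjugate. -/
theorem result {G : Type*} [Group G] [Finite G] [Group.IsSolvable G] (U V : Subgroup G) (hU : IsCoatom U) (hV : IsCoatom V) (hUc : U.normalCore = ⊥) (hVc : V.normalCore = ⊥) : ∃ g : G, MulAut.conj g • U = V := by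
  rcases subsingleton_or_nontrivial G with h1 | h1
  · exact ⟨1, Subsingleton.elim _ _⟩
  obtain ⟨N, hN⟩ := exists_minNormal (G := G)
  have := hN.normal
  have := hN.isMulCommutative
  obtain ⟨p, hp, -, hpN, -⟩ := hN.exists_prime
  have := Fact.mk hp
  have hC : N = centralizer (N : Set G) :=
    eq_centralizer_of_corefree hU hUc hN.ne_bot hN.ne_bot (le_centralizer N)
  have hNU : N ⊓ U = ⊥ := hC ▸ centralizer_inf_eq_bot_of_corefree hU hUc hN.ne_bot
  have hNV : N ⊓ V = ⊥ := hC ▸ centralizer_inf_eq_bot_of_corefree hV hVc hN.ne_bot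
  by_cases hNt : N = ⊤
  · rw [hNt, top_inf_eq] at hNU hNV
    exact ⟨1, by rw [conj_one_smul, hNU, hNV]⟩
  obtain ⟨L, hL, hNL, -, hmin⟩ := exists_chief_above (lt_top_iff_ne_top.mpr hNt)
  obtain ⟨q, hq, -, hqL, -⟩ := hmin.exists_prime
  have := Fact.mk hq
  have hpq : p ≠ q := by
    rintro rfl
    have h2 : IsPGroup p L := by
      have := hqL.comap_of_ker_isPGroup (QuotientGroup.mk' N) (by rwa [QuotientGroup.ker_mk'])
      rwa [comap_map_mk, sup_of_le_left hNL.le] at this
    have := h2.isNilpotent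
    exact not_le_of_gt hNL (hC ▸ le_centralizer_minNormal hN)
  have key : ∀ W : Subgroup G, IsCoatom W → W.normalCore = ⊥ → N ⊓ W = ⊥ →
      N ⊔ (W ⊓ L) = L ∧ IsPGroup q (W ⊓ L : Subgroup G) ∧
        normalizer ((W ⊓ L : Subgroup G) : Set G) = W := by
    intro W hW hWc hNW
    have h2 : N ⊔ (W ⊓ L) = L := by
      rw [← dedekind_normal_left hNL.le, sup_eq_top_of_corefree hW hWc hN.ne_bot, top_inf_eq]
    refine ⟨h2, ?_, ?_⟩
    · refine (hqL.to_le (map_mono inf_le_right)).of_injective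
        ((QuotientGroup.mk' N).subgroupMap (W ⊓ L)) ?_
      rw [← MonoidHom.ker_eq_bot_iff, ker_subgroupMap, QuotientGroup.ker_mk', subgroupOf_eq_bot,
        disjoint_iff, ← inf_assoc, hNW, bot_inf_eq]
    · refine (hW.le_iff.mp (le_normalizer_inf_of_normal W L)).resolve_left fun ht => ?_
      have := normalizer_eq_top_iff.mp ht
      rw [eq_bot_of_le_of_normalCore hWc (K := W ⊓ L) inf_le_left, sup_bot_eq] at h2
      exact hNL.ne h2
  obtain ⟨u1, u2, u3⟩ := key U hU hUc hNU
  obtain ⟨v1, v2, v3⟩ := key V hV hVc hNV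
  obtain ⟨n, -, hn⟩ := exists_conj_of_sup_eq (le_normalizer_of_normal' _ N)
    (IsPGroup.coprime_card_of_ne p q hpq _ _ hpN u2) (IsPGroup.coprime_card_of_ne p q hpq _ _ hpN v2)
    (u1.trans v1.symm) (Or.inl inferInstance)
  exact ⟨n, by rw [← u3, ← normalizer_conj_smul, hn, v3]⟩

end Cfsg.Agent.S0551
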