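import Cfsg.Statements.S0553
import Cfsg.Agent.Lib.FrattiniFacts

set_option autoImplicit false
open Cfsg

namespace Cfsg.Agent.S0553

open Subgroup Cfsg.Agent.Lib.SolvBasic Cfsg.Agent.Lib.FrattiniFacts

theorem aux (G : Type*) [Group G] [Finite G] : Group.IsSolvable G → Nontrivial G →
    (∀ M : Subgroup G, IsCoatom M → (Nat.card M).Coprime M.index) →
    ∃ p : ℕ, p.Prime ∧ p ∣ Nat.card G ∧ ∀ P : Sylow p G, (P : Subgroup G).Normal := by
  refine card_induction (P := fun G _ _ => Group.IsSolvable G → Nontrivial G →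
    (∀ M : Subgroup G, IsCoatom M → (Nat.card M).Coprime M.index) →
    ∃ p : ℕ, p.Prime ∧ p ∣ Nat.card G ∧ ∀ P : Sylow p G, (P : Subgroup G).Normal)
    (fun G _ _ ih => ?_) G
  intro _ _ h
  obtain ⟨N, hN⟩ := exists_minNormal (G := G)
  have := hN.normal
  have := hN.isMulCommutative
  by_cases hΦ : N ≤ frattini G
  · have hNt : N ≠ ⊤ := fun ht => frattini_ne_top (top_le_iff.mp (ht ▸ hΦ))
    obtain ⟨p, hp, hd, hP⟩ := ih (G ⧸ N) (card_quotient_lt hN.ne_bot) inferInstance
      (QuotientGroup.nontrivial_iff.mpr hNt) (fun M hM => by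
        have := h _ (isCoatom_comap_mk hM)
        rw [card_comap_mk, index_comap_of_surjective _ (QuotientGroup.mk'_surjective N)] at this
        exact this.coprime_mul_right)
    have := Fact.mk hp
    exact ⟨p, hp, hd.trans (card_quotient_dvd_card N), fun P => sylow_normal_of_map_normal hΦ P
      (hP (P.mapSurjective (QuotientGroup.mk'_surjective N)))⟩
  · obtain ⟨p, hp, hd, hpN, -⟩ := hN.exists_prime
    have := Fact.mk hp
    rw [le_frattini_iff] at hΦ
    push Not at hΦ
    obtain ⟨M, hM, hNM⟩ := hΦ
    have hc := isComplement'_of_minNormal hN hM hNM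
    have h1 := h M hM
    rw [hc.index_eq_card, ← hc.symm.index_eq_card] at h1
    have h2 : ¬ p ∣ N.index := fun h => hp.ne_one (Nat.eq_one_of_dvd_coprimes h1 h hd)
    refine ⟨p, hp, hd.trans (card_subgroup_dvd_card N), fun P => ?_⟩
    have := (hpN.toSylow h2).unique_of_normal hN.normal
    rw [Subsingleton.elim P (hpN.toSylow h2)]
    exact hN.normal

/-- Let G be a nontrivial finite solvable group in which every maximal subgroup has order coprime to its index. Then for some prime p dividing the order of G the Sylow p-subgroups of G are normal. -/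
theorem result {G : Type*} [Group G] [Finite G] [Group.IsSolvable G] [Nontrivial G] (h : ∀ M : Subgroup G, IsCoatom M → (Nat.card M).Coprime M.index) : ∃ p : ℕ, p.Prime ∧ p ∣ Nat.card G ∧ ∀ P : Sylow p G, (P : Subgroup G).Normal := by
  exact aux G inferInstance inferInstance h

end Cfsg.Agent.S0553
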