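import Cfsg.Statements.S0554
import Cfsg.Agent.Lib.SolvBasic

set_option autoImplicit false
open Cfsg

namespace Cfsg.Agent.S0554

open Subgroup Cfsg.Agent.Lib.SolvBasic

theorem absorb {G : Type*} [Group G] (N : Subgroup G) [hN : N.Normal] :
    ∀ (t : ℕ) (s : Fin t → G) (i : Fin t) (n : G), n ∈ N →
      ∃ n' ∈ N, (List.ofFn (Function.update s i (s i * n'))).prod = (List.ofFn s).prod * n := by
  intro t
  induction t with
  | zero => intro _ i; exact i.elim0
  | succ t ih =>
    intro s i n hn
    induction i using Fin.cases with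
    | zero =>
      refine ⟨_, hN.conj_mem n hn (List.ofFn fun j : Fin t => s j.succ).prod, ?_⟩
      simp [List.ofFn_succ, mul_assoc]
    | succ j =>
      obtain ⟨n', hn', h⟩ := ih (fun k => s k.succ) j n hn
      refine ⟨n', hn', ?_⟩
      rw [List.ofFn_succ, List.ofFn_succ, List.prod_cons, List.prod_cons, mul_assoc, ← h,
        Function.update_of_ne (Fin.succ_ne_zero j).symm]
      congr 3
      ext k
      by_cases hk : k = j
      · subst hk; simp
      · rw [Function.update_of_ne hk, Function.update_of_ne (fun h => hk (Fin.succ_injective _ h))]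

theorem aux (t : ℕ) (p : Fin t → ℕ) (hp : ∀ i, (p i).Prime) (G : Type*) [Group G] [Finite G] :
    Group.IsSolvable G → (∀ q : ℕ, q.Prime → q ∣ Nat.card G → ∃ i, p i = q) →
    ∀ (S : (i : Fin t) → Sylow (p i) G) (g : G), ∃ s : (i : Fin t) → G,
      (∀ i, s i ∈ (S i : Subgroup G)) ∧ g = (List.ofFn s).prod := by
  refine card_induction (P := fun G _ _ => Group.IsSolvable G →
    (∀ q : ℕ, q.Prime → q ∣ Nat.card G → ∃ i, p i = q) →
    ∀ (S : (i : Fin t) → Sylow (p i) G) (g : G), ∃ s : (i : Fin t) → G,
      (∀ i, s i ∈ (S i : Subgroup G)) ∧ g = (List.ofFn s).prod) (fun G _ _ ih => ?_) G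
  intro _ hall S g
  rcases subsingleton_or_nontrivial G with h1 | h1
  · exact ⟨fun _ => 1, fun _ => one_mem _, Subsingleton.elim _ _⟩
  obtain ⟨N, hN⟩ := exists_minNormal (G := G)
  have := hN.normal
  obtain ⟨q, hq, hd, hqN, -⟩ := hN.exists_prime
  obtain ⟨i, rfl⟩ := hall q hq (hd.trans (card_subgroup_dvd_card N))
  have hsurj := QuotientGroup.mk'_surjective N
  obtain ⟨s, hs, hg⟩ := ih _ (card_quotient_lt hN.ne_bot) inferInstance
    (fun q hq hd => hall q hq (hd.trans (card_quotient_dvd_card N)))
    (fun j => have := Fact.mk (hp j); (S j).mapSurjective hsurj) (QuotientGroup.mk' N g)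
  choose s' hs' hs'' using hs
  have h2 : QuotientGroup.mk' N (List.ofFn s').prod = QuotientGroup.mk' N g := by
    rw [hg, map_list_prod, List.map_ofFn]
    congr 2
    exact funext hs''
  obtain ⟨n', hn', h⟩ := absorb N t s' i _ (QuotientGroup.eq.mp h2)
  refine ⟨Function.update s' i (s' i * n'), fun j => ?_, by rw [h, mul_inv_cancel_left]⟩
  by_cases hj : j = i
  · subst hj
    rw [Function.update_self]
    exact mul_mem (hs' j) (hqN.le_sylow_of_normal (S j) hn')
  · rw [Function.update_of_ne hj]; exact hs' j

/-- Let G be a finite solvable group and let S assign to each of t distinct primes, including every prime divisor of the order of G, a Sylow subgroup of G. Then every element of G is a product s_0 s_1 ⋯ s_(t-1) with s_i in S i, the factors taken in the given order. -/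
theorem result {G : Type*} [Group G] [Finite G] [Group.IsSolvable G] (t : ℕ) (p : Fin t → ℕ) (hp : ∀ i, (p i).Prime) (hinj : Function.Injective p) (hall : ∀ q : ℕ, q.Prime → q ∣ Nat.card G → ∃ i, p i = q) (S : (i : Fin t) → Sylow (p i) G) : ∀ g : G, ∃ s : (i : Fin t) → G, (∀ i, s i ∈ (S i : Subgroup G)) ∧ g = (List.ofFn s).prod := by
  exact aux t p hp G inferInstance hall S

end Cfsg.Agent.S0554
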