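import Cfsg.Statements.S0555
import Cfsg.Agent.Lib.Supersolvable

set_option autoImplicit false
open Cfsg

namespace Cfsg.Agent.S0555

open Subgroup Cfsg.Agent.Lib.SolvBasic Cfsg.Agent.Lib.Supersolvable

theorem isCyclic_map_mk {G : Type*} [Group G] {A B : Subgroup G} [B.Normal]
    (h : IsCyclic (A ⧸ B.subgroupOf A)) : IsCyclic (A.map (QuotientGroup.mk' B)) := by
  have hk : ((QuotientGroup.mk' B).subgroupMap A).ker = B.subgroupOf A := by
    rw [ker_subgroupMap, QuotientGroup.ker_mk']
  exact isCyclic_of_surjective _ ((QuotientGroup.quotientMulEquivOfEq hk).symm.trans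
    (QuotientGroup.quotientKerEquivOfSurjective _
      ((QuotientGroup.mk' B).subgroupMap_surjective A))).surjective

/-- Let i ≥ 1. If in the derived series of a group the quotient of the i-th term by the (i+1)-st and the quotient of the (i+1)-st by the (i+2)-nd are both cyclic, then the (i+1)-st and (i+2)-nd terms coincide. -/
theorem result {G : Type*} [Group G] (i : ℕ) (hi : 1 ≤ i) (h₁ : IsCyclic (↥(derivedSeries G i) ⧸ (derivedSeries G (i + 1)).subgroupOf (derivedSeries G i))) (h₂ : IsCyclic (↥(derivedSeries G (i + 1)) ⧸ (derivedSeries G (i + 2)).subgroupOf (derivedSeries G (i + 1)))) : derivedSeries G (i + 1) = derivedSeries G (i + 2) := by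
  have hn := derivedSeries_normal G
  set C := derivedSeries G (i + 2)
  have hsurj := QuotientGroup.mk'_surjective C
  set f := QuotientGroup.mk' C
  have := isCyclic_map_mk h₂
  have := (hn (i + 1)).map f hsurj
  have h1 := commutator_le_centralizer_of_isCyclic ((derivedSeries G (i + 1)).map f)
  have h2 : (derivedSeries G i).map f ≤ _root_.commutator (G ⧸ C) := by
    rw [map_derivedSeries_eq hsurj, ← derivedSeries_one]
    exact derivedSeries_antitone _ hi
  refine le_antisymm ?_ (derivedSeries_antitone G (Nat.le_succ _))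
  -- `G⁽ⁱ⁾ / C` is abelian
  set A := derivedSeries G i
  set B := derivedSeries G (i + 1)
  have hcomm : IsMulCommutative (A.map f) := by
    obtain ⟨g, hg⟩ := isCyclic_iff_exists_zpowers_eq_top.mp h₁
    obtain ⟨g, rfl⟩ := QuotientGroup.mk'_surjective _ g
    rw [← MonoidHom.map_zpowers, map_mk_eq_top_iff] at hg
    have hBA : B ≤ A := derivedSeries_antitone G (Nat.le_succ _)
    have h3 : A = zpowers (g : G) ⊔ B := by
      have := congrArg (map A.subtype) hg
      rw [Subgroup.map_sup, MonoidHom.map_zpowers, map_subgroupOf_eq_of_le hBA,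
        ← MonoidHom.range_eq_map, range_subtype] at this
      exact this.symm
    have h4 : A.map f = zpowers (f g) ⊔ B.map f := by
      conv_lhs => rw [h3, Subgroup.map_sup, MonoidHom.map_zpowers]
    have h5 : B.map f ≤ centralizer (A.map f : Set (G ⧸ C)) := le_centralizer_iff.mp (h2.trans h1)
    rw [← le_centralizer_iff_isMulCommutative]
    conv_lhs => rw [h4]
    refine sup_le ?_ h5
    rw [le_centralizer_iff, h4]
    refine sup_le (le_centralizer _) (h5.trans (centralizer_le ?_))
    exact (zpowers_le.mpr (mem_map_of_mem f g.2) : zpowers (f g) ≤ A.map f)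
  rw [← map_mk_eq_bot_iff]
  change map f ⁅A, A⁆ = ⊥
  rwa [map_commutator, commutator_self_eq_bot_iff]

end Cfsg.Agent.S0555
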