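import Cfsg.Statements.S0556
import Cfsg.Agent.Lib.Schmidt
import Cfsg.Agent.Lib.CoprimeSylow
import Cfsg.Agent.S0588

set_option autoImplicit false
open Cfsg

namespace Cfsg.Agent.S0556

open Subgroup Cfsg.Agent.Lib.SolvBasic Cfsg.Agent.Lib.FrattiniFacts Cfsg.Agent.Lib.Schmidt
open Cfsg.Agent.Lib.Supersolvable
open scoped Pointwise

theorem mem_center_of_conj_mem {G : Type*} [Group G] [Finite G] {A : Subgroup G} (hA : IsCoatom A)
    [IsMulCommutative A] {g x : G} (hg : g ∉ normalizer (A : Set G)) (hx : x ∈ A)
    (hx' : g⁻¹ * x * g ∈ A) : x ∈ center G := by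
  have h1 : ¬ MulAut.conj g • A ≤ A := fun h =>
    hg (conj_smul_eq_iff.mp (eq_of_le_of_card_ge h (card_smul g A).ge))
  have h2 : centralizer ({x} : Set G) = ⊤ := by
    rw [eq_top_iff, ← sup_eq_top_of_isCoatom hA h1]
    refine sup_le (fun y hy => ?_) fun y hy => ?_
    · rw [mem_centralizer_singleton_iff]
      have := setLike_mul_comm (mem_conj_smul_iff.mp hy) hx'
      calc y * x = g * ((g⁻¹ * y * g) * (g⁻¹ * x * g)) * g⁻¹ := by group
        _ = _ := by rw [this]; group
    · exact mem_centralizer_singleton_iff.mpr (setLike_mul_comm hy hx)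
  exact centralizer_eq_top_iff_subset.mp h2 rfl

open scoped IsMulCommutative in
theorem corefree {G : Type*} [Group G] [Finite G] (A : Subgroup G) (hA : IsCoatom A)
    [IsMulCommutative A] (hcore : A.normalCore = ⊥) : derivedSeries G 2 = ⊥ := by
  by_cases hA0 : A = ⊥
  · subst hA0
    have h := commutator_le_of_isCoatom_normal hA
    rw [le_bot_iff] at h
    rw [derivedSeries_succ, derivedSeries_one, h, commutator_bot_left]
  have hN : normalizer (A : Set G) = A := (hA.le_iff.mp le_normalizer).resolve_left fun ht =>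
    have := normalizer_eq_top_iff.mp ht
    hA0 (eq_bot_of_le_of_normalCore hcore le_rfl)
  have hTI : ∀ g x : G, x ∈ A → g⁻¹ * x * g ∈ A → x = 1 ∨ g ∈ A := fun g x hx hx' => by
    refine or_iff_not_imp_right.mpr fun hg => ?_
    have h1 := mem_center_of_conj_mem hA (hN.symm ▸ hg) hx hx'
    have := normal_of_le_center' (zpowers_le.mpr h1)
    exact zpowers_eq_bot.mp (eq_bot_of_le_of_normalCore hcore (zpowers_le.mpr hx))
  have hcop : (Nat.card A).Coprime A.index := Cfsg.Agent.S0588.result A fun x hx hx1 c hc =>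
    (hTI c x hx (by
      rw [mul_assoc, ← mem_centralizer_singleton_iff.mp hc, inv_mul_cancel_left]
      exact hx)).resolve_left hx1
  set V := MonoidHom.transfer (MonoidHom.id A)
  have hAK : A ⊓ V.ker = ⊥ := by
    rw [eq_bot_iff]
    rintro g ⟨hg, hg'⟩
    have h1 := MonoidHom.transfer_eq_pow (MonoidHom.id A) g fun k g₀ h => by
      rcases hTI g₀ _ (pow_mem hg k) h with h | h
      · rw [h]; group
      · rw [mul_assoc, setLike_mul_comm (pow_mem hg k) h, inv_mul_cancel_left]
    have h2 : g ^ A.index = 1 := congrArg Subtype.val (h1.symm.trans hg')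
    rw [mem_bot, ← orderOf_eq_one_iff]
    exact Nat.eq_one_of_dvd_coprimes hcop (orderOf_dvd_natCard _ hg) (orderOf_dvd_of_pow_eq_one h2)
  have hK0 : V.ker ≠ ⊥ := fun h => (card_lt_of_ne_top hA.1).not_ge
    (Nat.card_le_card_of_injective V ((MonoidHom.ker_eq_bot_iff V).mp h))
  have hc := isComplement'_of_inf_sup (by rwa [inf_comm]) (sup_eq_top_of_corefree hA hcore hK0)
  have hinv : ∀ X : Subgroup G, X ≤ V.ker → X ≠ ⊥ → A ≤ normalizer (X : Set G) → X = V.ker := by
    intro X hX hX0 hAX
    have h1 : ¬ X ≤ A := fun h => hX0 (le_bot_iff.mp (hAK ▸ le_inf h hX))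
    have := dedekind' hX hAX
    rw [sup_eq_top_of_isCoatom hA h1, top_inf_eq, hAK, sup_bot_eq] at this
    exact this.symm
  obtain ⟨q, hq, hd⟩ := Nat.exists_prime_and_dvd ((one_lt_card_iff_ne_bot _).mpr hK0).ne'
  have := Fact.mk hq
  obtain ⟨Q, hQ⟩ := Lib.CoprimeSylow.exists_invariant_sylow q (le_normalizer_of_normal' A V.ker)
    (by rwa [← hc.index_eq_card]) (Or.inl isSolvable_of_comm')
  have h1 := hinv _ (map_subtype_le _) (by
    rw [Ne, map_eq_bot_iff_of_injective _ (subtype_injective _)]
    exact Q.ne_bot_of_dvd_card hd) hQ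
  have h2 : IsPGroup q V.ker := h1 ▸ Q.isPGroup'.map _
  have := h2.isNilpotent
  have h3 : ⁅V.ker, V.ker⁆ = ⊥ := by
    by_contra hne
    exact (Lib.CoprimeBasic.commutator_lt_of_solvable hK0).ne
      (hinv _ (commutator_le_left _ _) hne (le_normalizer_of_normal' _ _))
  rw [derivedSeries_succ, derivedSeries_one, eq_bot_iff, ← h3]
  exact commutator_mono (Abelianization.commutator_subset_ker V)
    (Abelianization.commutator_subset_ker V)

/-- If a finite group has a maximal subgroup that is abelian, then the third term of its derived series is trivial (so the group is solvable of derived length at most three). -/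
theorem result {G : Type*} [Group G] [Finite G] (A : Subgroup G) (hA : IsCoatom A) [IsMulCommutative A] : derivedSeries G 3 = ⊥ := by
  have hsurj := QuotientGroup.mk'_surjective A.normalCore
  have h1 := corefree (A.map (QuotientGroup.mk' A.normalCore)) (isCoatom_map_mk hA A.normalCore_le)
    (by
      rw [← map_comap_eq_self_of_surjective hsurj (normalCore _), map_mk_eq_bot_iff,
        normal_le_normalCore]
      refine (comap_mono (normalCore_le _)).trans ?_
      rw [comap_map_mk, sup_of_le_left A.normalCore_le])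
  rw [← map_derivedSeries_eq hsurj, map_mk_eq_bot_iff] at h1
  rw [derivedSeries_succ, commutator_eq_bot_iff_le_centralizer]
  exact (h1.trans A.normalCore_le).trans
    ((le_centralizer A).trans (centralizer_le (h1.trans A.normalCore_le)))

end Cfsg.Agent.S0556
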