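import Cfsg.Statements.S0557
import Cfsg.Agent.Lib.TransferFrobenius

set_option autoImplicit false
open Cfsg

namespace Cfsg.Agent.S0557

open Cfsg.Agent.Lib.TransferFrobenius



/-- Let H be a subgroup of a finite group G with order coprime to its index. If iterating the focal-subgroup construction starting from H reaches the trivial subgroup after finitely many steps, then H has a normal complement in G. -/
theorem result {G : Type*} [Group G] [Finite G] (H : Subgroup G) (hHall : (Nat.card H).Coprime H.index) (n : ℕ) (hfoc : (fun K : Subgroup G => Subgroup.focalSubgroup K)^[n] H = ⊥) : ∃ N : Subgroup G, N.Normal ∧ Subgroup.IsComplement' N H := by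
  refine exists_normal_complement_of_focal H hHall fun L hL hf => ?_
  have : ∀ k, L ≤ (fun K : Subgroup G => Subgroup.focalSubgroup K)^[k] H := fun k => by
    induction k with
    | zero => exact hL
    | succ k ih => rw [Function.iterate_succ_apply']; exact hf.trans (focalSubgroup_mono ih)
  exact le_bot_iff.mp (hfoc ▸ this n)

end Cfsg.Agent.S0557
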