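import Cfsg.Statements.S0558
import Cfsg.Agent.Lib.FacNil

set_option autoImplicit false
open Cfsg

namespace Cfsg.Agent.S0558

open Subgroup Cfsg.Agent.Lib Cfsg.Agent.Lib.PCoreConj Cfsg.Agent.Lib.PCore Cfsg.Agent.Lib.FacNil



/-- Let H be a subgroup of a finite group G that is not a Sylow subgroup of G for any prime, and suppose that for every prime p dividing the order of H and every Sylow p-subgroup P of H the normalizer of P in G is exactly H. Then some normal subgroup of G is a complement to H. -/
theorem result {G : Type*} [Group G] [Finite G] (H : Subgroup G) (hnot : ∀ p : ℕ, p.Prime → ∀ P : Sylow p G, (P : Subgroup G) ≠ H) (hnorm : ∀ p : ℕ, p.Prime → p ∣ Nat.card H → ∀ P : Sylow p H, Subgroup.normalizer (((P : Subgroup H).map H.subtype : Subgroup G) : Set G) = H) : ∃ N : Subgroup G, N.Normal ∧ Subgroup.IsComplement' N H := by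
  have hS : ∀ (u : ℕ) [Fact u.Prime], u ∣ Nat.card H → ∀ T, IsSylowIn u T H →
      normalizer (T : Set G) = H := fun u _ hu T hT => by
    have := hnorm u Fact.out hu hT.toSylow
    rwa [hT.map_toSylow] at this
  have hH : Group.IsNilpotent H := by
    refine ((Group.isNilpotent_of_finite_tfae (G := H)).out 0 3).mpr fun (p : ℕ) (hp0 : Fact p.Prime) (P : Sylow p H) => ?_
    by_cases hp : p ∣ Nat.card H
    · have h1 := normal_subgroupOf_of_le (hS p hp _ (isSylowIn_map_subtype P)).ge
      rwa [map_subtype_subgroupOf] at h1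
    · have h1 := (isSylowIn_map_subtype P).eq_bot_iff.mpr hp
      rw [map_eq_bot_iff_of_injective _ H.subtype_injective] at h1
      rw [h1]; infer_instance
  by_cases hb : H = ⊥
  · exact ⟨⊤, inferInstance, SolvBasic.isComplement'_of_inf_sup (by simp [hb]) (by simp)⟩
  obtain ⟨K, h1, h2, h3⟩ := wielandt hH (fun p => by
    by_contra hc
    push Not at hc
    obtain ⟨r, hr, hd⟩ := Nat.exists_prime_and_dvd (mt card_eq_one.mp hb)
    obtain rfl : r = p := by by_contra h; exact hc r hr h hd
    have : Fact r.Prime := ⟨hr⟩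
    have h4 : IsPGroup r H := SolvBasic.isPGroup_of_forall_prime fun q hq hqd => by
      by_contra h; exact hc q hq h hqd
    have h5 : IsSylowIn r H ⊤ := IsSylowIn.of_inf_normalizer (by
      rw [hS r hd H (isSylowIn_self h4), top_inf_eq]; exact isSylowIn_self h4)
    exact hnot r hr h5.toSylowTop rfl) fun u _ hu => (hS u hu _ (isSylowIn_pCoreOf hH u)).le
  exact ⟨K, h1, SolvBasic.isComplement'_of_inf_sup (disjoint_iff.mp (disjoint_of_coprime_natCard h2)) h3⟩

end Cfsg.Agent.S0558
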