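import Cfsg.Statements.S0560
import Cfsg.Agent.Lib.Factorized

set_option autoImplicit false
open Pointwise
open Cfsg

namespace Cfsg.Agent.S0560

open Subgroup Cfsg.Agent.Lib.SolvBasic Cfsg.Agent.Lib.TransferAlperin Cfsg.Agent.Lib.Factorized



/-- Let the finite group G be the product HK of two subgroups and p a prime. Then there are Sylow p-subgroups P of H and Q of K and a Sylow p-subgroup R of G whose underlying set is the product set of P and Q. -/
theorem result {G : Type*} [Group G] [Finite G] (H K : Subgroup G) (hHK : ∀ g : G, ∃ h ∈ H, ∃ k ∈ K, g = h * k) (p : ℕ) [Fact p.Prime] : ∃ (P : Sylow p H) (Q : Sylow p K) (R : Sylow p G), ((R : Subgroup G) : Set G) = (((P : Subgroup H).map H.subtype : Subgroup G) : Set G) * (((Q : Subgroup K).map K.subtype : Subgroup G) : Set G) := by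
  obtain ⟨P⟩ := (inferInstance : Nonempty (Sylow p H))
  obtain ⟨Q⟩ := (inferInstance : Nonempty (Sylow p K))
  obtain ⟨a, ha, b, hb, R, h1, h2, h3⟩ := Fac.exists_sylow hHK (map_subtype_le (P : Subgroup H)) (P.2.map _)
    (not_dvd_relIndex_map_sylow P) (map_subtype_le (Q : Subgroup K)) (Q.2.map _)
    (not_dvd_relIndex_map_sylow Q)
  refine ⟨(⟨a, ha⟩ : H) • P, (⟨b, hb⟩ : K) • Q, R, ?_⟩
  rw [Sylow.coe_subgroup_smul, Sylow.coe_subgroup_smul, map_subtype_conj_smul, map_subtype_conj_smul]
  have h4 : (R : Subgroup G) = _ := le_antisymm h3.le_sup (sup_le h1 h2)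
  rw [h4]
  exact (h3.perm h1 h2).coe_sup

end Cfsg.Agent.S0560
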