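import Cfsg.Statements.S0563
import Cfsg.Agent.Lib.KegelWielandt

set_option autoImplicit false
open Pointwise
open Cfsg

namespace Cfsg.Agent.S0563

open Subgroup Cfsg.Agent.Lib Cfsg.Agent.Lib.PCoreConj Cfsg.Agent.Lib.PCore Cfsg.Agent.Lib.FacNil Cfsg.Agent.Lib.Factorized



/-- If a finite group G is the product AB of two nilpotent subgroups of coprime orders, then G is solvable, and for every Sylow p-subgroup P of A and Sylow q-subgroup Q of B the product set PQ is a subgroup. -/
theorem result {G : Type*} [Group G] [Finite G] (A B : Subgroup G) (hA : Group.IsNilpotent A) (hB : Group.IsNilpotent B) (hcop : (Nat.card A).Coprime (Nat.card B)) (hAB : ∀ g : G, ∃ a ∈ A, ∃ b ∈ B, g = a * b) : Group.IsSolvable G ∧ ∀ (p q : ℕ) [Fact p.Prime] [Fact q.Prime] (P : Sylow p A) (Q : Sylow q B), ∃ S : Subgroup G, (S : Set G) = (((P : Subgroup A).map A.subtype : Subgroup G) : Set G) * (((Q : Subgroup B).map B.subtype : Subgroup G) : Set G) := by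
  have hs := KegelWielandt.isSolvable hA hB hAB
  refine ⟨hs, fun p q _ _ P Q => ?_⟩
  have key : ∀ (A B : Subgroup G), Group.IsNilpotent A → (Nat.card A).Coprime (Nat.card B) → Fac A B →
      ∀ (p : ℕ) [Fact p.Prime] (T : Subgroup G), IsSylowIn p T A →
      A ≤ normalizer (T : Set G) ∧ (Nat.card T).Coprime T.index := fun A B hA hc h p _ T hT => by
    have e : pCoreOf p A = T := hT.eq_of_le (pCoreOf_le p A) (pCoreOf_isPGroup p A)
      (le_pCoreOf_of_nil hA hT.le hT.isPGroup)
    refine ⟨e ▸ le_normalizer_pCoreOf p A, ?_⟩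
    rw [← relIndex_mul_index hT.le]
    exact Nat.Coprime.mul_right (coprime_card_of_isPGroup hT.isPGroup hT.coprime_relIndex)
      (Nat.Coprime.coprime_dvd_right h.index_dvd (Nat.Coprime.coprime_dvd_left (card_dvd_of_le hT.le) hc))
  obtain ⟨a1, a2⟩ := key A B hA hcop hAB p _ (isSylowIn_map_subtype P)
  obtain ⟨b1, b2⟩ := key B A hB hcop.symm (Fac.symm hAB) q _ (isSylowIn_map_subtype Q)
  exact ⟨_, (Fac.perm_of_hall hAB a1 b1 a2 b2).coe_sup⟩

end Cfsg.Agent.S0563
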