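import Cfsg.Statements.S0565
import Cfsg.Agent.Lib.KegelWielandt

set_option autoImplicit false
open Cfsg

namespace Cfsg.Agent.S0565

open Subgroup Cfsg.Agent.Lib Cfsg.Agent.Lib.PCoreConj Cfsg.Agent.Lib.PCore Cfsg.Agent.Lib.FacNil Cfsg.Agent.Lib.Factorized
open scoped commutatorElement

theorem aux (G : Type*) [Group G] [Finite G] : ∀ A B : Subgroup G, Group.IsNilpotent A → Group.IsNilpotent B →
    Fac A B → A ≠ ⊤ ∨ B ≠ ⊤ → ∃ N : Subgroup G, N.Normal ∧ N ≠ ⊤ ∧ (A ≤ N ∨ B ≤ N) := by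
  refine SolvBasic.card_induction (P := fun G _ _ => ∀ A B : Subgroup G, Group.IsNilpotent A →
    Group.IsNilpotent B → Fac A B → A ≠ ⊤ ∨ B ≠ ⊤ → ∃ N : Subgroup G, N.Normal ∧ N ≠ ⊤ ∧ (A ≤ N ∨ B ≤ N)) ?_ G
  intro G _ _ ih A B hA hB h hp
  have : Nontrivial G := by
    by_contra hc
    rw [not_nontrivial_iff_subsingleton] at hc
    rcases hp with e | e <;> exact e (Subsingleton.elim _ _)
  have := KegelWielandt.isSolvable hA hB h
  obtain ⟨M, hM⟩ := SolvBasic.exists_minNormal (G := G)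
  have := hM.normal
  by_cases hc : A ⊔ M = ⊤ ∧ B ⊔ M = ⊤
  · obtain ⟨p, hp', -, h1, -⟩ := hM.exists_prime
    have : Fact p.Prime := ⟨hp'⟩
    have := nilpotent_of_trifac h hA hB h1.isNilpotent hc.1 hc.2
    have key : ∀ A : Subgroup G, A ≠ ⊤ → ∃ N : Subgroup G, N.Normal ∧ N ≠ ⊤ ∧ A ≤ N := fun A hA =>
      ⟨nclIn A ⊤, normal_iff_top_le.mpr (le_normalizer_nclIn A ⊤),
        (SubnormalIn.nclIn_lt (subnormalIn_top_iff.mpr (SubnormalJoin.isSubnormal_of_isNilpotent A)) hA).ne,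
        le_nclIn A ⊤⟩
    rcases hp with e | e
    · obtain ⟨N, h1, h2, h3⟩ := key A e
      exact ⟨N, h1, h2, Or.inl h3⟩
    · obtain ⟨N, h1, h2, h3⟩ := key B e
      exact ⟨N, h1, h2, Or.inr h3⟩
  obtain ⟨N, h1, h2, h3⟩ := ih (G ⧸ M) (SolvBasic.card_quotient_lt hM.ne_bot) _ _
    (SystemNormalizer.isNilpotent_map hA _) (SystemNormalizer.isNilpotent_map hB _)
    (h.map (QuotientGroup.mk'_surjective M)) (by
      simpa only [ne_eq, SolvBasic.map_mk_eq_top_iff, ← not_and_or] using hc)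
  exact ⟨N.comap (QuotientGroup.mk' M), inferInstance, fun e => h2 (comap_injective
    (QuotientGroup.mk'_surjective M) (e.trans (comap_top _).symm)), h3.imp map_le_iff_le_comap.mp
    map_le_iff_le_comap.mp⟩


/-- Let the finite group G be the product AB of nilpotent subgroups A and B, not both equal to G. Then there is a proper normal subgroup of G containing A or containing B. -/
theorem result {G : Type*} [Group G] [Finite G] (A B : Subgroup G) (hA : Group.IsNilpotent A) (hB : Group.IsNilpotent B) (hAB : ∀ g : G, ∃ a ∈ A, ∃ b ∈ B, g = a * b) (hproper : A ≠ ⊤ ∨ B ≠ ⊤) : ∃ N : Subgroup G, N.Normal ∧ N ≠ ⊤ ∧ (A ≤ N ∨ B ≤ N) := by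
  exact aux G A B hA hB hAB hproper

end Cfsg.Agent.S0565
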