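import Cfsg.Statements.S0566
import Cfsg.Agent.Lib.Factorized

set_option autoImplicit false
open Pointwise
open Cfsg

namespace Cfsg.Agent.S0566

open Subgroup Cfsg.Agent.Lib.SolvBasic Cfsg.Agent.Lib.TransferAlperin Cfsg.Agent.Lib.Factorized



/-- Let A and B be nontrivial subgroups of a finite group G such that for every x the product set of A and xBx⁻¹ is a proper subgroup of G. Then there is a proper normal subgroup of G containing A or containing B. -/
theorem result {G : Type*} [Group G] [Finite G] (A B : Subgroup G) (hA : A ≠ ⊥) (hB : B ≠ ⊥) (h : ∀ x : G, ∃ S : Subgroup G, S ≠ ⊤ ∧ (S : Set G) = (A : Set G) * ((MulAut.conj x • B : Subgroup G) : Set G)) : ∃ N : Subgroup G, N.Normal ∧ N ≠ ⊤ ∧ (A ≤ N ∨ B ≤ N) := by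
  have h1 : ∀ g : G, Perm A (conjSub g B) := fun g => by
    obtain ⟨S, -, hS⟩ := h g
    obtain ⟨h1, h2, h3⟩ := facIn_of_coe_eq hS
    exact h1.perm h2 h3
  have h2 : ¬ Fac A B := fun hf => by
    obtain ⟨S, hS1, hS⟩ := h 1
    obtain ⟨-, h2, h3⟩ := facIn_of_coe_eq hS
    rw [conj_one_smul] at h3
    exact hS1 (top_le_iff.mp (hf.sup_eq_top ▸ sup_le h2 h3))
  rcases kegel h1 h2 with h3 | h3
  · exact ⟨_, inferInstance, h3, Or.inl le_normalClosure⟩
  · exact ⟨_, inferInstance, h3, Or.inr le_normalClosure⟩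

end Cfsg.Agent.S0566
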