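import Cfsg.Statements.S0567


set_option autoImplicit false
open Cfsg

namespace Cfsg.Agent.S0567

open Subgroup
open scoped commutatorElement



/-- A subgroup H of a group G is subnormal exactly when, for some m, the subgroup obtained from G by taking the commutator with H m times in succession is contained in H. -/
theorem result {G : Type*} [Group G] (H : Subgroup G) : H.IsSubnormal ↔ ∃ m : ℕ, (fun K : Subgroup G => ⁅K, H⁆)^[m] ⊤ ≤ H := by
  constructor
  · intro h
    suffices ∃ m : ℕ, ∀ L : Subgroup G, L ≤ H → (fun K : Subgroup G => ⁅K, L⁆)^[m] ⊤ ≤ H by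
      obtain ⟨m, hm⟩ := this
      exact ⟨m, hm H le_rfl⟩
    induction h with
    | top => exact ⟨0, fun _ _ => le_top⟩
    | step H K hle _ hn ih =>
      obtain ⟨m, hm⟩ := ih
      refine ⟨m + 1, fun L hL => ?_⟩
      rw [Function.iterate_succ_apply']
      refine (commutator_mono (hm L (hL.trans hle)) hL).trans ?_
      rw [commutator_le]
      intro a ha b hb
      have := (hn.conj_mem ⟨b, hle hb⟩ hb ⟨a, ha⟩)
      rw [commutatorElement_def]
      exact mul_mem this (inv_mem hb)
  · rintro ⟨m, hm⟩
    have key : ∀ k : ℕ, ((fun K : Subgroup G => ⁅K, H⁆)^[k] ⊤ ⊔ H).IsSubnormal := by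
      intro k
      induction k with
      | zero => simp
      | succ k ih =>
        rw [Function.iterate_succ_apply']
        set K := (fun K : Subgroup G => ⁅K, H⁆)^[k] ⊤
        refine IsSubnormal.step _ (K ⊔ H) (sup_le ((commutator_le_sup _ _)) le_sup_right) ih ?_
        refine (normal_subgroupOf_iff_le_normalizer (sup_le (commutator_le_sup _ _) le_sup_right)).mpr ?_
        refine sup_le ?_ (le_sup_right.trans le_normalizer)
        have h1 : ∀ a ∈ K, (⁅K, H⁆ ⊔ H).map (MulAut.conj a).toMonoidHom ≤ ⁅K, H⁆ ⊔ H := by
          intro a ha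
          rw [Subgroup.map_sup]
          refine sup_le ?_ ?_
          · rintro _ ⟨x, hx, rfl⟩
            exact mem_sup_left ((mem_normalizer_iff.mp (normalizer_commutator_ge_left K H ha) x).mp hx)
          · rintro _ ⟨x, hx, rfl⟩
            have : (MulAut.conj a).toMonoidHom x = ⁅a, x⁆ * x := by
              simp [commutatorElement_def]
            rw [this]
            exact mul_mem_sup (commutator_mem_commutator ha hx) hx
        intro a ha
        refine mem_normalizer_iff.mpr fun x => ⟨fun hx => h1 a ha ⟨x, hx, rfl⟩, fun hx => ?_⟩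
        have := h1 a⁻¹ (inv_mem ha) ⟨_, hx, rfl⟩
        simpa [mul_assoc] using this
    have := key m
    rwa [sup_eq_right.mpr hm] at this

end Cfsg.Agent.S0567
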