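import Cfsg.Statements.S0568
import Cfsg.Agent.Lib.SystemNormalizer

set_option autoImplicit false
open Cfsg

namespace Cfsg.Agent.S0568

open Subgroup Cfsg.Agent.Lib.SolvBasic Cfsg.Agent.Lib.SystemNormalizer

/-- Let D be the system normalizer of a Hall complement system of a finite solvable group G, and let A < B be normal subgroups with no normal subgroup of G strictly between them (a chief factor). If G centralizes B modulo A then B ≤ A ⊔ D (D covers the factor); otherwise B ∩ D ≤ A (D avoids it). -/
theorem result {G : Type*} [Group G] [Finite G] [Group.IsSolvable G] (K : Nat.Primes → Subgroup G) (hK : Cfsg.IsComplementSystem K) (A B : Subgroup G) [A.Normal] [B.Normal] (hAB : A < B) (hchief : ∀ N : Subgroup G, N.Normal → A ≤ N → N ≤ B → N = A ∨ N = B) : (⁅B, (⊤ : Subgroup G)⁆ ≤ A → B ≤ A ⊔ Cfsg.systemNormalizer K) ∧ (¬ ⁅B, (⊤ : Subgroup G)⁆ ≤ A → B ⊓ Cfsg.systemNormalizer K ≤ A) := by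
  have hsurj := QuotientGroup.mk'_surjective A
  have hiff : ⁅B, (⊤ : Subgroup G)⁆ ≤ A ↔ B.map (QuotientGroup.mk' A) ≤ center (G ⧸ A) := by
    rw [← commutator_top_right_eq_bot_iff_le_center, ← map_top_of_surjective _ hsurj,
      ← map_commutator, map_mk_eq_bot_iff]
  have hmin : IsMinNormal (B.map (QuotientGroup.mk' A)) := by
    refine ⟨Normal.map inferInstance _ hsurj, ?_, fun N hN hNB => ?_⟩
    · rw [Ne, map_mk_eq_bot_iff]; exact not_le_of_gt hAB
    · have h1 := comap_mono (f := QuotientGroup.mk' A) hNB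
      rw [comap_map_mk, sup_of_le_left hAB.le] at h1
      rw [← map_comap_eq_self_of_surjective hsurj N]
      rcases hchief _ inferInstance (le_comap_mk A N) h1 with h | h
      · left; rw [h, map_mk_eq_bot_iff]
      · right; rw [h]
  rw [hiff]
  constructor
  · intro h
    rw [sup_comm, ← map_mk_le_map_mk_iff, ← sn_map_mk hK]
    exact h.trans (center_le_sn _)
  · intro h
    have h1 := sn_inf_minNormal (cs_map hK hsurj) hmin h
    rw [sn_map_mk hK] at h1
    rw [← map_mk_eq_bot_iff, eq_bot_iff, ← h1]
    exact map_inf_le _ _ _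

end Cfsg.Agent.S0568
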