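import Cfsg.Statements.S0573
import Cfsg.Agent.Lib.FacNil
import Cfsg.Agent.Lib.BurnsidePQ

set_option autoImplicit false
open Cfsg

namespace Cfsg.Agent.S0573

open Subgroup Cfsg.Agent.Lib Cfsg.Agent.Lib.PCoreConj Cfsg.Agent.Lib.PCore Cfsg.Agent.Lib.PCoreResidual Cfsg.Agent.Lib.FacNil Cfsg.Agent.Lib.Factorized
open scoped commutatorElement

theorem key {G : Type*} [Group G] {A B : Subgroup G} (h : Fac A B) (hA : ∀ a ∈ A, ∀ a' ∈ A, a * a' = a' * a)
    (hB : ∀ a ∈ B, ∀ a' ∈ B, a * a' = a' * a) (nA : ∀ N : Subgroup G, N.Normal → N ≤ A → N = ⊥)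
    (nB : ∀ N : Subgroup G, N.Normal → N ≤ B → N = ⊥) (a : G) (ha : a ∈ A)
    (hd : ∀ d ∈ (⁅(⊤ : Subgroup G), (⊤ : Subgroup G)⁆ : Subgroup G), d * a = a * d) : a = 1 := by
  have h1 : centralizer (A : Set G) ≤ A := fun g hg => by
    obtain ⟨x, hx, y, hy, rfl⟩ := h g
    have h2 : y ∈ centralizer (A : Set G) :=
      ((centralizer _).mul_mem_cancel_left (fun u hu => hA u hu x hx)).mp hg
    have h3 : B ⊓ centralizer (A : Set G) = ⊥ := nB _ (normal_iff_top_le.mpr (by
      rw [← h.sup_eq_top]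
      exact le_normalizer_of_le_centralizer (sup_le (le_centralizer_iff.mp inf_le_right)
        fun u hu v hv => hB v hv.1 u hu))) inf_le_left
    have h4 : y ∈ B ⊓ centralizer (A : Set G) := ⟨hy, h2⟩
    rw [h3, mem_bot] at h4
    rwa [h4, mul_one]
  have : (A ⊔ ⁅(⊤ : Subgroup G), (⊤ : Subgroup G)⁆).Normal := normal_iff_top_le.mpr (le_normalizer_of_commutator_le
    ((commutator_mono le_top le_top).trans le_sup_right))
  have h2 := nA (centralizer ((A ⊔ ⁅(⊤ : Subgroup G), (⊤ : Subgroup G)⁆ : Subgroup G) : Set G)) inferInstance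
    ((centralizer_anti le_sup_left).trans h1)
  rw [centralizer_sup] at h2
  exact mem_bot.mp (h2 ▸ mem_inf.mpr ⟨fun u hu => hA u hu a ha, hd⟩)


/-- If a nontrivial finite group G is the product AB of abelian subgroups A and B, then some nontrivial normal subgroup of G is contained in A or in B. -/
theorem result {G : Type*} [Group G] [Finite G] [Nontrivial G] (A B : Subgroup G) [IsMulCommutative A] [IsMulCommutative B] (hAB : ∀ g : G, ∃ a ∈ A, ∃ b ∈ B, g = a * b) : ∃ N : Subgroup G, N.Normal ∧ N ≠ ⊥ ∧ (N ≤ A ∨ N ≤ B) := by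
  by_contra hc
  have h : Fac A B := hAB
  have hA : ∀ a ∈ A, ∀ a' ∈ A, a * a' = a' * a := isMulCommutative_iff_forall.mp ‹_›
  have hB : ∀ a ∈ B, ∀ a' ∈ B, a * a' = a' * a := isMulCommutative_iff_forall.mp ‹_›
  have nA : ∀ N : Subgroup G, N.Normal → N ≤ A → N = ⊥ := fun N h1 h2 => by
    by_contra h3; exact hc ⟨N, h1, h3, Or.inl h2⟩
  have nB : ∀ N : Subgroup G, N.Normal → N ≤ B → N = ⊥ := fun N h1 h2 => by
    by_contra h3; exact hc ⟨N, h1, h3, Or.inr h2⟩
  set D : Subgroup G := ⁅(⊤ : Subgroup G), (⊤ : Subgroup G)⁆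
  have hD : ⁅D, D⁆ = ⊥ := by
    have := ito hA hB ((h.facIn ⊤).perm le_top le_top)
    rwa [h.sup_eq_top] at this
  have nil : ∀ X : Subgroup G, (∀ a ∈ X, ∀ a' ∈ X, a * a' = a' * a) → Group.IsNilpotent X := fun X hX => by
    have := isMulCommutative_iff_forall.mpr hX
    exact open scoped IsMulCommutative in CommGroup.isNilpotent
  set X := (A ⊔ D) ⊓ (B ⊔ D)
  have hDX : D ≤ X := le_inf le_sup_right le_sup_right
  have hf := facIn_factorizer h D
  have e : ∀ A : Subgroup G, X ≤ A ⊔ D → A.subgroupOf X ⊔ D.subgroupOf X = ⊤ := fun A h1 => by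
    rw [eq_top_iff]
    intro x _
    obtain ⟨a, ha, d, hd, e⟩ := (SolvBasic.mem_sup_normal_iff (H := A) (N := D)).mp (h1 x.2)
    have h2 : a ∈ X := (X.mul_mem_cancel_right (hDX hd)).mp (e ▸ x.2)
    rw [show x = ⟨a, h2⟩ * ⟨d, hDX hd⟩ from Subtype.ext e.symm]
    exact mul_mem (mem_sup_left ha) (mem_sup_right hd)
  have hX : Group.IsNilpotent X := nilpotent_of_trifac hf.subgroupOf' (nil_subgroupOf (nil A hA) X)
    (nil_subgroupOf (nil B hB) X) (nil_subgroupOf (nil D fun a ha b hb =>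
      commutator_eq_bot_iff_le_centralizer.mp hD hb a ha) X) (e A inf_le_left) (e B inf_le_right)
  have hX0 : X ≠ ⊥ := fun e => by
    have h1 : ∀ A : Subgroup G, A.Normal := fun A => normal_iff_top_le.mpr
      (le_normalizer_of_commutator_le ((commutator_mono le_top le_top).trans (hDX.trans (e.le.trans bot_le))))
    have h2 := h.sup_eq_top
    rw [nA A (h1 A) le_rfl, nB B (h1 B) le_rfl, sup_idem] at h2
    exact bot_ne_top h2
  obtain ⟨z, hz, hz1, hzc⟩ := BurnsidePQ.exists_central hX0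
  obtain ⟨a, ha, b, hb, rfl⟩ := hf z hz
  have c : ∀ x ∈ X, x * (a * b) = a * b * x := fun x hx => mem_centralizer_singleton_iff.mp (hzc hx)
  have ca : ∀ x ∈ X, x * a = a * x := fun x hx => by
    obtain ⟨a', ha', b', hb', rfl⟩ := hf x hx
    have : b' * a = a * b' := by
      have h1 := c b' hb'.2
      rw [mul_assoc, hB b hb.1 b' hb'.1, ← mul_assoc, ← mul_assoc] at h1
      exact mul_right_cancel h1
    rw [mul_assoc, this, ← mul_assoc, hA a' ha'.1 a ha.1, mul_assoc]
  have cb : ∀ x ∈ X, x * b = b * x := fun x hx => by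
    have h1 := c x hx
    rw [← mul_assoc, ca x hx, mul_assoc, mul_assoc] at h1
    exact mul_left_cancel h1
  exact hz1 (by rw [key h hA hB nA nB a ha.1 fun d hd => ca d (hDX hd),
    key h.symm hB hA nB nA b hb.1 fun d hd => cb d (hDX hd), mul_one])

end Cfsg.Agent.S0573
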