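import Cfsg.Statements.S0571
import Cfsg.Agent.S0573
import Cfsg.Agent.Lib.Supersolvable

set_option autoImplicit false
open Cfsg

namespace Cfsg.Agent.S0571

open Subgroup Cfsg.Agent.Lib Cfsg.Agent.Lib.PCoreConj Cfsg.Agent.Lib.PCore Cfsg.Agent.Lib.FacNil Cfsg.Agent.Lib.Factorized
open scoped commutatorElement

theorem aux (G : Type*) [Group G] [Finite G] : ∀ A B : Subgroup G, IsCyclic A → IsCyclic B →
    Fac A B → Cfsg.IsSupersolvable G := by
  refine SolvBasic.card_induction (P := fun G _ _ => ∀ A B : Subgroup G, IsCyclic A → IsCyclic B →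
    Fac A B → Cfsg.IsSupersolvable G) ?_ G
  intro G _ _ ih A B hA hB h
  rcases subsingleton_or_nontrivial G with hG | hG
  · exact Supersolvable.ss_of_subsingleton
  obtain ⟨N, h1, h2, h3⟩ := S0573.result A B h
  have : IsCyclic N := h3.elim (fun h4 => isCyclic_of_le h4) fun h4 => isCyclic_of_le h4
  have c : ∀ A : Subgroup G, IsCyclic A → IsCyclic (A.map (QuotientGroup.mk' N)) := fun A _ =>
    isCyclic_of_surjective _ ((QuotientGroup.mk' N).subgroupMap_surjective A)
  exact Supersolvable.ss_of_cyclic_normal N (ih _ (SolvBasic.card_quotient_lt h2) _ _ (c A hA) (c B hB)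
    (h.map (QuotientGroup.mk'_surjective N)))


/-- If a finite group G is the product AB of two cyclic subgroups (every element is a product ab), then G is supersolvable. -/
theorem result {G : Type*} [Group G] [Finite G] (A B : Subgroup G) [IsCyclic A] [IsCyclic B] (hAB : ∀ g : G, ∃ a ∈ A, ∃ b ∈ B, g = a * b) : Cfsg.IsSupersolvable G := by
  exact aux G A B ‹_› ‹_› hAB

end Cfsg.Agent.S0571
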