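import Cfsg.Statements.S0572
import Cfsg.Agent.Lib.Factorized

set_option autoImplicit false
open Cfsg

namespace Cfsg.Agent.S0572

open Subgroup Cfsg.Agent.Lib.Factorized



/-- Itô's Theorem: if a group G is the product AB of two abelian subgroups, then the commutator subgroup of G is abelian, i.e. the second term of the derived series is trivial. -/
theorem result {G : Type*} [Group G] (A B : Subgroup G) [IsMulCommutative A] [IsMulCommutative B] (hAB : ∀ g : G, ∃ a ∈ A, ∃ b ∈ B, g = a * b) : derivedSeries G 2 = ⊥ := by
  have h := ito (A := A) (B := B) (fun a ha a' ha' => setLike_mul_comm ha ha')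
    (fun a ha a' ha' => setLike_mul_comm ha ha') (Fac.facIn hAB _)
  rw [Fac.sup_eq_top hAB] at h
  exact h

end Cfsg.Agent.S0572
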