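import Cfsg.Statements.S0574
import Cfsg.Agent.Lib.KegelWielandt

set_option autoImplicit false
open Cfsg

namespace Cfsg.Agent.S0574

open Subgroup Cfsg.Agent.Lib Cfsg.Agent.Lib.PCoreConj Cfsg.Agent.Lib.PCore Cfsg.Agent.Lib.PCoreResidual
open Cfsg.Agent.Lib.FacNil Cfsg.Agent.Lib.Factorized
open scoped commutatorElement

theorem aux (n : ℕ) : ∀ (G : Type*) [Group G] [Finite G] (A B : Subgroup G),
    (∀ a ∈ A, ∀ a' ∈ A, a * a' = a' * a) → ⁅B, B⁆ ≤ centralizer (B : Set G) → Fac A B →
    (Nat.card (⁅B, B⁆ : Subgroup G)).primeFactorsList.length ≤ n → derivedSeries G (2 * (1 + n)) = ⊥ := by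
  have base : ∀ (G : Type _) [Group G] (A B : Subgroup G), (∀ a ∈ A, ∀ a' ∈ A, a * a' = a' * a) →
      ⁅B, B⁆ = ⊥ → Fac A B → derivedSeries G 2 = ⊥ := fun G _ A B hA hB h => by
    have := ito hA (isMulCommutative_iff_forall.mp (commutator_self_eq_bot_iff.mp hB))
      ((h.facIn ⊤).perm le_top le_top)
    rwa [h.sup_eq_top] at this
  induction n with
  | zero =>
    intro G _ _ A B hA _ h hn
    rw [Nat.le_zero, List.length_eq_zero_iff, Nat.primeFactorsList_eq_nil] at hn
    exact base G A B hA (card_eq_one.mp (hn.resolve_left Nat.card_pos.ne')) h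
  | succ n ih =>
  intro G _ _ A B hA hB h hn
  by_cases h0 : ⁅B, B⁆ = ⊥
  · exact le_bot_iff.mp ((derivedSeries_antitone G (by omega)).trans (base G A B hA h0 h).le)
  have hs : Group.IsSolvable G := KegelWielandt.isSolvable (by
    have := isMulCommutative_iff_forall.mpr hA
    exact open scoped IsMulCommutative in CommGroup.isNilpotent) (isNilpotent_of_lowerCentralSeries_eq_bot
      (n := 2) (commutator_eq_bot_iff_le_centralizer.mpr hB)) h
  obtain ⟨K, ⟨z, hz, hz1, rfl⟩, hmin⟩ := (Set.toFinite {K : Subgroup G | ∃ z ∈ ⁅B, B⁆, z ≠ 1 ∧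
      K = normalClosure {z}}).exists_minimal (by
    obtain ⟨z, hz, hz1⟩ := (bot_or_exists_ne_one _).resolve_left h0
    exact ⟨_, z, hz, hz1, rfl⟩)
  set K := normalClosure ({z} : Set G)
  have hzK : z ∈ K := subset_normalClosure rfl
  have h1 : ⁅K, K⁆ ⊓ ⁅B, B⁆ = ⊥ := by
    by_contra hne
    obtain ⟨y, hy, hy1⟩ := (bot_or_exists_ne_one _).resolve_left hne
    have h2 : normalClosure {y} ≤ ⁅K, K⁆ := normalClosure_le_normal (Set.singleton_subset_iff.mpr hy.1)
    exact (Group.IsSolvable.commutator_lt_of_ne_bot (H := K) fun e => hz1 (mem_bot.mp (e ▸ hzK))).not_ge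
      ((hmin ⟨y, hy.2, hy1, rfl⟩ (h2.trans (commutator_le_self K))).trans h2)
  have h2 : K ≤ A ⊔ zpowers z := by
    refine (closure_le _).mpr fun x hx => ?_
    obtain ⟨y, rfl, hc⟩ := Group.mem_conjugatesOfSet_iff.mp hx
    obtain ⟨g, rfl⟩ := isConj_iff.mp hc
    obtain ⟨a, ha, b, hb, rfl⟩ := h g
    rw [show a * b * y * (a * b)⁻¹ = a * (b * y) * b⁻¹ * a⁻¹ by group, hB hz b hb]
    rw [show a * (y * b) * b⁻¹ * a⁻¹ = a * y * a⁻¹ by group]
    exact mul_mem (mul_mem (mem_sup_left ha) (mem_sup_right (mem_zpowers y))) (mem_sup_left (inv_mem ha))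
  set f := QuotientGroup.mk' ⁅K, K⁆
  have c1 : ∀ k ∈ K, ∀ k' ∈ K, Commute (f k) (f k') := fun k hk k' hk' => by
    rw [← commutatorElement_eq_one_iff_commute, ← map_commutatorElement]
    exact (QuotientGroup.eq_one_iff _).mpr (commutator_mem_commutator hk hk')
  have c2 : ∀ x ∈ B ⊓ (A ⊔ K), ∃ k ∈ K, ∃ a, x = a * k ∧ ∀ y ∈ A ⊔ K, Commute (f y) (f a) := fun x hx => by
    obtain ⟨a, ha, k, hk, rfl⟩ := SolvBasic.mem_sup_normal_iff.mp hx.2
    have h3 : A ⊔ zpowers z ≤ (centralizer {f a}).comap f := sup_le (fun y hy =>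
      mem_centralizer_singleton_iff.mpr (by rw [← map_mul, hA y hy a ha, map_mul])) (zpowers_le.mpr
      (mem_centralizer_singleton_iff.mpr (by
        have e := congrArg f (hB hz _ hx.1)
        simp only [map_mul] at e
        rw [mul_assoc, ← (c1 z hzK k hk).eq, ← mul_assoc, ← mul_assoc] at e
        exact (mul_right_cancel e).symm)))
    exact ⟨k, hk, a, rfl, fun y hy => mem_centralizer_singleton_iff.mp (sup_le (le_sup_left.trans h3)
      (h2.trans h3) hy)⟩
  have h3 : ⁅B ⊓ (A ⊔ K), B ⊓ (A ⊔ K)⁆ = ⊥ := by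
    refine le_bot_iff.mp (h1 ▸ le_inf (commutator_le.mpr fun x hx y hy => ?_)
      (commutator_mono inf_le_left inf_le_left))
    obtain ⟨k, hk, a, rfl, ha⟩ := c2 x hx
    obtain ⟨k', hk', a', rfl, ha'⟩ := c2 y hy
    refine (QuotientGroup.eq_one_iff _).mp ?_
    change f _ = 1
    rw [map_commutatorElement, commutatorElement_eq_one_iff_commute, map_mul f a' k']
    refine (ha' _ hx.2).mul_right ?_
    rw [map_mul]
    exact (ha _ (mem_sup_right hk')).symm.mul_left (c1 k hk k' hk')
  have h4 : ⁅⁅K, K⁆, ⁅K, K⁆⁆ = ⊥ := by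
    have hf := h.inf_right (le_sup_left : A ≤ A ⊔ K)
    have h5 : K ≤ A ⊔ B ⊓ (A ⊔ K) := le_sup_right.trans hf.le_sup
    exact le_bot_iff.mp ((commutator_mono (commutator_mono h5 h5) (commutator_mono h5 h5)).trans
      (ito hA (isMulCommutative_iff_forall.mp (commutator_self_eq_bot_iff.mp h3))
        (hf.perm le_sup_left inf_le_right)).le)
  have h5 := ih (G ⧸ K) (A.map (QuotientGroup.mk' K)) (B.map (QuotientGroup.mk' K)) (by
      rintro _ ⟨a, ha, rfl⟩ _ ⟨a', ha', rfl⟩
      rw [← map_mul, hA a ha a' ha', map_mul]) (by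
      rw [← map_commutator, ← commutator_eq_bot_iff_le_centralizer, ← map_commutator,
        commutator_eq_bot_iff_le_centralizer.mpr hB, Subgroup.map_bot]) (h.map (QuotientGroup.mk'_surjective K)) (by
      have e := congrArg ArithmeticFunction.cardFactors (SolvBasic.card_map_mk_mul ⁅B, B⁆ K)
      rw [ArithmeticFunction.cardFactors_mul Nat.card_pos.ne' Nat.card_pos.ne', map_commutator] at e
      have h6 := ArithmeticFunction.cardFactors_pos_iff_one_lt.mpr ((one_lt_card_iff_ne_bot (K ⊓ ⁅B, B⁆)).mpr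
        fun e => hz1 (mem_bot.mp (e ▸ mem_inf.mpr ⟨hzK, hz⟩)))
      simp only [ArithmeticFunction.cardFactors_apply] at e h6
      omega)
  rw [← map_derivedSeries_eq (QuotientGroup.mk'_surjective K), SolvBasic.map_mk_eq_bot_iff] at h5
  rw [show 2 * (1 + (n + 1)) = 2 * (1 + n) + 1 + 1 by ring, derivedSeries_succ, derivedSeries_succ]
  exact le_bot_iff.mp ((commutator_mono (commutator_mono h5 h5) (commutator_mono h5 h5)).trans h4.le)


/-- Let the finite group G be the product AB of an abelian subgroup A and a subgroup B of nilpotency class at most two, and let Ω be the number of prime factors, with multiplicity, of the order of the commutator subgroup of B. Then the term of index 2(1 + Ω) of the derived series of G is trivial. -/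
theorem result {G : Type*} [Group G] [Finite G] (A B : Subgroup G) [IsMulCommutative A] (hB : commutator ↥B ≤ Subgroup.center ↥B) (hAB : ∀ g : G, ∃ a ∈ A, ∃ b ∈ B, g = a * b) : derivedSeries G (2 * (1 + (Nat.card ↥(commutator ↥B)).primeFactorsList.length)) = ⊥ := by
  refine aux _ G A B (isMulCommutative_iff_forall.mp ‹_›) ?_ hAB ?_
  · rw [← map_subtype_commutator]
    exact (map_mono hB).trans ((map_center_subtype B).le.trans inf_le_right)
  · rw [← map_subtype_commutator, SolvBasic.card_map_subtype]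

end Cfsg.Agent.S0574
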