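import Cfsg.Statements.S0577
import Cfsg.Agent.Lib.Schmidt

set_option autoImplicit false
open Cfsg

namespace Cfsg.Agent.S0577

open Subgroup Cfsg.Agent.Lib.SolvBasic Cfsg.Agent.Lib.Schmidt Cfsg.Agent.Lib.FrattiniFacts
open Cfsg.Agent.Lib.SchurZassenhausConj Cfsg.Agent.Lib.SystemNormalizer

/-- Let G be a finite minimal non-nilpotent group and Q a normal Sylow q-subgroup of G, and let D be the commutator subgroup of Q regarded in G (a normal subgroup). Then G modulo D is non-abelian and all its proper subgroups are abelian. -/
theorem result {G : Type*} [Group G] [Finite G] (hG : Cfsg.IsMinimalNonNilpotent G) (q : ℕ) [Fact q.Prime] (hq : q ∣ Nat.card G) (Q : Sylow q G) (hQ : (Q : Subgroup G).Normal) (D : Subgroup G) [D.Normal] (hD : D = (commutator ↥(Q : Subgroup G)).map (Q : Subgroup G).subtype) : ¬ IsMulCommutative (G ⧸ D) ∧ ∀ K : Subgroup (G ⧸ D), K ≠ ⊤ → IsMulCommutative K := by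
  obtain ⟨p, r, hp, hr, hpr, P, R, h1, h2, h3, h4⟩ := structure_min_non_nilpotent hG
  have := Fact.mk hp
  have := Fact.mk hr
  have hc := IsPGroup.coprime_card_of_ne p r hpr _ _ P.isPGroup' R.isPGroup'
  have hprimes : ∀ s : ℕ, s.Prime → s ∣ Nat.card G → s = p ∨ s = r := fun s hs hd => by
    rw [← card_top, ← h3] at hd
    exact (hs.dvd_mul.mp (hd.trans (card_sup_dvd _ _))).imp
      (eq_of_prime_dvd_card_of_isPGroup P.isPGroup' hs) (eq_of_prime_dvd_card_of_isPGroup R.isPGroup' hs)
  obtain rfl : q = r := by
    refine (hprimes q Fact.out hq).resolve_left ?_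
    rintro rfl
    have := Q.unique_of_normal hQ
    obtain rfl : P = Q := Subsingleton.elim _ _
    exact h4 (le_centralizer_of_inf_eq_bot (inf_bot_of_coprime hc))
  have := Q.unique_of_normal hQ
  obtain rfl : Q = R := Subsingleton.elim _ _
  have hsurj := QuotientGroup.mk'_surjective D
  constructor
  · intro hcomm
    have h5 := Normal.quotient_commutative_iff_commutator_le.mp hcomm
    have := Q.isPGroup'.isNilpotent
    apply h4
    rw [← commutator_eq_bot_iff_le_centralizer, commutator_comm]
    refine Lib.CoprimeBasic.commutator_eq_bot_of_le_frattini hc ?_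
    exact (commutator_mono le_top le_top).trans (h5.trans (hD ▸ map_mono commutator_le_frattini))
  · have key : ∀ (s : ℕ) [Fact s.Prime] (S : Sylow s (G ⧸ D)),
        IsMulCommutative (S : Subgroup (G ⧸ D)) := by
      intro s hs S
      obtain ⟨S, rfl⟩ := Sylow.mapSurjective_surjective hsurj s S
      rw [Sylow.coe_mapSurjective]
      by_cases hd : s ∣ Nat.card G
      · rcases hprimes s hs.out hd with rfl | rfl
        · have : IsCyclic (S : Subgroup G) := isCyclic_of_surjective _ (P.equiv S).surjective
          infer_instance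
        · rw [Subsingleton.elim S Q, ← commutator_self_eq_bot_iff, ← map_commutator,
            map_mk_eq_bot_iff, hD, map_subtype_commutator]
      · have : (S : Subgroup G) = ⊥ := card_eq_one.mp (S.isPGroup'.card_eq_or_dvd.resolve_right
          fun h => hd (h.trans (card_subgroup_dvd_card _)))
        rw [this]
        infer_instance
    intro K hK
    have : Group.IsNilpotent K := by
      rw [← map_comap_eq_self_of_surjective hsurj K]
      refine isNilpotent_map (hG.2 _ fun ht => hK (comap_injective hsurj ?_)) _
      rw [ht, comap_top]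
    refine isMulCommutative_of_sylow fun s _ S => ?_
    obtain ⟨T, hT⟩ := S.exists_comap_subtype_eq
    have := key s T
    rw [← hT]
    exact comap_injective_isMulCommutative _ K.subtype_injective

end Cfsg.Agent.S0577
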