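import Cfsg.Statements.S0578
import Cfsg.Agent.Lib.Schmidt

set_option autoImplicit false
open Cfsg

namespace Cfsg.Agent.S0578

open Subgroup Cfsg.Agent.Lib.SolvBasic Cfsg.Agent.Lib.Schmidt Cfsg.Agent.Lib.FrattiniFacts

/-- If in a finite group the normalizer of each abelian subgroup coincides with its centralizer, then the group is abelian. -/
theorem result {G : Type*} [Group G] [Finite G] (h : ∀ A : Subgroup G, IsMulCommutative A → Subgroup.normalizer (A : Set G) = Subgroup.centralizer (A : Set G)) : IsMulCommutative G := by
  revert h
  refine card_induction (P := fun G _ _ => (∀ A : Subgroup G, IsMulCommutative A →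
    normalizer (A : Set G) = centralizer (A : Set G)) → IsMulCommutative G) (fun G _ _ ih => ?_) G
  intro h
  have hprop : ∀ H : Subgroup G, H ≠ ⊤ → IsMulCommutative H := fun H hH =>
    ih H (card_lt_of_ne_top hH) fun A hA => by
      refine le_antisymm (fun x hx => ?_) (centralizer_le_normalizer _)
      have h1 := le_normalizer_map H.subtype (mem_map_of_mem H.subtype hx)
      rw [h _ inferInstance] at h1
      intro a ha
      exact Subtype.ext (h1 a (mem_map_of_mem H.subtype ha))
  have := isSolvable_of_forall_proper_nilpotent G fun H hH => have := hprop H hH; isNilpotent_of_comm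
  rcases subsingleton_or_nontrivial G with h1 | h1
  · exact ⟨⟨fun _ _ => Subsingleton.elim _ _⟩⟩
  obtain ⟨M, hM, hMn⟩ := exists_normal_coatom (G := G)
  have := isCyclic_quotient_of_isCoatom hM
  refine (QuotientGroup.mk' M).isMulCommutative_of_isCyclic_of_ker_le_center ?_
  rw [QuotientGroup.ker_mk']
  refine centralizer_eq_top_iff_subset.mp ?_
  rw [← h M (hprop M hM.1), normalizer_eq_top]

end Cfsg.Agent.S0578
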