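import Cfsg.Statements.S0580
import Cfsg.Agent.Lib.Schmidt

set_option autoImplicit false
open Cfsg

namespace Cfsg.Agent.S0580

open Subgroup Cfsg.Agent.Lib.SolvBasic Cfsg.Agent.Lib.FrattiniFacts

theorem index_modEq_one {G : Type*} [Group G] [Finite G] {p : ℕ} [hp : Fact p.Prime] (P : Sylow p G)
    {M : Subgroup G} (h : normalizer ((P : Subgroup G) : Set G) ≤ M) : M.index ≡ 1 [MOD p] := by
  have hPM : (P : Subgroup G) ≤ M := le_normalizer.trans h
  have h1 := card_sylow_modEq_one p G
  have h2 := card_sylow_modEq_one p M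
  rw [P.card_eq_index_normalizer] at h1
  rw [(P.subtype hPM).card_eq_index_normalizer] at h2
  have h3 : (normalizer ((P.subtype hPM : Sylow p M) : Set M)).index =
      (normalizer ((P : Subgroup G) : Set G)).relIndex M := by
    rw [relIndex, subgroupOf_normalizer_eq hPM]; rfl
  rw [h3] at h2
  have h4 := relIndex_mul_index h
  have h5 := h2.mul_right M.index
  rw [h4, one_mul] at h5
  exact h5.symm.trans h1

theorem sylow_normal {G : Type*} [Group G] [Finite G] (h : ∀ M : Subgroup G, IsCoatom M → M.index.Prime)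
    {p : ℕ} [hp : Fact p.Prime] (hmax : ∀ q : ℕ, q.Prime → q ∣ Nat.card G → q ≤ p) (P : Sylow p G) :
    (P : Subgroup G).Normal := by
  rw [← normalizer_eq_top_iff]
  by_contra hne
  obtain ⟨M, hM, hle⟩ := exists_coatom_ge hne
  have h1 := index_modEq_one P hle
  have h2 := h M hM
  have h3 := hmax _ h2 (index_dvd_card M)
  rcases h3.eq_or_lt with h4 | h4
  · exact P.not_dvd_index (h4.symm.dvd.trans (index_dvd_of_le (le_normalizer.trans hle)))
  · exact h2.ne_one (h1.eq_of_lt_of_lt h4 hp.out.one_lt)

theorem hyp_quotient {G : Type*} [Group G] (h : ∀ M : Subgroup G, IsCoatom M → M.index.Prime)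
    (N : Subgroup G) [N.Normal] (M : Subgroup (G ⧸ N)) (hM : IsCoatom M) : M.index.Prime := by
  have := h _ (isCoatom_comap_mk hM)
  rwa [index_comap_of_surjective _ (QuotientGroup.mk'_surjective N)] at this

theorem exists_max_prime (G : Type*) [Group G] [Finite G] [Nontrivial G] :
    ∃ p : ℕ, p.Prime ∧ p ∣ Nat.card G ∧ ∀ q : ℕ, q.Prime → q ∣ Nat.card G → q ≤ p := by
  have hne : ((Nat.card G).primeFactors).Nonempty :=
    Nat.nonempty_primeFactors.mpr Finite.one_lt_card
  have hp := Nat.mem_primeFactors.mp ((Nat.card G).primeFactors.max'_mem hne)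
  exact ⟨_, hp.1, hp.2.1, fun q hq hd =>
    Finset.le_max' _ q (Nat.mem_primeFactors.mpr ⟨hq, hd, hp.2.2⟩)⟩

/-- If every maximal subgroup of a finite group has prime index, then the group is solvable. -/
theorem result {G : Type*} [Group G] [Finite G] (h : ∀ M : Subgroup G, IsCoatom M → M.index.Prime) : Group.IsSolvable G := by
  revert h
  refine card_induction (P := fun G _ _ => (∀ M : Subgroup G, IsCoatom M → M.index.Prime) →
    Group.IsSolvable G) (fun G _ _ ih => ?_) G
  intro h
  rcases subsingleton_or_nontrivial G with h1 | h1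
  · infer_instance
  obtain ⟨p, hp, hd, hmax⟩ := exists_max_prime G
  have := Fact.mk hp
  obtain ⟨P⟩ : Nonempty (Sylow p G) := inferInstance
  have := sylow_normal h hmax P
  have := P.isPGroup'.isNilpotent
  exact (Group.isSolvable_iff_subgroup_quotient (P : Subgroup G)).mpr ⟨inferInstance,
    ih _ (card_quotient_lt (P.ne_bot_of_dvd_card hd)) (hyp_quotient h _)⟩

end Cfsg.Agent.S0580
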