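import Cfsg.Statements.S0579
import Cfsg.Agent.Lib.Schmidt
import Cfsg.Agent.S0580

set_option autoImplicit false
open Cfsg

namespace Cfsg.Agent.S0579

open Subgroup Cfsg.Agent.Lib.SolvBasic Cfsg.Agent.Lib.FrattiniFacts Cfsg.Agent.Lib.Schmidt
open Cfsg.Agent.Lib.Supersolvable Cfsg.Agent.Lib.SchurZassenhausConj Cfsg.Agent.S0580
open scoped Pointwise commutatorElement

open Polynomial in
theorem exists_eigenvector_aux {V : Type*} [AddCommGroup V] [Finite V] [Nontrivial V]
    {p : ℕ} [hp : Fact p.Prime] [Module (ZMod p) V] (f : Module.End (ZMod p) V) (hT : f ^ p = f) :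
    ∃ x : V, x ≠ 0 ∧ ∃ a : ℕ, f x = a • x := by
  have h1 : aeval f (X ^ p - X : (ZMod p)[X]) = 0 := by
    rw [map_sub, map_pow, aeval_X, sub_eq_zero, hT]
  have h2 : (X ^ p - X : (ZMod p)[X]).Splits := by
    have := FiniteField.splits_X_pow_card_sub_X p (K := ZMod p)
    rwa [Algebra.algebraMap_self, Polynomial.map_id, ZMod.card] at this
  have h3 := h2.of_dvd (FiniteField.X_pow_card_sub_X_ne_zero _ hp.out.one_lt) (minpoly.dvd _ _ h1)
  obtain ⟨a, ha⟩ := h3.exists_eval_eq_zero
    (minpoly.degree_pos (Algebra.IsIntegral.isIntegral f)).ne'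
  obtain ⟨x, hx⟩ := (Module.End.hasEigenvalue_of_isRoot ha).exists_hasEigenvector
  refine ⟨x, hx.2, a.val, ?_⟩
  have := hx.apply_eq_smul
  rwa [← ZMod.natCast_zmod_val a, Nat.cast_smul_eq_nsmul] at this

theorem exists_eigenvector_aux' {V : Type*} [AddCommGroup V] [Finite V] [Nontrivial V]
    {p : ℕ} [hp : Fact p.Prime] [Module (ZMod p) V] (g : V →+ V) (hT : ∀ x, g^[p] x = g x) :
    ∃ x : V, x ≠ 0 ∧ ∃ a : ℕ, g x = a • x :=
  exists_eigenvector_aux (p := p) (g.toZModLinearMap p) (by
    ext x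
    rw [Module.End.pow_apply]
    exact hT x)

/-- an automorphism `T` with `T ^ p = T` of a nontrivial elementary abelian `p`-group has an
eigenvector. -/
theorem exists_eigenvector {N : Type*} [CommGroup N] [Finite N] [Nontrivial N]
    {p : ℕ} [hp : Fact p.Prime] (hN : ∀ x : N, x ^ p = 1) (T : MulAut N) (hT : T ^ p = T) :
    ∃ x : N, x ≠ 1 ∧ ∃ a : ℕ, T x = x ^ a := by
  let _ : Module (ZMod p) (Additive N) := AddCommGroup.zmodModule fun x => hN x.toMul
  let g : Additive N →+ Additive N := MonoidHom.toAdditive T.toMonoidHom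
  have hf : ∀ (n : ℕ) (x : N), g^[n] (Additive.ofMul x) = Additive.ofMul ((T ^ n) x) := by
    intro n
    induction n with
    | zero => intro x; rfl
    | succ n ih => intro x; rw [pow_succ, Function.iterate_succ_apply]; exact ih (T x)
  obtain ⟨x, hx, a, ha⟩ := exists_eigenvector_aux' (p := p) g (fun x => by
    rw [← ofMul_toMul x, hf, hT]; rfl)
  exact ⟨x.toMul, hx, a, congrArg Additive.toMul ha⟩

/-- In a supersolvable group a `p'`-element killed by all homomorphisms to `(ℤ/p)ˣ` centralizes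
every normal `p`-subgroup. -/
theorem centralizes {p : ℕ} [hp : Fact p.Prime] (G : Type*) [Group G] [Finite G] :
    IsSupersolvable G → ∀ (A R : Subgroup G), A.Normal → IsPGroup p A → ¬ p ∣ Nat.card R →
      (∀ φ : G →* (ZMod p)ˣ, R ≤ φ.ker) → ⁅A, R⁆ = ⊥ := by
  refine card_induction (P := fun G _ _ => IsSupersolvable G → ∀ (A R : Subgroup G), A.Normal →
    IsPGroup p A → ¬ p ∣ Nat.card R → (∀ φ : G →* (ZMod p)ˣ, R ≤ φ.ker) → ⁅A, R⁆ = ⊥)
    (fun G _ _ ih => ?_) G
  intro hG A R hA hpA hR hφ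
  by_cases hA0 : A = ⊥
  · rw [hA0, commutator_bot_left]
  obtain ⟨B, hB, hBA, hBp⟩ := exists_normal_prime_le hG A hA0
  have hBc : Nat.card B = p := eq_of_prime_dvd_card_of_isPGroup (hpA.to_le hBA) hBp dvd_rfl
  have hB0 : B ≠ ⊥ := by rintro rfl; rw [card_bot] at hBp; exact Nat.not_prime_one hBp
  have hsurj := QuotientGroup.mk'_surjective B
  have h1 := ih _ (card_quotient_lt hB0) (ss_quotient hG B) _ (R.map (QuotientGroup.mk' B))
    (hA.map _ hsurj) (hpA.map _) (fun h => hR (h.trans (card_map_dvd _ _)))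
    (fun φ => map_le_iff_le_comap.mpr (hφ (φ.comp (QuotientGroup.mk' B))))
  rw [← map_commutator, map_mk_eq_bot_iff] at h1
  refine Lib.CoprimeBasic.commutator_eq_bot_of_commutator_le (le_normalizer_of_normal' _ _)
    (Lib.CoprimeBasic.coprime_of_isPGroup_right hpA hR) h1 ?_
  have : IsCyclic B := isCyclic_of_prime_card hBc
  subst hBc
  have h2 := hφ ((IsCyclic.mulAutMulEquiv B).toMonoidHom.comp MulAut.conjNormal)
  rw [commutator_comm, commutator_eq_bot_iff_le_centralizer]
  intro r hr b hb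
  have h3 : MulAut.conjNormal (H := B) r = 1 := (IsCyclic.mulAutMulEquiv B).map_eq_one_iff.mp (h2 hr)
  have h4 : r * b * r⁻¹ = b := congrArg (fun φ : MulAut B => ((φ ⟨b, hb⟩ : B) : G)) h3
  exact (mul_inv_eq_iff_eq_mul.mp h4).symm

/-- Huppert's supersolvability criterion: if every maximal subgroup of a finite group has prime index, then the group is supersolvable. -/
theorem result {G : Type*} [Group G] [Finite G] (h : ∀ M : Subgroup G, IsCoatom M → M.index.Prime) : Cfsg.IsSupersolvable G := by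
  revert h
  refine card_induction (P := fun G _ _ => (∀ M : Subgroup G, IsCoatom M → M.index.Prime) →
    IsSupersolvable G) (fun G _ _ ih => ?_) G
  intro h
  rcases subsingleton_or_nontrivial G with h1 | h1
  · exact ss_of_subsingleton
  have hquot : ∀ (K : Subgroup G) [K.Normal], K ≠ ⊥ → IsSupersolvable (G ⧸ K) := fun K _ hK =>
    ih _ (card_quotient_lt hK) (hyp_quotient h K)
  have := Cfsg.Agent.S0580.result h
  obtain ⟨p, hp, hd, hmax⟩ := exists_max_prime G
  have := Fact.mk hp
  obtain ⟨P⟩ : Nonempty (Sylow p G) := inferInstance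
  have hPn := sylow_normal h hmax P
  obtain ⟨N, hN, hNP⟩ := exists_minNormal_le (P : Subgroup G) (P.ne_bot_of_dvd_card hd)
  have := hN.normal
  have := hN.isMulCommutative
  by_contra hG
  have huniq : ∀ (K : Subgroup G) [K.Normal], K ≠ ⊥ → N ≤ K := fun K _ hK =>
    (hN.inf_eq K).resolve_left fun h0 =>
      hG (ss_of_inf_eq_bot N K h0 (hquot N hN.ne_bot) (hquot K hK))
  have hΦ : N ≤ frattini G := le_frattini_iff.mpr fun M hM => by
    by_contra hNM
    have h2 := h M hM
    rw [(isComplement'_of_minNormal hN hM hNM).index_eq_card] at h2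
    exact hG (ss_of_prime_normal N h2 (hquot N hN.ne_bot))
  have hpN : IsPGroup p N := P.isPGroup'.to_le hNP
  obtain ⟨H, hH⟩ := exists_right_complement'_of_coprime (N := (P : Subgroup G)) P.card_coprime_index
  have hpH : ¬ p ∣ Nat.card H := hH.symm.index_eq_card ▸ P.not_dvd_index
  have hsurj := QuotientGroup.mk'_surjective N
  set R : Subgroup G := ⨅ φ : G →* (ZMod p)ˣ, φ.ker
  have hRn : R.Normal := normal_iInf_normal fun φ => inferInstance
  have hpH₀ : ¬ p ∣ Nat.card (H ⊓ R : Subgroup G) := fun h => hpH (h.trans (card_dvd_of_le inf_le_left))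
  have h2 := centralizes (p := p) _ (hquot N hN.ne_bot) _ ((H ⊓ R).map (QuotientGroup.mk' N))
    (hPn.map _ hsurj) (P.isPGroup'.map _) (fun h => hpH₀ (h.trans (card_map_dvd _ _)))
    (fun φ => map_le_iff_le_comap.mpr
      (inf_le_right.trans (iInf_le (fun φ : G →* (ZMod p)ˣ => φ.ker) (φ.comp (QuotientGroup.mk' N)))))
  rw [← map_commutator, map_mk_eq_bot_iff] at h2
  have h3 : ((H ⊓ R) ⊔ N).Normal := by
    refine normal_of_sup_eq_top ?_ (Lib.CoprimeBasic.le_normalizer_sup
      (le_normalizer_inf_of_normal H R) (le_normalizer_of_normal' _ _)) hH.sup_eq_top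
    intro g hg
    rw [← conj_smul_eq_iff]
    refine eq_of_le_of_card_ge ?_ (card_smul _ _).ge
    rw [smul_sup, conj_smul_normal g N]
    refine sup_le (fun y hy => ?_) le_sup_right
    have h4 := mem_conj_smul_iff.mp hy
    have : y = ⁅g, g⁻¹ * y * g⁆ * (g⁻¹ * y * g) := by rw [commutatorElement_def]; group
    rw [this]
    exact mul_mem (mem_sup_right (h2 (commutator_mem_commutator hg h4))) (mem_sup_left h4)
  have hc : (Nat.card N).Coprime (Nat.card (H ⊓ R : Subgroup G)) :=
    Lib.CoprimeBasic.coprime_of_isPGroup_left hpN hpH₀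
  have h4 : (H ⊓ R).Normal := by
    refine normalizer_eq_top_iff.mp (eq_top_of_sup_le_frattini hΦ (top_le_iff.mp fun g _ => ?_))
    have h5 := conj_smul_normal g ((H ⊓ R) ⊔ N)
    rw [smul_sup, conj_smul_normal g N, sup_comm, sup_comm (H ⊓ R)] at h5
    obtain ⟨n, hn, hn'⟩ := exists_conj_of_sup_eq (le_normalizer_of_normal' _ N)
      (by rwa [card_smul]) hc h5 (Or.inl inferInstance)
    rw [conj_smul_conj_smul, conj_smul_eq_iff] at hn'
    rw [← inv_mul_cancel_left n g]
    exact mul_mem (mem_sup_right (inv_mem hn)) (mem_sup_left hn')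
  have h5 : H ⊓ R = ⊥ := by
    by_contra hne
    exact hN.ne_bot (by rw [← inf_bot_of_coprime hc, inf_of_le_left (huniq _ hne)])
  have hHcomm : ∀ a ∈ H, ∀ b ∈ H, a * b = b * a := fun a ha b hb => by
    rw [← commutatorElement_eq_one_iff_mul_comm, ← mem_bot, ← h5]
    refine ⟨H.commutator_le_self (commutator_mem_commutator ha hb), mem_iInf.mpr fun φ => ?_⟩
    exact Abelianization.commutator_subset_ker φ (commutator_mem_commutator trivial trivial)
  have hHpow : ∀ a ∈ H, a ^ p = a := fun a ha => by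
    have : a ^ (p - 1) = 1 := by
      rw [← mem_bot, ← h5]
      exact ⟨pow_mem ha _, mem_iInf.mpr fun φ => by
        rw [MonoidHom.mem_ker, map_pow, ZMod.units_pow_card_sub_one_eq_one]⟩
    rw [← Nat.sub_add_cancel hp.one_le, pow_succ, this, one_mul]
  have := P.isPGroup'.isNilpotent
  have hPN : (P : Subgroup G) ≤ centralizer (N : Set G) := le_centralizer_minNormal hN
  have hNp := hN.exists_prime_pow_eq_one hp
    (hpN.card_eq_or_dvd.resolve_left (N.one_lt_card_iff_ne_bot.mpr hN.ne_bot).ne')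
  have : Nontrivial N := (nontrivial_iff_ne_bot N).mpr hN.ne_bot
  -- every element of `H` acts as a power map on `N`
  have hpow : ∀ a ∈ H, ∃ k : ℕ, ∀ x ∈ N, a * x * a⁻¹ = x ^ k := fun a ha => by
    obtain ⟨x, hx, k, hk⟩ : ∃ x : N, x ≠ 1 ∧ ∃ k : ℕ, MulAut.conjNormal a x = x ^ k := by
      open scoped IsMulCommutative in
      exact exists_eigenvector (N := N) (fun x : N => Subtype.ext (hNp x x.2))
        (MulAut.conjNormal a) (by rw [← map_pow, hHpow a ha])
    let E : Subgroup G :=
      { carrier := {x | x ∈ N ∧ a * x * a⁻¹ = x ^ k}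
        mul_mem' := by
          rintro x y ⟨hx, hx'⟩ ⟨hy, hy'⟩
          refine ⟨mul_mem hx hy, ?_⟩
          rw [Commute.mul_pow (setLike_mul_comm hx hy), ← hx', ← hy']; group
        one_mem' := ⟨one_mem _, by simp⟩
        inv_mem' := by
          rintro x ⟨hx, hx'⟩
          exact ⟨inv_mem hx, by rw [inv_pow, ← hx']; group⟩ }
    have hEN : E ≤ N := fun x hx => hx.1
    have hE : E.Normal := by
      refine normal_of_sup_eq_top ((hPN.trans (centralizer_le hEN)).trans
        (centralizer_le_normalizer _)) ?_ hH.sup_eq_top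
      rw [le_normalizer_iff]
      rintro b hb y ⟨hy, hy'⟩
      refine ⟨hN.normal.conj_mem y hy b, ?_⟩
      rw [conj_pow, ← hy']
      calc a * (b * y * b⁻¹) * a⁻¹ = (a * b) * y * (a * b)⁻¹ := by group
        _ = _ := by rw [hHcomm a ha b hb]; group
    rcases hN.min E hE hEN with h | h
    · exact absurd (Subtype.ext (mem_bot.mp (h ▸ (⟨x.2, congrArg Subtype.val hk⟩ : (x : G) ∈ E)))) hx
    · exact ⟨k, fun x hx => (h.ge hx).2⟩
  obtain ⟨x, hx, hx1⟩ := (bot_or_exists_ne_one N).resolve_left hN.ne_bot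
  have hxn : (zpowers x).Normal := by
    refine normal_of_sup_eq_top ((hPN.trans (centralizer_le (zpowers_le.mpr hx))).trans
      (centralizer_le_normalizer _)) ?_ hH.sup_eq_top
    rw [le_normalizer_iff]
    intro a ha y hy
    obtain ⟨k, hk⟩ := hpow a ha
    rw [hk y (zpowers_le.mpr hx hy)]
    exact pow_mem hy k
  exact hG (ss_of_cyclic_normal (zpowers x) (hquot _ (by rwa [Ne, zpowers_eq_bot])))

end Cfsg.Agent.S0579
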