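import Cfsg.Statements.S0581
import Cfsg.Agent.Lib.Schmidt

set_option autoImplicit false
open Pointwise
open Cfsg

namespace Cfsg.Agent.S0581

open Subgroup Cfsg.Agent.Lib.SolvBasic Cfsg.Agent.Lib.Schmidt Cfsg.Agent.Lib.Hall
open Cfsg.Agent.Lib.SchurZassenhausConj Cfsg.Agent.Lib.SystemNormalizer

/-- Let H be a nilpotent subgroup of a finite group G whose order is coprime to its index, and K a subgroup every prime divisor of whose order divides the order of H. Then K lies in some conjugate of H. -/
theorem result {G : Type*} [Group G] [Finite G] (H K : Subgroup G) (hH : Group.IsNilpotent H) (hHall : (Nat.card H).Coprime H.index) (hK : ∀ p : ℕ, p.Prime → p ∣ Nat.card K → p ∣ Nat.card H) : ∃ x : G, K ≤ MulAut.conj x • H := by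
  induction K using WellFoundedLT.induction with
  | ind K ih =>
  by_cases hK0 : K = ⊥
  · exact ⟨1, hK0 ▸ bot_le⟩
  have : Nontrivial K := (nontrivial_iff_ne_bot K).mpr hK0
  have hlt : ∀ L : Subgroup K, L ≠ ⊤ → ∃ x : G, L.map K.subtype ≤ MulAut.conj x • H := by
    intro L hL
    refine ih _ (lt_of_le_of_ne (map_subtype_le _) fun he => hL ?_) fun p hp hd =>
      hK p hp (hd.trans (card_dvd_of_le (map_subtype_le _)))
    apply map_injective K.subtype_injective
    rw [he, ← MonoidHom.range_eq_map, range_subtype]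
  obtain ⟨p, hp, hd, L₀, hL₀n, hL₀t, hL₀⟩ := exists_normal_hall_compl (G := K) fun L hL => by
    obtain ⟨x, hx⟩ := hlt L hL
    have := isNilpotent_of_le (isNilpotent_map hH (MulAut.conj x).toMonoidHom) hx
    exact Group.nilpotent_of_mulEquiv (L.equivMapOfInjective K.subtype K.subtype_injective).symm
  have := Fact.mk hp
  obtain ⟨x, hx⟩ := hlt L₀ hL₀t
  set L := L₀.map K.subtype
  set H' := MulAut.conj x • H
  have hH' : Group.IsNilpotent H' := isNilpotent_map hH (MulAut.conj x).toMonoidHom
  have hKL : K ≤ normalizer (L : Set G) := Lib.FStar.le_normalizer_map_subtype L₀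
  obtain ⟨H₁⟩ : Nonempty (Sylow p H') := inferInstance
  have hH₁ : ¬ p ∣ ((H₁ : Subgroup H').map H'.subtype).index := by
    rw [index_map_subtype, index_smul]
    exact fun h => (hp.dvd_mul.mp h).elim H₁.not_dvd_index
      fun h => hp.ne_one (Nat.eq_one_of_dvd_coprimes hHall (hK p hp hd) h)
  have hH₁L : (H₁ : Subgroup H').map H'.subtype ≤ normalizer (L : Set G) :=
    (le_centralizer_of_coprime hH' (map_subtype_le _) hx
      (Lib.CoprimeBasic.coprime_of_isPGroup_left (H₁.isPGroup'.map _)
        fun h => piSub_map hL₀.1 K.subtype p hp h rfl)).trans (centralizer_le_normalizer _)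
  obtain ⟨P⟩ : Nonempty (Sylow p K) := inferInstance
  obtain ⟨n, hn, hPn⟩ := exists_le_conj_of_isPGroup (H₁.isPGroup'.map _) hH₁L
    (fun h => hH₁ (h.trans (relIndex_dvd_index_of_le hH₁L))) (P.isPGroup'.map K.subtype)
    ((map_subtype_le _).trans hKL)
  have hsup : L₀ ⊔ (P : Subgroup K) = ⊤ := sup_eq_top_of_coprime_index
    (Nat.coprime_of_dvd fun q hq h1 h2 => by
      by_cases hqp : q = p
      · exact P.not_dvd_index (hqp ▸ h2)
      · exact hL₀.2 q hq hqp h1)
  refine ⟨n * x, ?_⟩
  rw [← conj_smul_conj_smul, ← range_subtype K, MonoidHom.range_eq_map, ← hsup, Subgroup.map_sup]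
  refine sup_le ?_ (hPn.trans (conj_smul_mono n (map_subtype_le _)))
  rw [← conj_smul_eq_iff] at hn
  exact hn.ge.trans (conj_smul_mono n hx)

end Cfsg.Agent.S0581
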