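import Cfsg.Statements.S0582
import Cfsg.Agent.Lib.Schmidt
import Cfsg.Agent.S0580

set_option autoImplicit false
open Pointwise
open Cfsg

namespace Cfsg.Agent.S0582

open Subgroup Cfsg.Agent.Lib.SolvBasic Cfsg.Agent.Lib.Supersolvable
open Cfsg.Agent.Lib.SchurZassenhausConj

/-- Let H and K be supersolvable subgroups of a finite group G of the same order, that order being coprime to their index. Then H and K are conjugate in G. -/
theorem result {G : Type*} [Group G] [Finite G] (H K : Subgroup G) (hH : Cfsg.IsSupersolvable H) (hK : Cfsg.IsSupersolvable K) (hcard : Nat.card H = Nat.card K) (hHall : (Nat.card H).Coprime H.index) : ∃ x : G, MulAut.conj x • H = K := by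
  revert H K
  refine card_induction (P := fun G _ _ => ∀ H K : Subgroup G, IsSupersolvable H →
    IsSupersolvable K → Nat.card H = Nat.card K → (Nat.card H).Coprime H.index →
    ∃ x : G, MulAut.conj x • H = K) (fun G _ _ ih => ?_) G
  intro H K hH hK hcard hHall
  by_cases hH0 : H = ⊥
  · rw [hH0, card_bot, eq_comm, card_eq_one] at hcard
    exact ⟨1, by rw [conj_one_smul, hH0, hcard]⟩
  have : Nontrivial H := (nontrivial_iff_ne_bot H).mpr hH0
  obtain ⟨p, hp, hd, hmax⟩ := Cfsg.Agent.S0580.exists_max_prime H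
  have := Fact.mk hp
  have hidx : K.index = H.index := by
    have := K.card_mul_index.trans H.card_mul_index.symm
    rw [← hcard] at this
    exact Nat.eq_of_mul_eq_mul_left Nat.card_pos this
  have hpi : ¬ p ∣ H.index := fun h => hp.ne_one (Nat.eq_one_of_dvd_coprimes hHall hd h)
  have key : ∀ X : Subgroup G, IsSupersolvable X → Nat.card X = Nat.card H → X.index = H.index →
      ∃ P : Subgroup G, IsPGroup p P ∧ ¬ p ∣ P.index ∧ P ≤ X ∧ X ≤ normalizer (P : Set G) := by
    intro X hX h1 h2
    obtain ⟨P⟩ : Nonempty (Sylow p X) := inferInstance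
    have := sylow_normal_of_max_prime hX (h1 ▸ hmax) P
    refine ⟨_, P.isPGroup'.map X.subtype, ?_, map_subtype_le _,
      Lib.FStar.le_normalizer_map_subtype _⟩
    rw [index_map_subtype, h2]
    exact fun h => (hp.dvd_mul.mp h).elim P.not_dvd_index hpi
  obtain ⟨P, hP1, hP2, hP3, hP4⟩ := key H hH rfl rfl
  obtain ⟨Q, hQ1, hQ2, hQ3, hQ4⟩ := key K hK hcard.symm hidx
  obtain ⟨g, hg⟩ := MulAction.exists_smul_eq G (hP1.toSylow hP2) (hQ1.toSylow hQ2)
  have hg' : MulAut.conj g • P = Q := congrArg Sylow.toSubgroup hg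
  set H' := MulAut.conj g • H with hH'
  have h1 : Q ≤ H' := hg' ▸ conj_smul_mono g hP3
  have h2 : H' ≤ normalizer (Q : Set G) := by
    rw [← hg', normalizer_conj_smul]; exact conj_smul_mono g hP4
  have h3 : IsSupersolvable H' := ss_map (MulAut.conj g).toMonoidHom hH
  have h4 : Nat.card H' = Nat.card K := by rw [hH', card_smul, hcard]
  have h5 : (Nat.card H').Coprime H'.index := by rwa [hH', card_smul, index_smul]
  suffices ∃ x : G, MulAut.conj x • H' = K by
    obtain ⟨x, hx⟩ := this
    exact ⟨x * g, by rw [← conj_smul_conj_smul, hx]⟩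
  by_cases hL : normalizer (Q : Set G) = ⊤
  · have : Q.Normal := normalizer_eq_top_iff.mp hL
    have hQ0 : Q ≠ ⊥ := (hQ1.toSylow hQ2).ne_bot_of_dvd_card (hd.trans (card_subgroup_dvd_card H))
    have hsurj := QuotientGroup.mk'_surjective Q
    obtain ⟨x, hx⟩ := ih _ (card_quotient_lt hQ0) _ _ (ss_map (QuotientGroup.mk' Q) h3)
      (ss_map (QuotientGroup.mk' Q) hK)
      (by
        have e1 := card_map_mk_mul H' Q
        have e2 := card_map_mk_mul K Q
        rw [inf_of_le_left h1] at e1
        rw [inf_of_le_left hQ3, ← h4, ← e1] at e2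
        exact (Nat.eq_of_mul_eq_mul_right Nat.card_pos e2).symm)
      ((h5.coprime_dvd_left (card_map_dvd _ _)).coprime_dvd_right (index_map_dvd _ hsurj))
    obtain ⟨x, rfl⟩ := hsurj x
    refine ⟨x, ?_⟩
    have := congrArg (comap (QuotientGroup.mk' Q)) hx
    rwa [← map_conj_smul, comap_map_mk, comap_map_mk, sup_of_le_left hQ3, sup_of_le_left] at this
    rw [← conj_smul_normal x Q]
    exact conj_smul_mono x h1
  · obtain ⟨x, hx⟩ := ih _ (card_lt_of_ne_top hL) _ _ (ss_subgroupOf h3 _) (ss_subgroupOf hK _)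
      (by rw [card_subgroupOf h2, card_subgroupOf hQ4, h4])
      (by rw [card_subgroupOf h2]; exact h5.coprime_dvd_right (relIndex_dvd_index_of_le h2))
    refine ⟨x, ?_⟩
    have := congrArg (map (normalizer (Q : Set G)).subtype) hx
    rwa [map_subtype_conj_smul, map_subgroupOf_eq_of_le h2, map_subgroupOf_eq_of_le hQ4] at this

end Cfsg.Agent.S0582
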