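import Cfsg.Statements.S0586
import Cfsg.Agent.Lib.FrattiniFacts

set_option autoImplicit false
open Cfsg

namespace Cfsg.Agent.S0586

open Subgroup Cfsg.Agent.Lib.SolvBasic Cfsg.Agent.Lib.FrattiniFacts Cfsg.Agent.Lib.FStar

theorem isMulCommutative_of_le {G : Type*} [Group G] {A B : Subgroup G} [IsMulCommutative B]
    (h : A ≤ B) : IsMulCommutative A :=
  ⟨⟨fun a b => Subtype.ext (setLike_mul_comm (h a.2) (h b.2))⟩⟩

/-- If the Frattini subgroup of a finite group G is trivial, then the Fitting subgroup of G equals the join of all abelian minimal normal subgroups of G. -/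
theorem result {G : Type*} [Group G] [Finite G] (hΦ : frattini G = ⊥) : Cfsg.fittingSubgroup G = sSup {N : Subgroup G | N.Normal ∧ N ≠ ⊥ ∧ IsMulCommutative N ∧ ∀ K : Subgroup G, K.Normal → K ≤ N → K = ⊥ ∨ K = N} := by
  have hFn := fitting_normal (G := G)
  have hFnil := fitting_isNilpotent (G := G)
  have hFc : IsMulCommutative (fittingSubgroup G) := by
    rw [← commutator_eq_bot_iff, ← map_eq_bot_iff_of_injective _ (subtype_injective _), eq_bot_iff,
      ← hΦ]
    exact (map_mono commutator_le_frattini).trans (map_frattini_le_of_normal _)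
  set S := sSup {N : Subgroup G | N.Normal ∧ N ≠ ⊥ ∧ IsMulCommutative N ∧
    ∀ K : Subgroup G, K.Normal → K ≤ N → K = ⊥ ∨ K = N}
  have hSF : S ≤ fittingSubgroup G := sSup_le fun N hN => le_fitting hN.1 (by
    have := hN.2.2.1
    exact (open scoped IsMulCommutative in CommGroup.isNilpotent))
  have hSn : S.Normal := sSup_normal _ fun N hN => hN.1
  have hSc : IsMulCommutative S := isMulCommutative_of_le hSF
  obtain ⟨H, hH⟩ := exists_isComplement'_of_inf_frattini S (by rw [hΦ, inf_bot_eq])
  have h1 : (H ⊓ fittingSubgroup G).Normal :=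
    inf_normal_of_comm (top_le_iff.mp (hH.sup_eq_top ▸ sup_le_sup_right hSF H))
  have h2 : H ⊓ fittingSubgroup G = ⊥ := by
    by_contra hc
    obtain ⟨M, hM, hMle⟩ := exists_minNormal_le _ hc
    refine hM.ne_bot (le_bot_iff.mp (hH.disjoint.le_bot.trans' (le_inf ?_ (hMle.trans inf_le_left))))
    exact le_sSup ⟨hM.normal, hM.ne_bot, isMulCommutative_of_le (hMle.trans inf_le_right), hM.min⟩
  have h3 := dedekind_normal_left (B := H) hSF
  rw [hH.sup_eq_top, top_inf_eq, h2, sup_bot_eq] at h3
  exact h3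

end Cfsg.Agent.S0586
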