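import Cfsg.Statements.S0587
import Cfsg.Agent.Lib.FrattiniFacts

set_option autoImplicit false
open Cfsg

namespace Cfsg.Agent.S0587

open Subgroup Cfsg.Agent.Lib.SolvBasic Cfsg.Agent.Lib.FrattiniFacts Cfsg.Agent.Lib.FStar
open Cfsg.Agent.Lib.SchurZassenhausConj

/-- `|L| ≡ |C_L(Q)| mod q` for a `q`-group `Q` and a normal subgroup `L`. -/
theorem card_modEq {G : Type*} [Group G] [Finite G] {q : ℕ} [Fact q.Prime] {L Q : Subgroup G}
    [L.Normal] (hQ : IsPGroup q Q) :
    Nat.card L ≡ Nat.card (L ⊓ centralizer (Q : Set G) : Subgroup G) [MOD q] := by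
  let _ : MulAction Q L := MulAction.compHom L ((MulAut.conjNormal (H := L)).comp Q.subtype)
  have h := hQ.card_modEq_card_fixedPoints L
  suffices he : Nat.card (MulAction.fixedPoints Q L) =
      Nat.card (L ⊓ centralizer (Q : Set G) : Subgroup G) from he ▸ h
  refine Nat.card_congr
    { toFun := fun x => ⟨x.1.1, x.1.2, fun g hg => ?_⟩
      invFun := fun x => ⟨⟨x.1, x.2.1⟩, fun g => Subtype.ext ?_⟩
      left_inv := fun _ => rfl
      right_inv := fun _ => rfl }
  · have : g * x.1.1 * g⁻¹ = x.1.1 := congrArg Subtype.val (x.2 ⟨g, hg⟩)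
    exact mul_inv_eq_iff_eq_mul.mp this
  · change (g : G) * x.1 * (g : G)⁻¹ = x.1
    rw [x.2.2 g g.2, mul_inv_cancel_right]

/-- Let G be a finite group whose largest normal p-subgroup L is nontrivial, and M a maximal subgroup of G with trivial normal core. Then L is elementary abelian, M is a complement to L, L is a minimal normal subgroup of G, the centralizer of L is L, and for every prime q such that the largest normal q-subgroup of M is nontrivial, the order of L is congruent to 1 modulo q and q ≠ p. -/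
theorem result {G : Type*} [Group G] [Finite G] (p : ℕ) [Fact p.Prime] (hL : Cfsg.pCore p G ≠ ⊥) (M : Subgroup G) (hM : IsCoatom M) (hcore : M.normalCore = ⊥) : Cfsg.IsElementaryAbelian p (Cfsg.pCore p G) ∧ Subgroup.IsComplement' (Cfsg.pCore p G) M ∧ (∀ K : Subgroup G, K.Normal → K ≤ Cfsg.pCore p G → K = ⊥ ∨ K = Cfsg.pCore p G) ∧ Subgroup.centralizer ((Cfsg.pCore p G : Subgroup G) : Set G) = Cfsg.pCore p G ∧ ∀ (q : ℕ) [Fact q.Prime], Cfsg.pCore q ↥M ≠ ⊥ → Nat.card (Cfsg.pCore p G) % q = 1 % q ∧ q ≠ p := by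
  obtain ⟨N, hN, hNL⟩ := exists_minNormal_le _ hL
  have := hN.normal
  have hpL := pCore_isPGroup (G := G) p
  have := hpL.isNilpotent
  have : Group.IsSolvable N := isSolvable_of_le hNL
  have := hN.isMulCommutative
  have hC : N = centralizer (N : Set G) :=
    eq_centralizer_of_corefree hM hcore hN.ne_bot hN.ne_bot (le_centralizer N)
  have hLN : pCore p G = N := le_antisymm (hC ▸ le_centralizer_minNormal hN) hNL
  have hNM : N ⊓ M = ⊥ := hC ▸ centralizer_inf_eq_bot_of_corefree hM hcore hN.ne_bot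
  have hs := sup_eq_top_of_corefree hM hcore hN.ne_bot
  rw [hLN] at hpL ⊢
  refine ⟨⟨this, hN.exists_prime_pow_eq_one Fact.out
    (hpL.card_eq_or_dvd.resolve_left (N.one_lt_card_iff_ne_bot.mpr hN.ne_bot).ne')⟩,
    isComplement'_of_inf_sup hNM hs, hN.min, hC.symm, fun q _ hq => ?_⟩
  set Q := (pCore q M).map M.subtype
  have hQ0 : Q ≠ ⊥ := fun h => hq ((map_eq_bot_iff_of_injective _ M.subtype_injective).mp h)
  have hQM : Q ≤ M := map_subtype_le _
  have hMQ : M ≤ normalizer (Q : Set G) := le_normalizer_map_subtype _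
  have hQN : ¬ Q ≤ N := fun h => hQ0 (le_bot_iff.mp (hNM ▸ le_inf h hQM))
  have hqQ : IsPGroup q Q := map_pCore_isPGroup q M
  constructor
  · have h1 : (centralizer (Q : Set G) ⊓ N).Normal := by
      refine normal_of_sup_eq_top ?_ (Lib.CoprimeBasic.le_normalizer_inf
        (Lib.CoprimeBasic.le_normalizer_centralizer hMQ) (le_normalizer_of_normal' _ _)) hs
      exact ((le_centralizer N).trans (centralizer_le inf_le_right)).trans
        (centralizer_le_normalizer _)
    have h2 : centralizer (Q : Set G) ⊓ N = ⊥ := by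
      refine (hN.min _ h1 inf_le_right).resolve_right fun h => hQN ?_
      rw [hC, le_centralizer_iff]
      exact h.ge.trans inf_le_left
    have := card_modEq (L := N) hqQ
    rwa [inf_comm, h2, card_bot] at this
  · rintro rfl
    have h1 : (Q ⊔ N).Normal := normal_of_sup_eq_top (le_sup_right.trans le_normalizer)
      (Lib.CoprimeBasic.le_normalizer_sup hMQ (le_normalizer_of_normal' _ _)) hs
    exact hQN (le_sup_left.trans ((le_pCore h1 (hqQ.to_sup_of_normal_right hpL)).trans hLN.le))

end Cfsg.Agent.S0587
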