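import Cfsg.Statements.S0589
import Cfsg.Agent.Lib.Schmidt
import Cfsg.Agent.S0588

set_option autoImplicit false
open Pointwise
open Cfsg

namespace Cfsg.Agent.S0589

open Subgroup Cfsg.Agent.Lib.SolvBasic Cfsg.Agent.Lib.Schmidt MulAction

/-- Let H be a Frobenius complement in a finite group G and L a subgroup of G whose order divides the order of H. Then L is contained in some conjugate of H. -/
theorem result {G : Type*} [Group G] [Finite G] (H : Subgroup G) (hH : Cfsg.IsFrobeniusComplement H) (L : Subgroup G) (hL : Nat.card L ∣ Nat.card H) : ∃ x : G, L ≤ MulAut.conj x • H := by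
  by_cases hL0 : L = ⊥
  · exact ⟨1, hL0 ▸ bot_le⟩
  have : Nontrivial L := (nontrivial_iff_ne_bot L).mpr hL0
  have hfix : ∀ x g : G, x • (g : G ⧸ H) = g ↔ x ∈ MulAut.conj g • H := fun x g => by
    rw [mem_conj_smul_iff, MulAction.Quotient.smul_coe, eq_comm, QuotientGroup.eq, smul_eq_mul,
      mul_assoc]
  have hTI : ∀ x g : G, x ≠ 1 → x ∈ H → x ∈ MulAut.conj g • H → g ∈ H := fun x g hx h1 h2 => by
    by_contra hg
    exact hx (mem_bot.mp (hH.2.2 g hg ▸ ⟨h1, h2⟩))
  have huniq : ∀ x : G, x ≠ 1 → ∀ a b : G ⧸ H, x • a = a → x • b = b → a = b := by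
    intro x hx a b ha hb
    obtain ⟨a, rfl⟩ := QuotientGroup.mk_surjective a
    obtain ⟨b, rfl⟩ := QuotientGroup.mk_surjective b
    rw [hfix, mem_conj_smul_iff] at ha hb
    refine QuotientGroup.eq.mpr (hTI (a⁻¹ * x * a) _ (fun h => hx ?_) ha ?_)
    · rw [← mul_left_inj a, ← mul_right_inj a⁻¹, ← mul_assoc, h]; simp
    · rw [mem_conj_smul_iff]
      convert hb using 1
      group
  have hcop : (Nat.card H).Coprime H.index := Cfsg.Agent.S0588.result H fun x hx hx1 c hc =>
    hTI x c hx1 hx (by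
      rw [mem_conj_smul_iff, mul_assoc, ← mem_centralizer_singleton_iff.mp hc, inv_mul_cancel_left]
      exact hx)
  obtain ⟨ω, -, hω⟩ := exists_fixed_of_unique_fixed (L := L) (Set.univ : Set (G ⧸ H))
    (fun _ _ _ => trivial) (fun x hx => by
      have hx' : (x : G) ≠ 1 := fun h => hx (Subtype.ext h)
      obtain ⟨r, hr, hd⟩ := Nat.exists_prime_and_dvd (n := Nat.card (zpowers (x : G)))
        (by rwa [Ne, card_eq_one, zpowers_eq_bot])
      have := Fact.mk hr
      obtain ⟨y, hy⟩ := exists_prime_orderOf_dvd_card' r hd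
      have hyp : IsPGroup r (zpowers (y : G)) :=
        IsPGroup.of_card (n := 1) (by rw [Nat.card_zpowers, Subgroup.orderOf_coe, hy, pow_one])
      obtain ⟨ω, hω⟩ := hyp.nonempty_fixed_point_of_prime_not_dvd_card (G ⧸ H) fun h =>
        hr.ne_one (Nat.eq_one_of_dvd_coprimes hcop
          (hd.trans ((card_dvd_of_le (zpowers_le.mpr x.2)).trans hL)) h)
      have hyω : (y : G) • ω = ω := hω ⟨y, mem_zpowers _⟩
      have hy1 : (y : G) ≠ 1 := by
        intro h
        rw [OneMemClass.coe_eq_one] at h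
        rw [h, orderOf_one] at hy
        exact hr.ne_one hy.symm
      have hxω : (x : G) • ω = ω := by
        refine huniq y hy1 _ _ ?_ hyω
        rw [← mul_smul, setLike_mul_comm y.2 (mem_zpowers (x : G)), mul_smul, hyω]
      exact ⟨ω, ⟨trivial, hxω⟩, fun b hb => huniq x hx' _ _ hb.2 hxω⟩)
  obtain ⟨g, rfl⟩ := QuotientGroup.mk_surjective ω
  exact ⟨g, fun x hx => (hfix x g).mp (hω ⟨x, hx⟩)⟩

end Cfsg.Agent.S0589
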