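import Cfsg.Statements.S0752
import Cfsg.Agent.Lib.FormBasis

set_option autoImplicit false
open Cfsg

namespace Cfsg.Agent.S0752

/-- Classification of alternating forms: for an alternating bilinear form B on a finite-dimensional space over any field there is a basis indexed by (Fin m ⊕ Fin m) ⊕ Fin k such that B (e_i, f_j) = δ_ij, the e's are pairwise orthogonal, the f's are pairwise orthogonal, and the last k basis vectors are orthogonal to everything (they span the radical). -/
theorem result {F V : Type*} [Field F] [AddCommGroup V] [Module F V] [FiniteDimensional F V] (B : LinearMap.BilinForm F V) (hA : B.IsAlt) : ∃ (m k : ℕ) (b : Module.Basis ((Fin m ⊕ Fin m) ⊕ Fin k) F V), (∀ i j : Fin m, B (b (Sum.inl (Sum.inl i))) (b (Sum.inl (Sum.inr j))) = if i = j then 1 else 0) ∧ (∀ i j : Fin m, B (b (Sum.inl (Sum.inl i))) (b (Sum.inl (Sum.inl j))) = 0) ∧ (∀ i j : Fin m, B (b (Sum.inl (Sum.inr i))) (b (Sum.inl (Sum.inr j))) = 0) ∧ (∀ (j : Fin k) (v : V), B (b (Sum.inr j)) v = 0) := by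
  obtain ⟨W, hW⟩ := Submodule.exists_isCompl (LinearMap.ker B)
  have hsep : (B.domRestrict₁₂ W W).SeparatingLeft := by
    intro x hx
    have hxk : (x : V) ∈ LinearMap.ker B := by
      rw [LinearMap.mem_ker]
      ext v
      have hv : v ∈ LinearMap.ker B ⊔ W := by rw [hW.sup_eq_top]; trivial
      obtain ⟨r, hr, w, hw, rfl⟩ := Submodule.mem_sup.mp hv
      have h1 : B x w = 0 := hx ⟨w, hw⟩
      have h2 : B x r = 0 := by
        rw [← hA.neg_eq, LinearMap.mem_ker.mp hr]; simp
      simp [h1, h2]
    exact Subtype.ext (Submodule.disjoint_def.mp hW.disjoint x hxk x.2)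
  obtain ⟨m, b, hb⟩ := Cfsg.Agent.Lib.FormBasis.exists_symplectic_basis (B.domRestrict₁₂ W W) hsep
    (fun x => hA.self_eq_zero x)
  let r := Module.finBasis F (LinearMap.ker B)
  refine ⟨m, _, (b.prod r).map (Submodule.prodEquivOfIsCompl W _ hW.symm), ?_, ?_, ?_, ?_⟩
  · intro i j
    simpa [LinearMap.domRestrict₁₂_apply] using hb.ef i j
  · intro i j
    simpa [LinearMap.domRestrict₁₂_apply] using hb.ee i j
  · intro i j
    simpa [LinearMap.domRestrict₁₂_apply] using hb.ff i j
  · intro j v
    have := LinearMap.mem_ker.mp (r j).2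
    simp [this]

end Cfsg.Agent.S0752
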