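import Cfsg.Statements.S0756
import Cfsg.Agent.Lib.FormBasis

set_option autoImplicit false
open Cfsg

namespace Cfsg.Agent.S0756

/-- Classification of symmetric bilinear forms over finite fields of odd characteristic: if B is non-degenerate symmetric on V of dimension n + 1 and α is a fixed non-square of F, there is an orthogonal basis b_0, ..., b_n with B(b_i, b_i) = 1 for i < n and B(b_n, b_n) ∈ {1, α}. -/
theorem result {F V : Type*} [Field F] [Finite F] [AddCommGroup V] [Module F V] [FiniteDimensional F V] (h2 : (2 : F) ≠ 0) (B : LinearMap.BilinForm F V) (hS : B.IsSymm) (hB : B.Nondegenerate) {n : ℕ} (hn : Module.finrank F V = n + 1) (α : F) (hα : ¬ IsSquare α) : ∃ b : Module.Basis (Fin (n + 1)) F V, (∀ i j, i ≠ j → B (b i) (b j) = 0) ∧ (∀ i, i ≠ Fin.last n → B (b i) (b i) = 1) ∧ (B (b (Fin.last n)) (b (Fin.last n)) = 1 ∨ B (b (Fin.last n)) (b (Fin.last n)) = α) := by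
  obtain ⟨b, ho, h1, hl⟩ := Cfsg.Agent.Lib.FormBasis.exists_diag_basis h2 hS hB.1 hn
  obtain ⟨r, hr0, hr⟩ : ∃ r : F, r ≠ 0 ∧ (r * (r * B (b (Fin.last n)) (b (Fin.last n))) = 1 ∨
      r * (r * B (b (Fin.last n)) (b (Fin.last n))) = α) := by
    set c := B (b (Fin.last n)) (b (Fin.last n))
    by_cases hc : IsSquare c
    · obtain ⟨s, hs⟩ := hc
      have hs0 : s ≠ 0 := by rintro rfl; exact hl (by simpa using hs)
      exact ⟨s⁻¹, inv_ne_zero hs0, Or.inl (by rw [hs]; field_simp)⟩
    · obtain ⟨s, hs⟩ := Cfsg.Agent.Lib.FormField.isSquare_mul_of_not hc hα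
      have hα0 : α ≠ 0 := by rintro rfl; exact hα ⟨0, by simp⟩
      have hs0 : s ≠ 0 := by rintro rfl; exact mul_ne_zero hl hα0 (by simpa using hs)
      refine ⟨s / c, div_ne_zero hs0 hl, Or.inr ?_⟩
      field_simp
      linear_combination -hs
  refine ⟨b.unitsSMul (fun i => if i = Fin.last n then Units.mk0 r hr0 else 1), ?_, ?_, ?_⟩
  · intro i j hij
    rw [Module.Basis.unitsSMul_apply, Module.Basis.unitsSMul_apply, Units.smul_def, Units.smul_def,
      map_smul, map_smul, LinearMap.smul_apply, ho i j hij, smul_zero, smul_zero]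
  · intro i hi
    simp [Module.Basis.unitsSMul_apply, hi, h1 i hi]
  · simpa [Module.Basis.unitsSMul_apply, Units.smul_def] using hr

end Cfsg.Agent.S0756
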