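import Cfsg.Statements.S0757

set_option autoImplicit false
open Cfsg

namespace Cfsg.Agent.S0757

theorem discr_wss {F : Type*} [Field F] [Invertible (2 : F)] {ι : Type} [Fintype ι] [DecidableEq ι]
    (w : ι → F) : QuadraticForm.discr' (QuadraticMap.weightedSumSquares F w) = ∏ i, w i := by
  rw [QuadraticForm.discr', ← Matrix.det_diagonal]
  congr 1
  ext i j
  rw [QuadraticForm.toMatrix', LinearMap.toMatrix₂'_apply, QuadraticMap.associated_apply]
  simp only [QuadraticMap.weightedSumSquares_apply, ← Finset.sum_sub_distrib, smul_eq_mul,
    Module.End.smul_def, QuadraticMap.half_moduleEnd_apply_eq_half_smul]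
  rw [Finset.sum_eq_single i (fun k _ hk => by simp [hk]) (by simp)]
  by_cases hij : i = j
  · subst hij
    simp only [Pi.add_apply, Pi.single_eq_same, Matrix.diagonal_apply_eq]
    linear_combination w i * invOf_mul_self (2 : F)
  · simp [hij]

/-- The two diagonal forms Σ x_i^2 and Σ_(i<n) x_i^2 + α x_n^2 on F^(n+1), with α a non-square and 2 ≠ 0 in F, are inequivalent quadratic forms (so over a finite field of odd order there are exactly two classes of non-singular symmetric bilinear forms in each dimension). -/
theorem result {F : Type*} [Field F] (h2 : (2 : F) ≠ 0) (n : ℕ) (α : F) (hα : ¬ IsSquare α) : ¬ (QuadraticMap.weightedSumSquares F (fun _ : Fin (n + 1) => (1 : F))).Equivalent (QuadraticMap.weightedSumSquares F (fun i : Fin (n + 1) => if i = Fin.last n then α else (1 : F))) := by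
  rintro ⟨f⟩
  have : Invertible (2 : F) := invertibleOfNonzero h2
  have h1 : (QuadraticMap.weightedSumSquares F (fun _ : Fin (n + 1) => (1 : F))).comp
      f.symm.toLinearEquiv.toLinearMap = QuadraticMap.weightedSumSquares F
        (fun i : Fin (n + 1) => if i = Fin.last n then α else (1 : F)) := by
    ext v
    exact f.symm.map_app v
  have h3 := congrArg QuadraticForm.discr' h1
  rw [QuadraticForm.discr'_comp, discr_wss, discr_wss] at h3
  simp only [Finset.prod_const_one, mul_one, Finset.prod_ite_eq', Finset.mem_univ, if_true] at h3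
  exact hα ⟨_, h3.symm⟩

end Cfsg.Agent.S0757
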