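import Cfsg.Statements.S0758

set_option autoImplicit false
open Cfsg

namespace Cfsg.Agent.S0758

theorem iso_iff {F : Type*} [Field F] (α : F) (hα : α ≠ 0) :
    (∃ x y : F, (x ≠ 0 ∨ y ≠ 0) ∧ x ^ 2 + α * y ^ 2 = 0) ↔ IsSquare (-α) := by
  constructor
  · rintro ⟨x, y, hxy, h⟩
    have hy : y ≠ 0 := by
      rintro rfl
      have : x = 0 := by simpa using h
      simp [this] at hxy
    refine ⟨x / y, ?_⟩
    field_simp
    linear_combination -h
  · rintro ⟨r, hr⟩
    exact ⟨r, 1, Or.inr one_ne_zero, by linear_combination -hr⟩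

/-- For a finite field F of odd order q and a non-square α: the form x² + y² is isotropic iff q ≡ 1 mod 4, and the form x² + α y² is isotropic iff q ≡ 3 mod 4. -/
theorem result {F : Type*} [Field F] [Fintype F] (h2 : (2 : F) ≠ 0) (α : F) (hα : ¬ IsSquare α) : ((∃ x y : F, (x ≠ 0 ∨ y ≠ 0) ∧ x ^ 2 + y ^ 2 = 0) ↔ Fintype.card F % 4 = 1) ∧ ((∃ x y : F, (x ≠ 0 ∨ y ≠ 0) ∧ x ^ 2 + α * y ^ 2 = 0) ↔ Fintype.card F % 4 = 3) := by
  classical
  have hchar : ringChar F ≠ 2 := by
    intro h
    apply h2
    have := ringChar.Nat.cast_ringChar (R := F)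
    rw [h] at this
    exact_mod_cast this
  have hodd : Fintype.card F % 2 = 1 := FiniteField.odd_card_of_char_ne_two hchar
  have hα0 : α ≠ 0 := by rintro rfl; exact hα ⟨0, by simp⟩
  have h1 := FiniteField.isSquare_neg_one_iff (F := F)
  constructor
  · have := iso_iff (1 : F) one_ne_zero
    simp only [one_mul] at this
    rw [this, h1]; omega
  · rw [iso_iff α hα0]
    have hq : quadraticChar F (-α) = quadraticChar F (-1) * quadraticChar F α := by
      rw [← map_mul]; simp
    have hqa : quadraticChar F α = -1 := quadraticChar_neg_one_iff_not_isSquare.mpr hα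
    rw [← quadraticChar_one_iff_isSquare (neg_ne_zero.mpr hα0), hq, hqa]
    have h3 : quadraticChar F (-1) * -1 = 1 ↔ quadraticChar F (-1) = -1 := by
      constructor <;> intro h <;> linarith
    rw [h3, quadraticChar_neg_one_iff_not_isSquare, h1]
    omega

end Cfsg.Agent.S0758
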