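import Cfsg.Statements.S0759
import Cfsg.Agent.Lib.FormDisc

set_option autoImplicit false
open Cfsg

namespace Cfsg.Agent.S0759

open Cfsg.Agent.Lib.FormDisc Cfsg.Agent.Lib.FormField

/-- Type of the orthonormal form: over a finite field of odd order q and for m ≥ 1, the quadratic form Σ_(i<2m) x_i² on F^(2m) admits an m-dimensional subspace on which it vanishes identically if and only if it is not the case that q ≡ 3 (mod 4) and m is odd. -/
theorem result {F : Type*} [Field F] [Fintype F] (h2 : (2 : F) ≠ 0) (m : ℕ) (hm : 1 ≤ m) : (∃ W : Submodule F (Fin (2 * m) → F), Module.finrank F W = m ∧ ∀ w ∈ W, ∑ i, w i ^ 2 = 0) ↔ ¬ (Fintype.card F % 4 = 3 ∧ Odd m) := by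
  let B : LinearMap.BilinForm F (Fin (2 * m) → F) := Matrix.toBilin' 1
  have hB : ∀ u v, B u v = ∑ i, u i * v i := fun u v => by
    simp [B, Matrix.toBilin'_apply', dotProduct]
  have hS : B.IsSymm := ⟨fun u v => by simp only [hB, mul_comm]⟩
  have hob : IsOB B (fun i : Fin (2 * m) => Pi.single i 1) :=
    ⟨fun i j hij => by simp [hB, Pi.single_apply, hij.symm], fun i => by simp [hB, Pi.single_apply],
      by simp⟩
  have h1 := hob.plus_iff h2 hS (m := m) (by simp)
  have h3 : ∏ i : Fin (2 * m), B (Pi.single i 1) (Pi.single i 1) = 1 :=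
    Finset.prod_eq_one fun i _ => by simp [hB, Pi.single_apply]
  rw [h3, mul_one, isSquare_neg_one_pow_iff h2] at h1
  have h4 : Fintype.card F ^ m % 4 = 1 ↔ ¬ (Fintype.card F % 4 = 3 ∧ Odd m) := by
    have hodd := card_odd h2
    have h5 : Fintype.card F ^ 2 % 4 = 1 := by
      rcases (by omega : Fintype.card F % 4 = 1 ∨ Fintype.card F % 4 = 3) with h | h <;>
        simp [Nat.pow_mod, h]
    rcases Nat.even_or_odd' m with ⟨k, rfl | rfl⟩
    · simp [pow_mul, Nat.pow_mod, h5]
    · have h6 : Fintype.card F ^ (2 * k + 1) % 4 = Fintype.card F % 4 := by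
        rw [pow_succ, pow_mul, Nat.mul_mod, Nat.pow_mod, h5]; simp
      rw [h6]
      simp only [odd_two_mul_add_one, and_true]
      omega
  rw [← h4, ← h1]
  refine exists_congr fun W => and_congr_right fun _ => ⟨fun h x hx y hy => ?_, fun h w hw => ?_⟩
  · have h5 := h _ (W.add_mem hx hy)
    have h6 : ∑ i, (x + y) i ^ 2 = ∑ i, x i ^ 2 + ∑ i, y i ^ 2 + 2 * B x y := by
      rw [hB, Finset.mul_sum, ← Finset.sum_add_distrib, ← Finset.sum_add_distrib]
      exact Finset.sum_congr rfl fun i _ => by simp only [Pi.add_apply]; ring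
    rw [h5, h x hx, h y hy] at h6
    exact (mul_eq_zero.mp (by simpa using h6.symm)).resolve_left h2
  · rw [← h w hw w hw, hB]
    exact Finset.sum_congr rfl fun i _ => sq _

end Cfsg.Agent.S0759
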