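import Cfsg.Statements.S0761
import Cfsg.Agent.Lib.FormWitt

set_option autoImplicit false
open Cfsg

namespace Cfsg.Agent.S0761

/-- Hyperbolic partners: let B be a non-degenerate bilinear form on a finite-dimensional space, either alternating, or symmetric with 2 ≠ 0. If Z is a subspace on which B vanishes, x ∉ Z is isotropic and orthogonal to Z, then there is an isotropic y with B x y = 1 which is orthogonal to Z. -/
theorem result {F V : Type*} [Field F] [AddCommGroup V] [Module F V] [FiniteDimensional F V] (B : LinearMap.BilinForm F V) (hB : B.Nondegenerate) (hform : B.IsAlt ∨ (B.IsSymm ∧ (2 : F) ≠ 0)) (x : V) (Z : Submodule F V) (hxZ : x ∉ Z) (hx : B x x = 0) (hxz : ∀ z ∈ Z, B x z = 0) (hZ : ∀ z ∈ Z, ∀ z' ∈ Z, B z z' = 0) : ∃ y : V, B y y = 0 ∧ B x y = 1 ∧ ∀ z ∈ Z, B z y = 0 := by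
  obtain ⟨l, hlZ, hlx⟩ := Cfsg.Agent.Lib.FormWitt.exists_functional Z x hxZ
  obtain ⟨y, hy⟩ := Cfsg.Agent.Lib.FormWitt.exists_repr (σ := RingHom.id F) Function.surjective_id
    B.flip hB.2 l
  simp only [LinearMap.BilinForm.flip_apply] at hy
  rcases hform with hA | ⟨hS, h2⟩
  · exact ⟨y, hA.self_eq_zero y, by rw [hy, hlx], fun z hz => by rw [hy, hlZ z hz]⟩
  · have hxy : B x y = 1 := by rw [hy, hlx]
    have hyx : B y x = 1 := by rw [hS.eq, hxy]
    refine ⟨y - (B y y / 2) • x, ?_, ?_, fun z hz => ?_⟩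
    · simp only [map_sub, map_smul, LinearMap.sub_apply, LinearMap.smul_apply, hx, hxy, hyx,
        smul_eq_mul]
      field_simp
      ring
    · simp [hx, hxy]
    · rw [map_sub, map_smul, hy, hlZ z hz, hS.eq z x, hxz z hz]; simp

end Cfsg.Agent.S0761
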