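import Cfsg.Statements.S0763
import Cfsg.Agent.Lib.FormOrth

set_option autoImplicit false
open Cfsg

namespace Cfsg.Agent.S0763

open Cfsg.Agent.Lib.FormOrth Cfsg.Agent.Lib.FormPerp Cfsg.Agent.Lib.FormWitt QuadraticMap

theorem li_of_polar {F V : Type*} [Field F] [CharP F 2] [AddCommGroup V] [Module F V]
    (Q : QuadraticForm F V) (v w : V) (h : polar Q v w = 1) : LinearIndependent F ![v, w] := by
  rw [LinearIndependent.pair_iff]
  intro s t hst
  have h1 := congrArg (fun z => polar Q v z) hst
  have h2 := congrArg (fun z => polar Q z w) hst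
  simp only [polar_add_right, polar_add_left, polar_smul_left, polar_smul_right, polar_self', h,
    CharTwo.two_eq_zero, polar_zero_left, polar_zero_right] at h1 h2
  exact ⟨by simpa using h2, by simpa using h1⟩

/-- Binary quadratic forms in characteristic two over a finite field: if Q is a quadratic form on a 2-dimensional space whose polar form is non-degenerate, then either there are vectors v, w with Q v = Q w = 0 and polar value 1 (Q is xy in these coordinates), or there are v, w and μ with Q v = 1, Q w = μ, polar value 1 and x² + x + μ without roots in F (Q is x² + xy + μy²). -/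
theorem result {F V : Type*} [Field F] [Finite F] [CharP F 2] [AddCommGroup V] [Module F V] (Q : QuadraticForm F V) (h2 : Module.finrank F V = 2) (hQ : (QuadraticMap.polarBilin Q).Nondegenerate) : (∃ v w : V, LinearIndependent F ![v, w] ∧ Q v = 0 ∧ Q w = 0 ∧ QuadraticMap.polar Q v w = 1) ∨ (∃ (v w : V) (μ : F), LinearIndependent F ![v, w] ∧ (∀ x : F, x ^ 2 + x + μ ≠ 0) ∧ Q v = 1 ∧ Q w = μ ∧ QuadraticMap.polar Q v w = 1) := by
  have : FiniteDimensional F V := Module.finite_of_finrank_pos (by omega)
  by_cases hs : ∃ v, v ≠ 0 ∧ Q v = 0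
  · obtain ⟨v, hv0, hv⟩ := hs
    obtain ⟨w, -, h1, h3⟩ := exists_partner' hQ.1 ⊥ v hv0 hv (by simp)
    exact Or.inl ⟨v, w, li_of_polar Q v w h1, hv, h3, h1⟩
  · push Not at hs
    obtain ⟨v, -, hv⟩ := exists_eq_of_two_le hQ.1 (nondegOn_top (isFormSpace_quad Q hQ.1))
      (by simp [h2]) 1
    have hv0 : v ≠ 0 := by rintro rfl; simp at hv
    obtain ⟨w, -, hw⟩ := exists_perp_pair (isFormSpace_quad Q hQ.1) ⊥ v hv0
    have hw' : polar Q v w = 1 := hw
    refine Or.inr ⟨v, w, Q w, li_of_polar Q v w hw', fun x hx => ?_, hv, rfl, hw'⟩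
    apply hs (w + x • v)
    · intro h0
      have h1 := congrArg (fun z => polar Q v z) h0
      simp [polar_self', hw', CharTwo.two_eq_zero] at h1
    · rw [map_add_smul, polar_comm, hw', hv]
      linear_combination hx

end Cfsg.Agent.S0763
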