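import Cfsg.Statements.S0766
import Cfsg.Agent.Lib.FormSymp

set_option autoImplicit false
open Cfsg

namespace Cfsg.Agent.S0766

open Cfsg.Agent.Lib.FormMatrix Cfsg.Agent.Lib.FormBasis

theorem isHyp {F : Type*} [Field F] (m : ℕ) (u v : Fin m ⊕ Fin m → F)
    (h : Cfsg.sympForm m F u v = 1) :
    IsHyp (σ := RingHom.id F) (sympB m F) (fun _ => ()) (fun _ : Unit => u) (fun _ => v) :=
  ⟨fun _ _ => (sympB_isAlt m).self_eq_zero u, fun _ _ => (sympB_isAlt m).self_eq_zero v,
    fun _ _ => by rw [sympB_apply, h]; rfl, fun _ => rfl, fun _ => rfl⟩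

/-- The subgroup generated by the symplectic transvections acts transitively on ordered pairs (u, v) with f(u, v) = 1. -/
theorem result {F : Type*} [Field F] (m : ℕ) (u v u' v' : Fin m ⊕ Fin m → F) (h : Cfsg.sympForm m F u v = 1) (h' : Cfsg.sympForm m F u' v' = 1) : ∃ A ∈ Subgroup.closure {A : Matrix.symplecticGroup (Fin m) F | ∃ (w : Fin m ⊕ Fin m → F) (c : F), (A : Matrix (Fin m ⊕ Fin m) (Fin m ⊕ Fin m) F) = Cfsg.sympTransvection m w c}, (A : Matrix (Fin m ⊕ Fin m) (Fin m ⊕ Fin m) F).mulVec u = u' ∧ (A : Matrix (Fin m ⊕ Fin m) (Fin m ⊕ Fin m) F).mulVec v = v' := by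
  rw [Cfsg.Agent.Lib.FormSymp.closure_sympTransvection m]
  have hs := isFormSpace_symp (F := F) m
  have hA := sympB_isAlt (F := F) m
  obtain ⟨g, hg, -, hg'⟩ := hs.witt_family _ _ ((isHyp m u v h).linearIndependent hs)
    ((isHyp m u' v' h').linearIndependent hs)
    (by
      rintro (i | i) (j | j) <;>
        simp only [Sum.elim_inl, Sum.elim_inr, hA.self_eq_zero, ← hA.neg_eq u v, ← hA.neg_eq u' v',
          sympB_apply, h, h'])
    (fun _ => rfl)
  refine ⟨(spEquiv m F).symm ⟨g, mem_symp.mpr hg⟩, trivial, ?_, ?_⟩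
  · rw [← spEquiv_apply, MulEquiv.apply_symm_apply]
    exact hg' (Sum.inl ())
  · rw [← spEquiv_apply, MulEquiv.apply_symm_apply]
    exact hg' (Sum.inr ())

end Cfsg.Agent.S0766
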