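import Cfsg.Statements.S0767
import Cfsg.Agent.Lib.FormMatrix

set_option autoImplicit false
open Cfsg

namespace Cfsg.Agent.S0767

open Cfsg.Agent.Lib.FormMatrix

/-- The root group of a point: T_v(c) T_v(d) = T_v(c + d), and for A in the symplectic group with A v = a v, the conjugate A T_v(c) A⁻¹ is again some T_v(d). -/
theorem result {F : Type*} [Field F] (m : ℕ) (v : Fin m ⊕ Fin m → F) : (∀ c d : F, Cfsg.sympTransvection m v c * Cfsg.sympTransvection m v d = Cfsg.sympTransvection m v (c + d)) ∧ ∀ (A : Matrix (Fin m ⊕ Fin m) (Fin m ⊕ Fin m) F) (a : F), A ∈ Matrix.symplecticGroup (Fin m) F → A.mulVec v = a • v → ∀ c : F, ∃ d : F, A * Cfsg.sympTransvection m v c * A⁻¹ = Cfsg.sympTransvection m v d := by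
  have hA := sympB_isAlt (F := F) m
  constructor
  · intro c d
    apply matrix_ext
    intro x
    rw [← Matrix.mulVec_mulVec]
    simp only [sympTransvection_mulVec, ← sympB_apply, map_add, map_smul, LinearMap.add_apply,
      LinearMap.smul_apply, smul_eq_mul, hA.self_eq_zero]
    module
  · intro A a hAm hAv c
    refine ⟨c * a ^ 2, ?_⟩
    have hu : IsUnit A.det := SymplecticGroup.symplectic_det hAm
    have key : A * Cfsg.sympTransvection m v c = Cfsg.sympTransvection m v (c * a ^ 2) * A := by
      apply matrix_ext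
      intro x
      have h1 := (mem_symplecticGroup_iff m A).mp hAm x v
      rw [← Matrix.mulVec_mulVec, ← Matrix.mulVec_mulVec, sympTransvection_mulVec,
        sympTransvection_mulVec, Matrix.mulVec_add, Matrix.mulVec_smul, hAv, ← h1, hAv]
      simp only [← sympB_apply, map_smul, smul_eq_mul]
      module
    rw [key, Matrix.mul_assoc, Matrix.mul_nonsing_inv _ hu, Matrix.mul_one]

end Cfsg.Agent.S0767
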