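import Cfsg.Statements.S0768
import Cfsg.Agent.Lib.FormSymp

set_option autoImplicit false
open scoped LinearAlgebra.Projectivization
open Cfsg

namespace Cfsg.Agent.S0768

open Module Matrix Cfsg.Agent.Lib.FormWitt Cfsg.Agent.Lib.FormPerp Cfsg.Agent.Lib.FormMatrix
  Cfsg.Agent.Lib.FormSymp Projectivization Pointwise

/-- Primitivity: for m ≥ 1 and F finite, the symplectic group of the form sympForm (as a subgroup of the general linear group) acts primitively on the projective space of F^(2m). -/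
theorem result {F : Type*} [Field F] [Finite F] (m : ℕ) (hm : 1 ≤ m) : MulAction.IsPreprimitive ↥(Cfsg.spGL m F) (ℙ F (Fin m ⊕ Fin m → F)) := by
  have h := isFormSpace_symp (F := F) m
  have hA := sympB_isAlt (F := F) m
  have step : ∀ (H : Submodule F (Fin m ⊕ Fin m → F)) (a b : Fin m ⊕ Fin m → F), a ∉ H → b ∉ H →
      (∀ x ∈ H, sympB m F x a = sympB m F x b) →
      ∃ g : Cfsg.spGL m F, (∀ x ∈ H, g • x = x) ∧ g • a = b := fun H a b ha hb hH => by
    obtain ⟨g, hg, h1, h2⟩ := h.step H a b ha hb rfl hH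
    obtain ⟨g', hg'⟩ := (spGLEquiv m F).surjective
      ⟨g, mem_symp.mpr fun u v => hg.1 u trivial v trivial⟩
    have : ∀ x, g' • x = g x := fun x => congrArg (fun k : symp (sympB m F) => k.1 x) hg'
    exact ⟨g', fun x hx => by rw [this, h1 x hx], by rw [this, h2]⟩
  have : MulAction.IsPretransitive (Cfsg.spGL m F) (ℙ F (Fin m ⊕ Fin m → F)) := ⟨fun x y => by
    induction x using Projectivization.ind with | _ a ha =>
    induction y using Projectivization.ind with | _ b hb =>
    obtain ⟨g, -, hg⟩ := step ⊥ a b ha hb (by simp)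
    exact ⟨g, by subst hg; rfl⟩⟩
  refine ⟨fun {S} hS => ?_⟩
  by_cases hsub : S.Subsingleton
  · exact Or.inl hsub
  right
  have move : ∀ {a b c : Fin m ⊕ Fin m → F} (ha : a ≠ 0) (hb : b ≠ 0) (hc : c ≠ 0),
      mk F a ha ∈ S → mk F b hb ∈ S → b ∉ F ∙ a → c ∉ F ∙ a → sympB m F a b = sympB m F a c →
      mk F c hc ∈ S := fun {a b c} ha hb hc haS hbS h1 h2 h3 => by
    obtain ⟨g, hg1, hg2⟩ := step _ b c h1 h2 (fun x hx => by
      obtain ⟨t, rfl⟩ := Submodule.mem_span_singleton.mp hx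
      simp [h3])
    have h4 : g • mk F a ha = mk F a ha := by
      refine (smul_mk g.1 ha).trans ?_
      congr 1
      exact hg1 a (Submodule.mem_span_singleton_self a)
    have h5 : g • S = S := hS.stabilizer_le haS h4
    rw [← h5]
    exact ⟨_, hbS, by subst hg2; rfl⟩
  have hn : ∀ {a b : Fin m ⊕ Fin m → F}, sympB m F a b ≠ 0 → b ∉ F ∙ a := fun {a b} hab hm => by
    obtain ⟨t, rfl⟩ := Submodule.mem_span_singleton.mp hm
    simp [hA.self_eq_zero] at hab
  have move' : ∀ {a b c : Fin m ⊕ Fin m → F} (ha : a ≠ 0) (hb : b ≠ 0) (hc : c ≠ 0),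
      mk F a ha ∈ S → mk F b hb ∈ S → sympB m F a b ≠ 0 → sympB m F a c ≠ 0 →
      mk F c hc ∈ S := fun {a b c} ha hb hc haS hbS h1 h2 => by
    have h3 : sympB m F a b = sympB m F a ((sympB m F a b / sympB m F a c) • c) := by
      rw [map_smul, smul_eq_mul, div_mul_cancel₀ _ h2]
    have h4 := move ha hb (smul_ne_zero (div_ne_zero h1 h2) hc) haS hbS (hn h1) (hn (h3 ▸ h1)) h3
    rwa [(mk_eq_mk_iff' F _ _ _ hc).mpr ⟨_, rfl⟩] at h4
  obtain ⟨a, ha, b, hb, haS, hbS, hab⟩ : ∃ a ha b hb, mk F a ha ∈ S ∧ mk F b hb ∈ S ∧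
      sympB m F a b ≠ 0 := by
    obtain ⟨x, hx, y, hy, hxy⟩ := Set.not_subsingleton_iff.mp hsub
    induction x using Projectivization.ind with | _ a ha =>
    induction y using Projectivization.ind with | _ b hb =>
    by_cases hab : sympB m F a b = 0
    · have h1 : b ∉ F ∙ a := fun hm => by
        obtain ⟨t, rfl⟩ := Submodule.mem_span_singleton.mp hm
        exact hxy ((mk_eq_mk_iff' F _ _ _ ha).mpr ⟨_, rfl⟩).symm
      obtain ⟨c, hc, hbc⟩ := exists_perp_pair h _ b h1
      have hc0 : c ≠ 0 := by rintro rfl; simp at hbc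
      refine ⟨b, hb, c, hc0, hy, move ha hb hc0 hx hy h1 (fun hm => ?_)
        (hab.trans (mem_perp_singleton.mp hc).symm), by simp [hbc]⟩
      obtain ⟨t, rfl⟩ := Submodule.mem_span_singleton.mp hm
      simp [h.refl hab] at hbc
    · exact ⟨a, ha, b, hb, hx, hy, hab⟩
  rw [Set.eq_univ_iff_forall]
  intro z
  induction z using Projectivization.ind with | _ c hc =>
  obtain ⟨d, -, had, hcd⟩ := exists_perp_pair₂ h ⊥ a c ha hc
  have hd : d ≠ 0 := by rintro rfl; simp at had
  exact move' hd ha hc (move' ha hb hd haS hbS hab had) haS (fun h0 => had (h.refl h0))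
    (fun h0 => hcd (h.refl h0))

end Cfsg.Agent.S0768
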