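import Cfsg.Statements.S0769

set_option autoImplicit false
open Cfsg

namespace Cfsg.Agent.S0769

/-- Order of the Borel subgroup of GL_n(q): the invertible lower-triangular n × n matrices over a field with q elements number q^(n(n-1)/2) (q-1)^n (unitriangular part times the diagonal torus). -/
theorem result {F : Type*} [Field F] [Fintype F] {q : ℕ} (hF : Fintype.card F = q) (n : ℕ) : Nat.card {g : Matrix.GeneralLinearGroup (Fin n) F // ∀ i j : Fin n, i < j → (g : Matrix (Fin n) (Fin n) F) i j = 0} = q ^ (n * (n - 1) / 2) * (q - 1) ^ n := by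
  classical
  let S : Fin n → Fin n → Finset F := fun i j =>
    if i < j then {0} else if i = j then Finset.univ.erase 0 else Finset.univ
  have e : {g : Matrix.GeneralLinearGroup (Fin n) F //
      ∀ i j : Fin n, i < j → (g : Matrix (Fin n) (Fin n) F) i j = 0} ≃
      ↥(Fintype.piFinset fun i => Fintype.piFinset (S i)) := by
    refine Equiv.ofBijective (fun g => ⟨g.1.1, ?_⟩) ⟨?_, ?_⟩
    · refine Fintype.mem_piFinset.mpr fun i => Fintype.mem_piFinset.mpr fun j => ?_
      simp only [S]
      split_ifs with h1 h2
      · simp [g.2 i j h1]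
      · subst h2
        have h3 := g.1.det_ne_zero
        rw [Matrix.det_of_isLowerTriangular _ (fun a b hab => g.2 a b hab)] at h3
        simpa using Finset.prod_ne_zero_iff.mp h3 i (Finset.mem_univ _)
      · simp
    · intro a b hab
      exact Subtype.ext (Units.ext (congrArg Subtype.val hab))
    · rintro ⟨M, hM⟩
      simp only [Fintype.mem_piFinset, S] at hM
      have h1 : ∀ i j : Fin n, i < j → M i j = 0 := fun i j hij => by simpa [hij] using hM i j
      have h2 : ∀ i, M i i ≠ 0 := fun i => by simpa using hM i i
      refine ⟨⟨Matrix.GeneralLinearGroup.mkOfDetNeZero M ?_, h1⟩, rfl⟩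
      rw [Matrix.det_of_isLowerTriangular _ (fun a b hab => h1 a b hab)]
      exact Finset.prod_ne_zero_iff.mpr fun i _ => h2 i
  rw [Nat.card_congr e, Nat.card_eq_fintype_card, Fintype.card_coe, Fintype.card_piFinset]
  simp only [Fintype.card_piFinset]
  have h1 : ∀ i : Fin n, ∏ j, (S i j).card = q ^ (i : ℕ) * (q - 1) := fun i => by
    rw [← Finset.prod_filter_mul_prod_filter_not Finset.univ (fun j => j < i),
      Finset.prod_congr rfl (g := fun _ => q) (fun j hj => by
        have := (Finset.mem_filter.mp hj).2
        simp [S, this.not_gt, this.ne', hF]),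
      Finset.prod_eq_single_of_mem (s := Finset.filter (fun j => ¬ j < i) _) i (by simp)
        (fun j hj hji => by
        have : i < j := lt_of_le_of_ne (not_lt.mp (Finset.mem_filter.mp hj).2) hji.symm
        simp [S, this])]
    simp [S, hF, Finset.filter_gt_eq_Iio]
  simp only [h1]
  rw [Finset.prod_mul_distrib, Finset.prod_pow_eq_pow_sum, Fin.sum_univ_eq_sum_range (fun i => i),
    Finset.sum_range_id]
  simp

end Cfsg.Agent.S0769
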