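import Cfsg.Statements.S0770

set_option autoImplicit false
open Cfsg

namespace Cfsg.Agent.S0770

/-- For a field with at least 3 elements, an invertible matrix normalises the subgroup of invertible diagonal matrices of GL_n if and only if it is monomial (exactly one non-zero entry in each row). -/
theorem result {F : Type*} [Field F] (hF : ∃ a : F, a ≠ 0 ∧ a ≠ 1) (n : ℕ) (g : Matrix.GeneralLinearGroup (Fin n) F) : g ∈ Subgroup.normalizer ((Units.map (Matrix.diagonalRingHom (Fin n) F).toMonoidHom).range : Subgroup (Matrix.GeneralLinearGroup (Fin n) F)) ↔ ∀ i : Fin n, ∃! j : Fin n, (g : Matrix (Fin n) (Fin n) F) i j ≠ 0 := by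
  classical
  obtain ⟨a, ha0, ha1⟩ := hF
  have hT : ∀ h : Matrix.GeneralLinearGroup (Fin n) F,
      h ∈ (Units.map (Matrix.diagonalRingHom (Fin n) F).toMonoidHom).range ↔
        ∃ d : (Fin n → F)ˣ, h.1 = Matrix.diagonal d.1 := fun h =>
    ⟨by rintro ⟨d, rfl⟩; exact ⟨d, rfl⟩, by rintro ⟨d, hd⟩; exact ⟨d, Units.ext hd.symm⟩⟩
  have hrow : ∀ (k : Matrix.GeneralLinearGroup (Fin n) F) i, ∃ j, k.1 i j ≠ 0 := fun k i => by
    by_contra hcon
    push Not at hcon
    exact k.det_ne_zero (Matrix.det_eq_zero_of_row_eq_zero i hcon)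
  constructor
  · intro hg i
    obtain ⟨j, hj⟩ := hrow g i
    refine ⟨j, hj, fun k hk => ?_⟩
    by_contra hkj
    let d : (Fin n → F)ˣ := ⟨Function.update 1 k a, Function.update 1 k a⁻¹,
      by ext l; by_cases h : l = k <;> simp [h, ha0], by ext l; by_cases h : l = k <;> simp [h, ha0]⟩
    obtain ⟨d', hd'⟩ := (hT _).mp ((Subgroup.mem_normalizer_iff.mp hg _).mp ⟨d, rfl⟩)
    have h1 : g.1 * Matrix.diagonal d.1 = Matrix.diagonal d'.1 * g.1 := by
      rw [← hd']
      simp [mul_assoc]
    have h2 := congrFun (congrFun h1 i) j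
    have h3 := congrFun (congrFun h1 i) k
    simp only [Matrix.mul_diagonal, Matrix.diagonal_mul, d, Function.update_self,
      Function.update_of_ne (Ne.symm hkj), Pi.one_apply] at h2 h3
    apply ha1
    rw [mul_comm] at h2 h3
    rw [mul_right_cancel₀ hk h3, mul_right_cancel₀ hj h2]
  · intro hg
    choose τ hτ hτ' using hg
    have hsurj : Function.Surjective τ := fun j => by
      by_contra hcon
      push Not at hcon
      refine g.det_ne_zero (Matrix.det_eq_zero_of_column_eq_zero j fun i => ?_)
      by_contra h0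
      exact hcon i (hτ' i j h0).symm
    let e := Equiv.ofBijective τ (Finite.injective_iff_bijective.mp
      (Finite.injective_iff_surjective.mpr hsurj))
    have key : ∀ d : Fin n → F, g.1 * Matrix.diagonal d = Matrix.diagonal (d ∘ τ) * g.1 := fun d => by
      ext i j
      simp only [Matrix.mul_diagonal, Matrix.diagonal_mul, Function.comp]
      by_cases h0 : g.1 i j = 0
      · simp [h0]
      · rw [hτ' i j h0, mul_comm]
    rw [Subgroup.mem_normalizer_iff]
    intro h
    rw [hT, hT]
    constructor
    · rintro ⟨d, hd⟩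
      refine ⟨Units.map (RingHom.pi fun i => Pi.evalRingHom (fun _ => F) (τ i)).toMonoidHom d, ?_⟩
      rw [Units.val_mul, Units.val_mul, hd, key, mul_assoc, ← Units.val_mul, mul_inv_cancel,
        Units.val_one, mul_one]
      rfl
    · rintro ⟨d, hd⟩
      refine ⟨Units.map (RingHom.pi fun i => Pi.evalRingHom (fun _ => F) (e.symm i)).toMonoidHom d,
        ?_⟩
      have h1 : (d.1 ∘ e.symm) ∘ τ = d.1 := by
        ext i
        exact congrArg d.1 (e.symm_apply_apply i)
      have h2 := key (d.1 ∘ e.symm)
      rw [h1, ← hd, ← Units.val_mul, inv_mul_cancel_right, Units.val_mul] at h2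
      exact ((Units.mul_right_inj g).mp h2).symm

end Cfsg.Agent.S0770
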