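import Cfsg.Statements.S0773
import Cfsg.Agent.Lib.LinStab

set_option autoImplicit false
open Cfsg

namespace Cfsg.Agent.S0773

open Module Matrix Cfsg.Agent.Lib.FormMatrix Cfsg.Agent.Lib.FormStab Cfsg.Agent.Lib.LinStab

/-- Inverse transpose followed by reversal of the coordinates. -/
def dualHom (n : ℕ) (F : Type*) [Field F] :
    GeneralLinearGroup (Fin n) F →* GeneralLinearGroup (Fin n) F where
  toFun g := ⟨(g⁻¹).1ᵀ.submatrix Fin.revPerm Fin.revPerm, g.1ᵀ.submatrix Fin.revPerm Fin.revPerm,
    by rw [submatrix_mul_equiv, ← transpose_mul, ← Units.val_mul]; simp,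
    by rw [submatrix_mul_equiv, ← transpose_mul, ← Units.val_mul]; simp⟩
  map_one' := by ext i j; simp [Matrix.one_apply]
  map_mul' a b := by
    apply Units.ext
    simp only [Units.val_mul]
    rw [submatrix_mul_equiv, ← transpose_mul, ← Units.val_mul, _root_.mul_inv_rev]

theorem dualHom_dualHom (n : ℕ) (F : Type*) [Field F] (g : GeneralLinearGroup (Fin n) F) :
    dualHom n F (dualHom n F g) = g := by
  ext i j
  show g.1 (Fin.rev (Fin.rev i)) (Fin.rev (Fin.rev j)) = g.1 i j
  simp

/-- The stabilisers in GL_n(F), F finite, of the coordinate subspaces of dimensions k and n − k are isomorphic groups, but when 2k ≠ n (and 0 < k < n) no element of GL_n conjugates one onto the other. -/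
theorem result {F : Type*} [Field F] [Finite F] (n k : ℕ) (hk0 : 0 < k) (hkn : k < n) (h2 : 2 * k ≠ n) : Nonempty (↥(Cfsg.stabilizing (Cfsg.glToMat (Fin n) F) {v : Fin n → F | ∀ i : Fin n, k ≤ (i : ℕ) → v i = 0}) ≃* ↥(Cfsg.stabilizing (Cfsg.glToMat (Fin n) F) {v : Fin n → F | ∀ i : Fin n, n - k ≤ (i : ℕ) → v i = 0})) ∧ ∀ g : Matrix.GeneralLinearGroup (Fin n) F, (Cfsg.stabilizing (Cfsg.glToMat (Fin n) F) {v : Fin n → F | ∀ i : Fin n, k ≤ (i : ℕ) → v i = 0}).map (MulAut.conj g).toMonoidHom ≠ Cfsg.stabilizing (Cfsg.glToMat (Fin n) F) {v : Fin n → F | ∀ i : Fin n, n - k ≤ (i : ℕ) → v i = 0} := by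
  constructor
  · let Φ := MonoidHom.toMulEquiv (dualHom n F) (dualHom n F)
      (MonoidHom.ext (dualHom_dualHom n F)) (MonoidHom.ext (dualHom_dualHom n F))
    refine ⟨subEquiv Φ _ _ fun g => ?_⟩
    rw [← inv_mem_iff]
    refine ((mem_stabilizing_iff (coord F n k) _).trans (mem_stab_coord _)).trans
      (Iff.trans ?_ ((mem_stabilizing_iff (coord F n (n - k)) _).trans (mem_stab_coord _)).symm)
    constructor
    · intro h i j hi hj
      exact h (Fin.rev j) (Fin.rev i) (by rw [Fin.val_rev]; omega) (by rw [Fin.val_rev]; omega)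
    · intro h i j hi hj
      have := h (Fin.rev j) (Fin.rev i) (by rw [Fin.val_rev]; omega) (by rw [Fin.val_rev]; omega)
      change (g⁻¹).1 (Fin.rev (Fin.rev i)) (Fin.rev (Fin.rev j)) = 0 at this
      simpa only [Fin.rev_rev] using this
  · intro g hg
    have h1 : finrank F (coord F n k) = k := finrank_coord hkn.le
    have h3 : finrank F (coord F n (n - k)) = n - k := finrank_coord (by omega)
    have h4 : finrank F ((coord F n k).map (glEquiv (Fin n) F g).toLinearMap) = k := by
      rw [LinearEquiv.finrank_map_eq, h1]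
    have h5 : stab ((coord F n k).map (glEquiv (Fin n) F g).toLinearMap) =
        stab (coord F n (n - k)) := by
      ext x
      obtain ⟨x, rfl⟩ := (glEquiv (Fin n) F).surjective x
      obtain ⟨x, rfl⟩ := (MulAut.conj g).surjective x
      rw [← mem_stabilizing_iff (coord F n (n - k))]
      erw [← hg, Subgroup.mem_map_iff_mem (MulAut.conj g).injective]
      rw [MulAut.conj_apply, map_mul, map_mul, map_inv, conj_mem_stab_map]
      rfl
    have h6 := Submodule.finrank_mono (le_of_stab_le h5.le
      (by intro h; rw [h] at h3; simp at h3; omega))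
    have h7 := Submodule.finrank_mono (le_of_stab_le h5.ge
      (by intro h; rw [h] at h4; simp at h4; omega))
    omega

end Cfsg.Agent.S0773
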