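import Cfsg.Statements.S0774
import Cfsg.Agent.Lib.FormOrder
import Cfsg.Agent.S0769

set_option autoImplicit false
open Cfsg

namespace Cfsg.Agent.S0774

open Module Matrix Cfsg.Agent.Lib.FormWitt Cfsg.Agent.Lib.FormPerp Cfsg.Agent.Lib.FormMatrix
  Cfsg.Agent.Lib.FormStab Cfsg.Agent.Lib.FormOrder Cfsg.Agent.Lib.FormBasis

/-- The members of the standard flag. -/
def flag (F : Type*) [Field F] (m : ℕ) (k : Fin m) : Submodule F (Fin m ⊕ Fin m → F) where
  carrier := {v | (∀ i : Fin m, (k : ℕ) < (i : ℕ) → v (Sum.inl i) = 0) ∧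
    ∀ i : Fin m, v (Sum.inr i) = 0}
  add_mem' ha hb := ⟨fun i hi => by simp [ha.1 i hi, hb.1 i hi], fun i => by simp [ha.2 i, hb.2 i]⟩
  zero_mem' := ⟨fun _ _ => rfl, fun _ => rfl⟩
  smul_mem' c v hv := ⟨fun i hi => by simp [hv.1 i hi], fun i => by simp [hv.2 i]⟩

/-- Borel subgroup of the symplectic group: the elements of Sp_2m(q) stabilising each of the totally isotropic coordinate subspaces ⟨e_0, ..., e_k⟩ (k < m) form a subgroup of order q^(m²) (q − 1)^m. -/
theorem result {F : Type*} [Field F] [Fintype F] {q : ℕ} (hF : Fintype.card F = q) (m : ℕ) : Nat.card ↥(⨅ k : Fin m, Cfsg.stabilizing (Cfsg.spToMat m F) {v : Fin m ⊕ Fin m → F | (∀ i : Fin m, (k : ℕ) < (i : ℕ) → v (Sum.inl i) = 0) ∧ ∀ i : Fin m, v (Sum.inr i) = 0}) = q ^ (m ^ 2) * (q - 1) ^ m := by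
  have h := isFormSpace_symp (F := F) m
  have hA := sympB_isAlt (F := F) m
  have hV : finrank F (Fin m ⊕ Fin m → F) = 2 * m := by simp [two_mul]
  have e1 := restrictEquiv (spEquiv m F)
    (⨅ k : Fin m, Cfsg.stabilizing (Cfsg.spToMat m F) (flag F m k : Set (Fin m ⊕ Fin m → F)))
    (symp (sympB m F) ⊓ ⨅ k : Fin m, stab (flag F m k)) inf_le_left
    (fun g => by
      simp only [Subgroup.mem_iInf, Subgroup.mem_inf]
      exact ⟨fun hg => ⟨(spEquiv m F g).2, hg⟩, fun hg => hg.2⟩)
  refine (Nat.card_congr e1.toEquiv).trans ?_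
  let e : Fin m → (Fin m ⊕ Fin m → F) := fun i => Pi.single (Sum.inl i) 1
  let L : (Fin m → F) →ₗ[F] (Fin m ⊕ Fin m → F) :=
    { toFun := fun v => Sum.elim v 0
      map_add' := fun u v => by ext (i | i) <;> simp
      map_smul' := fun c v => by ext (i | i) <;> simp }
  have hL : LinearMap.ker L = ⊥ := LinearMap.ker_eq_bot.mpr fun u v huv =>
    funext fun i => congrFun huv (Sum.inl i)
  have hLB : ∀ u v, sympB m F (L u) (L v) = 0 := fun u v => by
    rw [sympB_apply, sympForm_eq]; simp [L]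
  have heL : ∀ i, e i = L (Pi.single i 1) := fun i => by
    ext (j | j) <;> simp [e, L, Pi.single_apply]
  have hli : LinearIndependent F e := by
    rw [show e = L ∘ (Pi.basisFun F (Fin m)) from funext fun i => by simp [heL]]
    exact (Pi.basisFun F (Fin m)).linearIndependent.map' L hL
  have hef : ∀ i k : Fin m, i ≤ k → e i ∈ flag F m k := fun i k hik =>
    ⟨fun j hj => Pi.single_eq_of_ne (by rintro ⟨⟩; exact absurd hik (not_le.mpr hj)) _,
      fun j => by simp [e]⟩
  have hexp : ∀ (k : Fin m) (v), v ∈ flag F m k → v = ∑ i : Fin m, v (Sum.inl i) • e i :=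
    fun k v hv => by
      ext (j | j)
      · simp [e, Pi.single_apply]
      · simp [e, hv.2 j]
  have hst : ∀ g : (Fin m ⊕ Fin m → F) ≃ₗ[F] (Fin m ⊕ Fin m → F), (∀ i, g (e i) ∈ flag F m i) →
      g ∈ ⨅ k : Fin m, stab (flag F m k) := fun g hg => Subgroup.mem_iInf.mpr fun k =>
    mem_stab_of_le fun v hv => by
      rw [hexp k v hv, map_sum]
      refine Submodule.sum_mem _ fun i _ => ?_
      by_cases hi : (k : ℕ) < i
      · simp [hv.1 i hi]
      · rw [map_smul]
        exact Submodule.smul_mem _ _ ⟨fun j hj => (hg i).1 j (by omega), (hg i).2⟩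
  let Φ : {g : GeneralLinearGroup (Fin m) F //
      ∀ i j : Fin m, i < j → (g : Matrix (Fin m) (Fin m) F) i j = 0} →
      (Fin m → (Fin m ⊕ Fin m → F)) := fun g k => L (g.1.1 k)
  have hΦ : Function.Injective Φ := fun a b hab => Subtype.ext (Units.ext (by
    ext i j
    exact congrFun (congrFun hab i) (Sum.inl j)))
  have hW : TotSing (σ := RingHom.id F) (sympB m F) (fun _ => ())
      (Submodule.span F (Set.range e)) :=
    totSing_span h (by rintro _ ⟨i, rfl⟩ _ ⟨j, rfl⟩; rw [heL, heL, hLB]) fun _ _ => rfl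
  obtain ⟨U, -, hUd, -, hc⟩ := card_fixer_totSing h (Nat.card F) (fun _ _ _ _ => by simp) hW
    ((finrank_span_eq_card hli).trans (Fintype.card_fin m))
  rw [card_eq_orbit_mul _ (fixer (σ := RingHom.id F) (sympB m F) (fun _ => ())
    (Submodule.span F (Set.range e))) e (Set.range Φ), Nat.card_range_of_injective hΦ,
    S0769.result hF, hc, card_isoGroup_of_finrank_zero (by omega), prod_pow_mul _ _ _ _ hV.ge,
    Nat.card_eq_fintype_card, hF, hV]
  · have h1 : m ^ 2 = m * (m - 1) / 2 + m * (m - 1) / 2 + m := by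
      rw [← two_mul, Nat.mul_div_cancel' (Nat.even_mul_pred_self m).two_dvd]
      rcases m with _ | m
      · simp
      · simp only [Nat.add_sub_cancel]; ring
    rw [h1]
    simp only [Nat.sub_self, mul_zero, zero_add]
    ring
  · intro g
    rw [mem_fixer_span]
    exact ⟨fun hg => ⟨⟨hg.1, hst g fun i => by rw [hg.2]; exact hef i i le_rfl⟩, hg.2⟩,
      fun hg => ⟨hg.1.1, hg.2⟩⟩
  · intro b
    constructor
    · rintro ⟨X, rfl⟩
      obtain ⟨g, h1, h2, h3⟩ := h.witt_family e (Φ X) hli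
        ((linearIndependent_rows_iff_isUnit.mpr X.1.isUnit).map' L hL)
        (fun i j => by rw [heL, heL, hLB, hLB]) fun _ => rfl
      exact ⟨g, ⟨⟨h1, h2⟩, hst g fun i => by
        rw [h3]; exact ⟨fun j hj => X.2 i j hj, fun j => rfl⟩⟩, h3⟩
    · rintro ⟨g, hg, hb⟩
      have h1 : ∀ i, b i ∈ flag F m i := fun i =>
        hb i ▸ (Subgroup.mem_iInf.mp hg.2 i _).mp (hef i i le_rfl)
      let M : Matrix (Fin m) (Fin m) F := fun i j => b i (Sum.inl j)
      have h2 : L ∘ M.row = b := by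
        ext i (j | j)
        · rfl
        · exact ((h1 i).2 j).symm
      have h3 : LinearIndependent F M.row := LinearIndependent.of_comp L (by
        rw [h2, show b = g ∘ e from funext fun i => (hb i).symm]
        exact hli.map' g.toLinearMap g.ker)
      exact ⟨⟨(linearIndependent_rows_iff_isUnit.mp h3).unit, fun i j hij => (h1 i).1 j hij⟩, h2⟩

end Cfsg.Agent.S0774
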