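import Cfsg.Statements.S0776
import Cfsg.Agent.Lib.FormStab

set_option autoImplicit false
open Cfsg

namespace Cfsg.Agent.S0776

open Module Cfsg.Agent.Lib.FormWitt Cfsg.Agent.Lib.FormPerp Cfsg.Agent.Lib.FormMatrix
  Cfsg.Agent.Lib.FormStab

/-- If W ≤ F^(2m) is a 2k-dimensional subspace on which the symplectic form is non-degenerate, then the stabiliser of W in Sp_2m(F) is isomorphic to Sp_2k(F) × Sp_(2m−2k)(F). -/
theorem result {F : Type*} [Field F] (m k : ℕ) (hk : k ≤ m) (W : Submodule F (Fin m ⊕ Fin m → F)) (hWk : Module.finrank F W = 2 * k) (hW : ∀ u ∈ W, (∀ v ∈ W, Cfsg.sympForm m F u v = 0) → u = 0) : Nonempty (↥(Cfsg.stabilizing (Cfsg.spToMat m F) (W : Set (Fin m ⊕ Fin m → F))) ≃* Matrix.symplecticGroup (Fin k) F × Matrix.symplecticGroup (Fin (m - k)) F) := by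
  have h := isFormSpace_symp (F := F) m
  have hW' : NondegOn (σ := RingHom.id F) (sympB m F) W := fun u hu h0 =>
    hW u hu fun v hv => by rw [← sympB_apply]; exact h0 v hv
  have e1 := restrictEquiv (spEquiv m F)
    (Cfsg.stabilizing (Cfsg.spToMat m F) (W : Set (Fin m ⊕ Fin m → F)))
    (symp (sympB m F) ⊓ stab W) inf_le_left
    (fun g => ⟨fun hg => ⟨(spEquiv m F g).2, hg⟩, fun hg => hg.2⟩)
  obtain ⟨e2⟩ := nonempty_symp_equiv ((sympB m F).domRestrict₁₂ W W) (restrict h hW').sep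
    (fun v => sympB_isAlt m v.1) hWk
  obtain ⟨e3⟩ := nonempty_symp_equiv (m := m - k)
    ((sympB m F).domRestrict₁₂ (perp (sympB m F) W) (perp (sympB m F) W))
    (restrict h (hW'.perp h)).sep (fun v => sympB_isAlt m v.1) (by
      rw [finrank_perp h, hWk]
      simp only [Module.finrank_fintype_fun_eq_card, Fintype.card_sum, Fintype.card_fin]
      omega)
  exact ⟨(e1.trans (stabEquiv h hW')).trans (e2.prodCongr e3)⟩

end Cfsg.Agent.S0776
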