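import Cfsg.Statements.S0777
import Cfsg.Agent.Lib.FormStab

set_option autoImplicit false
open Cfsg

namespace Cfsg.Agent.S0777

open Module Matrix Cfsg.Agent.Lib.FormWitt Cfsg.Agent.Lib.FormPerp Cfsg.Agent.Lib.FormMatrix
  Cfsg.Agent.Lib.FormStab Cfsg.Agent.Lib.FormBasis

theorem exists_iso_of_isHyp {F V A : Type*} [Field F] [AddCommGroup V] [Module F V] {σ : F →+* F}
    {B : V →ₛₗ[σ] V →ₗ[F] F} {N : V → A} [FiniteDimensional F V] (h : IsFormSpace B N)
    {ι : Type*} [Fintype ι] [DecidableEq ι] {e f e' f' : ι → V} (h1 : IsHyp B N e f)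
    (h2 : IsHyp B N e' f') : ∃ g ∈ isoGroup B N, (∀ i, g (e i) = e' i) ∧ ∀ i, g (f i) = f' i := by
  obtain ⟨g, h3, h4, h5⟩ := h.witt_family _ _ (h1.linearIndependent h) (h2.linearIndependent h)
    (by
      rintro (i | i) (j | j)
      · exact (h2.ee i j).trans (h1.ee i j).symm
      · exact (h2.ef i j).trans (h1.ef i j).symm
      · exact h.symm _ _ _ _ ((h2.ef j i).trans (h1.ef j i).symm)
      · exact (h2.ff i j).trans (h1.ff i j).symm)
    (by
      rintro (i | i)
      · exact (h2.Ne i).trans (h1.Ne i).symm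
      · exact (h2.Nf i).trans (h1.Nf i).symm)
  exact ⟨g, ⟨h3, h4⟩, fun i => h5 (Sum.inl i), fun i => h5 (Sum.inr i)⟩

section

variable {F : Type*} [Field F] {m : ℕ}

/-- Standard basis vectors. -/
abbrev bv (F : Type*) [Field F] {m : ℕ} (j : Fin m ⊕ Fin m) : Fin m ⊕ Fin m → F := Pi.single j 1

/-- Position with given index and side. -/
def pos (i : Fin m) (s : Bool) : Fin m ⊕ Fin m := if s then Sum.inl i else Sum.inr i

theorem B_bv (x y : Fin m ⊕ Fin m) :
    sympB m F (bv F x) (bv F y) = if y = x.swap then (if x.isLeft then -1 else 1) else 0 := by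
  rw [sympB_apply, sympForm_eq]
  rcases x with x | x <;> rcases y with y | y <;> simp [Pi.single_apply, eq_comm]
  split_ifs <;> simp

theorem bv_ne_zero (x : Fin m ⊕ Fin m) : bv F x ≠ 0 := fun h => by
  simpa using congrFun h x

/-- The action of a symplectic matrix. -/
noncomputable abbrev act (g : symplecticGroup (Fin m) F) :
    (Fin m ⊕ Fin m → F) ≃ₗ[F] (Fin m ⊕ Fin m → F) := (spEquiv m F g).1

theorem act_mul (g k : symplecticGroup (Fin m) F) (v : Fin m ⊕ Fin m → F) :
    act (g * k) v = act g (act k v) := by rw [act, map_mul]; rfl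

theorem act_inv (g : symplecticGroup (Fin m) F) (v : Fin m ⊕ Fin m → F) :
    act g⁻¹ v = (act g).symm v := by rw [act, map_inv]; rfl

theorem act_B (g : symplecticGroup (Fin m) F) (u v : Fin m ⊕ Fin m → F) :
    sympB m F (act g u) (act g v) = sympB m F u v := (spEquiv m F g).2.1 u v

theorem act_ext {g k : symplecticGroup (Fin m) F} (h : ∀ j, act g (bv F j) = act k (bv F j)) :
    g = k := by
  apply (spEquiv m F).injective
  ext : 1
  apply LinearEquiv.toLinearMap_injective
  exact (Pi.basisFun F _).ext fun j => by simpa using h j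

theorem exists_act (π : Equiv.Perm (Fin m)) (s : Fin m → Bool) (a : Fin m → Fˣ) :
    ∃ g : symplecticGroup (Fin m) F, (∀ i, act g (bv F (Sum.inr i)) = (a i : F) • bv F (pos (π i) (s i))) ∧
      ∀ i, act g (bv F (Sum.inl i)) =
        ((if s i then -1 else 1) * (a i : F)⁻¹) • bv F (pos (π i) (!s i)) := by
  obtain ⟨g, hg, h1, h2⟩ := exists_iso_of_isHyp (isFormSpace_symp (F := F) m)
    (e := fun i => bv F (Sum.inr i)) (f := fun i => bv F (Sum.inl i))
    (e' := fun i => (a i : F) • bv F (pos (π i) (s i)))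
    (f' := fun i => ((if s i then -1 else 1) * (a i : F)⁻¹) • bv F (pos (π i) (!s i)))
    ⟨fun i j => by simp [B_bv], fun i j => by simp [B_bv], fun i j => by simp [B_bv, eq_comm],
      fun _ => rfl, fun _ => rfl⟩
    ⟨fun i j => by
      by_cases hij : i = j
      · rw [hij]; exact sympB_isAlt m _
      · cases h1 : s i <;> cases h2 : s j <;> simp [B_bv, pos, h1, h2, Ne.symm hij],
     fun i j => by
      by_cases hij : i = j
      · rw [hij]; exact sympB_isAlt m _
      · cases h1 : s i <;> cases h2 : s j <;> simp [B_bv, pos, h1, h2, Ne.symm hij],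
     fun i j => by
      by_cases hij : i = j
      · subst hij; cases h1 : s i <;> simp [B_bv, pos, h1]
      · cases h1 : s i <;> cases h2 : s j <;> simp [B_bv, pos, h1, h2, Ne.symm hij, hij],
     fun _ => rfl, fun _ => rfl⟩
  obtain ⟨k, hk⟩ := (spEquiv m F).surjective ⟨g, hg⟩
  exact ⟨k, by simpa only [act, hk] using h1, by simpa only [act, hk] using h2⟩

/-- Monomial symplectic matrices. -/
def Mono (g : symplecticGroup (Fin m) F) : Prop := ∀ j, ∃ (i : Fin m ⊕ Fin m) (c : F),
  act g (bv F j) = c • bv F i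

theorem coeff_ne_zero {g : symplecticGroup (Fin m) F} {i j : Fin m ⊕ Fin m} {c : F}
    (h : act g (bv F j) = c • bv F i) : c ≠ 0 := by
  rintro rfl
  exact bv_ne_zero j ((act g).map_eq_zero_iff.mp (by simpa using h))

theorem mem_torus (t : symplecticGroup (Fin m) F) :
    t ∈ (⨅ i : Fin m ⊕ Fin m, Cfsg.stabilizing (Cfsg.spToMat m F)
      ((Submodule.span F {(Pi.single i (1 : F) : Fin m ⊕ Fin m → F)} :
        Submodule F (Fin m ⊕ Fin m → F)) : Set (Fin m ⊕ Fin m → F))) ↔
      ∀ j, ∃ c : F, act t (bv F j) = c • bv F j := by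
  rw [Subgroup.mem_iInf]
  refine forall_congr' fun j => ⟨fun h => ?_, fun ⟨c, hc⟩ => ?_⟩
  · obtain ⟨c, hc⟩ := Submodule.mem_span_singleton.mp
      ((h _).mp (Submodule.mem_span_singleton_self _))
    exact ⟨c, hc.symm⟩
  · refine mem_stab_of_le (g := act t) fun v hv => ?_
    obtain ⟨d, rfl⟩ := Submodule.mem_span_singleton.mp hv
    rw [map_smul, hc]
    exact Submodule.smul_mem _ _ (Submodule.smul_mem _ _ (Submodule.mem_span_singleton_self _))

theorem act_diag {t : symplecticGroup (Fin m) F} {d : Fin m ⊕ Fin m → F}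
    (hd : ∀ j, act t (bv F j) = d j • bv F j) (v : Fin m ⊕ Fin m → F) (j : Fin m ⊕ Fin m) :
    act t v j = d j * v j := by
  conv_lhs => rw [pi_eq_sum_univ' v, map_sum]
  simp [hd, Pi.single_apply, mul_comm]

theorem mem_normalizer_iff_mono {a : F} (ha0 : a ≠ 0) (ha : a ^ 2 ≠ 1)
    (g : symplecticGroup (Fin m) F) :
    g ∈ Subgroup.normalizer (⨅ i : Fin m ⊕ Fin m, Cfsg.stabilizing (Cfsg.spToMat m F)
      ((Submodule.span F {(Pi.single i (1 : F) : Fin m ⊕ Fin m → F)} :
        Submodule F (Fin m ⊕ Fin m → F)) : Set (Fin m ⊕ Fin m → F)) :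
          Set (Matrix.symplecticGroup (Fin m) F)) ↔ Mono g := by
  rw [Set.iInf_eq_iInter, ← Subgroup.coe_iInf, Subgroup.mem_normalizer_iff]
  simp only [mem_torus]
  have ha1 : a ≠ 1 := by rintro rfl; simp at ha
  have ha2 : a⁻¹ ≠ a := fun h => ha (by rw [sq]; nth_rw 1 [← h]; exact inv_mul_cancel₀ ha0)
  constructor
  · intro H j
    obtain ⟨t, d, hd, hdj, hdj'⟩ : ∃ (t : symplecticGroup (Fin m) F) (d : Fin m ⊕ Fin m → F),
        (∀ k, act t (bv F k) = d k • bv F k) ∧ ∃ c, d j = c ∧ ∀ k, k ≠ j → d k ≠ c := by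
      obtain ⟨t, h1, h2⟩ := exists_act (F := F) 1 (fun _ => false)
        (Function.update 1 (Sum.elim id id j) (Units.mk0 a ha0))
      refine ⟨t, Sum.elim (fun i => ((Function.update (1 : Fin m → Fˣ) (Sum.elim id id j)
        (Units.mk0 a ha0) i : Fˣ) : F)⁻¹) (fun i => ((Function.update (1 : Fin m → Fˣ)
          (Sum.elim id id j) (Units.mk0 a ha0) i : Fˣ) : F)), ?_, _, rfl, ?_⟩
      · rintro (k | k)
        · simpa [pos] using h2 k
        · simpa [pos] using h1 k
      · rcases j with j | j <;> rintro (k | k) hk <;> by_cases hkj : k = j <;>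
          simp_all [ha1.symm, ha2.symm]
    obtain ⟨rfl, hdj'⟩ := hdj'
    choose d' hd' using (H t).mp fun k => ⟨_, hd k⟩
    obtain ⟨i, hi⟩ := Function.ne_iff.mp ((act g).map_ne_zero_iff.mpr (bv_ne_zero j))
    have h1 : d' i = d j := by
      have h2 := act_diag hd' (act g (bv F j)) i
      rw [← act_mul, inv_mul_cancel_right, act_mul, hd, map_smul] at h2
      exact (mul_right_cancel₀ hi h2).symm
    have h3 : act t ((act g).symm (bv F i)) = d j • (act g).symm (bv F i) := by
      apply (act g).injective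
      rw [← act_inv, ← act_mul, ← act_mul, hd', h1, act_inv]; simp
    have h4 : (act g).symm (bv F i) = (act g).symm (bv F i) j • bv F j := by
      ext k
      by_cases hk : k = j
      · simp [hk]
      · have h5 := congrFun h3 k
        rw [act_diag hd, Pi.smul_apply, smul_eq_mul] at h5
        simpa [hk, hdj' k hk] using h5
    rw [LinearEquiv.symm_apply_eq, map_smul] at h4
    have h5 : (act g).symm (bv F i) j ≠ 0 := fun h0 => bv_ne_zero i (by rw [h4, h0, zero_smul])
    exact ⟨i, ((act g).symm (bv F i) j)⁻¹, by rw [eq_inv_smul_iff₀ h5, ← h4]⟩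
  · intro H t
    choose τ c hc using H
    have hsurj : Function.Surjective τ := Finite.injective_iff_surjective.mp fun i j hij => by
      have h1 : act g (c j • bv F i) = act g (c i • bv F j) := by
        rw [map_smul, map_smul, hc, hc, hij, smul_comm]
      by_contra hne
      have := congrFun ((act g).injective h1) i
      simp [hne, coeff_ne_zero (hc j)] at this
    constructor
    · intro ht k
      obtain ⟨j, rfl⟩ := hsurj k
      obtain ⟨d, hd⟩ := ht j
      refine ⟨d, smul_right_injective _ (coeff_ne_zero (hc j)) ?_⟩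
      simp only
      rw [← map_smul, ← hc, ← act_mul, inv_mul_cancel_right, act_mul, hd, map_smul, hc, smul_comm]
    · intro ht j
      obtain ⟨d, hd⟩ := ht (τ j)
      refine ⟨d, (act g).injective ?_⟩
      rw [← act_mul, ← inv_mul_cancel_right (g * t) g, act_mul, hc, map_smul, hd, map_smul, hc,
        smul_comm]

theorem card_mono [Fintype F] : Nat.card {g : symplecticGroup (Fin m) F // Mono g} =
    2 ^ m * Nat.factorial m * (Fintype.card F - 1) ^ m := by
  classical
  choose Φ h1 h2 using exists_act (F := F) (m := m)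
  have hb : Function.Bijective fun p : (Fin m → Bool) × Equiv.Perm (Fin m) × (Fin m → Fˣ) =>
      (⟨Φ p.2.1 p.1 p.2.2, by
        rintro (j | j)
        · exact ⟨_, _, h2 _ _ _ j⟩
        · exact ⟨_, _, h1 _ _ _ j⟩⟩ : {g : symplecticGroup (Fin m) F // Mono g}) := by
    constructor
    · rintro ⟨s, π, a⟩ ⟨s', π', a'⟩ hp
      have h3 : ∀ i, pos (π i) (s i) = pos (π' i) (s' i) ∧ a i = a' i := fun i => by
        have h4 := h1 π s a i
        rw [show Φ π s a = Φ π' s' a' from congrArg Subtype.val hp, h1] at h4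
        have h5 := congrFun h4 (pos (π i) (s i))
        by_cases h6 : pos (π i) (s i) = pos (π' i) (s' i)
        · exact ⟨h6, Units.ext (by simpa [h6] using h5.symm)⟩
        · simp [h6, (a i).ne_zero.symm] at h5
      have h4 : ∀ i, π i = π' i ∧ s i = s' i := fun i => by
        have := (h3 i).1
        cases h5 : s i <;> cases h6 : s' i <;> simp_all [pos]
      exact Prod.ext (funext fun i => (h4 i).2)
        (Prod.ext (Equiv.ext fun i => (h4 i).1) (funext fun i => (h3 i).2))
    · rintro ⟨g, hg⟩
      choose τ c hc using id hg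
      have key : ∀ x y, τ y = (τ x).swap ↔ y = x.swap := fun x y => by
        have h3 := act_B g (bv F x) (bv F y)
        rw [hc, hc, map_smul, map_smul, LinearMap.smul_apply, B_bv, B_bv] at h3
        have h4 := coeff_ne_zero (hc x)
        have h5 := coeff_ne_zero (hc y)
        by_cases h6 : τ y = (τ x).swap <;> by_cases h7 : y = x.swap
        · exact iff_of_true h6 h7
        · rw [if_pos h6, if_neg h7] at h3
          split_ifs at h3 <;> simp_all
        · rw [if_neg h6, if_pos h7] at h3
          split_ifs at h3 <;> simp_all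
        · simp [h6, h7]
      have hpos : ∀ x : Fin m ⊕ Fin m, pos (Sum.elim id id x) x.isLeft = x ∧
          pos (Sum.elim id id x) (!x.isLeft) = x.swap := by
        rintro (x | x) <;> simp [pos]
      have hinj : Function.Injective fun i => Sum.elim id id (τ (Sum.inr i)) := fun i j hij => by
        have h3 : τ (Sum.inr j) = τ (Sum.inr i) ∨ τ (Sum.inr j) = (τ (Sum.inr i)).swap := by
          revert hij
          beta_reduce
          rcases τ (Sum.inr i) with x | x <;> rcases τ (Sum.inr j) with y | y <;> simp [eq_comm]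
        rcases h3 with h3 | h3
        · have := (key (Sum.inr j) (Sum.inl i)).mp (by rw [h3, key]; rfl)
          simpa using this
        · simpa using (key _ _).mp h3
      let π := Equiv.ofBijective _ (Finite.injective_iff_bijective.mp hinj)
      refine ⟨(fun i => (τ (Sum.inr i)).isLeft, π,
        fun i => Units.mk0 _ (coeff_ne_zero (hc (Sum.inr i)))), Subtype.ext (act_ext ?_)⟩
      rintro (j | j)
      · rw [h2, hc, show π j = Sum.elim id id (τ (Sum.inr j)) from rfl, (hpos _).2,
          (key (Sum.inr j) (Sum.inl j)).mpr rfl]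
        congr 1
        have h3 := act_B g (bv F (Sum.inr j)) (bv F (Sum.inl j))
        rw [hc, hc, map_smul, map_smul, LinearMap.smul_apply, B_bv, B_bv,
          (key (Sum.inr j) (Sum.inl j)).mpr rfl] at h3
        have h4 := coeff_ne_zero (hc (Sum.inr j))
        simp only [Units.val_mk0]
        simp only [if_true, smul_eq_mul, Sum.swap_inr, Sum.isLeft_inr, Bool.false_eq_true,
          if_false] at h3
        split_ifs at h3 ⊢ <;> field_simp
        · linear_combination h3
        · linear_combination -h3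
      · rw [h1, hc, show π j = Sum.elim id id (τ (Sum.inr j)) from rfl, (hpos _).1]
        rfl
  rw [← Nat.card_congr (Equiv.ofBijective _ hb)]
  simp [Fintype.card_perm, Fintype.card_units, mul_assoc]

end

/-- Weyl group of type C_m: for q ≥ 4 the diagonal matrices of Sp_2m(q) form a torus T ≅ (C_(q−1))^m (the elements stabilising every coordinate axis), and the normaliser of T in Sp_2m(q) has order 2^m · m! · (q − 1)^m. -/
theorem result {F : Type*} [Field F] [Fintype F] {q : ℕ} (hF : Fintype.card F = q) (hq : 4 ≤ q) (m : ℕ) : Nat.card ↥(Subgroup.normalizer (⨅ i : Fin m ⊕ Fin m, Cfsg.stabilizing (Cfsg.spToMat m F) ((Submodule.span F {(Pi.single i (1 : F) : Fin m ⊕ Fin m → F)} : Submodule F (Fin m ⊕ Fin m → F)) : Set (Fin m ⊕ Fin m → F)) : Set (Matrix.symplecticGroup (Fin m) F))) = 2 ^ m * Nat.factorial m * (q - 1) ^ m := by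
  obtain ⟨a, ha0, ha⟩ : ∃ a : F, a ≠ 0 ∧ a ^ 2 ≠ 1 := by
    by_contra hcon
    push Not at hcon
    have := Cfsg.Agent.Lib.FormField.card_le_of_forall_pow_eq (S := (Finset.univ : Finset F))
      (m := 3) (by norm_num) (fun x _ => by
        by_cases hx : x = 0
        · simp [hx]
        · rw [pow_succ, hcon x hx, one_mul])
    rw [Finset.card_univ] at this
    omega
  rw [← hF, ← card_mono]
  exact Nat.card_congr (Equiv.subtypeEquivRight (mem_normalizer_iff_mono ha0 ha))

end Cfsg.Agent.S0777
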