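import Cfsg.Statements.S0778
import Cfsg.Agent.Lib.FormMatrix

set_option autoImplicit false
open Cfsg

namespace Cfsg.Agent.S0778

open Matrix Cfsg.Agent.Lib.FormMatrix

/-- The block-diagonal embedding of the general linear group. -/
noncomputable def blockHom (m : ℕ) (F : Type*) [Field F] :
    GeneralLinearGroup (Fin m) F →* symplecticGroup (Fin m) F where
  toFun X := ⟨fromBlocks X.1 0 0 (X⁻¹).1ᵀ, by
    rw [SymplecticGroup.mem_iff, J, fromBlocks_transpose, fromBlocks_multiply, fromBlocks_multiply]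
    simp [← transpose_mul]⟩
  map_one' := by ext : 1; simp
  map_mul' a b := by
    ext : 1
    simp only [Submonoid.coe_mul, fromBlocks_multiply, _root_.mul_inv_rev, Units.val_mul,
      transpose_mul]
    simp

/-- The elements of Sp_2m(F) stabilising both W = ⟨e_1..e_m⟩ and U = ⟨f_1..f_m⟩ form a subgroup isomorphic to GL_m(F) (block-diagonal matrices diag(X, X^(−ᵀ)) up to the sign convention of J), for m ≥ 1 or m = 0 alike. -/
theorem result {F : Type*} [Field F] (m : ℕ) : Nonempty (↥(Cfsg.stabilizing (Cfsg.spToMat m F) {v : Fin m ⊕ Fin m → F | ∀ i : Fin m, v (Sum.inr i) = 0} ⊓ Cfsg.stabilizing (Cfsg.spToMat m F) {v : Fin m ⊕ Fin m → F | ∀ i : Fin m, v (Sum.inl i) = 0}) ≃* Matrix.GeneralLinearGroup (Fin m) F) := by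
  have hinj : Function.Injective (blockHom m F) := fun a b hab => by
    have := congrArg (fun x : symplecticGroup (Fin m) F => x.1.toBlocks₁₁) hab
    exact Units.ext this
  refine ⟨((MonoidHom.ofInjective hinj).trans (MulEquiv.subgroupCongr ?_)).symm⟩
  have key : ∀ X : GeneralLinearGroup (Fin m) F,
      (∀ v : Fin m ⊕ Fin m → F, (∀ i, v (Sum.inr i) = 0) →
        ∀ i, ((blockHom m F X).1 *ᵥ v) (Sum.inr i) = 0) ∧
      ∀ v : Fin m ⊕ Fin m → F, (∀ i, v (Sum.inl i) = 0) →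
        ∀ i, ((blockHom m F X).1 *ᵥ v) (Sum.inl i) = 0 := fun X =>
    ⟨fun v hv i => by simp [blockHom, mulVec, dotProduct, hv],
      fun v hv i => by simp [blockHom, mulVec, dotProduct, hv]⟩
  have hinv : ∀ (X : GeneralLinearGroup (Fin m) F) (v : Fin m ⊕ Fin m → F),
      (blockHom m F X⁻¹).1 *ᵥ ((blockHom m F X).1 *ᵥ v) = v := fun X v => by
    rw [mulVec_mulVec, ← Submonoid.coe_mul, ← map_mul]; simp
  ext M
  constructor
  · rintro ⟨X, rfl⟩
    exact ⟨fun v => ⟨(key X).1 v, fun hv => hinv X v ▸ (key X⁻¹).1 _ hv⟩,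
      fun v => ⟨(key X).2 v, fun hv => hinv X v ▸ (key X⁻¹).2 _ hv⟩⟩
  · rintro ⟨h1, h2⟩
    have h3 : M.1.toBlocks₂₁ = 0 := by
      ext i j
      simpa [toBlocks₂₁] using (h1 (Pi.single (Sum.inl j) 1)).mp (by simp) i
    have h4 : M.1.toBlocks₁₂ = 0 := by
      ext i j
      simpa [toBlocks₁₂] using (h2 (Pi.single (Sum.inr j) 1)).mp (by simp) i
    have h5 := SymplecticGroup.mem_iff.mp M.2
    rw [← fromBlocks_toBlocks M.1, h3, h4, J, fromBlocks_transpose, fromBlocks_multiply,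
      fromBlocks_multiply] at h5
    have h6 : M.1.toBlocks₁₁ * M.1.toBlocks₂₂ᵀ = 1 := by
      simpa using congrArg toBlocks₁₂ h5
    refine ⟨⟨M.1.toBlocks₁₁, M.1.toBlocks₂₂ᵀ, h6, mul_eq_one_comm.mp h6⟩, Subtype.ext ?_⟩
    conv_rhs => rw [← fromBlocks_toBlocks M.1, h3, h4]
    rfl

end Cfsg.Agent.S0778
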