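import Cfsg.Statements.S0779
import Cfsg.Agent.Lib.FormMatrix

set_option autoImplicit false
open Cfsg

namespace Cfsg.Agent.S0779

open Cfsg.Agent.Lib.FormMatrix Cfsg.Agent.Lib.FormField

/-- Unitary transvections: let |F| = q², h the standard Hermitian form Σ x_i y_i^q and v ≠ 0 with h(v, v) = 0. The linear map x ↦ x + c h(x, v) v is an isometry of h if and only if c = 0 or c^(q−1) = −1. -/
theorem result {F : Type*} [Field F] [Fintype F] {q : ℕ} (hF : Fintype.card F = q ^ 2) (n : ℕ) (v : Fin n → F) (hv : v ≠ 0) (hv0 : Cfsg.hermForm n F q v v = 0) (c : F) : (∀ x y : Fin n → F, Cfsg.hermForm n F q ((Cfsg.unitaryTransvection n q v c).mulVec x) ((Cfsg.unitaryTransvection n q v c).mulVec y) = Cfsg.hermForm n F q x y) ↔ (c = 0 ∨ c ^ (q - 1) = -1) := by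
  have hS := hermB_isSymm hF n
  have hq := two_le_of_card_sq hF
  have hv0' : hermB hF n v v = 0 := hv0
  have key : ∀ x y : Fin n → F, Cfsg.hermForm n F q ((Cfsg.unitaryTransvection n q v c).mulVec x)
      ((Cfsg.unitaryTransvection n q v c).mulVec y) = Cfsg.hermForm n F q x y +
        (c + c ^ q) * (hermB hF n v x * hermB hF n y v) := by
    intro x y
    simp only [unitaryTransvection_mulVec hF, ← hermB_apply hF, map_add, LinearMap.add_apply,
      LinearMap.map_smulₛₗ, LinearMap.smul_apply, smul_eq_mul, hv0', map_mul, hS.eq,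
      RingHom.id_apply, ← frob_apply hF]
    ring
  have h2 : (c = 0 ∨ c ^ (q - 1) = -1) ↔ c + c ^ q = 0 := by
    have : c + c ^ q = c * (c ^ (q - 1) + 1) := by
      conv_lhs => rw [← Nat.sub_add_cancel (show 1 ≤ q by omega), pow_succ]
      ring
    rw [this, mul_eq_zero, add_eq_zero_iff_eq_neg]
  rw [h2]
  simp only [key, add_eq_left]
  constructor
  · intro h
    obtain ⟨x, hx⟩ : ∃ x, hermB hF n v x ≠ 0 := by
      by_contra hcon
      push Not at hcon
      exact hv (hermB_sep hF n v hcon)
    exact (mul_eq_zero.mp (h x x)).resolve_right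
      (mul_ne_zero hx fun h0 => hx (hS.isRefl _ _ h0))
  · intro h x y
    rw [h, zero_mul]

end Cfsg.Agent.S0779
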