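import Cfsg.Statements.S0780
import Cfsg.Agent.Lib.FormUnitary

set_option autoImplicit false
open Cfsg

namespace Cfsg.Agent.S0780

open Module Cfsg.Agent.Lib.FormMatrix Cfsg.Agent.Lib.FormField Cfsg.Agent.Lib.FormUnitary

/-- Generation of SU_n(q), n ≥ 3, (n, q) ≠ (3, 2), by unitary transvections: the subgroup generated by the elements whose matrix is x ↦ x + c h(x, v) v with v isotropic is all of SU_n(q). -/
theorem result {F : Type*} [Field F] [Fintype F] {q : ℕ} (hF : Fintype.card F = q ^ 2) (n : ℕ) (hn : 3 ≤ n) (h32 : ¬ (n = 3 ∧ q = 2)) : Subgroup.closure {A : ↥(Cfsg.SU n F q) | ∃ (v : Fin n → F) (c : F), Cfsg.hermForm n F q v v = 0 ∧ ((A : Matrix.SpecialLinearGroup (Fin n) F) : Matrix (Fin n) (Fin n) F) = Cfsg.unitaryTransvection n q v c} = ⊤ := by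
  rw [eq_top_iff]
  intro g _
  have hq := two_le_of_card_sq hF
  have h1 := (isHerm_hermB hF n).mem_closure_tvSet (by
    simp only [Module.finrank_fintype_fun_eq_card, Fintype.card_fin]
    by_cases h3 : 3 ≤ q
    · exact Or.inr ⟨hn, exists_fixed_ne hF h3⟩
    · left; omega) (suHom hF n g) (det_suHom hF n g)
  rw [← Subgroup.mem_map_iff_mem (suHom_injective hF n), MonoidHom.map_closure]
  refine Subgroup.closure_mono (fun t ht => ?_) h1
  obtain ⟨a, rfl⟩ := exists_suHom_eq hF n t (det_eq_one_of_mem_tvSet ht)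
  exact ⟨a, (suHom_mem_tvSet hF n a).mp ht, rfl⟩

end Cfsg.Agent.S0780
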