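import Cfsg.Statements.S0782
import Cfsg.Agent.Lib.FormUnitary

set_option autoImplicit false
open Cfsg

namespace Cfsg.Agent.S0782

open Module Cfsg.Agent.Lib.FormMatrix Cfsg.Agent.Lib.FormField Cfsg.Agent.Lib.FormUnitary
  Cfsg.Agent.Lib.FormStab Cfsg.Agent.Lib.FormOrder

/-- Maximal parabolics of SU_n(q): if W is a k-dimensional subspace of F^n (n ≥ 1, |F| = q²) on which the Hermitian form vanishes, then (q + 1) times the order of its stabiliser in SU_n(q) equals q^(k(2n−3k)) · |GL_k(q²)| · |GU_(n−2k)(q)|, where |GU_m(q)| = q^(m(m−1)/2) Π_(i=1..m) (q^i − (−1)^i). -/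
theorem result {F : Type*} [Field F] [Fintype F] {q : ℕ} (hF : Fintype.card F = q ^ 2) (n k : ℕ) (hn : 1 ≤ n) (hk : 2 * k ≤ n) (W : Submodule F (Fin n → F)) (hWk : Module.finrank F W = k) (hW : ∀ u ∈ W, ∀ v ∈ W, Cfsg.hermForm n F q u v = 0) : (q + 1) * Nat.card ↥((Cfsg.stabilizing (Cfsg.slToMat n F) (W : Set (Fin n → F))).subgroupOf (Cfsg.SU n F q)) = q ^ (k * (2 * n - 3 * k)) * (∏ i : Fin k, ((q ^ 2) ^ k - (q ^ 2) ^ (i : ℕ))) * (q ^ ((n - 2 * k) * ((n - 2 * k) - 1) / 2) * ∏ i ∈ Finset.range (n - 2 * k), (if Even i then q ^ (i + 1) + 1 else q ^ (i + 1) - 1)) := by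
  have h := isHerm_hermB hF n
  have hW' : ∀ u ∈ W, ∀ v ∈ W, hermB hF n u v = 0 := fun u hu v hv => hW v hv u hu
  have e1 := restrictEquiv (suEquiv hF n)
    ((Cfsg.stabilizing (Cfsg.slToMat n F) (W : Set (Fin n → F))).subgroupOf (Cfsg.SU n F q))
    ((unit (hermB hF n) ⊓ stab W) ⊓ (LinearEquiv.det (R := F) (M := Fin n → F)).ker)
    (inf_le_inf_right _ inf_le_left)
    (fun g => ⟨fun hg => ⟨⟨(suEquiv hF n g).2.1, hg⟩, (suEquiv hF n g).2.2⟩, fun hg => hg.1.2⟩)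
  rw [Nat.card_congr e1.toEquiv, card_inf_det_ker hF h _ inf_le_left
    (fun μ hμ => h.exists_det_eq_stab (by simpa using hn) hW' hμ),
    card_unit_stab (n := n) hF h.symm h.sep (by simp) hW' hWk]
  rfl

end Cfsg.Agent.S0782
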