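import Cfsg.Statements.S0783
import Cfsg.Agent.Lib.FormUnitary

set_option autoImplicit false
open Cfsg

namespace Cfsg.Agent.S0783

open Module Cfsg.Agent.Lib.FormMatrix Cfsg.Agent.Lib.FormField Cfsg.Agent.Lib.FormUnitary
  Cfsg.Agent.Lib.FormStab Cfsg.Agent.Lib.FormOrder

/-- PGU_n(q)/PSU_n(q) is cyclic of order (n, q+1): for n ≥ 2 and |F| = q² there is a surjective homomorphism from GU_n(q) onto the cyclic group of order gcd(n, q + 1) whose kernel is generated by the determinant-one elements together with the centre. -/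
theorem result {F : Type*} [Field F] [Fintype F] {q : ℕ} (hF : Fintype.card F = q ^ 2) (n : ℕ) (hn : 2 ≤ n) : ∃ φ : ↥(Cfsg.GU n F q) →* Multiplicative (ZMod (Nat.gcd n (q + 1))), Function.Surjective φ ∧ φ.ker = (Matrix.GeneralLinearGroup.det : Matrix.GeneralLinearGroup (Fin n) F →* Fˣ).ker.subgroupOf (Cfsg.GU n F q) ⊔ Subgroup.center ↥(Cfsg.GU n F q) := by
  have h := isHerm_hermB hF n
  have hq := two_le_of_card_sq hF
  let μ : Subgroup Fˣ := (powMonoidHom (q + 1) : Fˣ →* Fˣ).ker
  have hmem : ∀ u : Fˣ, u ∈ μ ↔ frob hF u * u = 1 := fun u => by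
    rw [MonoidHom.mem_ker, powMonoidHom_apply, Units.ext_iff, Units.val_pow_eq_pow_val, pow_succ]
    rfl
  have hμ : Nat.card μ = q + 1 := by
    have hU : Nat.card Fˣ = (q + 1) * (q - 1) := by
      rw [Nat.card_units, Nat.card_eq_fintype_card, hF]
      obtain ⟨r, rfl⟩ : ∃ r, q = r + 1 := ⟨q - 1, by omega⟩
      simp only [Nat.add_sub_cancel]
      apply Nat.sub_eq_of_eq_add; ring
    rw [IsCyclic.card_powMonoidHom_ker, hU, Nat.gcd_mul_right_left]
  have hdet : ∀ g : Cfsg.GU n F q, LinearEquiv.det (guEquiv hF n g).1 =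
      Matrix.GeneralLinearGroup.det g.1 := fun g => det_glEquiv g.1
  let d : Cfsg.GU n F q →* μ :=
    ((Matrix.GeneralLinearGroup.det : Matrix.GeneralLinearGroup (Fin n) F →* Fˣ).comp
      (Cfsg.GU n F q).subtype).codRestrict μ fun g => (hmem _).mpr (by
        have := h.det_norm (guEquiv hF n g)
        rw [hdet] at this
        exact this)
  have hd : ∀ g, (d g).1 = Matrix.GeneralLinearGroup.det g.1 := fun g => rfl
  have hdsurj : Function.Surjective d := fun u => by
    obtain ⟨g, hg, hgd⟩ := h.exists_det_eq_stab (by simp; omega) (W := ⊥) (by simp)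
      ((hmem u).mp u.2)
    refine ⟨(guEquiv hF n).symm ⟨g, hg.1⟩, Subtype.ext (Units.ext ?_)⟩
    rw [hd, ← hdet, MulEquiv.apply_symm_apply, hgd]
  let P : Subgroup μ := (powMonoidHom n : μ →* μ).range
  have hcyc : IsCyclic (μ ⧸ P) := isCyclic_of_surjective _ (QuotientGroup.mk'_surjective P)
  have hcard : Nat.card (μ ⧸ P) = Nat.card (Multiplicative (ZMod (Nat.gcd n (q + 1)))) := by
    rw [← Subgroup.index_eq_card, IsCyclic.index_powMonoidHom_range, hμ, Nat.gcd_comm]
    exact (Nat.card_zmod _).symm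
  let e := mulEquivOfCyclicCardEq hcard
  refine ⟨e.toMonoidHom.comp ((QuotientGroup.mk' P).comp d),
    e.surjective.comp ((QuotientGroup.mk'_surjective P).comp hdsurj), ?_⟩
  have hker : ∀ g, g ∈ (e.toMonoidHom.comp ((QuotientGroup.mk' P).comp d)).ker ↔ d g ∈ P := fun g => by
    rw [MonoidHom.mem_ker, ← QuotientGroup.eq_one_iff]
    exact e.map_eq_one_iff
  have hcen : ∀ z, z ∈ Subgroup.center (Cfsg.GU n F q) ↔
      guEquiv hF n z ∈ Subgroup.center (unit (hermB hF n)) := fun z => by
    rw [Subgroup.mem_center_iff, Subgroup.mem_center_iff]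
    constructor
    · intro hz g
      obtain ⟨g, rfl⟩ := (guEquiv hF n).surjective g
      rw [← map_mul, ← map_mul, hz]
    · intro hz g
      apply (guEquiv hF n).injective
      rw [map_mul, map_mul, hz]
  apply le_antisymm
  · intro g hg
    obtain ⟨a, ha⟩ := (hker g).mp hg
    obtain ⟨z, hz, hza⟩ := h.exists_scalar ((hmem a).mp a.2)
    obtain ⟨z, rfl⟩ := (guEquiv hF n).surjective z
    have h1 : d z = d g := by
      rw [← ha]
      ext
      rw [hd, ← hdet, det_of_smul _ hza]
      simp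
    have h2 : g * z⁻¹ ∈ d.ker := by rw [MonoidHom.mem_ker, map_mul, map_inv, h1, mul_inv_cancel]
    have h3 := mul_mem (Subgroup.mem_sup_left (S := (Matrix.GeneralLinearGroup.det :
      Matrix.GeneralLinearGroup (Fin n) F →* Fˣ).ker.subgroupOf (Cfsg.GU n F q))
      (congrArg Subtype.val (MonoidHom.mem_ker.mp h2))) (Subgroup.mem_sup_right ((hcen z).mpr hz))
    simpa using h3
  · refine sup_le (fun g hg => ?_) (fun z hz => ?_)
    · rw [hker, show d g = 1 from Subtype.ext hg]
      exact one_mem P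
    · obtain ⟨a, ha, hza⟩ := h.exists_smul_of_mem_center ((hcen z).mp hz)
      have ha0 : a ≠ 0 := by rintro rfl; simp at ha
      rw [hker]
      refine ⟨⟨Units.mk0 a ha0, (hmem _).mpr ha⟩, ?_⟩
      ext
      rw [hd, ← hdet, det_of_smul _ hza]
      simp

end Cfsg.Agent.S0783
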