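import Cfsg.Statements.S0785
import Cfsg.Agent.Lib.FormMatrix
import Cfsg.Agent.S0784

set_option autoImplicit false
open Cfsg

namespace Cfsg.Agent.S0785

open Cfsg.Agent.Lib.FormMatrix Matrix

/-- det(I) = {±1}: for a quadratic form on F^n whose polar form is non-degenerate, every element of the isometry group has determinant 1 or −1, and as soon as Q takes a non-zero value some isometry has determinant −1. -/
theorem result {F : Type*} [Field F] {n : ℕ} (Q : QuadraticForm F (Fin n → F)) (hQ : (QuadraticMap.polarBilin Q).Nondegenerate) : (∀ g : ↥(Cfsg.isometryGroup F ⇑Q), ((g : Matrix.GeneralLinearGroup (Fin n) F) : Matrix (Fin n) (Fin n) F).det = 1 ∨ ((g : Matrix.GeneralLinearGroup (Fin n) F) : Matrix (Fin n) (Fin n) F).det = -1) ∧ ((∃ v, Q v ≠ 0) → ∃ g : ↥(Cfsg.isometryGroup F ⇑Q), ((g : Matrix.GeneralLinearGroup (Fin n) F) : Matrix (Fin n) (Fin n) F).det = -1) := by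
  constructor
  · intro g
    set M := ((g : Matrix.GeneralLinearGroup (Fin n) F) : Matrix (Fin n) (Fin n) F) with hM
    let G := LinearMap.BilinForm.toMatrix' (QuadraticMap.polarBilin Q)
    have hG : G.det ≠ 0 := by
      have := (LinearMap.BilinForm.nondegenerate_toMatrix'_iff (B := QuadraticMap.polarBilin Q)).mpr hQ
      exact Matrix.nondegenerate_iff_det_ne_zero.mp this
    have h1 : LinearMap.BilinForm.comp (QuadraticMap.polarBilin Q) (Matrix.toLin' M)
        (Matrix.toLin' M) = QuadraticMap.polarBilin Q := by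
      ext u v
      exact (orthEquiv Q g).2.1 _ _
    have h2 := congrArg (fun B => (LinearMap.BilinForm.toMatrix' B).det) h1
    simp only [LinearMap.BilinForm.toMatrix'_comp, LinearMap.toMatrix'_toLin', det_mul,
      det_transpose] at h2
    have h3 : (M.det - 1) * (M.det + 1) * G.det = 0 := by linear_combination h2
    rcases mul_eq_zero.mp ((mul_eq_zero.mp h3).resolve_right hG) with h | h
    · exact Or.inl (sub_eq_zero.mp h)
    · exact Or.inr (add_eq_zero_iff_eq_neg.mp h)
  · rintro ⟨v, hv⟩
    obtain ⟨h1, -, -, h4⟩ := Cfsg.Agent.S0784.result Q v hv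
    exact ⟨⟨Matrix.GeneralLinearGroup.mkOfDetNeZero (Cfsg.reflectionMatrix ⇑Q v)
      (by rw [h4]; simp), (mem_isometryGroup _ _).mpr h1⟩, h4⟩

end Cfsg.Agent.S0785
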