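import Cfsg.Statements.S0786
import Cfsg.Agent.Lib.FormOrth

set_option autoImplicit false
open Cfsg

namespace Cfsg.Agent.S0786

open Cfsg.Agent.Lib.FormMatrix Cfsg.Agent.Lib.FormOrth

/-- Generation by reflections: if F is finite, Q is a quadratic form on F^n with non-degenerate polar form, and (|F|, n) ≠ (2, 4), then the isometry group of Q is generated by the reflections r_v, Q(v) ≠ 0. -/
theorem result {F : Type*} [Field F] [Fintype F] {n : ℕ} (Q : QuadraticForm F (Fin n → F)) (hQ : (QuadraticMap.polarBilin Q).Nondegenerate) (h : Fintype.card F ≠ 2 ∨ n ≠ 4) : Subgroup.closure {g : ↥(Cfsg.isometryGroup F ⇑Q) | ∃ v : Fin n → F, Q v ≠ 0 ∧ ((g : Matrix.GeneralLinearGroup (Fin n) F) : Matrix (Fin n) (Fin n) F) = Cfsg.reflectionMatrix ⇑Q v} = ⊤ := by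
  rw [eq_top_iff]
  intro g _
  refine (mem_closure_iff_of_equiv (orthEquiv Q) (T := reflSet Q) (fun g => ?_) g).mpr ?_
  · exact exists_congr fun v => and_congr_right fun _ => orthEquiv_eq_refl_iff Q g v
  · rw [closure_reflSet hQ.1 (h.imp exists_ne_zero_ne_one (by simpa using id))]
    trivial

end Cfsg.Agent.S0786
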