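import Cfsg.Statements.S0787
import Cfsg.Agent.Lib.FormSpin

set_option autoImplicit false
open Cfsg

namespace Cfsg.Agent.S0787

open Cfsg.Agent.Lib.FormMatrix Cfsg.Agent.Lib.FormSpin Cfsg.Agent.Lib.FormOrth QuadraticMap

theorem existsUnique_of_ker {G : Type*} [Group G] (φ : G →* ℤˣ) (hφ : Function.Surjective φ)
    (h : ∀ H : Subgroup G, H.index = 2 → φ.ker ≤ H) : ∃! H : Subgroup G, H.index = 2 := by
  have h1 : φ.ker.index = 2 := by rw [index_ker_of_surjective φ hφ]; simp
  refine ⟨φ.ker, h1, fun H hH => ?_⟩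
  have h2 := Subgroup.relIndex_mul_index (h H hH)
  rw [hH, h1] at h2
  exact le_antisymm (Subgroup.relIndex_eq_one.mp (by omega)) (h H hH)

theorem commutator_le_of_index_two {G : Type*} [Group G] (H : Subgroup G) (hH : H.index = 2) :
    commutator G ≤ H := by
  rw [commutator_eq_closure, Subgroup.closure_le]
  rintro _ ⟨a, b, rfl⟩
  simp only [SetLike.mem_coe, commutatorElement_def, Subgroup.mul_mem_iff_of_index_two hH,
    inv_mem_iff]
  tauto

/-- If a group is generated by involutions, every subgroup of index two of the subgroup `K` of even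
words contains the commutator subgroup. -/
theorem commutator_le_map {G : Type*} [Group G] (S : Set G) (hS : Subgroup.closure S = ⊤)
    (hinv : ∀ s ∈ S, s * s = 1) (δ : G →* ℤˣ) (hδ : ∀ s ∈ S, δ s = -1) (K : Subgroup G)
    (hK : ∀ g, g ∈ K ↔ δ g = 1) (H : Subgroup K) (hH : H.index = 2) :
    commutator G ≤ H.map K.subtype := by
  let L : Subgroup G := Subgroup.closure {x | ∃ g, δ g = 1 ∧ x = g * g}
  have hLH : L ≤ H.map K.subtype := by
    rw [Subgroup.closure_le]
    rintro _ ⟨g, hg, rfl⟩
    exact ⟨⟨g, (hK g).mpr hg⟩ * ⟨g, (hK g).mpr hg⟩, Subgroup.mul_self_mem_of_index_two hH _, rfl⟩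
  have hLn : L.Normal := by
    constructor
    intro x hx a
    have : L.map (MulAut.conj a).toMonoidHom ≤ L := by
      rw [MonoidHom.map_closure, Subgroup.closure_le]
      rintro _ ⟨_, ⟨g, hg, rfl⟩, rfl⟩
      exact Subgroup.subset_closure ⟨a * g * a⁻¹, by simp [hg], by simp [mul_assoc]⟩
    exact this ⟨x, hx, rfl⟩
  refine le_trans ?_ hLH
  rw [← Subgroup.Normal.quotient_commutative_iff_commutator_le]
  have hgen : Subgroup.closure ((QuotientGroup.mk' L) '' S) = ⊤ := by
    rw [← MonoidHom.map_closure, hS, Subgroup.map_top_of_surjective _ (QuotientGroup.mk'_surjective L)]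
  have hcomm : ∀ a ∈ (QuotientGroup.mk' L) '' S, ∀ b ∈ (QuotientGroup.mk' L) '' S,
      a * b = b * a := by
    rintro _ ⟨s, hs, rfl⟩ _ ⟨t, ht, rfl⟩
    rw [← map_mul, ← map_mul, QuotientGroup.mk'_apply, QuotientGroup.mk'_apply, QuotientGroup.eq]
    refine Subgroup.subset_closure ⟨t * s, by simp [hδ s hs, hδ t ht], ?_⟩
    rw [mul_inv_rev, inv_eq_of_mul_eq_one_right (hinv s hs), inv_eq_of_mul_eq_one_right (hinv t ht)]
  have h1 : ∀ a ∈ (QuotientGroup.mk' L) '' S, Subgroup.centralizer {a} = ⊤ := fun a ha => by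
    rw [eq_top_iff, ← hgen, Subgroup.closure_le]
    intro b hb
    simpa [Subgroup.mem_centralizer_singleton_iff] using hcomm b hb a ha
  refine ⟨⟨fun a b => ?_⟩⟩
  have h2 : Subgroup.centralizer {b} = ⊤ := by
    rw [eq_top_iff, ← hgen, Subgroup.closure_le]
    intro c hc
    have : b ∈ Subgroup.centralizer {c} := by rw [h1 c hc]; trivial
    simpa [Subgroup.mem_centralizer_singleton_iff, eq_comm] using this
  have : a ∈ Subgroup.centralizer {b} := by rw [h2]; trivial
  simpa [Subgroup.mem_centralizer_singleton_iff] using this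

/-- Existence and uniqueness of Ω: if F is finite, n ≥ 2, Q is a quadratic form on F^n with non-degenerate polar form and (|F|, n) ≠ (2, 4), then the group of isometries of determinant one has a unique subgroup of index 2. -/
theorem result {F : Type*} [Field F] [Fintype F] {n : ℕ} (hn : 2 ≤ n) (Q : QuadraticForm F (Fin n → F)) (hQ : (QuadraticMap.polarBilin Q).Nondegenerate) (h : Fintype.card F ≠ 2 ∨ n ≠ 4) : ∃! H : Subgroup ↥(Cfsg.specialIsometryGroup F ⇑Q), H.index = 2 := by
  obtain ⟨θ, δ, hs⟩ := exists_isSpin hQ.1 (h.imp exists_ne_zero_ne_one (by simp))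
  let e := orthEquiv Q
  let K := Cfsg.specialIsometryGroup F ⇑Q
  by_cases h2 : (2 : F) = 0
  · have hK : ∀ g, g ∈ K := fun g => by
      rw [mem_specialIsometryGroup, ← det_orthEquiv]; exact hs.det_eq_one_of_two h2 _
    refine existsUnique_of_ker ((δ.comp e.toMonoidHom).comp K.subtype) ?_ fun H hH g hg => ?_
    · intro t
      obtain ⟨g, rfl⟩ := hs.δ_surjective hQ.1 (by simp; omega) t
      exact ⟨⟨e.symm g, hK _⟩, by simp⟩
    · apply commutator_le_of_index_two H hH
      let e' : K ≃* orth Q := ((MulEquiv.subgroupCongr (Subgroup.eq_top_iff' K |>.mpr hK)).trans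
        Subgroup.topEquiv).trans e
      rw [mem_commutator_iff_of_equiv e', hs.mem_commutator_iff hQ.1]
      exact ⟨hs.θ_eq_one_of_two h2 _, hg⟩
  · have hK : ∀ g, g ∈ K ↔ (δ.comp e.toMonoidHom) g = 1 := fun g => by
      rw [mem_specialIsometryGroup, ← det_orthEquiv]; exact hs.det_eq_one_iff h2 _
    refine existsUnique_of_ker ((θ.comp e.toMonoidHom).comp K.subtype) ?_ fun H hH g hg => ?_
    · intro t
      obtain ⟨g, hg⟩ := hs.prod_surjective hQ.1 h2 (by simpa using hn) (t, 1)
      simp only [MonoidHom.prod_apply, Prod.mk.injEq] at hg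
      exact ⟨⟨e.symm g, (hK _).mpr (by simpa using hg.2)⟩, by simpa using hg.1⟩
    · have h3 := commutator_le_map (e ⁻¹' reflSet Q) (by
          rw [eq_top_iff]
          intro x _
          rw [mem_closure_iff_of_equiv e (S := e ⁻¹' reflSet Q) (T := reflSet Q) (fun _ => Iff.rfl), hs.gen]
          trivial)
        (by
          rintro s ⟨v, -, hv⟩
          apply e.injective
          rw [map_mul, hv, refl_mul_self, map_one])
        (δ.comp e.toMonoidHom) (by
          rintro s ⟨v, hv0, hv⟩
          show δ (e s) = -1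
          rw [hv, hs.δ_refl v hv0]) K hK H hH
      have h4 : (g : Cfsg.isometryGroup F ⇑Q) ∈ commutator (Cfsg.isometryGroup F ⇑Q) := by
        rw [mem_commutator_iff_of_equiv e, hs.mem_commutator_iff hQ.1]
        exact ⟨hg, (hK _).mp g.2⟩
      obtain ⟨g', hg', heq⟩ := h3 h4
      rwa [← Subtype.ext heq]

end Cfsg.Agent.S0787
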