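import Cfsg.Statements.S0792
import Cfsg.Agent.Lib.FormSpin

set_option autoImplicit false
open Cfsg

namespace Cfsg.Agent.S0792

open Cfsg.Agent.Lib.FormMatrix Cfsg.Agent.Lib.FormSpin Cfsg.Agent.Lib.FormOrth QuadraticMap

theorem mem_closure_iff {F V : Type*} [Field F] [AddCommGroup V] [Module F V]
    {Q : QuadraticForm F V} {θ δ : orth Q →* ℤˣ} (h : IsSpin Q θ δ) (g : orth Q) :
    g ∈ Subgroup.closure {g : orth Q | ∃ u v, Q u ≠ 0 ∧ Q v ≠ 0 ∧ g = refl Q u * refl Q v} ↔
      δ g = 1 := by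
  set H := Subgroup.closure {g : orth Q | ∃ u v, Q u ≠ 0 ∧ Q v ≠ 0 ∧ g = refl Q u * refl Q v}
  constructor
  · have : H ≤ δ.ker := by
      rw [Subgroup.closure_le]
      rintro _ ⟨u, v, hu, hv, rfl⟩
      simp [h.δ_refl u hu, h.δ_refl v hv]
    exact fun hg => this hg
  · have key : (δ g = 1 → g ∈ H) ∧ (δ g = -1 → ∀ w, Q w ≠ 0 → refl Q w * g ∈ H) := by
      have hg : g ∈ Subgroup.closure (reflSet Q) := by rw [h.gen]; trivial
      have step : ∀ v, Q v ≠ 0 → ∀ g : orth Q,
          ((δ g = 1 → g ∈ H) ∧ (δ g = -1 → ∀ w, Q w ≠ 0 → refl Q w * g ∈ H)) →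
          (δ (refl Q v * g) = 1 → refl Q v * g ∈ H) ∧
            (δ (refl Q v * g) = -1 → ∀ w, Q w ≠ 0 → refl Q w * (refl Q v * g) ∈ H) := by
        intro v hv g ih
        rw [map_mul, h.δ_refl v hv]
        refine ⟨fun h1 => ih.2 (by simpa [neg_eq_iff_eq_neg] using h1) v hv, fun h1 w hw => ?_⟩
        rw [← mul_assoc]
        exact mul_mem (Subgroup.subset_closure ⟨w, v, hw, hv, rfl⟩) (ih.1 (by simpa using h1))
      induction hg using Subgroup.closure_induction_left with
      | one => exact ⟨fun _ => one_mem H, fun h1 => absurd h1 (by simp)⟩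
      | mul_left x hx y _ ih =>
        obtain ⟨v, hv, rfl⟩ := hx
        exact step v hv y ih
      | inv_mul_cancel x hx y _ ih =>
        obtain ⟨v, hv, rfl⟩ := hx
        rw [refl_inv]
        exact step v hv y ih
    exact key.1

/-- For q odd and Q with non-degenerate polar form on F^n, the determinant-one isometries form the subgroup generated by all products r_u r_v of two reflections (Q(u), Q(v) ≠ 0). -/
theorem result {F : Type*} [Field F] [Fintype F] (h2 : (2 : F) ≠ 0) {n : ℕ} (Q : QuadraticForm F (Fin n → F)) (hQ : (QuadraticMap.polarBilin Q).Nondegenerate) : Cfsg.specialIsometryGroup F ⇑Q = Subgroup.closure {g : ↥(Cfsg.isometryGroup F ⇑Q) | ∃ u v : Fin n → F, Q u ≠ 0 ∧ Q v ≠ 0 ∧ ((g : Matrix.GeneralLinearGroup (Fin n) F) : Matrix (Fin n) (Fin n) F) = Cfsg.reflectionMatrix ⇑Q u * Cfsg.reflectionMatrix ⇑Q v} := by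
  obtain ⟨θ, δ, h⟩ := exists_isSpin hQ.1 (Or.inl (exists_ne_zero_ne_one_of_two h2))
  ext g
  rw [mem_specialIsometryGroup, ← det_orthEquiv, h.det_eq_one_iff h2, ← mem_closure_iff h]
  refine (mem_closure_iff_of_equiv (orthEquiv Q) (fun g => ?_) g).symm
  refine exists_congr fun u => exists_congr fun v => and_congr_right fun _ =>
    and_congr_right fun _ => ⟨fun hg => ?_, fun hg => matrix_ext fun x => ?_⟩
  · ext x : 2
    rw [orthEquiv_apply, hg, ← Matrix.mulVec_mulVec, reflectionMatrix_mulVec,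
      reflectionMatrix_mulVec, coe_mul_apply, refl_apply, refl_apply]
  · rw [← orthEquiv_apply, hg, ← Matrix.mulVec_mulVec, reflectionMatrix_mulVec,
      reflectionMatrix_mulVec, coe_mul_apply, refl_apply, refl_apply]

end Cfsg.Agent.S0792
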