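import Cfsg.Statements.S0794
import Cfsg.Agent.Lib.FormOrth

set_option autoImplicit false
open Cfsg

namespace Cfsg.Agent.S0794

open Cfsg.Agent.Lib.FormMatrix Cfsg.Agent.Lib.FormOrth Cfsg.Agent.Lib.FormWitt QuadraticMap

theorem siegel_mem_commutatorSet {F V : Type*} [Field F] [AddCommGroup V] [Module F V]
    [FiniteDimensional F V] (h2 : (2 : F) ≠ 0) {Q : QuadraticForm F V}
    (hQ : (polarBilin Q).SeparatingLeft) {u v : V} (hu : Q u = 0) (huv : polar Q u v = 0)
    (hv : Q v = 0) : siegel Q u v hu huv ∈ commutatorSet (orth Q) := by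
  by_cases hvu : v ∈ F ∙ u
  · rw [siegel_eq_one hu huv hvu]; exact one_mem_commutatorSet _
  obtain ⟨g, hg, hfix, hgv⟩ := (isFormSpace_quad Q hQ).step (F ∙ u) (-v) v
    (fun h => hvu (by simpa using h)) hvu (by simp) (fun z hz => by
      obtain ⟨c, rfl⟩ := Submodule.mem_span_singleton.mp hz
      simp [huv])
  let G : orth Q := ⟨g, mem_orth.mpr fun v => hg.2 v trivial⟩
  have hw : polar Q u ((2 : F)⁻¹ • -v) = 0 := by simp [huv]
  refine ⟨G, siegel Q u ((2 : F)⁻¹ • -v) hu hw, ?_⟩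
  have hGu : G.1 u = u := hfix u (Submodule.mem_span_singleton_self u)
  have hGv : G.1 ((2 : F)⁻¹ • -v) = (2 : F)⁻¹ • v := by rw [map_smul]; exact congrArg _ hgv
  rw [commutatorElement_def, conj_siegel, siegel_inv]
  simp only [hGu, hGv]
  rw [siegel_mul _ _ _ (by simp [huv])]
  apply siegel_congr
  match_scalars
  field_simp
  norm_num

/-- For q odd, n ≥ 5 and Q with non-degenerate polar form: an isometry whose matrix is a Siegel transformation T_(u,v)(c) (u, v singular and orthogonal) is a commutator in the isometry group, so lies in Ω. -/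
theorem result {F : Type*} [Field F] [Fintype F] (h2 : (2 : F) ≠ 0) {n : ℕ} (hn : 5 ≤ n) (Q : QuadraticForm F (Fin n → F)) (hQ : (QuadraticMap.polarBilin Q).Nondegenerate) (u v : Fin n → F) (hu : Q u = 0) (hv : Q v = 0) (huv : QuadraticMap.polar ⇑Q u v = 0) (c : F) (g : ↥(Cfsg.isometryGroup F ⇑Q)) (hg : ((g : Matrix.GeneralLinearGroup (Fin n) F) : Matrix (Fin n) (Fin n) F) = Cfsg.siegelMatrix ⇑Q u v c) : g ∈ commutatorSet ↥(Cfsg.isometryGroup F ⇑Q) ∧ g ∈ Cfsg.Omega F ⇑Q := by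
  have h1 : g ∈ commutatorSet ↥(Cfsg.isometryGroup F ⇑Q) := by
    apply mem_commutatorSet_of_equiv (orthEquiv Q)
    rw [(orthEquiv_eq_siegel_iff Q g u v c hu hv huv).mp hg]
    exact siegel_mem_commutatorSet h2 hQ.1 _ _ (by rw [QuadraticMap.map_smul, hv, smul_zero])
  refine ⟨h1, ?_⟩
  rw [Cfsg.Omega, commutator_eq_closure]
  exact Subgroup.subset_closure h1

end Cfsg.Agent.S0794
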