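import Cfsg.Statements.S0795
import Cfsg.Agent.Lib.FormEichler

set_option autoImplicit false
open Cfsg

namespace Cfsg.Agent.S0795

open Cfsg.Agent.Lib.FormMatrix Cfsg.Agent.Lib.FormOrth Cfsg.Agent.Lib.FormEichler QuadraticMap

/-- Generation of Ω by root elements: for q odd, n ≥ 5 and Q with non-degenerate polar form on F^n, the commutator subgroup of the isometry group equals the subgroup generated by the isometries whose matrices are Siegel transformations T_(u,v)(c) with u, v singular and orthogonal. -/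
theorem result {F : Type*} [Field F] [Fintype F] (h2 : (2 : F) ≠ 0) {n : ℕ} (hn : 5 ≤ n) (Q : QuadraticForm F (Fin n → F)) (hQ : (QuadraticMap.polarBilin Q).Nondegenerate) : Cfsg.Omega F ⇑Q = Subgroup.closure {g : ↥(Cfsg.isometryGroup F ⇑Q) | ∃ (u v : Fin n → F) (c : F), Q u = 0 ∧ Q v = 0 ∧ QuadraticMap.polar ⇑Q u v = 0 ∧ ((g : Matrix.GeneralLinearGroup (Fin n) F) : Matrix (Fin n) (Fin n) F) = Cfsg.siegelMatrix ⇑Q u v c} := by
  ext g
  rw [mem_commutator_iff_of_equiv (orthEquiv Q),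
    commutator_eq_closure_siegelSet h2 hQ.1 (by simpa using hn)]
  refine (mem_closure_iff_of_equiv (orthEquiv Q) (fun g => ⟨?_, ?_⟩) g).symm
  · rintro ⟨u, v, c, hu, hv, huv, hg⟩
    exact ⟨u, c • v, hu, _, by rw [QuadraticMap.map_smul, hv, smul_zero],
      (orthEquiv_eq_siegel_iff Q g u v c hu hv huv).mp hg⟩
  · rintro ⟨u, v, hu, huv, hv, hg⟩
    refine ⟨u, v, 1, hu, hv, huv, (orthEquiv_eq_siegel_iff Q g u v 1 hu hv huv).mpr ?_⟩
    rw [hg]
    exact siegel_congr hu huv (one_smul F v).symm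

end Cfsg.Agent.S0795
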