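import Cfsg.Statements.S0796
-- import your own Cfsg.Agent.* helpers here

set_option autoImplicit false
open Cfsg

namespace Cfsg.Agent.S0796

/-- If G is finite and acts faithfully and primitively on X, H is the stabiliser of a point, A is a normal subgroup of H whose normal closure in G is G, then for every non-trivial normal subgroup K of G the quotient G ⧸ K is isomorphic to A ⧸ B for some normal subgroup B of A. -/
theorem result {G X : Type*} [Group G] [Finite G] [MulAction G X] [FaithfulSMul G X] (hprim : MulAction.IsPreprimitive G X) (x : X) (A : Subgroup G) (hA : A ≤ MulAction.stabilizer G x) (hAn : (A.subgroupOf (MulAction.stabilizer G x)).Normal) (hgen : Subgroup.normalClosure (A : Set G) = ⊤) (K : Subgroup G) [K.Normal] (hK : K ≠ ⊥) : ∃ (B : Subgroup A) (_ : B.Normal), Nonempty (G ⧸ K ≃* A ⧸ B) := by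
  -- `K` is transitive
  have hKt : MulAction.IsPretransitive K X := by
    apply MulAction.IsQuasiPreprimitive.isPretransitive_of_normal
    intro hfix
    apply hK
    rw [Subgroup.eq_bot_iff_forall]
    intro g hg
    apply (inferInstance : FaithfulSMul G X).eq_of_smul_eq_smul
    intro y
    rw [one_smul]
    exact Set.eq_univ_iff_forall.mp hfix y ⟨g, hg⟩
  let φ : A →* G ⧸ K := (QuotientGroup.mk' K).comp A.subtype
  have hN : φ.range.Normal := by
    refine ⟨?_⟩
    rintro _ ⟨a, rfl⟩ g
    induction g using QuotientGroup.induction_on with | H g =>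
    obtain ⟨k, hk⟩ := MulAction.exists_smul_eq K x (g • x)
    have hh : (k : G)⁻¹ * g ∈ MulAction.stabilizer G x := by
      rw [MulAction.mem_stabilizer_iff, mul_smul, ← hk]
      exact inv_smul_smul (k : G) x
    have hmem := hAn.conj_mem ⟨a, hA a.2⟩ a.2 ⟨_, hh⟩
    refine ⟨⟨_, hmem⟩, ?_⟩
    have hk1 : ((k : G) : G ⧸ K) = 1 := (QuotientGroup.eq_one_iff _).2 k.2
    simp [φ, hk1]
  have hsurj : Function.Surjective φ := by
    rw [← MonoidHom.range_eq_top, eq_top_iff]
    intro g _
    induction g using QuotientGroup.induction_on with | H g =>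
    have h1 : Subgroup.normalClosure (A : Set G) ≤ φ.range.comap (QuotientGroup.mk' K) :=
      Subgroup.normalClosure_le_normal fun a ha => ⟨⟨a, ha⟩, rfl⟩
    exact h1 (hgen ▸ Subgroup.mem_top g)
  exact ⟨φ.ker, inferInstance, ⟨(QuotientGroup.quotientKerEquivOfSurjective φ hsurj).symm⟩⟩

end Cfsg.Agent.S0796
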