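import Cfsg.Statements.S0797
import Cfsg.Agent.Lib.FormSpin
import Cfsg.Agent.S0787

set_option autoImplicit false
open Cfsg

namespace Cfsg.Agent.S0797

open Cfsg.Agent.Lib.FormMatrix Cfsg.Agent.Lib.FormSpin Cfsg.Agent.Lib.FormOrth QuadraticMap

theorem card_eq_three {G : Type*} [Group G] (θ δ : G →* ℤˣ) (hs : Function.Surjective (θ.prod δ))
    (hc : ∀ g, θ g = 1 → δ g = 1 → g ∈ commutator G) :
    Nat.card {H : Subgroup G // H.index = 2} = 3 := by
  obtain ⟨a, ha⟩ := hs (-1, 1)
  obtain ⟨b, hb⟩ := hs (1, -1)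
  simp only [MonoidHom.prod_apply, Prod.mk.injEq] at ha hb
  have hsurj : ∀ φ : G →* ℤˣ, ∀ x, φ x = -1 → φ.ker.index = 2 := fun φ x hx => by
    rw [index_ker_of_surjective φ (fun t => by
      rcases Int.units_eq_one_or t with rfl | rfl
      · exact ⟨1, map_one φ⟩
      · exact ⟨x, hx⟩)]
    simp
  have hset : {H : Subgroup G | H.index = 2} = {θ.ker, δ.ker, (θ * δ).ker} := by
    ext H
    simp only [Set.mem_setOf_eq, Set.mem_insert_iff, Set.mem_singleton_iff]
    constructor
    · intro hH
      have h0 : ∀ g, θ g = 1 → δ g = 1 → g ∈ H := fun g h1 h2 =>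
        Cfsg.Agent.S0787.commutator_le_of_index_two H hH (hc g h1 h2)
      have hmul := fun x y => Subgroup.mul_mem_iff_of_index_two hH (a := x) (b := y)
      have h1 : ∀ g, θ g = -1 → δ g = 1 → (g ∈ H ↔ a ∈ H) := fun g h1 h2 =>
        (hmul g a).mp (h0 _ (by simp [h1, ha.1]) (by simp [h2, ha.2]))
      have h2 : ∀ g, θ g = 1 → δ g = -1 → (g ∈ H ↔ b ∈ H) := fun g h1 h2 =>
        (hmul g b).mp (h0 _ (by simp [h1, hb.1]) (by simp [h2, hb.2]))
      have h3 : ∀ g, θ g = -1 → δ g = -1 → (g ∈ H ↔ (a ∈ H ↔ b ∈ H)) := fun g h1 h2 => by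
        rw [← hmul a b]
        exact (hmul g (a * b)).mp (h0 _ (by simp [h1, ha.1, hb.1]) (by simp [h2, ha.2, hb.2]))
      have hne : ¬ (a ∈ H ∧ b ∈ H) := by
        rintro ⟨h4, h5⟩
        have : H = ⊤ := by
          rw [eq_top_iff]
          intro g _
          rcases Int.units_eq_one_or (θ g) with p | p <;> rcases Int.units_eq_one_or (δ g) with r | r
          · exact h0 g p r
          · exact (h2 g p r).mpr h5
          · exact (h1 g p r).mpr h4
          · exact (h3 g p r).mpr (by tauto)
        rw [this, Subgroup.index_top] at hH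
        omega
      by_cases h4 : a ∈ H
      · right; left
        ext g
        rw [MonoidHom.mem_ker]
        rcases Int.units_eq_one_or (θ g) with p | p <;> rcases Int.units_eq_one_or (δ g) with r | r
        · simp [h0 g p r, r]
        · rw [h2 g p r, r]; simp; tauto
        · simp [h1 g p r, r, h4]
        · rw [h3 g p r, r]; simp; tauto
      · by_cases h5 : b ∈ H
        · left
          ext g
          rw [MonoidHom.mem_ker]
          rcases Int.units_eq_one_or (θ g) with p | p <;> rcases Int.units_eq_one_or (δ g) with r | r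
          · simp [h0 g p r, p]
          · simp [h2 g p r, p, h5]
          · simp [h1 g p r, p, h4]
          · simp [h3 g p r, p, h4, h5]
        · right; right
          ext g
          rw [MonoidHom.mem_ker, MonoidHom.mul_apply]
          rcases Int.units_eq_one_or (θ g) with p | p <;> rcases Int.units_eq_one_or (δ g) with r | r
          · simp [h0 g p r, p, r]
          · simp [h2 g p r, p, r, h5]
          · simp [h1 g p r, p, r, h4]
          · simp [h3 g p r, p, r, h4, h5]
    · rintro (rfl | rfl | rfl)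
      · exact hsurj θ a ha.1
      · exact hsurj δ b hb.2
      · exact hsurj _ a (by simp [ha.1, ha.2])
  have : Nat.card {H : Subgroup G // H.index = 2} = Set.ncard {H : Subgroup G | H.index = 2} :=
    Nat.card_coe_set_eq _
  rw [this, hset, Set.ncard_eq_three]
  refine ⟨_, _, _, fun h => ?_, fun h => ?_, fun h => ?_, rfl⟩
  · have : a ∈ δ.ker := ha.2
    rw [← h, MonoidHom.mem_ker, ha.1] at this
    exact absurd this (by decide)
  · have : b ∈ θ.ker := hb.1
    rw [h, MonoidHom.mem_ker, MonoidHom.mul_apply, hb.1, hb.2] at this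
    exact absurd this (by decide)
  · have : a ∈ δ.ker := ha.2
    rw [h, MonoidHom.mem_ker, MonoidHom.mul_apply, ha.1, ha.2] at this
    exact absurd this (by decide)

/-- O^ε_2m(q) ≅ Ω.2² for q odd: if F is finite of odd characteristic, n ≥ 2 is even and Q has non-degenerate polar form on F^n, the isometry group of Q has exactly three subgroups of index 2. -/
theorem result {F : Type*} [Field F] [Fintype F] (h2 : (2 : F) ≠ 0) {n : ℕ} (hn : 2 ≤ n) (heven : Even n) (Q : QuadraticForm F (Fin n → F)) (hQ : (QuadraticMap.polarBilin Q).Nondegenerate) : Nat.card {H : Subgroup ↥(Cfsg.isometryGroup F ⇑Q) // H.index = 2} = 3 := by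
  obtain ⟨θ, δ, hs⟩ := exists_isSpin hQ.1 (Or.inl (exists_ne_zero_ne_one_of_two h2))
  let e := orthEquiv Q
  refine card_eq_three (θ.comp e.toMonoidHom) (δ.comp e.toMonoidHom) (fun t => ?_) fun g h1 h3 => ?_
  · obtain ⟨g, rfl⟩ := hs.prod_surjective hQ.1 h2 (by simpa using hn) t
    exact ⟨e.symm g, by simp⟩
  · rw [mem_commutator_iff_of_equiv e, hs.mem_commutator_iff hQ.1]
    exact ⟨h1, h3⟩

end Cfsg.Agent.S0797
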