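import Cfsg.Statements.S0798
import Cfsg.Agent.Lib.FormEichler

set_option autoImplicit false
open Cfsg

namespace Cfsg.Agent.S0798

open Module QuadraticMap Cfsg.Agent.Lib.FormWitt Cfsg.Agent.Lib.FormPerp Cfsg.Agent.Lib.FormMatrix
  Cfsg.Agent.Lib.FormOrth Cfsg.Agent.Lib.FormBasis Cfsg.Agent.Lib.FormSpin
  Cfsg.Agent.Lib.FormEichler

section

variable {F V : Type*} [Field F] [AddCommGroup V] [Module F V] [FiniteDimensional F V]
  {Q : QuadraticForm F V}

theorem mul_self_of_two (h2 : (2 : F) ≠ 0) (hQ : (polarBilin Q).SeparatingLeft)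
    (hn : finrank F V = 2) {θ δ : orth Q →* ℤˣ} (hs : IsSpin Q θ δ) (g : orth Q) (hg : δ g = -1) :
    g * g = 1 := by
  have h := isFormSpace_quad Q hQ
  obtain ⟨x, -, hx⟩ := exists_ne_zero_of_nondegOn (nondegOn_top h)
    (ne_bot_of_finrank_pos (by rw [finrank_top]; omega))
  have hx0 : x ≠ 0 := by rintro rfl; simp at hx
  have hX : NondegOn (σ := RingHom.id F) (polarBilin Q) (F ∙ x) :=
    nondegOn_singleton Function.injective_id (by simpa [polar_self', h2] using hx)
  have hd : finrank F (perp (σ := RingHom.id F) (polarBilin Q) (F ∙ x)) = 1 := by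
    rw [finrank_perp h, finrank_span_singleton hx0, hn]
  obtain ⟨y, hyp, hy⟩ := exists_ne_zero_of_nondegOn (hX.perp h) (ne_bot_of_finrank_pos hd.ge)
  have hy0 : y ≠ 0 := by rintro rfl; simp at hy
  have hxy : polar Q x y = 0 := mem_perp_singleton.mp hyp
  have hyx : polar Q y x = 0 := by rw [polar_comm, hxy]
  have hp : perp (σ := RingHom.id F) (polarBilin Q) (F ∙ x) = F ∙ y :=
    (Submodule.eq_of_le_of_finrank_eq ((Submodule.span_singleton_le_iff_mem _ _).mpr hyp)
      (by rw [hd, finrank_span_singleton hy0])).symm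
  have hext : ∀ k k' : orth Q, k.1 x = k'.1 x → k.1 y = k'.1 y → k = k' := fun k k' h1 h3 => by
    ext v
    obtain ⟨w, hw, z, hz, rfl⟩ := hX.exists_add h v
    rw [hp] at hz
    obtain ⟨a, rfl⟩ := Submodule.mem_span_singleton.mp hw
    obtain ⟨b, rfl⟩ := Submodule.mem_span_singleton.mp hz
    simp [h1, h3]
  have hfix : ∀ k : orth Q, k.1 x = x → k = 1 ∨ k = refl Q y := fun k hk => by
    have h1 : k.1 y ∈ F ∙ y := by
      rw [← hp, mem_perp_singleton]
      show polar Q x (k.1 y) = 0
      rw [← hxy, ← orth_polar k x y, hk]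
    obtain ⟨a, ha⟩ := Submodule.mem_span_singleton.mp h1
    have h3 := orth_map k y
    rw [← ha, QuadraticMap.map_smul, smul_eq_mul] at h3
    have h4 : a * a = 1 := mul_right_cancel₀ hy (by rw [h3, one_mul])
    rcases mul_self_eq_one_iff.mp h4 with rfl | rfl
    · exact Or.inl (hext _ _ hk (by simpa using ha.symm))
    · exact Or.inr (hext _ _ (by rw [hk, refl_apply_of_polar hyx])
        (by rw [refl_apply_self hy, ← ha]; simp))
  by_cases h1 : Q (x - g.1 x) = 0
  · have h3 : Q (-x - g.1 x) ≠ 0 := by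
      rw [Cfsg.Agent.Lib.FormOrth.map_sub', orth_map] at h1 ⊢
      rw [QuadraticMap.map_neg, polar_neg_left]
      intro h0
      exact mul_ne_zero (mul_ne_zero h2 h2) hx (by linear_combination h0 + h1)
    have h4 := refl_sub_apply (a := g.1 x) (b := -x) (by simp [orth_map]) h3
    rcases hfix (refl Q x * (refl Q (-x - g.1 x) * g)) (by
      rw [coe_mul_apply, coe_mul_apply, h4, map_neg, refl_apply_self hx, neg_neg]) with h5 | h5
    · have := congrArg δ h5
      simp [hs.δ_refl _ hx, hs.δ_refl _ h3, hg] at this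
    · have h6 : g = refl Q (-x - g.1 x) * (refl Q x * refl Q y) := by
        rw [← h5, ← mul_assoc (refl Q x), refl_mul_self, one_mul, ← mul_assoc, refl_mul_self,
          one_mul]
      have h7 : ∀ v, (refl Q x * refl Q y).1 v = -v := by
        have := hext (refl Q x * refl Q y) ⟨LinearEquiv.neg F, mem_orth.mpr fun v => by simp⟩
          (by rw [coe_mul_apply, refl_apply_of_polar hyx, refl_apply_self hx]; rfl)
          (by rw [coe_mul_apply, refl_apply_self hy, map_neg, refl_apply_of_polar hxy]; rfl)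
        intro v
        rw [this]; rfl
      generalize -x - g.1 x = z at h6
      ext v
      generalize refl Q x * refl Q y = k at h6 h7
      rw [h6, coe_mul_apply, coe_mul_apply, coe_mul_apply, h7, h7, map_neg, map_neg, map_neg,
        neg_neg, ← coe_mul_apply, refl_mul_self]
  · have h4 := refl_sub_apply (a := g.1 x) (b := x) (orth_map g x) h1
    rcases hfix (refl Q (x - g.1 x) * g) h4 with h5 | h5
    · rw [← inv_eq_of_mul_eq_one_right h5, refl_inv, refl_mul_self]
    · have := congrArg δ h5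
      simp [hs.δ_refl _ hy, hs.δ_refl _ h1, hg] at this

/-- The reflections of the square class of `c`. -/
def cls (Q : QuadraticForm F V) (c : F) : Set (orth Q) :=
  {g | ∃ (v : V) (t : F), t ≠ 0 ∧ Q v = c * t ^ 2 ∧ g = refl Q v}

omit [FiniteDimensional F V] in
theorem normal_cls (c : F) : (Subgroup.closure (cls Q c)).Normal := by
  apply normal_closure_of_conj
  rintro g _ ⟨v, t, ht, hv, rfl⟩
  exact ⟨g.1 v, t, ht, by rw [orth_map, hv], conj_refl g v⟩

theorem eichlerSet_subset_cls [Finite F] (h2 : (2 : F) ≠ 0) (hQ : (polarBilin Q).SeparatingLeft)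
    (hn : 4 ≤ finrank F V) (h : (∃ a : F, a ≠ 0 ∧ a ^ 2 ≠ 1) ∨ 5 ≤ finrank F V) {c : F}
    (hc : c ≠ 0) : eichlerSet Q ⊆ Subgroup.closure (cls Q c) := by
  have hs := isFormSpace_quad Q hQ
  rintro _ ⟨u, v, hu, huv, rfl⟩
  by_cases hu0 : u = 0
  · subst hu0
    rw [siegel_zero_left]; exact one_mem _
  obtain ⟨f, -, huf, hf⟩ := exists_partner' hQ ⊥ u hu0 hu (by simp)
  let A := siegelAddSubgroup (Subgroup.closure (cls Q c)) hu
  have hA : ∀ x t, polar Q u x = 0 → t ≠ 0 → Q x = c * t ^ 2 → x ∈ A := fun x t h1 ht hx => by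
    refine ⟨h1, ?_⟩
    rw [siegel_eq_refl_mul hu h1 (by simp [hx, hc, ht])]
    exact mul_mem (Subgroup.subset_closure ⟨_, t, ht, hx, rfl⟩)
      (Subgroup.subset_closure ⟨_, t, ht, by rw [map_add_smul_singular hu h1, hx], rfl⟩)
  have hA' : ∀ x (s : F), polar Q u x = 0 → Q x = c → s • x ∈ A := fun x s h1 hx => by
    by_cases hs0 : s = 0
    · rw [hs0, zero_smul]; exact A.zero_mem
    · exact hA _ s (by simp [h1]) hs0 (by rw [QuadraticMap.map_smul, hx, smul_eq_mul]; ring)
  have hW := nondegOn_perp_pair hQ hu huf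
  have hWd := finrank_perp_pair hQ u f
  obtain ⟨v₀, hv₀, hQ₀⟩ := exists_eq_of_two_le hQ hW (by omega) c
  have hu₀ := (mem_perp_pair.mp hv₀).1
  have k1 : ∀ y a, polar Q u y = 0 → polar Q y v₀ = 0 → a ≠ 0 → c * a ^ 2 + Q y ≠ 0 → y ∈ A :=
    fun y a h1 h3 ha h4 => by
      have h5 := hA (y + ((Q y / (c * a) - a) / 2) • v₀) ((Q y / (c * a) + a) / 2)
        (by simp [h1, hu₀]) (by
          intro h0
          apply h4
          field_simp at h0
          linear_combination h0) (by rw [map_add_smul, h3, hQ₀]; field_simp; ring)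
      simpa using A.sub_mem h5 (hA' v₀ ((Q y / (c * a) - a) / 2) hu₀ hQ₀)
  have proj : ∀ y w, Q w = c → polar Q (y - (polar Q y w / (2 * c)) • w) w = 0 := fun y w hw => by
    rw [polar_sub_left, polar_smul_left, polar_self', hw, smul_eq_mul,
      div_mul_cancel₀ _ (mul_ne_zero h2 hc), sub_self]
  have k2 : ∀ y, polar Q u y = 0 → polar Q y v₀ = 0 → y ∈ A := by
    rcases h with ⟨a, ha0, ha⟩ | h5
    · intro y h1 h3
      by_cases h4 : c * 1 ^ 2 + Q y = 0
      · refine k1 y a h1 h3 ha0 fun h0 => ha (mul_left_cancel₀ hc ?_)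
        linear_combination h0 - h4
      · exact k1 y 1 h1 h3 one_ne_zero h4
    · have hU := ((nondegOn_pair hs (e := u) (f := f) (by simp [hu]) (by simp [huf])).sup hs
        (nondegOn_singleton (a := v₀) Function.injective_id (by simp [polar_self', h2, hQ₀, hc]))
        ((Submodule.span_singleton_le_iff_mem _ _).mpr hv₀)).perp hs
      obtain ⟨v₁, hv₁, hQ₁⟩ := exists_eq_of_two_le hQ hU (by
        rw [finrank_perp hs]
        have h1 := Submodule.finrank_add_le_finrank_add_finrank (Submodule.span F {u, f}) (F ∙ v₀)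
        have h3 := finrank_span_pair_le (F := F) u f
        have h4 := finrank_span_singleton_le (F := F) v₀
        omega) c
      rw [perp_sup] at hv₁
      have hu₁ := (mem_perp_pair.mp hv₁.1).1
      have h01 : polar Q v₀ v₁ = 0 := mem_perp_singleton.mp hv₁.2
      have k3 : ∀ y, polar Q u y = 0 → polar Q y v₀ = 0 → polar Q y v₁ = 0 → y ∈ A :=
        fun y h1 h3 h6 => by
          by_cases h4 : c * 1 ^ 2 + Q y = 0
          · have h7 := k1 (y + (1 : F) • v₁) 1 (by simp [h1, hu₁])
              (by simp [h3, polar_comm Q v₁, h01]) one_ne_zero (by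
                rw [map_add_smul, h6, hQ₁]
                intro h0
                exact hc (by linear_combination h0 - h4))
            simpa using A.sub_mem h7 (hA' v₁ 1 hu₁ hQ₁)
          · exact k1 y 1 h1 h3 one_ne_zero h4
      intro y h1 h3
      have h7 := k3 (y - (polar Q y v₁ / (2 * c)) • v₁) (by simp [h1, hu₁])
        (by simp [h3, polar_comm Q v₁, h01]) (proj y v₁ hQ₁)
      simpa using A.add_mem h7 (hA' v₁ (polar Q y v₁ / (2 * c)) hu₁ hQ₁)
  have h7 := k2 (v - (polar Q v v₀ / (2 * c)) • v₀) (by simp [huv, hu₀]) (proj v v₀ hQ₀)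
  have h8 : v ∈ A := by simpa using A.add_mem h7 (hA' v₀ (polar Q v v₀ / (2 * c)) hu₀ hQ₀)
  exact h8.2

theorem index_cls [Finite F] (h2 : (2 : F) ≠ 0) (hQ : (polarBilin Q).SeparatingLeft)
    (hn : finrank F V = 2 ∨ (4 ≤ finrank F V ∧ ((∃ a : F, a ≠ 0 ∧ a ^ 2 ≠ 1) ∨ 5 ≤ finrank F V)))
    {c : F} (hc : c ≠ 0) : (Subgroup.closure (cls Q c)).index = 2 := by
  have := Fintype.ofFinite F
  obtain ⟨θ, δ, hs⟩ := exists_isSpin hQ (Or.inl (exists_ne_zero_ne_one_of_two h2))
  have hN := normal_cls (Q := Q) c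
  have htop := nondegOn_top (isFormSpace_quad Q hQ)
  have hex : ∀ t, ∃ v, Q v = t := fun t => by
    obtain ⟨v, -, hv⟩ := exists_eq_of_two_le hQ htop (by rw [finrank_top]; omega) t
    exact ⟨v, hv⟩
  set H := Subgroup.closure (cls Q c)
  have star : ∀ u v, Q u ≠ 0 → Q v ≠ 0 → IsSquare (Q u * Q v) → refl Q v * refl Q u ∈ H := by
    intro u v hu hv huv
    rcases hn with hn | ⟨hn, hn'⟩
    · obtain ⟨g, hg⟩ : ∃ g : orth Q, δ g = 1 ∧ g * refl Q u * g⁻¹ = refl Q v := by
        obtain ⟨g, hg⟩ := isConj_iff.mp (isConj_refl hQ hu hv huv)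
        rcases Int.units_eq_one_or (δ g) with h1 | h1
        · exact ⟨g, h1, hg⟩
        · exact ⟨g * refl Q u, by simp [h1, hs.δ_refl u hu], by
            rw [← hg, mul_assoc g, refl_mul_self, mul_inv_rev, refl_inv]; group⟩
      obtain ⟨w, hw⟩ := hex c
      have key : ∀ x, Q x ≠ 0 → g * refl Q x * g⁻¹ * refl Q x = g * g := fun x hx => by
        have h1 := mul_self_of_two h2 hQ hn hs (g⁻¹ * refl Q x) (by simp [hg.1, hs.δ_refl x hx])
        calc g * refl Q x * g⁻¹ * refl Q x = g * g * (g⁻¹ * refl Q x * (g⁻¹ * refl Q x)) := by group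
          _ = g * g := by rw [h1, mul_one]
      have hwH : refl Q w ∈ H := Subgroup.subset_closure ⟨w, 1, one_ne_zero, by simp [hw], rfl⟩
      rw [← hg.2, key u hu, ← key w (by rwa [hw])]
      exact mul_mem (hN.conj_mem _ hwH g) hwH
    · exact refl_mul_mem_of_isSquare hQ hn (eichlerSet_subset_cls h2 hQ hn hn' hc) hu hv huv
  obtain ⟨d, hd⟩ := FiniteField.exists_nonsquare (Cfsg.Agent.Lib.FormField.ringChar_ne_two h2)
  have hd0 : d ≠ 0 := by rintro rfl; exact hd ⟨0, by simp⟩
  obtain ⟨w₀, hw₀⟩ := hex (c * d)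
  have hw₀0 : Q w₀ ≠ 0 := by simp [hw₀, hc, hd0]
  have gen : ∀ v, Q v ≠ 0 → refl Q v ∈ H ∨ refl Q v * refl Q w₀ ∈ H := fun v hv => by
    by_cases h1 : IsSquare (Q v * c)
    · obtain ⟨r, hr⟩ := h1
      have hr0 : r ≠ 0 := by rintro rfl; exact mul_ne_zero hv hc (by simpa using hr)
      exact Or.inl (Subgroup.subset_closure ⟨v, r / c, div_ne_zero hr0 hc, by
        field_simp; linear_combination hr, rfl⟩)
    · refine Or.inr (star _ _ hw₀0 hv ?_)
      have := Cfsg.Agent.Lib.FormField.isSquare_mul_of_not h1 hd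
      rwa [hw₀, mul_comm, ← mul_assoc]
  have all : ∀ g : orth Q, g ∈ H ∨ g * refl Q w₀ ∈ H := fun g => by
    have hg : g ∈ Subgroup.closure (reflSet Q) := by rw [hs.gen]; trivial
    induction hg using Subgroup.closure_induction with
    | mem x hx => obtain ⟨v, hv, rfl⟩ := hx; exact gen v hv
    | one => exact Or.inl (one_mem H)
    | mul a b _ _ ha hb =>
      rcases ha with ha | ha <;> rcases hb with hb | hb
      · exact Or.inl (mul_mem ha hb)
      · exact Or.inr (by rw [mul_assoc]; exact mul_mem ha hb)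
      · exact Or.inr (by simpa [mul_assoc] using mul_mem ha (hN.conj_mem _ hb (refl Q w₀)⁻¹))
      · left
        have := mul_mem ha (hN.conj_mem _ hb (refl Q w₀))
        rwa [show a * refl Q w₀ * (refl Q w₀ * (b * refl Q w₀) * (refl Q w₀)⁻¹) =
          a * (refl Q w₀ * refl Q w₀) * b by group, refl_mul_self, mul_one] at this
    | inv a _ ha =>
      rcases ha with ha | ha
      · exact Or.inl (inv_mem ha)
      · right
        have := hN.conj_mem _ (inv_mem ha) (refl Q w₀)
        rw [show refl Q w₀ * (a * refl Q w₀)⁻¹ * (refl Q w₀)⁻¹ = a⁻¹ * (refl Q w₀)⁻¹ by group,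
          refl_inv] at this
        exact this
  have hnot : refl Q w₀ ∉ H := by
    classical
    let χ : orth Q →* ℤˣ := if IsSquare c then θ else θ * δ
    have hχ : ∀ v t, t ≠ 0 → Q v = c * t → χ (refl Q v) = sgnSq t := fun v t ht hv => by
      have hv0 : Q v ≠ 0 := by simp [hv, hc, ht]
      by_cases h1 : IsSquare c
      · simp [χ, h1, hs.θ_refl v hv0, hv, sgnSq_mul hc ht, sgnSq_eq_one_iff.mpr h1]
      · simp [χ, h1, hs.θ_refl v hv0, hs.δ_refl v hv0, hv, sgnSq_mul hc ht,
          sgnSq_eq_neg_one_iff.mpr h1]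
    have h1 : H ≤ χ.ker := by
      rw [Subgroup.closure_le]
      rintro _ ⟨v, t, ht, hv, rfl⟩
      exact (hχ v _ (pow_ne_zero 2 ht) hv).trans (sgnSq_eq_one_iff.mpr ⟨t, sq t⟩)
    intro h0
    exact hd (sgnSq_eq_one_iff.mp ((hχ w₀ d hd0 hw₀).symm.trans (h1 h0)))
  rw [Subgroup.index_eq_two_iff]
  refine ⟨refl Q w₀, fun b => ?_⟩
  rcases all b with hb | hb
  · exact Or.inr ⟨hb, fun h0 => hnot ((H.mul_mem_cancel_left hb).mp h0)⟩
  · exact Or.inl ⟨hb, fun h0 => hnot ((H.mul_mem_cancel_left h0).mp hb)⟩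

end

/-- For q odd, n ≥ 2 even, Q with non-degenerate polar form (n, |F|) ≠ (4, 3), and a fixed c ≠ 0: the subgroup of the isometry group generated by the reflections r_v with Q(v) ∈ c·(F^×)² has index 2. -/
theorem result {F : Type*} [Field F] [Fintype F] (h2 : (2 : F) ≠ 0) {n : ℕ} (hn : 2 ≤ n) (heven : Even n) (Q : QuadraticForm F (Fin n → F)) (hQ : (QuadraticMap.polarBilin Q).Nondegenerate) (h43 : ¬ (n = 4 ∧ Fintype.card F = 3)) (c : F) (hc : c ≠ 0) : (Subgroup.closure {g : ↥(Cfsg.isometryGroup F ⇑Q) | ∃ (v : Fin n → F) (t : F), t ≠ 0 ∧ Q v = c * t ^ 2 ∧ ((g : Matrix.GeneralLinearGroup (Fin n) F) : Matrix (Fin n) (Fin n) F) = Cfsg.reflectionMatrix ⇑Q v}).index = 2 := by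
  refine Eq.trans ?_ (index_cls h2 hQ.1 (c := c) ?_ hc)
  · refine index_eq_of_equiv (orthEquiv Q) fun g => mem_closure_iff_of_equiv (orthEquiv Q)
      (fun g => ?_) g
    exact exists_congr fun v => exists_congr fun t => and_congr_right fun _ =>
      and_congr_right fun _ => orthEquiv_eq_refl_iff Q g v
  · simp only [Module.finrank_fintype_fun_eq_card, Fintype.card_fin]
    obtain ⟨k, rfl⟩ := heven
    by_cases h1 : k = 1
    · left; omega
    · refine Or.inr ⟨by omega, ?_⟩
      by_cases h3 : k = 2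
      · left
        by_contra hcon
        push Not at hcon
        have h4 := Cfsg.Agent.Lib.FormField.card_le_of_forall_pow_eq
          (S := (Finset.univ : Finset F)) (m := 3) (by norm_num) (fun x _ => by
            by_cases hx : x = 0
            · simp [hx]
            · rw [pow_succ, hcon x hx, one_mul])
        rw [Finset.card_univ] at h4
        have h5 := Cfsg.Agent.Lib.FormField.card_odd h2
        have h6 : 1 < Fintype.card F := Fintype.one_lt_card
        omega
      · right; omega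

end Cfsg.Agent.S0798
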