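import Cfsg.Statements.S0799
import Cfsg.Agent.Lib.PSL2Basic

set_option autoImplicit false
open Cfsg

namespace Cfsg.Agent.S0799

/-- Dickson's classification of the subgroups of PSL_2(q), q a power of the prime p, d = gcd(2, q − 1): every subgroup H is (a) cyclic or dihedral with k dividing (q+1)/d or (q−1)/d (cyclic of order k, or dihedral of order 2k), (b) isomorphic to a subgroup of the normaliser of a Sylow p-subgroup, (c) isomorphic to A_4, S_4 or A_5, or (d) isomorphic to PSL_2(K) or PGL_2(K) for a finite field K with |K|^m = q. -/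
theorem result {F : Type*} [Field F] [Fintype F] {q : ℕ} (hF : Fintype.card F = q) (p : ℕ) [Fact p.Prime] [CharP F p] (H : Subgroup (Matrix.ProjectiveSpecialLinearGroup (Fin 2) F)) : (∃ k : ℕ, (k ∣ (q + 1) / Nat.gcd 2 (q - 1) ∨ k ∣ (q - 1) / Nat.gcd 2 (q - 1)) ∧ ((IsCyclic H ∧ Nat.card H = k) ∨ Nonempty (H ≃* DihedralGroup k))) ∨ (∃ (P : Sylow p (Matrix.ProjectiveSpecialLinearGroup (Fin 2) F)) (K : Subgroup (Matrix.ProjectiveSpecialLinearGroup (Fin 2) F)), K ≤ Subgroup.normalizer ((P : Subgroup (Matrix.ProjectiveSpecialLinearGroup (Fin 2) F)) : Set (Matrix.ProjectiveSpecialLinearGroup (Fin 2) F)) ∧ Nonempty (H ≃* K)) ∨ Nonempty (H ≃* alternatingGroup (Fin 4)) ∨ Nonempty (H ≃* Equiv.Perm (Fin 4)) ∨ Nonempty (H ≃* alternatingGroup (Fin 5)) ∨ (∃ (K : Type) (_ : Field K) (_ : Fintype K) (m : ℕ), Fintype.card K ^ m = q ∧ (Nonempty (H ≃* Matrix.ProjectiveSpecialLinearGroup (Fin 2) K) ∨ Nonempty (H ≃* Matrix.ProjGenLinGroup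 (Fin 2) K))) := by
  classical
  rcases Lib.PSL2Basic.dickson_psl hF H with ⟨x, hx⟩ | h | h | h | h | ⟨F₀, h⟩
  · obtain ⟨P, hP⟩ := Lib.PSL2Basic.exists_sylow_eq_unip p x
    refine Or.inr (Or.inl ⟨P, H, ?_, ⟨MulEquiv.refl _⟩⟩)
    rw [hP]
    exact hx.trans (Lib.PSL2Basic.stabilizer_le_normalizer_unip p x)
  · exact Or.inl h
  · exact Or.inr (Or.inr (Or.inl h))
  · exact Or.inr (Or.inr (Or.inr (Or.inl h)))
  · exact Or.inr (Or.inr (Or.inr (Or.inr (Or.inl h))))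
  · refine Or.inr (Or.inr (Or.inr (Or.inr (Or.inr ?_))))
    obtain ⟨K, _, _, ⟨e⟩⟩ := Lib.LinearCongr.exists_small_field F₀
    obtain ⟨m, -, hm⟩ := Lib.LinearCongr.exists_card_pow F₀
    refine ⟨K, inferInstance, inferInstance, m, ?_, ?_⟩
    · rw [← Nat.card_eq_fintype_card, Nat.card_congr e.toEquiv, hm, Nat.card_eq_fintype_card, hF]
    · rcases h with ⟨⟨h⟩⟩ | ⟨⟨h⟩⟩
      · exact Or.inl ⟨h.trans (Lib.LinearCongr.pslCongr e.symm)⟩
      · exact Or.inr ⟨h.trans (Lib.LinearCongr.pglCongr e.symm)⟩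

end Cfsg.Agent.S0799
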