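import Cfsg.Statements.S0800
import Cfsg.Agent.Lib.PGL2Action

set_option autoImplicit false
open Cfsg

namespace Cfsg.Agent.S0800

/-- Tori of SL_2(q): if g ∈ SL_2(q) has order coprime to the characteristic p, then the order of g divides q − 1 or q + 1. -/
theorem result {F : Type*} [Field F] [Fintype F] {q : ℕ} (hF : Fintype.card F = q) (p : ℕ) [Fact p.Prime] [CharP F p] (g : Matrix.SpecialLinearGroup (Fin 2) F) (hg : Nat.Coprime (orderOf g) p) : orderOf g ∣ q - 1 ∨ orderOf g ∣ q + 1 := by
  have hq1 : 1 < q := hF ▸ Fintype.one_lt_card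
  rcases Lib.PGL2Action.sl_pow_cases hF p g with h | h | h
  · have h2 : g ^ 2 = 1 := by
      have h3 : (g ^ p) ^ 2 = 1 := by
        rcases Lib.PGL2Action.mem_center_iff_two.1 h with h | h <;> rw [h] <;> simp
      rw [← pow_mul, ← orderOf_dvd_iff_pow_eq_one] at h3
      exact orderOf_dvd_iff_pow_eq_one.1 (hg.dvd_of_dvd_mul_left h3)
    have h4 := orderOf_dvd_of_pow_eq_one h2
    rcases Nat.even_or_odd q with hq | hq
    · obtain ⟨n, hp, hn⟩ := FiniteField.card F p
      have hp2 : p = 2 := by
        rw [← hF, hn] at hq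
        exact (Nat.Prime.even_iff hp).1 (Nat.even_pow.1 hq).1
      subst hp2
      left
      rw [Nat.Coprime.eq_one_of_dvd hg h4]
      exact one_dvd _
    · left
      refine h4.trans ?_
      obtain ⟨k, rfl⟩ := hq
      simp
  · exact Or.inl (orderOf_dvd_of_pow_eq_one h)
  · exact Or.inr (orderOf_dvd_of_pow_eq_one h)

end Cfsg.Agent.S0800
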