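import Cfsg.Statements.S0801
import Cfsg.Agent.Lib.PSL2Four

set_option autoImplicit false
open Cfsg

namespace Cfsg.Agent.S0801

theorem card_le {F : Type*} [Field F] [Fintype F] (p n : ℕ) [Fact p.Prime] [CharP F p] (hn : n ≠ 0)
    (lam : F) (hgen : Subfield.closure ({lam} : Set F) = ⊤) (h : lam ^ p ^ n = lam) :
    Fintype.card F ≤ p ^ n := by
  classical
  have h1 : ∀ x : F, x ^ p ^ n = x := fun x =>
    (Subfield.closure_le (t := (iterateFrobenius F p n).eqLocusField (RingHom.id F))).2
      (Set.singleton_subset_iff.2 h) (hgen ▸ Subfield.mem_top x)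
  have h2 : 1 < p ^ n := Nat.one_lt_pow hn (Fact.out : p.Prime).one_lt
  rw [← FiniteField.X_pow_card_sub_X_natDegree_eq F h2]
  refine Polynomial.card_le_degree_of_subset_roots (Z := Finset.univ) fun x _ => ?_
  rw [Polynomial.mem_roots (FiniteField.X_pow_card_sub_X_ne_zero F h2)]
  simp [h1]

open Matrix Subgroup Cfsg.Agent.Lib.PGL2Action MatrixGroups in

/-- Let F be a finite field of odd characteristic and λ ≠ 0 an element generating F as a field. Then the lower and upper unitriangular matrices with off-diagonal entries 1 and λ generate SL_2(F), unless |F| = 9 and λ² = −1, in which case they generate a subgroup of order 120. -/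
theorem result {F : Type*} [Field F] [Fintype F] (h2 : (2 : F) ≠ 0) (lam : F) (hlam : lam ≠ 0) (hgen : Subfield.closure ({lam} : Set F) = ⊤) : (Subgroup.closure {g : Matrix.SpecialLinearGroup (Fin 2) F | (g : Matrix (Fin 2) (Fin 2) F) = !![1, 0; 1, 1] ∨ (g : Matrix (Fin 2) (Fin 2) F) = !![1, lam; 0, 1]} = ⊤ ∧ ¬ (Fintype.card F = 9 ∧ lam ^ 2 = -1)) ∨ (Fintype.card F = 9 ∧ lam ^ 2 = -1 ∧ Nat.card ↥(Subgroup.closure {g : Matrix.SpecialLinearGroup (Fin 2) F | (g : Matrix (Fin 2) (Fin 2) F) = !![1, 0; 1, 1] ∨ (g : Matrix (Fin 2) (Fin 2) F) = !![1, lam; 0, 1]}) = 120) := by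
  classical
  obtain ⟨p, hp⟩ := CharP.exists F
  have hp' := CharP.char_is_prime F p
  have : Fact p.Prime := ⟨hp'⟩
  let a : SL(2, F) := ⟨!![1, 0; 1, 1], by simp [det_fin_two]⟩
  let b : SL(2, F) := ⟨!![1, lam; 0, 1], by simp [det_fin_two]⟩
  have ha : a.1 = !![1, 0; 1, 1] := rfl
  have hb : b.1 = !![1, lam; 0, 1] := rfl
  have hset : {g : SL(2, F) | (g : Matrix (Fin 2) (Fin 2) F) = !![1, 0; 1, 1] ∨
      (g : Matrix (Fin 2) (Fin 2) F) = !![1, lam; 0, 1]} = {a, b} := by
    ext g
    exact or_congr (Subtype.ext_iff (a1 := g) (a2 := a)).symm (Subtype.ext_iff (a1 := g) (a2 := b)).symm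
  rw [hset]
  set L := closure ({a, b} : Set SL(2, F)) with hL
  have haL : a ∈ L := subset_closure (by simp)
  have hbL : b ∈ L := subset_closure (by simp)
  let H : Subgroup PSL(2, F) := L.map (QuotientGroup.mk' _)
  have hH : ∀ g ∈ L, (g : PSL(2, F)) ∈ H := fun g hg => ⟨g, hg, rfl⟩
  let φ : H →* PGL2 F := (ProjectiveSpecialLinearGroup.toPGL : PSL(2, F) →* PGL2 F).comp H.subtype
  have hφ : Function.Injective φ :=
    ProjectiveSpecialLinearGroup.toPGL_injective.comp H.subtype_injective
  have hab : (a * b).1 = !![1, lam; 1, lam + 1] := by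
    change a.1 * b.1 = _
    rw [ha, hb]; simp
  have hab' : (a * b⁻¹).1 = !![1, -lam; 1, -lam + 1] := by
    change a.1 * b.1.adjugate = _
    rw [hb, ha, adjugate_fin_two_of]; simp
  rcases Lib.Dickson.dickson_pgl p φ hφ with ⟨x, hx⟩ | ⟨ht, -⟩ | ⟨rfl, -⟩ | ⟨rfl, ⟨e⟩⟩ | ⟨F₀, γ, h⟩
  · exfalso
    cases x with
    | infty =>
      have h1 : SpecialLinearGroup.toGL a • (OnePoint.infty : OnePoint F) = _ := hx ⟨a, hH a haL⟩
      simpa [ha] using OnePoint.smul_infty_eq_self_iff.1 h1
    | coe z =>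
      have h1 : ProjGenLinGroup.mk (SpecialLinearGroup.toGL b) • (z : OnePoint F) = _ :=
        hx ⟨b, hH b hbL⟩
      rw [(isAff_mk (by simp [hb])).2] at h1
      simp [hb, hlam] at h1
  · exfalso
    have h1 : IsAff (φ ⟨b, hH b hbL⟩) _ _ := isAff_mk (g := SpecialLinearGroup.toGL b) (by simp [hb])
    have h3 := (h1.pow_char_eq_one_iff p).2 (by simp [hb])
    rw [← map_pow, map_eq_one_iff φ hφ] at h3
    have h4 : (b : PSL(2, F)) = 1 := congrArg Subtype.val (ht _ h3)
    exact Lib.PSL2Small.mk_ne_one (by simpa [hb]) h4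
  · exact absurd (CharP.cast_eq_zero F 2) h2
  · right
    have h3 : (3 : F) = 0 := CharP.cast_eq_zero F 3
    have hA5 : ∀ g : alternatingGroup (Fin 5), g ^ 2 = 1 ∨ g ^ 3 = 1 ∨ g ^ 5 = 1 := by
      decide +kernel
    have htr : ∀ g ∈ L, g.1 1 0 = 1 →
        g.1.trace * (g.1.trace ^ 2 - 1) * (g.1.trace ^ 4 + 1) = 0 := by
      intro g hg hg1
      have key : ∀ n, e ⟨g, hH g hg⟩ ^ n = 1 → (g.1 ^ n) 1 0 = 0 := by
        intro n hn
        rw [← map_pow, map_eq_one_iff e e.injective] at hn
        have h1 : ((g ^ n : SL(2, F)) : PSL(2, F)) = 1 := congrArg Subtype.val hn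
        change (g ^ n).1 1 0 = 0
        rcases Lib.PSL2Four.mk_eq_one.1 h1 with h | h <;> simp [h]
      rcases hA5 (e ⟨g, hH g hg⟩) with h | h | h <;> replace h := key _ h
      · rw [sq, Lib.PSL2Small.cayley] at h
        simp [hg1] at h
        simp [h]
      · rw [Lib.PSL2Small.pow_three_eq] at h
        simp [hg1] at h
        simp [h]
      · rw [Lib.PSL2Small.pow_five_eq] at h
        simp [hg1] at h
        rw [show g.1.trace ^ 4 + 1 = 0 by linear_combination h + g.1.trace ^ 2 * h3, mul_zero]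
    have h4 := htr _ (mul_mem haL hbL) (by simp [hab])
    have h5 := htr _ (mul_mem haL (inv_mem hbL)) (by simp [hab'])
    rw [hab, trace_fin_two_of] at h4
    rw [hab', trace_fin_two_of] at h5
    have hcH : Nat.card H = 60 := by rw [Nat.card_congr e.toEquiv, Lib.PSL2Small.card_A5]
    have h60 := card_subgroup_dvd_card H
    rw [hcH] at h60
    have hG := Lib.LinearOrders.card_PSL2_mul (F := F) rfl
    obtain ⟨⟨n, hn0⟩, -, hn⟩ := FiniteField.card F 3
    replace hn : Fintype.card F = 3 ^ n := hn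
    have hF3 : Fintype.card F ≠ 3 := by
      intro h
      rw [h] at hG
      norm_num [-Nat.card_eq_fintype_card] at hG
      omega
    have hn2 : 2 ≤ n := by
      by_contra h
      obtain rfl : n = 1 := by omega
      exact hF3 hn
    have h9 : 3 ^ 2 ≤ Fintype.card F := hn ▸ Nat.pow_le_pow_right (by norm_num) hn2
    have hl3 : lam ^ 3 - lam ≠ 0 := by
      intro h
      have := card_le 3 1 one_ne_zero lam hgen (by linear_combination h)
      omega
    have h6 : (lam - 1) ^ 4 + 1 = 0 := by
      apply mul_left_cancel₀ hl3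
      linear_combination h4 - ((34) * lam ^ 0 + (127) * lam ^ 1 + (198) * lam ^ 2 + (175) * lam ^ 3 + (90) * lam ^ 4 + (26) * lam ^ 5 + (6) * lam ^ 6) * h3
    have h7 : (lam + 1) ^ 4 + 1 = 0 := by
      apply mul_left_cancel₀ hl3
      linear_combination (-1) * h5 - ((-34) * lam ^ 0 + (127) * lam ^ 1 + (-198) * lam ^ 2 + (175) * lam ^ 3 + (-90) * lam ^ 4 + (26) * lam ^ 5 + (-6) * lam ^ 6) * h3
    have h8 : lam ^ 2 = -1 := by
      apply mul_left_cancel₀ hlam
      linear_combination h6 - h7 + (3 * lam ^ 3 + 3 * lam) * h3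
    have h10 := card_le 3 2 two_ne_zero lam hgen (by
      linear_combination (lam ^ 7 - lam ^ 5 + lam ^ 3 - lam) * h8)
    refine ⟨by omega, h8, ?_⟩
    have hm : (-1 : SL(2, F)) ∈ L := by
      obtain ⟨⟨_, g, hg, rfl⟩, h⟩ := exists_prime_orderOf_dvd_card' (G := H) 2 (by rw [hcH]; norm_num)
      rw [← Lib.PSL2Four.sq_eq_neg_one h2 (g := g)]
      · exact mul_mem hg hg
      · intro e
        exact absurd (h.symm.trans (orderOf_eq_one_iff.2 (Subtype.ext e))) (by norm_num)
      · exact (sq _).symm.trans (congrArg Subtype.val (orderOf_dvd_iff_pow_eq_one.1 h.dvd))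
    have hZ : center SL(2, F) ≤ L := fun g hg => by
      rcases mem_center_iff_two.1 hg with rfl | rfl
      exacts [one_mem _, hm]
    have h11 : H.index = L.index := by
      rw [index_map, QuotientGroup.ker_mk', sup_eq_left.2 hZ, QuotientGroup.range_mk', index_top,
        mul_one]
    have h12 := H.index_mul_card
    have h13 := L.index_mul_card
    have h14 : Fintype.card F = 9 := by omega
    rw [Lib.LinearOrders.card_SL2 h14] at h13
    rw [h14] at hG
    norm_num [-Nat.card_eq_fintype_card] at hG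
    rw [hcH, h11] at h12
    obtain h15 : L.index = 6 := by omega
    rw [h15] at h13
    omega
  · left
    induction γ using ProjGenLinGroup.induction_on with | mk γ =>
    have h1 : ((MulAut.conj (ProjGenLinGroup.mk γ)).toMonoidHom.comp φ).range ≤
        (ProjGenLinGroup.map F₀.subtype : PGL2 F₀ →* PGL2 F).range := by
      rcases h with h | h <;> rw [h]
      rintro _ ⟨y, rfl⟩; exact ⟨_, rfl⟩
    have h3 : ((ProjGenLinGroup.map F₀.subtype : PGL2 F₀ →* PGL2 F).comp
          ProjectiveSpecialLinearGroup.toPGL).range ≤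
        ((MulAut.conj (ProjGenLinGroup.mk γ)).toMonoidHom.comp φ).range := by
      rcases h with h | h <;> rw [h]
      rintro _ ⟨y, rfl⟩; exact ⟨_, rfl⟩
    have htr : ∀ g ∈ L, g.1.trace ^ 2 ∈ F₀ := by
      intro g hg
      obtain ⟨M, hM⟩ := h1 ⟨⟨g, hH g hg⟩, rfl⟩
      induction M using ProjGenLinGroup.induction_on with | mk M =>
      have h4 : ProjGenLinGroup.mk (GeneralLinearGroup.map F₀.subtype M) =
          ProjGenLinGroup.mk (γ * SpecialLinearGroup.toGL g * γ⁻¹) := hM
      obtain ⟨u, hu⟩ := ProjGenLinGroup.mk_eq_mk_iff.1 h4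
      have h5 : F₀.subtype.mapMatrix M.val * scalar (Fin 2) (u : F) = γ.val * g.1 * (γ⁻¹).val :=
        congrArg Units.val hu
      have h6 := congrArg trace h5
      have h7 := congrArg det h5
      rw [trace_mul_cycle, Units.inv_mul, one_mul, scalar_apply, ← smul_eq_mul_diagonal,
        trace_smul] at h6
      rw [det_units_conj, g.2, det_mul, ← RingHom.map_det, scalar_apply, det_diagonal] at h7
      have h8 : g.1.trace ^ 2 = F₀.subtype (M.val.trace ^ 2 / M.val.det) := by
        have h9 : F₀.subtype M.val.det ≠ 0 := left_ne_zero_of_mul_eq_one h7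
        rw [map_div₀, map_pow, eq_div_iff h9, ← h6, AddMonoidHom.map_trace]
        simp only [Finset.prod_const, Finset.card_univ, Fintype.card_fin] at h7
        rw [smul_eq_mul, mul_pow, mul_right_comm, mul_comm (_ ^ 2), h7, one_mul]
        rfl
      rw [h8]; exact (M.val.trace ^ 2 / M.val.det).2
    have h4 := htr _ (mul_mem haL hbL)
    have h5 := htr _ (mul_mem haL (inv_mem hbL))
    rw [hab, trace_fin_two_of] at h4
    rw [hab', trace_fin_two_of] at h5
    have h6 : lam ∈ F₀ := by
      have h8 : (2 : F) ^ 3 ≠ 0 := pow_ne_zero _ h2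
      have := div_mem (sub_mem h4 h5) (pow_mem (ofNat_mem F₀ 2) 3)
      rwa [show ((1 + (lam + 1)) ^ 2 - (1 + (-lam + 1)) ^ 2) / 2 ^ 3 = lam by
        field_simp; ring] at this
    have h7 : ∀ x, x ∈ F₀ := fun x =>
      (Subfield.closure_le.2 (Set.singleton_subset_iff.2 h6)) (hgen ▸ Subfield.mem_top x)
    have h8 : ∀ g : SL(2, F), g ∈ L ∨ -g ∈ L := by
      intro g
      obtain ⟨g', hg'⟩ : ∃ g' : SL(2, F), SpecialLinearGroup.toGL g' =
          γ * SpecialLinearGroup.toGL g * γ⁻¹ :=
        ⟨⟨γ.val * g.1 * (γ⁻¹).val, by rw [det_units_conj, g.2]⟩, Units.ext rfl⟩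
      obtain ⟨g'', rfl⟩ := Lib.LinearCongr.sl_map_surjective
        (RingEquiv.ofBijective F₀.subtype ⟨F₀.subtype.injective, fun x => ⟨⟨x, h7 x⟩, rfl⟩⟩) g'
      obtain ⟨⟨_, k, hk, rfl⟩, e⟩ := h3 ⟨(g'' : PSL(2, F₀)), rfl⟩
      have e1 : ProjGenLinGroup.mk (γ * SpecialLinearGroup.toGL k * γ⁻¹) =
          ProjGenLinGroup.mk (γ * SpecialLinearGroup.toGL g * γ⁻¹) := by
        rw [← hg']
        exact e.trans (congrArg ProjGenLinGroup.mk (Units.ext rfl))
      rw [map_mul, map_mul, map_mul, map_mul, mul_left_inj, mul_right_inj] at e1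
      rcases Lib.PSL2Four.mk_eq_mk.1 (ProjectiveSpecialLinearGroup.toPGL_injective e1) with rfl | rfl
      exacts [Or.inl hk, Or.inr hk]
    have htop : L = ⊤ := by
      rw [eq_top_iff]
      intro g _
      refine SL2.transvection_induction (fun g => g ∈ L) (fun i j hij c => ?_) (fun _ _ => mul_mem) g
      rw [show c = c / 2 + c / 2 by field_simp; ring, SpecialLinearGroup.transvection_add]
      rcases h8 (SpecialLinearGroup.transvection hij (c / 2)) with h | h
      · exact mul_mem h h
      · simpa using mul_mem h h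
    refine ⟨htop, ?_⟩
    rintro ⟨h9, hl⟩
    have h3 : (3 : F) = 0 := by
      have := FiniteField.cast_card_eq_zero F
      rw [h9] at this
      exact pow_eq_zero_iff two_ne_zero |>.1 (show (3 : F) ^ 2 = 0 by exact_mod_cast this)
    let x : SL(2, F) := ⟨!![0, 1 + lam; 1 - lam, 0], by
      rw [det_fin_two_of]; linear_combination hl - h3⟩
    have hx : x.1 = !![0, 1 + lam; 1 - lam, 0] := rfl
    have hxa : x * a = b * x := by
      apply Subtype.ext
      change x.1 * a.1 = b.1 * x.1
      rw [hx, ha, hb]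
      ext i j; fin_cases i <;> fin_cases j <;> simp
      linear_combination hl
    obtain ⟨-, h10⟩ := Lib.Triangle.card_le5 (x : PSL(2, F)) a
      (Lib.PSL2Small.mk_pow_of_eq_neg_one (Lib.PSL2Small.pow_two_of_trace (by simp [hx])))
      (by
        rw [← QuotientGroup.mk_pow, QuotientGroup.eq_one_iff]
        refine mem_center_of_scalar (s := 1) ?_
        change a.1 ^ 3 = _
        rw [Lib.PSL2Small.pow_three_eq, ha, trace_fin_two_of,
          show ((1 : F) + 1) ^ 2 - 1 = 0 by linear_combination h3,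
          show (1 : F) + 1 = -1 by linear_combination h3]
        simp)
      (by
        rw [← QuotientGroup.mk_mul, ← QuotientGroup.mk_pow, QuotientGroup.eq_one_iff]
        have ht : (x * a).1.trace = 1 + lam := by
          change (x.1 * a.1).trace = _
          simp [hx, ha]
        refine mem_center_of_scalar (s := -((1 + lam) ^ 3 - 2 * (1 + lam))) ?_
        change (x * a).1 ^ 5 = _
        rw [Lib.PSL2Small.pow_five_eq, ht,
          show (1 + lam) ^ 4 - 3 * (1 + lam) ^ 2 + 1 = 0 by
            linear_combination (lam ^ 2 + 4 * lam + 5) * hl - ((1 + lam) ^ 2 + 1) * h3]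
        simp only [zero_smul, zero_sub, neg_smul])
    have h11 : closure {(x : PSL(2, F)), (a : PSL(2, F))} = ⊤ := by
      rw [eq_top_iff, ← QuotientGroup.range_mk' (center SL(2, F)), MonoidHom.range_eq_map, ← htop, hL,
        MonoidHom.map_closure, Set.image_pair, closure_le]
      have hx : (x : PSL(2, F)) ∈ closure {(x : PSL(2, F)), (a : PSL(2, F))} :=
        subset_closure (by simp)
      have ha : (a : PSL(2, F)) ∈ closure {(x : PSL(2, F)), (a : PSL(2, F))} :=
        subset_closure (by simp)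
      rintro _ (rfl | rfl)
      · exact ha
      · rw [← mul_inv_eq_iff_eq_mul] at hxa
        rw [← hxa]
        exact mul_mem (mul_mem hx ha) (inv_mem hx)
    have hG := Lib.LinearOrders.card_PSL2_mul h9
    rw [h11, card_top] at h10
    change Nat.card PSL(2, F) ≤ 60 at h10
    norm_num [-Nat.card_eq_fintype_card] at hG
    omega

end Cfsg.Agent.S0801
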