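import Cfsg.Statements.S0802
import Cfsg.Agent.Lib.PSL2Small

set_option autoImplicit false
open Cfsg

namespace Cfsg.Agent.S0802

/-- PSL_2(p^n) has a subgroup isomorphic to A_4 if and only if it is not the case that p = 2 and n is odd. -/
theorem result {F : Type*} [Field F] [Fintype F] (p n : ℕ) [Fact p.Prime] [CharP F p] (hF : Fintype.card F = p ^ n) : (∃ H : Subgroup (Matrix.ProjectiveSpecialLinearGroup (Fin 2) F), Nonempty (H ≃* alternatingGroup (Fin 4))) ↔ ¬ (p = 2 ∧ Odd n) := by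
  classical
  constructor
  · rintro ⟨H, ⟨e⟩⟩ ⟨rfl, hn⟩
    let f : alternatingGroup (Fin 4) →* Matrix.ProjectiveSpecialLinearGroup (Fin 2) F :=
      H.subtype.comp e.symm.toMonoidHom
    have hf : Function.Injective f := H.subtype_injective.comp e.symm.injective
    obtain ⟨v, hv1, hv2, hv⟩ : ∃ v : alternatingGroup (Fin 4), v ≠ 1 ∧ v ^ 2 = 1 ∧
        ∀ g, (g⁻¹ * v * g) * v = v * (g⁻¹ * v * g) := by decide +kernel
    have h1 : f v ≠ 1 := fun h => hv1 ((map_eq_one_iff f hf).1 h)
    have h2 : f v ^ 2 = 1 := by rw [← map_pow, hv2, map_one]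
    obtain ⟨x, hx⟩ := Lib.PGL2Action.exists_fixed_of_pow_char 2
      ((Lib.PSL2Basic.toPGL_pow_eq_one_iff _ _).2 h2)
    have hx' : f v • x = x := hx
    have hu := Lib.PSL2Basic.psl_unique_fixed 2 h1 h2 hx'
    have hle : f.range ≤ MulAction.stabilizer _ x := by
      rintro _ ⟨g, rfl⟩
      have h3 : f (g⁻¹ * v * g) • x = x := by
        rw [← hu, ← mul_smul, ← map_mul, ← hv, map_mul, mul_smul, hx']
      rw [map_mul, map_mul, mul_smul, mul_smul, map_inv, inv_smul_eq_iff] at h3
      exact (hu _).1 h3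
    have h4 := Subgroup.card_dvd_of_le hle
    rw [← Nat.card_congr (MonoidHom.ofInjective hf).toEquiv, Lib.PSL2Small.card_A4] at h4
    have h5 := h4.trans (Dvd.intro _ (Lib.PSL2Basic.card_stabilizer_psl hF x))
    obtain ⟨k, rfl⟩ := hn
    have h6 : 2 ^ (2 * k + 1) % 3 = 2 := by
      rw [pow_succ, pow_mul, Nat.mul_mod, Nat.pow_mod]; simp
    have h7 : 3 ∣ 2 ^ (2 * k + 1) * (2 ^ (2 * k + 1) - 1) := Dvd.dvd.trans (by norm_num) h5
    generalize 2 ^ (2 * k + 1) = N at h6 h7
    rcases (Nat.Prime.dvd_mul Nat.prime_three).1 h7 with h | h <;> omega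
  · intro h
    obtain ⟨f, hf⟩ := Lib.PSL2Small.exists_A4 (F := F) (by
      rw [hF]
      by_cases hp : p = 2
      · right
        subst hp
        obtain ⟨k, rfl⟩ : Even n := by simpa using h
        have h6 : 2 ^ (k + k) % 3 = 1 := by
          rw [← two_mul, pow_mul, Nat.pow_mod]; simp
        omega
      · left
        exact ((Fact.out : p.Prime).odd_of_ne_two hp).pow)
    exact Lib.PSL2Small.exists_subgroup_of_injective f hf

end Cfsg.Agent.S0802
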