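import Cfsg.Statements.S0803
import Cfsg.Agent.Lib.PSL2Small

set_option autoImplicit false
open Cfsg

namespace Cfsg.Agent.S0803

/-- PSL_2(q) has a subgroup isomorphic to S_4 iff q² ≡ 1 (mod 16). -/
theorem result {F : Type*} [Field F] [Fintype F] {q : ℕ} (hF : Fintype.card F = q) : (∃ H : Subgroup (Matrix.ProjectiveSpecialLinearGroup (Fin 2) F), Nonempty (H ≃* Equiv.Perm (Fin 4))) ↔ q ^ 2 % 16 = 1 := by
  classical
  have hq : 1 < q := hF ▸ Fintype.one_lt_card
  have hsq : q ^ 2 % 16 = 1 ↔ q % 8 = 1 ∨ q % 8 = 7 := by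
    rw [Nat.pow_mod, ← Nat.mod_mod_of_dvd q (show 8 ∣ 16 by norm_num)]
    have : q % 16 < 16 := Nat.mod_lt _ (by norm_num)
    generalize q % 16 = r at this
    interval_cases r <;> simp
  rw [hsq]
  constructor
  · rintro ⟨H, ⟨e⟩⟩
    let f : Equiv.Perm (Fin 4) →* Matrix.ProjectiveSpecialLinearGroup (Fin 2) F :=
      H.subtype.comp e.symm.toMonoidHom
    have hf : Function.Injective f := H.subtype_injective.comp e.symm.injective
    have h4 : orderOf (f (finRotate 4)) = 4 := by
      rw [orderOf_injective f hf]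
      have : Fact (Nat.Prime 2) := ⟨Nat.prime_two⟩
      exact orderOf_eq_prime_pow (p := 2) (n := 1) (by decide) (by decide)
    obtain ⟨p, hp⟩ := CharP.exists F
    have hp' := CharP.char_is_prime F p
    have : Fact p.Prime := ⟨hp'⟩
    have h := Lib.PGL2Action.psl_order_cases hF p (f (finRotate 4))
    rw [← orderOf_dvd_iff_pow_eq_one, h4] at h
    rcases h with h | h
    · rcases (Nat.dvd_prime hp').1 h with h | h
      · omega
      · rw [← h] at hp'; norm_num at hp'
    · rcases Nat.even_or_odd q with hq' | hq'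
      · have h2 : Nat.gcd 2 (q - 1) = 1 := by
          rw [← Nat.coprime_iff_gcd_eq_one, Nat.coprime_two_left]
          exact Nat.Even.sub_odd hq.le hq' odd_one
        rw [h2, Nat.div_one, Nat.div_one] at h
        rw [Nat.even_iff] at hq'
        omega
      · obtain ⟨k, rfl⟩ := hq'
        have h3 : Nat.gcd 2 (2 * k + 1 - 1) = 2 := by simp
        rw [h3] at h
        omega
  · intro h
    obtain ⟨f, hf⟩ := Lib.PSL2Small.exists_S4 (F := F) (by rw [hF, Nat.odd_iff]; omega)
      (FiniteField.isSquare_two_iff.2 (by rw [hF]; omega))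
    exact Lib.PSL2Small.exists_subgroup_of_injective f hf

end Cfsg.Agent.S0803
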