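import Cfsg.Statements.S0804
import Cfsg.Agent.Lib.PSL2Small

set_option autoImplicit false
open Cfsg

namespace Cfsg.Agent.S0804

/-- PSL_2(q) has a subgroup isomorphic to A_5 iff 5 ∣ q(q² − 1). -/
theorem result {F : Type*} [Field F] [Fintype F] {q : ℕ} (hF : Fintype.card F = q) : (∃ H : Subgroup (Matrix.ProjectiveSpecialLinearGroup (Fin 2) F), Nonempty (H ≃* alternatingGroup (Fin 5))) ↔ 5 ∣ q * (q ^ 2 - 1) := by
  constructor
  · rintro ⟨H, ⟨e⟩⟩
    have h1 := Subgroup.card_subgroup_dvd_card H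
    rw [Nat.card_congr e.toEquiv, Lib.PSL2Small.card_A5] at h1
    exact (Dvd.dvd.trans (by norm_num) h1).trans (Dvd.intro _ (Lib.LinearOrders.card_PSL2_mul hF))
  · intro h
    obtain ⟨f, hf⟩ := Lib.PSL2Small.exists_A5 hF h
    exact Lib.PSL2Small.exists_subgroup_of_injective f hf

end Cfsg.Agent.S0804
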