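import Cfsg.Statements.S0805
import Cfsg.Agent.Lib.PSL2Small

set_option autoImplicit false
open Cfsg

namespace Cfsg.Agent.S0805

/-- Subfield subgroups: let F be a finite field of odd order q and K a finite field with |K|^m = q, m ≥ 1. Then PSL_2(F) has a subgroup isomorphic to PSL_2(K), and has a subgroup isomorphic to PGL_2(K) if and only if m is even. -/
theorem result {F K : Type*} [Field F] [Fintype F] [Field K] [Fintype K] {q : ℕ} (hF : Fintype.card F = q) (hodd : Odd q) (m : ℕ) (hm : 1 ≤ m) (hK : Fintype.card K ^ m = q) : (∃ H : Subgroup (Matrix.ProjectiveSpecialLinearGroup (Fin 2) F), Nonempty (H ≃* Matrix.ProjectiveSpecialLinearGroup (Fin 2) K)) ∧ ((∃ H : Subgroup (Matrix.ProjectiveSpecialLinearGroup (Fin 2) F), Nonempty (H ≃* Matrix.ProjGenLinGroup (Fin 2) K)) ↔ Even m) := by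
  classical
  obtain ⟨p, hp⟩ := CharP.exists K
  have hp' := CharP.char_is_prime K p
  have : Fact p.Prime := ⟨hp'⟩
  obtain ⟨n, -, hn⟩ := FiniteField.card K p
  have : CharP F p := by
    obtain ⟨p', hp2⟩ := CharP.exists F
    have hp3 := CharP.char_is_prime F p'
    obtain ⟨n', -, hn'⟩ := FiniteField.card F p'
    have h1 : p' ∣ (p ^ (n : ℕ)) ^ m := by
      rw [← hn, hK, ← hF, hn']; exact dvd_pow_self _ n'.ne_zero
    have h2 : p' = p := (Nat.prime_dvd_prime_iff_eq hp3 hp').1
      (hp3.dvd_of_dvd_pow (hp3.dvd_of_dvd_pow h1))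
    exact h2 ▸ hp2
  obtain ⟨f⟩ : Nonempty (K →+* F) := by
    let _ := ZMod.algebra K p
    let _ := ZMod.algebra F p
    have hd : Module.finrank (ZMod p) K ∣ Module.finrank (ZMod p) F := by
      refine ⟨m, Nat.pow_right_injective hp'.two_le ?_⟩
      simp only
      rw [pow_mul, FiniteField.pow_finrank_eq_card, FiniteField.pow_finrank_eq_card, hK, hF]
    obtain ⟨g⟩ := FiniteField.nonempty_algHom_of_finrank_dvd hd
    exact ⟨g.toRingHom⟩
  set r := Fintype.card K with hr
  have hr1 : 1 < r := Fintype.one_lt_card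
  have hrodd : Odd r := by
    rw [← hK] at hodd
    exact (Nat.odd_pow_iff (by omega)).1 hodd
  refine ⟨Lib.PSL2Small.exists_subgroup_of_injective _
    (Lib.LinearCongr.pslMap_injective f f.injective), ?_, ?_⟩
  · rintro ⟨H, ⟨e⟩⟩
    by_contra hm2
    have h1 := Subgroup.card_subgroup_dvd_card H
    rw [Nat.card_congr e.toEquiv, Lib.LinearOrders.card_PGL2 hr.symm] at h1
    have h2 := Nat.mul_dvd_mul_right h1 2
    rw [Lib.LinearOrders.card_PSL2_odd hF hodd] at h2
    have h3 : q ^ 2 - 1 = (r ^ 2 - 1) * ∑ i ∈ Finset.range m, (r ^ 2) ^ i := by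
      have := Nat.geomSum_eq (m := r ^ 2) (by nlinarith) m
      rw [this, ← hK, ← pow_mul, mul_comm m, pow_mul, Nat.mul_div_cancel']
      simpa using Nat.sub_dvd_pow_sub_pow (r ^ 2) 1 m
    have h4 : Odd (∑ i ∈ Finset.range m, (r ^ 2) ^ i) := by
      rw [Finset.odd_sum_iff_odd_card_odd, Finset.filter_true_of_mem fun i _ => hrodd.pow.pow]
      simpa using hm2
    have h5 : (r ^ 2 - 1) * 2 ∣ (r ^ 2 - 1) * (q * ∑ i ∈ Finset.range m, (r ^ 2) ^ i) := by
      refine Dvd.dvd.trans ⟨r, by ring⟩ (h2.trans ?_)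
      rw [h3]; exact ⟨1, by ring⟩
    have h6 := Nat.dvd_of_mul_dvd_mul_left (by have : 1 < r ^ 2 := by nlinarith
                                               omega) h5
    exact (Nat.not_even_iff_odd.2 (hodd.mul h4)) (even_iff_two_dvd.2 h6)
  · rintro ⟨j, rfl⟩
    have hsq : ∀ x : K, x ≠ 0 → IsSquare (f x) := by
      intro x hx
      have hc : ringChar F ≠ 2 := by
        rw [Ne, FiniteField.even_card_iff_char_two, hF]
        rw [Nat.odd_iff] at hodd; omega
      rw [FiniteField.isSquare_iff hc ((map_ne_zero f).2 hx), ← map_pow]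
      have h1 : r - 1 ∣ Fintype.card F / 2 := by
        rw [hF, ← hK, pow_add]
        obtain ⟨a, ha⟩ : Odd (r ^ j) := hrodd.pow
        have h2 : r - 1 ∣ r ^ j - 1 := by simpa using Nat.sub_dvd_pow_sub_pow r 1 j
        refine h2.trans ⟨a + 1, ?_⟩
        rw [ha, show (2 * a + 1) * (2 * a + 1) = 1 + 2 * (2 * a * (a + 1)) by ring]
        simp only [Nat.add_sub_cancel]
        omega
      obtain ⟨c, hc⟩ := h1
      rw [hc, pow_mul, FiniteField.pow_card_sub_one_eq_one x hx, one_pow, map_one]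
    let ι : Lib.PGL2Action.PGL2 K →* Lib.PGL2Action.PGL2 F := Matrix.ProjGenLinGroup.map f
    let τ : Matrix.ProjectiveSpecialLinearGroup (Fin 2) F →* Lib.PGL2Action.PGL2 F :=
      Matrix.ProjectiveSpecialLinearGroup.toPGL
    have hle : ι.range ≤ τ.range := by
      rintro _ ⟨g, rfl⟩
      induction g using Matrix.ProjGenLinGroup.induction_on with | mk g =>
      obtain ⟨s, hs⟩ := hsq _ g.det_ne_zero
      have hs0 : s ≠ 0 := by
        rintro rfl
        exact (map_ne_zero f).2 g.det_ne_zero (by simpa using hs)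
      let M : Matrix.SpecialLinearGroup (Fin 2) F := ⟨s⁻¹ • f.mapMatrix g.val, by
        rw [Matrix.det_smul, ← RingHom.map_det, hs]
        simp only [Fintype.card_fin]
        field_simp⟩
      refine ⟨(M : Matrix.ProjectiveSpecialLinearGroup (Fin 2) F), ?_⟩
      change Matrix.ProjGenLinGroup.mk _ = Matrix.ProjGenLinGroup.mk _
      rw [Matrix.ProjGenLinGroup.mk_eq_mk_iff]
      refine ⟨Units.mk0 s hs0, Units.ext ?_⟩
      change (s⁻¹ • f.mapMatrix g.val) * Matrix.scalar (Fin 2) s = f.mapMatrix g.val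
      rw [Matrix.scalar_apply, ← Matrix.smul_eq_mul_diagonal, smul_smul, mul_inv_cancel₀ hs0,
        one_smul]
    refine ⟨ι.range.comap τ, ⟨?_⟩⟩
    have hτ : Function.Injective τ := Matrix.ProjectiveSpecialLinearGroup.toPGL_injective
    exact ((ι.range.comap τ).equivMapOfInjective τ hτ).trans
      ((MulEquiv.subgroupCongr (Subgroup.map_comap_eq_self hle)).trans
        (MonoidHom.ofInjective (Lib.PGL2Action.map_injective f)).symm)

end Cfsg.Agent.S0805
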