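import Cfsg.Statements.S0806
import Cfsg.Agent.Lib.PSL2Max

set_option autoImplicit false
open Cfsg

namespace Cfsg.Agent.S0806

/-- Minimal index (Galois): if q ∉ {2, 3, 5, 7, 9, 11} then every proper subgroup of PSL_2(q) has index ≥ q + 1, and some subgroup has index exactly q + 1. -/
theorem result {F : Type*} [Field F] [Fintype F] {q : ℕ} (hF : Fintype.card F = q) (hq : q ∉ ({2, 3, 5, 7, 9, 11} : Finset ℕ)) : (∀ H : Subgroup (Matrix.ProjectiveSpecialLinearGroup (Fin 2) F), H ≠ ⊤ → q + 1 ≤ H.index) ∧ ∃ H : Subgroup (Matrix.ProjectiveSpecialLinearGroup (Fin 2) F), H.index = q + 1 := by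
  classical
  refine ⟨fun H hH => ?_, ⟨_, Lib.PSL2Basic.index_stabilizer_psl hF OnePoint.infty⟩⟩
  obtain ⟨h2, h6, h10, h12⟩ := Lib.PSL2Max.not_six hF
  simp only [Finset.mem_insert, Finset.mem_singleton, not_or] at hq
  have hq' : q = 4 ∨ q = 8 ∨ 13 ≤ q := by omega
  have hG := Lib.LinearOrders.card_PSL2_mul hF
  have hd := Lib.PSL2Max.gcd_cases (q := q) (by omega)
  have hdvd := Subgroup.card_subgroup_dvd_card H
  have hne : Nat.card H ≠ Nat.card (Matrix.ProjectiveSpecialLinearGroup (Fin 2) F) :=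
    fun h => hH (Subgroup.eq_top_of_card_eq H h)
  have h13 : 13 ≤ q → 156 ≤ q * (q - 1) := fun h =>
    Nat.mul_le_mul h (show 12 ≤ q - 1 by omega)
  have key : Nat.card H * Nat.gcd 2 (q - 1) ≤ q * (q - 1) := by
    rcases Lib.PSL2Basic.dickson_psl hF H with ⟨x, hx⟩ | ⟨k, hk, h⟩ | ⟨⟨e⟩⟩ | ⟨⟨e⟩⟩ | ⟨⟨e⟩⟩ |
      ⟨F₀, h⟩
    · rw [← Lib.PSL2Basic.card_stabilizer_psl hF x]
      exact Nat.mul_le_mul_right _ (Subgroup.card_le_of_le hx)
    · have h1 : Nat.card H ≤ 2 * k := by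
        rcases h with ⟨-, h⟩ | ⟨⟨e⟩⟩
        · omega
        · rw [Nat.card_congr e.toEquiv, DihedralGroup.nat_card]
      have h3 : k * Nat.gcd 2 (q - 1) ≤ q + 1 := by
        rcases hd with ⟨h4, h5⟩ | ⟨h4, h5⟩ <;> rw [h5] at hk ⊢ <;> rcases hk with hk | hk <;>
          have := Nat.le_of_dvd (by omega) hk <;> omega
      have h4 : 2 * (q + 1) ≤ q * (q - 1) := by
        obtain ⟨r, rfl⟩ : ∃ r, q = r + 4 := ⟨q - 4, by omega⟩
        rw [show r + 4 - 1 = r + 3 by omega]; nlinarith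
      nlinarith
    · rw [Nat.card_congr e.toEquiv, Lib.PSL2Small.card_A4]
      rcases hq' with rfl | rfl | h
      · norm_num
      · norm_num
      · have := h13 h; omega
    · rw [Nat.card_congr e.toEquiv, Lib.PSL2Small.card_S4] at hdvd ⊢
      rcases hq' with rfl | rfl | h
      · norm_num [-Nat.card_eq_fintype_card] at hG; rw [hG] at hdvd; norm_num at hdvd
      · norm_num
      · have := h13 h; omega
    · rw [Nat.card_congr e.toEquiv, Lib.PSL2Small.card_A5] at hdvd hne ⊢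
      rcases hq' with rfl | rfl | h
      · norm_num [-Nat.card_eq_fintype_card] at hG; exact absurd hG.symm hne
      · norm_num [-Nat.card_eq_fintype_card] at hG; rw [hG] at hdvd; norm_num at hdvd
      · have := h13 h; omega
    · rcases Lib.PSL2Max.subfield_cases hF H F₀ h with h | ⟨r, m, -, hr, hm, hrm, hc, -⟩
      · exact absurd h hH
      · have h1 : r ^ 2 ≤ q := hrm ▸ Nat.pow_le_pow_right (by omega) hm
        have h3 : Nat.gcd 2 (q - 1) ≤ r := by omega
        calc Nat.card H * Nat.gcd 2 (q - 1) ≤ r * (r ^ 2 - 1) * r := Nat.mul_le_mul hc h3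
          _ = r ^ 2 * (r ^ 2 - 1) := by ring
          _ ≤ q * (q - 1) := Nat.mul_le_mul h1 (by omega)
  by_contra hlt
  have h1 := H.index_mul_card
  have h3 := Nat.sq_sub_sq q 1
  rw [one_pow] at h3
  rw [← h1, h3, mul_assoc] at hG
  have h4 : H.index * (Nat.card H * Nat.gcd 2 (q - 1)) ≤ q * (q * (q - 1)) :=
    Nat.mul_le_mul (by omega) key
  rw [hG] at h4
  have h5 := Nat.le_of_mul_le_mul_left h4 (by omega)
  have h6 := Nat.le_of_mul_le_mul_right h5 (by omega)
  omega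

end Cfsg.Agent.S0806
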