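import Cfsg.Statements.S0808
import Cfsg.Agent.Lib.PSL2Four

set_option autoImplicit false
open Cfsg

namespace Cfsg.Agent.S0808

/-- Conjugacy classes of four-groups in PSL_2(q), q odd: if q ≡ 3 or 5 (mod 8) all Klein four-subgroups are conjugate; if q ≡ 1 or 7 (mod 8) there are two Klein four-subgroups which are not conjugate, and every Klein four-subgroup is conjugate to one of them. -/
theorem result {F : Type*} [Field F] [Fintype F] {q : ℕ} (hF : Fintype.card F = q) (hodd : Odd q) : ((q % 8 = 3 ∨ q % 8 = 5) → ∀ V W : Subgroup (Matrix.ProjectiveSpecialLinearGroup (Fin 2) F), IsKleinFour V → IsKleinFour W → ∃ g : Matrix.ProjectiveSpecialLinearGroup (Fin 2) F, W = V.map (MulAut.conj g).toMonoidHom) ∧ ((q % 8 = 1 ∨ q % 8 = 7) → ∃ V₁ V₂ : Subgroup (Matrix.ProjectiveSpecialLinearGroup (Fin 2) F), IsKleinFour V₁ ∧ IsKleinFour V₂ ∧ (¬ ∃ g : Matrix.ProjectiveSpecialLinearGroup (Fin 2) F, V₂ = V₁.map (MulAut.conj g).toMonoidHom)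 ∧ ∀ W : Subgroup (Matrix.ProjectiveSpecialLinearGroup (Fin 2) F), IsKleinFour W → (∃ g : Matrix.ProjectiveSpecialLinearGroup (Fin 2) F, W = V₁.map (MulAut.conj g).toMonoidHom) ∨ (∃ g : Matrix.ProjectiveSpecialLinearGroup (Fin 2) F, W = V₂.map (MulAut.conj g).toMonoidHom)) := by
  obtain ⟨y, h⟩ := Lib.PSL2Four.hyp (F := F) (hF ▸ hodd)
  refine ⟨fun hq V W hV hW => h.one_class (fun h8 => ?_) hV hW, fun hq => ?_⟩
  · have h1 := Nat.mul_dvd_mul_right h8 (Nat.gcd 2 (q - 1))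
    rw [Lib.LinearOrders.card_PSL2_mul hF] at h1
    have h2 : Nat.gcd 2 (q - 1) = 2 := by
      rcases Lib.PSL2Max.gcd_cases (q := q) (by omega) with h | h <;> omega
    rw [h2] at h1
    have h3 : 16 ∣ q ^ 2 - 1 :=
      (Nat.Coprime.pow_left 4 (Nat.coprime_two_left.2 hodd)).dvd_of_dvd_mul_left h1
    have h4 : q ^ 2 % 16 = 9 := by
      have : q % 16 = 3 ∨ q % 16 = 5 ∨ q % 16 = 11 ∨ q % 16 = 13 := by omega
      rcases this with h | h | h | h <;> rw [Nat.pow_mod, h]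
    omega
  · obtain ⟨V₁, V₂, h1, h2, h3⟩ := h.two_classes
    refine ⟨V₁, V₂, h1, h2, ?_, h3⟩
    rintro ⟨g, hg⟩
    obtain ⟨f, hf⟩ := Lib.PSL2Small.exists_S4 (F := F) (hF ▸ hodd)
      (FiniteField.isSquare_two_iff.2 (by omega))
    have key : ∀ W : Subgroup (Matrix.ProjectiveSpecialLinearGroup (Fin 2) F), IsKleinFour W → ∃ g : Matrix.ProjectiveSpecialLinearGroup (Fin 2) F,
        W = V₁.map (MulAut.conj g).toMonoidHom := fun W hW => by
      rcases h3 W hW with h | ⟨k, rfl⟩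
      · exact h
      · exact ⟨k * g, by rw [hg, Lib.KleinCount.Hyp.conj_conj]⟩
    refine h.not_one_class f hf fun V W hV hW => ?_
    obtain ⟨a, rfl⟩ := key V hV
    obtain ⟨b, rfl⟩ := key W hW
    exact ⟨b * a⁻¹, by rw [Lib.KleinCount.Hyp.conj_conj, inv_mul_cancel_right]⟩

end Cfsg.Agent.S0808
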