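import Cfsg.Statements.S0809
import Cfsg.Agent.Lib.PSL2Four

set_option autoImplicit false
open Cfsg

namespace Cfsg.Agent.S0809
open Cfsg.Agent.Lib.PSL2Four in

/-- In SL_2(q), q odd: any two subgroups of order 4 are conjugate, and the normaliser of a subgroup of order 4 has order 2(q − 1) if q ≡ 1 (mod 4) and 2(q + 1) if q ≡ 3 (mod 4); consequently all involutions of PSL_2(q) are conjugate. -/
theorem result {F : Type*} [Field F] [Fintype F] {q : ℕ} (hF : Fintype.card F = q) (hodd : Odd q) (A : Subgroup (Matrix.SpecialLinearGroup (Fin 2) F)) (hA : Nat.card A = 4) : (∀ B : Subgroup (Matrix.SpecialLinearGroup (Fin 2) F), Nat.card B = 4 → ∃ g : Matrix.SpecialLinearGroup (Fin 2) F, B = A.map (MulAut.conj g).toMonoidHom) ∧ (q % 4 = 1 → Nat.card ↥(Subgroup.normalizer (A : Set (Matrix.SpecialLinearGroup (Fin 2) F))) = 2 * (q - 1)) ∧ (q % 4 = 3 → Nat.card ↥(Subgroup.normalizer (A : Set (Matrix.SpecialLinearGroup (Fin 2) F))) = 2 * (q + 1)) ∧ (∀ x y : Matrix.ProjectiveSpecialLinearGroup (Fin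 2) F, orderOf x = 2 → orderOf y = 2 → IsConj x y) := by
  classical
  have hodd' : Odd (Fintype.card F) := hF ▸ hodd
  have h2 := Lib.PGL2Action.two_ne_zero_of_odd hodd'
  have : Fact (Nat.Prime 2) := ⟨Nat.prime_two⟩
  have hJ : orderOf (J : Matrix.SpecialLinearGroup (Fin 2) F) = 2 ^ (1 + 1) := by
    refine orderOf_eq_prime_pow ?_ ?_
    · rw [pow_one, sq, J_sq]; exact neg_one_ne_one h2
    · rw [pow_succ, pow_mul, pow_one, sq J, J_sq]; simp
  have key : ∀ B : Subgroup (Matrix.SpecialLinearGroup (Fin 2) F), Nat.card B = 4 →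
      ∃ g, B = (Subgroup.zpowers J).map (MulAut.conj g).toMonoidHom := by
    intro B hB
    have h1 : ∃ b ∈ B, b * b ≠ 1 := by
      by_contra! hc
      have : (B : Set (Matrix.SpecialLinearGroup (Fin 2) F)) ⊆
          ↑({1, -1} : Finset (Matrix.SpecialLinearGroup (Fin 2) F)) := by
        intro b hb
        simpa using Lib.PGL2Action.sl_eq_of_sq_eq_one h2 ((sq b).trans (hc b hb))
      have h3 := Set.ncard_le_ncard this
      rw [Set.ncard_coe_finset, ← Nat.card_coe_set_eq, SetLike.coe_sort_coe, hB] at h3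
      have := h3.trans Finset.card_le_two
      omega
    obtain ⟨b, hb, hb1⟩ := h1
    have h4 : (b * b) ^ 2 = 1 := by
      have := congrArg Subtype.val (pow_card_eq_one' (x := (⟨b, hb⟩ : B)))
      rw [hB] at this
      rw [← sq, ← pow_mul]; exact this
    obtain ⟨g, rfl⟩ := exists_conj_J hodd'
      ((Lib.PGL2Action.sl_eq_of_sq_eq_one h2 h4).resolve_left hb1)
    refine ⟨g, (Subgroup.eq_of_le_of_card_ge ?_ ?_).symm⟩
    · rw [MonoidHom.map_zpowers, Subgroup.zpowers_le]; exact hb
    · rw [Subgroup.card_map_of_injective (MulAut.conj g).injective, Nat.card_zpowers, hJ, hB]; rfl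
  have hN : Nat.card (Subgroup.normalizer (A : Set (Matrix.SpecialLinearGroup (Fin 2) F))) =
      2 * Nat.card (Subgroup.centralizer ({J} : Set (Matrix.SpecialLinearGroup (Fin 2) F))) := by
    obtain ⟨g, rfl⟩ := key A hA
    rw [← Subgroup.map_equiv_normalizer_eq, Subgroup.card_map_of_injective (MulAut.conj g).injective]
    have hmem : ∀ k : Matrix.SpecialLinearGroup (Fin 2) F, k ∈ Subgroup.normalizer
        ((Subgroup.zpowers J : Subgroup (Matrix.SpecialLinearGroup (Fin 2) F)) : Set _) ↔
        k * J = J * k ∨ k * J = -(J * k) := by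
      intro k
      have hi : (J : Matrix.SpecialLinearGroup (Fin 2) F)⁻¹ = -J :=
        inv_eq_of_mul_eq_one_right (by rw [mul_neg, J_sq, neg_neg])
      constructor
      · intro hk
        have h3 := (Subgroup.mem_normalizer_iff.1 hk J).1 (Subgroup.mem_zpowers J)
        have h5 : orderOf (k * J * k⁻¹) = 4 := ((MulAut.conj k).orderOf_eq J).trans hJ
        rw [mem_zpowers_iff_mem_range_orderOf, hJ] at h3
        obtain ⟨i, hi, e⟩ := Finset.mem_image.1 h3
        have hi' : i < 4 := Finset.mem_range.1 hi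
        rw [← e] at h5
        rw [eq_comm, mul_inv_eq_iff_eq_mul] at e
        interval_cases i
        · simp at h5
        · left; simpa using e
        · rw [orderOf_pow' _ (by norm_num), hJ] at h5; norm_num at h5
        · right; rw [e, pow_three, J_sq]; simp
      · intro hk
        refine Subgroup.mem_normalizer_fintype fun n hn => ?_
        obtain ⟨i, rfl⟩ := hn
        dsimp only
        rw [← conj_zpow]
        refine Subgroup.zpow_mem _ ?_ _
        rcases hk with hk | hk <;> rw [hk]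
        · simp
        · rw [neg_mul, mul_inv_cancel_right, ← hi]; simp
    obtain ⟨B, hB⟩ := exists_anticomm hodd'
    have hle : Subgroup.centralizer ({J} : Set (Matrix.SpecialLinearGroup (Fin 2) F)) ≤
        Subgroup.normalizer ((Subgroup.zpowers J : Subgroup (Matrix.SpecialLinearGroup (Fin 2) F)) : Set _) :=
      fun k hk => (hmem k).2 (Or.inl (Subgroup.mem_centralizer_singleton_iff.1 hk))
    rw [← Nat.card_congr (Subgroup.subgroupOfEquivOfLe hle).toEquiv, ← Subgroup.index_mul_card
      ((Subgroup.centralizer {J}).subgroupOf _)]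
    congr 1
    refine Subgroup.index_eq_two_iff.2 ⟨⟨B, (hmem B).2 (Or.inr hB)⟩, fun b => ?_⟩
    simp only [Subgroup.mem_subgroupOf, Subgroup.coe_mul, Subgroup.mem_centralizer_singleton_iff]
    have hne : ∀ g : Matrix.SpecialLinearGroup (Fin 2) F, g ≠ -g := fun g e =>
      neg_one_ne_one h2 (mul_right_cancel (b := g) (by simpa using e.symm))
    rw [mul_assoc _ B, hB, mul_neg, ← mul_assoc, ← mul_assoc, ← neg_mul _ B, mul_left_inj,
      neg_eq_iff_eq_neg]
    rcases (hmem b).1 b.2 with h | h <;> rw [h]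
    · exact Or.inr ⟨rfl, hne _⟩
    · exact Or.inl ⟨rfl, (hne _).symm⟩
  have hC := card_circle h2
  rw [← card_centralizer_J, card_sqrt_neg_one hodd', hF] at hC
  refine ⟨fun B hB => ?_, fun h => ?_, fun h => ?_, fun x y hx hy => ?_⟩
  · obtain ⟨a, rfl⟩ := key A hA
    obtain ⟨b, rfl⟩ := key B hB
    exact ⟨b * a⁻¹, by rw [Lib.KleinCount.Hyp.conj_conj, inv_mul_cancel_right]⟩
  · rw [if_neg (by omega)] at hC; omega
  · rw [if_pos h] at hC; omega
  · obtain ⟨z, h⟩ := hyp hodd'
    obtain ⟨a, rfl⟩ := h.conj x (by rintro rfl; simp at hx) 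
      ((sq x).symm.trans (orderOf_dvd_iff_pow_eq_one.1 hx.dvd))
    obtain ⟨b, rfl⟩ := h.conj y (by rintro rfl; simp at hy) 
      ((sq y).symm.trans (orderOf_dvd_iff_pow_eq_one.1 hy.dvd))
    exact isConj_iff.2 ⟨b * a⁻¹, by group⟩

end Cfsg.Agent.S0809
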