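import Cfsg.Statements.S0810
import Cfsg.Agent.Lib.PSL2Max
import Cfsg.Agent.Lib.BurnsidePQ

set_option autoImplicit false
open Cfsg

namespace Cfsg.Agent.S0810

theorem solv24 {G : Type*} [Group G] [Finite G] (h : Nat.card G ∣ 24) : Group.IsSolvable G :=
  Lib.BurnsidePQ.isSolvable_of_card_dvd (a := 3) (b := 1) Nat.prime_two Nat.prime_three h

theorem solv_small (K : Type*) [Field K] [Fintype K] (h : Fintype.card K ≤ 3) :
    Group.IsSolvable (Matrix.ProjectiveSpecialLinearGroup (Fin 2) K) := by
  classical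
  refine solv24 ((Dvd.intro _ (Lib.LinearOrders.card_PSL2_mul (F := K) rfl)).trans ?_)
  have : 1 < Fintype.card K := Fintype.one_lt_card
  interval_cases Fintype.card K <;> norm_num

theorem not_solv (K : Type*) [Field K] [Fintype K] (h : 4 ≤ Fintype.card K) :
    ¬ Group.IsSolvable (Matrix.ProjectiveSpecialLinearGroup (Fin 2) K) := by
  classical
  have hs := Matrix.ProjectiveSpecialLinearGroup.rank_two_simple (F := K)
    (by rw [Nat.card_eq_fintype_card]; omega)
  rw [← IsSimpleGroup.comm_iff_isSolvable]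
  intro hc
  let a : Matrix.SpecialLinearGroup (Fin 2) K := ⟨!![1, 1; 0, 1], by simp [Matrix.det_fin_two]⟩
  let b : Matrix.SpecialLinearGroup (Fin 2) K := ⟨!![1, 0; 1, 1], by simp [Matrix.det_fin_two]⟩
  have h1 := hc a b
  rw [← QuotientGroup.mk_mul, ← QuotientGroup.mk_mul, QuotientGroup.eq,
    Lib.PGL2Action.mem_center_iff_two, inv_mul_eq_iff_eq_mul, inv_mul_eq_iff_eq_mul] at h1
  rcases h1 with h1 | h1
  · have h2 : !![1, 0; 1, 1] * !![1, 1; 0, 1] = !![1, 1; 0, 1] * !![1, 0; 1, (1 : K)] * 1 :=
      congrArg Subtype.val h1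
    simpa using congrFun (congrFun h2 0) 0
  · have h2 : !![1, 0; 1, 1] * !![1, 1; 0, 1] = !![1, 1; 0, 1] * !![1, 0; 1, (1 : K)] * (-1) :=
      congrArg Subtype.val h1
    have h3 := congrFun (congrFun h2 0) 0
    have h4 := congrFun (congrFun h2 0) 1
    simp at h3 h4
    exact one_ne_zero (α := K) (by linear_combination h3 - h4)

theorem not_solv_A5 : ¬ Group.IsSolvable (alternatingGroup (Fin 5)) := by
  rw [← IsSimpleGroup.comm_iff_isSolvable]
  decide +kernel

theorem solv_dihedral (k : ℕ) : Group.IsSolvable (DihedralGroup k) := by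
  refine ⟨2, ?_⟩
  have h1 : derivedSeries (DihedralGroup k) 1 ≤ Subgroup.zpowers (DihedralGroup.r 1) := by
    rw [derivedSeries_one, commutator_def, Subgroup.commutator_le]
    have : ∀ i : ZMod k, DihedralGroup.r i ∈ Subgroup.zpowers (DihedralGroup.r (1 : ZMod k)) :=
      fun i => by
        obtain ⟨j, rfl⟩ := ZMod.intCast_surjective i
        exact ⟨j, by simp⟩
    rintro (a | a) - (b | b) - <;> simp [commutatorElement_def, this]
  rw [derivedSeries_succ, Subgroup.commutator_eq_bot_iff_le_centralizer]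
  intro a ha b hb
  obtain ⟨i, rfl⟩ := h1 ha
  obtain ⟨j, rfl⟩ := h1 hb
  exact (Commute.zpow_zpow_self _ _ _).eq

open Lib.PSL2Basic in
theorem solv_stab {F : Type*} [Field F] [Finite F] [DecidableEq F] (x : OnePoint F) :
    Group.IsSolvable (MulAction.stabilizer (Matrix.ProjectiveSpecialLinearGroup (Fin 2) F) x) := by
  let _ := Fintype.ofFinite F
  obtain ⟨p, hp⟩ := CharP.exists F
  have : Fact p.Prime := ⟨CharP.char_is_prime F p⟩
  obtain ⟨χ, hχ⟩ := psl_exists_char p x
  have h1 : IsPGroup p χ.toHomUnits.ker := fun g =>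
    ⟨1, Subtype.ext (Subtype.ext (by
      rw [pow_one]; exact (hχ g.1).1 (congrArg Units.val g.2)))⟩
  have := h1.isNilpotent
  exact Group.isSolvable_of_ker_le_range χ.toHomUnits.ker.subtype χ.toHomUnits (by simp)

theorem dvd_iff {q : ℕ} (hq : 1 ≤ q) :
    5 ∣ q * (q ^ 2 - 1) ↔ q % 5 = 0 ∨ q % 5 = 1 ∨ q % 5 = 4 := by
  have h3 := Nat.sq_sub_sq q 1
  rw [one_pow] at h3
  rw [h3, Nat.prime_five.dvd_mul, Nat.prime_five.dvd_mul]
  omega


/-- PSL_2(q) is minimal simple iff q is 2^r (r prime), 3^r (r an odd prime), a prime greater than 5 congruent to 2 or 3 mod 5, or 5. -/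
theorem result {F : Type*} [Field F] [Fintype F] {q : ℕ} (hF : Fintype.card F = q) : Cfsg.IsMinimalSimple (Matrix.ProjectiveSpecialLinearGroup (Fin 2) F) ↔ ((∃ r : ℕ, r.Prime ∧ q = 2 ^ r) ∨ (∃ r : ℕ, r.Prime ∧ r ≠ 2 ∧ q = 3 ^ r) ∨ (q.Prime ∧ 5 < q ∧ (q % 5 = 2 ∨ q % 5 = 3)) ∨ q = 5) := by
  classical
  obtain ⟨p, hp⟩ := CharP.exists F
  have hp' := CharP.char_is_prime F p
  have : Fact p.Prime := ⟨hp'⟩
  obtain ⟨⟨n, hn0⟩, -, hn⟩ := FiniteField.card F p
  replace hn : q = p ^ n := hF ▸ hn
  have hG := Lib.LinearOrders.card_PSL2_mul hF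
  have hd := Lib.PSL2Max.gcd_cases (q := q) (by have := (Lib.PSL2Max.not_six hF).1; omega)
  constructor
  · rintro ⟨hs, hc, hsol⟩
    have hq4 : 4 ≤ q := by
      by_contra h
      have := solv_small F (by omega)
      exact hc ⟨⟨IsSimpleGroup.comm_iff_isSolvable.2 this⟩⟩
    have h5 : 5 ∣ q * (q ^ 2 - 1) → q ≤ 5 := by
      intro h
      obtain ⟨f, hf⟩ := Lib.PSL2Small.exists_A5 hF h
      by_cases ht : f.range = ⊤
      · have h1 := Nat.card_congr (MonoidHom.ofInjective hf).toEquiv
        rw [ht, Subgroup.card_top, Lib.PSL2Small.card_A5] at h1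
        rw [← h1] at hG
        by_contra h6
        have h7 : 6 ^ 2 ≤ q ^ 2 := Nat.pow_le_pow_left (by omega) 2
        have : 6 * 35 ≤ q * (q ^ 2 - 1) := Nat.mul_le_mul (by omega) (by omega)
        omega
      · have := hsol _ ht
        exact absurd (Group.isSolvable_of_isSolvable_injective
          (f := (MonoidHom.ofInjective hf).toMonoidHom) (MonoidHom.ofInjective hf).injective) not_solv_A5
    have hdiv : ∀ d, d ∣ n → d ≠ n → p ^ d ≤ 3 := by
      intro d hdn' hdn
      have hd0 : d ≠ 0 := by rintro rfl; simp at hdn'; omega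
      let K := GaloisField p d
      let _ := Fintype.ofFinite K
      have hK : Fintype.card K = p ^ d := by
        rw [← Nat.card_eq_fintype_card, GaloisField.card p d hd0]
      obtain ⟨f⟩ : Nonempty (K →+* F) := by
        let _ := ZMod.algebra F p
        have hd : Module.finrank (ZMod p) K ∣ Module.finrank (ZMod p) F := by
          rw [GaloisField.finrank p hd0]
          convert hdn'
          apply Nat.pow_right_injective hp'.two_le
          simp only
          rw [FiniteField.pow_finrank_eq_card, hF, hn]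
        obtain ⟨g⟩ := FiniteField.nonempty_algHom_of_finrank_dvd hd
        exact ⟨g.toRingHom⟩
      have hf := Lib.LinearCongr.pslMap_injective (n := Fin 2) f f.injective
      by_contra h3
      by_cases ht : (Lib.LinearCongr.pslMap (n := Fin 2) f f.injective).range = ⊤
      · have h1 := Nat.card_congr (MonoidHom.ofInjective hf).toEquiv
        rw [ht, Subgroup.card_top] at h1
        have h2 := Lib.LinearOrders.card_PSL2_mul hK
        have h4 : 2 * p ^ d ≤ q := by
          rw [hn]
          calc 2 * p ^ d ≤ p ^ (d + 1) := by rw [pow_succ']; exact Nat.mul_le_mul_right _ hp'.two_le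
            _ ≤ p ^ n := Nat.pow_le_pow_right hp'.pos (lt_of_le_of_ne (Nat.le_of_dvd hn0 hdn') hdn)
        rw [h1] at h2
        have h6 := Lib.PSL2Max.gcd_cases (q := p ^ d) (by omega)
        have h7 : (p ^ d) ^ 2 < q ^ 2 := Nat.pow_lt_pow_left (by omega) (by norm_num)
        have h9 : 1 < (p ^ d) ^ 2 := Nat.one_lt_pow (by norm_num) (by omega)
        have h8 : 2 * p ^ d * ((p ^ d) ^ 2 - 1) < q * (q ^ 2 - 1) :=
          Nat.mul_lt_mul_of_le_of_lt h4 (by omega) (by omega)
        rw [mul_assoc, ← h2, ← hG] at h8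
        generalize Nat.card (Matrix.ProjectiveSpecialLinearGroup (Fin 2) F) = N at h8
        rcases hd with ⟨-, e⟩ | ⟨-, e⟩ <;> rcases h6 with ⟨-, e'⟩ | ⟨-, e'⟩ <;>
          rw [e, e'] at h8 <;> omega
      · have := hsol _ ht
        exact absurd (Group.isSolvable_of_isSolvable_injective
          (f := (MonoidHom.ofInjective hf).toMonoidHom) (MonoidHom.ofInjective hf).injective)
          (not_solv K (by omega))
    by_cases hn1 : n = 1
    · subst hn1
      rw [pow_one] at hn
      subst hn
      by_cases h6 : q ≤ 5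
      · have : q ≠ 4 := by rintro rfl; revert hp'; decide
        omega
      · refine Or.inr (Or.inr (Or.inl ⟨hp', by omega, ?_⟩))
        have h7 := mt h5 h6
        rw [dvd_iff (by omega)] at h7
        omega
    · have h3 := hdiv 1 (one_dvd _) (Ne.symm hn1)
      have hnp : n.Prime := by
        refine Nat.prime_def.2 ⟨by omega, fun d hd => ?_⟩
        by_contra! h
        have h1 : d ≠ 0 := by rintro rfl; simp at hd; omega
        have h2 : 2 ^ 2 ≤ p ^ d := (Nat.pow_le_pow_left hp'.two_le 2).trans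
          (Nat.pow_le_pow_right hp'.pos (by omega))
        have := hdiv d hd h.2
        omega
      have := hp'.two_le
      rw [pow_one] at h3
      interval_cases p
      · exact Or.inl ⟨n, hnp, hn⟩
      · refine Or.inr (Or.inl ⟨n, hnp, ?_, hn⟩)
        rintro rfl
        subst hn
        have := h5 (by norm_num)
        omega
  · intro h
    have hq4 : 4 ≤ q := by
      rcases h with ⟨r, hr, rfl⟩ | ⟨r, hr, -, rfl⟩ | h | h
      · exact Nat.pow_le_pow_right (n := 2) (i := 2) (by norm_num) hr.two_le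
      · exact le_trans (by norm_num) (Nat.pow_le_pow_right (n := 3) (i := 2) (by norm_num) hr.two_le)
      · omega
      · omega
    have hs := Matrix.ProjectiveSpecialLinearGroup.rank_two_simple (F := F)
      (by rw [Nat.card_eq_fintype_card]; omega)
    refine ⟨hs, fun hc => not_solv F (by omega) (Group.isSolvable_of_comm hc.is_comm.comm),
      fun H hH => ?_⟩
    have hne : Nat.card H ≠ Nat.card (Matrix.ProjectiveSpecialLinearGroup (Fin 2) F) :=
      fun h => hH (Subgroup.eq_top_of_card_eq H h)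
    rcases Lib.PSL2Basic.dickson_psl hF H with ⟨x, hx⟩ | ⟨k, hk, h⟩ | ⟨⟨e⟩⟩ | ⟨⟨e⟩⟩ | ⟨⟨e⟩⟩ |
      ⟨F₀, h0⟩
    · have := solv_stab x
      exact Group.isSolvable_of_isSolvable_injective (Subgroup.inclusion_injective hx)
    · rcases h with ⟨h, -⟩ | ⟨⟨e⟩⟩
      · exact Group.isSolvable_of_comm fun a b => IsCyclic.isMulCommutative.is_comm.comm a b
      · have := solv_dihedral k
        exact Group.isSolvable_of_isSolvable_injective (f := e.toMonoidHom) e.injective
    · exact solv24 (by rw [Nat.card_congr e.toEquiv, Lib.PSL2Small.card_A4]; norm_num)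
    · exact solv24 (by rw [Nat.card_congr e.toEquiv, Lib.PSL2Small.card_S4])
    · exfalso
      have hdvd := Subgroup.card_subgroup_dvd_card H
      rw [Nat.card_congr e.toEquiv, Lib.PSL2Small.card_A5] at hdvd hne
      have h5 : 5 ∣ q * (q ^ 2 - 1) := hG ▸ ((show 5 ∣ 60 by norm_num).trans hdvd).mul_right _
      rw [dvd_iff (by omega)] at h5
      have h45 : q ≠ 4 ∧ q ≠ 5 := by
        constructor <;> rintro rfl <;> norm_num [-Nat.card_eq_fintype_card] at hG <;> omega
      have hodd : ∀ a r : ℕ, a = 2 ∨ a = 3 → r.Prime → r ≠ 2 → a ^ r % 5 = 2 ∨ a ^ r % 5 = 3 := by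
        intro a r ha hr h2
        obtain ⟨j, rfl⟩ := hr.odd_of_ne_two h2
        have : (a ^ 2) ^ j % 5 = 1 ∨ (a ^ 2) ^ j % 5 = 4 := by
          clear hr h2
          induction j with
          | zero => simp
          | succ j ih => rw [pow_succ]; rcases ha with rfl | rfl <;> omega
        rw [pow_succ, pow_mul]
        rcases ha with rfl | rfl <;> omega
      rcases h with ⟨r, hr, rfl⟩ | ⟨r, hr, h2, rfl⟩ | h | h
      · have := hodd 2 r (Or.inl rfl) hr (by rintro rfl; simp at h45)
        omega
      · have := hodd 3 r (Or.inr rfl) hr h2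
        omega
      · omega
      · omega
    · rcases Lib.PSL2Max.subfield_cases hF H F₀ h0 with h1 | ⟨s, m, hs0, hs, hm, hsm, -⟩
      · exact absurd h1 hH
      have hs3 : s ≤ 3 := by
        have key : ∀ a r : ℕ, a.Prime → r.Prime → q = a ^ r → s = a := by
          intro a r ha hr e
          obtain ⟨i, -, rfl⟩ := (Nat.dvd_prime_pow ha).1
            (show s ∣ a ^ r from e ▸ hsm ▸ dvd_pow_self s (by omega))
          rw [← pow_mul, e] at hsm
          obtain rfl := Nat.pow_right_injective ha.two_le hsm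
          rcases Nat.prime_mul_iff.1 hr with h | h
          · omega
          · simp [h.2]
        have key2 : ¬ q.Prime := hsm ▸ Nat.Prime.not_prime_pow hm
        rcases h with ⟨r, hr, e⟩ | ⟨r, hr, -, e⟩ | h | rfl
        · have := key 2 r Nat.prime_two hr e; omega
        · have := key 3 r Nat.prime_three hr e; omega
        · exact absurd h.1 key2
        · exact absurd Nat.prime_five key2
      let _ := Fintype.ofFinite F₀
      rw [Nat.card_eq_fintype_card] at hs0
      rcases h0 with ⟨⟨e⟩⟩ | ⟨⟨e⟩⟩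
      · have := solv_small F₀ (by omega)
        exact Group.isSolvable_of_isSolvable_injective (f := e.toMonoidHom) e.injective
      · refine solv24 ?_
        rw [Nat.card_congr e.toEquiv, Lib.LinearOrders.card_PGL2 hs0]
        interval_cases s <;> norm_num

end Cfsg.Agent.S0810
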