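import Cfsg.Statements.S0811
import Cfsg.Agent.Lib.PSL2Max

set_option autoImplicit false
open Cfsg

namespace Cfsg.Agent.S0811

/-- For q ∉ {2, 7, 9}, PSL_2(q) has a maximal subgroup isomorphic to the dihedral group of order 2(q + 1)/d, d = gcd(2, q − 1). -/
theorem result {F : Type*} [Field F] [Fintype F] {q : ℕ} (hF : Fintype.card F = q) (hq : q ∉ ({2, 7, 9} : Finset ℕ)) : ∃ H : Subgroup (Matrix.ProjectiveSpecialLinearGroup (Fin 2) F), IsCoatom H ∧ Nonempty (H ≃* DihedralGroup ((q + 1) / Nat.gcd 2 (q - 1))) := by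
  classical
  obtain ⟨D, ⟨eD⟩⟩ := Lib.PSL2Max.exists_dihedral_add hF
  refine ⟨D, ?_, ⟨eD⟩⟩
  obtain ⟨h2, h6, h10, h12⟩ := Lib.PSL2Max.not_six hF
  simp only [Finset.mem_insert, Finset.mem_singleton, not_or] at hq
  have hG := Lib.LinearOrders.card_PSL2_mul hF
  have hd := Lib.PSL2Max.gcd_cases (q := q) (by omega)
  have h3 := Nat.sq_sub_sq q 1
  rw [one_pow] at h3
  set k := (q + 1) / Nat.gcd 2 (q - 1) with hk
  have hkd : k * Nat.gcd 2 (q - 1) = q + 1 := by
    rcases hd with ⟨h4, h5⟩ | ⟨h4, h5⟩ <;> rw [hk, h5] <;> omega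
  have hD : Nat.card D = 2 * k := by rw [Nat.card_congr eD.toEquiv, DihedralGroup.nat_card]
  obtain ⟨r, hr⟩ : ∃ r : D, orderOf r = k :=
    ⟨eD.symm (DihedralGroup.r 1), by rw [eD.symm.orderOf_eq, DihedralGroup.orderOf_r_one]⟩
  refine ⟨fun h => ?_, fun M hM => ?_⟩
  · rw [h, Subgroup.card_top] at hD
    rw [hD, mul_assoc, hkd, h3, mul_left_comm, mul_comm 2] at hG
    have h4 := Nat.eq_of_mul_eq_mul_left (by omega) hG
    have : 3 * 2 ≤ q * (q - 1) := Nat.mul_le_mul (by omega) (by omega)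
    omega
  by_contra hM'
  have hne : Nat.card M ≠ Nat.card (Matrix.ProjectiveSpecialLinearGroup (Fin 2) F) :=
    fun h => hM' (Subgroup.eq_top_of_card_eq M h)
  have hdvd := Subgroup.card_subgroup_dvd_card M
  have hdvd' := Subgroup.card_dvd_of_le hM.le
  have hlt : Nat.card D < Nat.card M :=
    lt_of_le_of_ne (Subgroup.card_le_of_le hM.le)
      fun h => hM.ne (Subgroup.eq_of_le_of_card_ge hM.le h.ge)
  rw [hD] at hdvd' hlt
  have hr' : orderOf (Subgroup.inclusion hM.le r) = k := by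
    rw [orderOf_injective _ (Subgroup.inclusion_injective hM.le), hr]
  rcases Lib.PSL2Basic.dickson_psl hF M with ⟨x, hx⟩ | ⟨k', hk', h⟩ | ⟨⟨e⟩⟩ | ⟨⟨e⟩⟩ | ⟨⟨e⟩⟩ |
      ⟨F₀, h⟩
  · have h4 := Nat.mul_dvd_mul_right (hdvd'.trans (Subgroup.card_dvd_of_le hx)) (Nat.gcd 2 (q - 1))
    rw [Lib.PSL2Basic.card_stabilizer_psl hF x, mul_assoc, hkd] at h4
    have h5 : q + 1 ∣ q - 1 :=
      (show (q + 1).Coprime q by simp).dvd_of_dvd_mul_left ((Dvd.intro_left _ rfl).trans h4)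
    have := Nat.le_of_dvd (by omega) h5
    omega
  · have h1 : Nat.card M ≤ 2 * k' := by
      rcases h with ⟨-, h⟩ | ⟨⟨e⟩⟩
      · omega
      · rw [Nat.card_congr e.toEquiv, DihedralGroup.nat_card]
    rcases hd with ⟨h4, h5⟩ | ⟨h4, h5⟩ <;> rw [h5] at hk' hkd <;> rcases hk' with hk' | hk' <;>
      have := Nat.le_of_dvd (by omega) hk' <;> omega
  · have h1 := Lib.PSL2Max.order_A4 (e (Subgroup.inclusion hM.le r))
    rw [e.orderOf_eq, hr'] at h1
    rw [Nat.card_congr e.toEquiv, Lib.PSL2Small.card_A4] at hne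
    have h4 := Lib.PSL2Max.A4_no_six ((D.subgroupOf M).map e.toMonoidHom)
    rw [Subgroup.card_map_of_injective e.injective,
      Nat.card_congr (Subgroup.subgroupOfEquivOfLe hM.le).toEquiv, hD] at h4
    obtain rfl : q = 3 := by
      rcases hd with ⟨h4, h5⟩ | ⟨h4, h5⟩ <;> rw [h5] at hkd <;> omega
    norm_num [-Nat.card_eq_fintype_card] at hG; omega
  · have h1 := Lib.PSL2Max.order_S4 (e (Subgroup.inclusion hM.le r))
    rw [e.orderOf_eq, hr'] at h1
    rw [Nat.card_congr e.toEquiv, Lib.PSL2Small.card_S4] at hdvd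
    obtain rfl | rfl : q = 3 ∨ q = 5 := by
      rcases hd with ⟨h4, h5⟩ | ⟨h4, h5⟩ <;> rw [h5] at hkd <;> omega
    all_goals norm_num [-Nat.card_eq_fintype_card] at hG; omega
  · have h1 := Lib.PSL2Max.order_A5 (e (Subgroup.inclusion hM.le r))
    rw [e.orderOf_eq, hr'] at h1
    rw [Nat.card_congr e.toEquiv, Lib.PSL2Small.card_A5] at hdvd hne
    obtain rfl | rfl | rfl : q = 3 ∨ q = 4 ∨ q = 5 := by
      rcases hd with ⟨h4, h5⟩ | ⟨h4, h5⟩ <;> rw [h5] at hkd <;> omega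
    all_goals norm_num [-Nat.card_eq_fintype_card] at hG; omega
  · rcases Lib.PSL2Max.subfield_cases hF M F₀ h with h | ⟨s, m, -, hs, hm, hsm, -, ho⟩
    · exact hM' h
    · have h1 : s ^ 2 ≤ q := hsm ▸ Nat.pow_le_pow_right (by omega) hm
      have h4 := ho (Subgroup.inclusion hM.le r)
      rw [hr'] at h4
      rcases hd with ⟨h5, h7⟩ | ⟨h5, h7⟩ <;> rw [h7] at hkd
      · nlinarith
      · have h8 : s ≠ 2 := by
          rintro rfl
          obtain ⟨j, rfl⟩ : ∃ j, m = j + 1 := ⟨m - 1, by omega⟩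
          rw [pow_succ] at hsm; omega
        have h9 : 3 ≤ s := by omega
        nlinarith

end Cfsg.Agent.S0811
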