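import Cfsg.Statements.S0812
import Cfsg.Agent.Lib.PSL2Max

set_option autoImplicit false
open Cfsg

namespace Cfsg.Agent.S0812

/-- For q ∉ {2, 3, 5, 7, 9, 11}, PSL_2(q) has a maximal subgroup isomorphic to the dihedral group of order 2(q − 1)/d, d = gcd(2, q − 1). -/
theorem result {F : Type*} [Field F] [Fintype F] {q : ℕ} (hF : Fintype.card F = q) (hq : q ∉ ({2, 3, 5, 7, 9, 11} : Finset ℕ)) : ∃ H : Subgroup (Matrix.ProjectiveSpecialLinearGroup (Fin 2) F), IsCoatom H ∧ Nonempty (H ≃* DihedralGroup ((q - 1) / Nat.gcd 2 (q - 1))) := by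
  classical
  obtain ⟨h2, h6, h10, h12⟩ := Lib.PSL2Max.not_six hF
  simp only [Finset.mem_insert, Finset.mem_singleton, not_or] at hq
  have hq' : q = 4 ∨ q = 8 ∨ 13 ≤ q := by omega
  obtain ⟨D, ⟨eD⟩⟩ := Lib.PSL2Max.exists_dihedral_sub hF (by omega)
  refine ⟨D, ?_, ⟨eD⟩⟩
  have hG := Lib.LinearOrders.card_PSL2_mul hF
  have hd := Lib.PSL2Max.gcd_cases (q := q) (by omega)
  have h3 := Nat.sq_sub_sq q 1
  rw [one_pow] at h3
  set k := (q - 1) / Nat.gcd 2 (q - 1) with hk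
  have hkd : k * Nat.gcd 2 (q - 1) = q - 1 := by
    rcases hd with ⟨h4, h5⟩ | ⟨h4, h5⟩ <;> rw [hk, h5] <;> omega
  have hk3 : 3 ≤ k := by
    rcases hd with ⟨h4, h5⟩ | ⟨h4, h5⟩ <;> rw [h5] at hkd <;> omega
  have hD : Nat.card D = 2 * k := by rw [Nat.card_congr eD.toEquiv, DihedralGroup.nat_card]
  obtain ⟨r, hr⟩ : ∃ r : D, orderOf r = k :=
    ⟨eD.symm (DihedralGroup.r 1), by rw [eD.symm.orderOf_eq, DihedralGroup.orderOf_r_one]⟩
  refine ⟨fun h => ?_, fun M hM => ?_⟩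
  · rw [h, Subgroup.card_top] at hD
    rw [hD, mul_assoc, hkd, h3, ← mul_assoc] at hG
    have h4 := Nat.eq_of_mul_eq_mul_right (by omega) hG
    have : 3 * 2 ≤ q * (q + 1) := Nat.mul_le_mul (by omega) (by omega)
    omega
  by_contra hM'
  have hne : Nat.card M ≠ Nat.card (Matrix.ProjectiveSpecialLinearGroup (Fin 2) F) :=
    fun h => hM' (Subgroup.eq_top_of_card_eq M h)
  have hdvd := Subgroup.card_subgroup_dvd_card M
  have hdvd' := Subgroup.card_dvd_of_le hM.le
  have hlt : Nat.card D < Nat.card M :=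
    lt_of_le_of_ne (Subgroup.card_le_of_le hM.le)
      fun h => hM.ne (Subgroup.eq_of_le_of_card_ge hM.le h.ge)
  rw [hD] at hdvd' hlt
  have hr' : orderOf (Subgroup.inclusion hM.le r) = k := by
    rw [orderOf_injective _ (Subgroup.inclusion_injective hM.le), hr]
  rcases Lib.PSL2Basic.dickson_psl hF M with ⟨x, hx⟩ | ⟨k', hk', h⟩ | ⟨⟨e⟩⟩ | ⟨⟨e⟩⟩ | ⟨⟨e⟩⟩ |
      ⟨F₀, h⟩
  · obtain ⟨p, hp⟩ := CharP.exists F
    have hp' := CharP.char_is_prime F p
    have : Fact p.Prime := ⟨hp'⟩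
    obtain ⟨χ, hχ⟩ := Lib.PSL2Basic.psl_exists_char p x
    let ψ : DihedralGroup k →* MulAction.stabilizer (Matrix.ProjectiveSpecialLinearGroup (Fin 2) F) x :=
      (Subgroup.inclusion (hM.le.trans hx)).comp eD.symm.toMonoidHom
    have hψ : Function.Injective ψ :=
      (Subgroup.inclusion_injective (hM.le.trans hx)).comp eD.symm.injective
    have h1 : χ (ψ (DihedralGroup.r 1 ^ 2)) = 1 := by
      have e1 : (DihedralGroup.r 1 : DihedralGroup k) ^ 2 * DihedralGroup.sr 1 =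
          DihedralGroup.r 1 * DihedralGroup.sr 1 * (DihedralGroup.r 1)⁻¹ := by
        simp [sq]
      have e2 : (χ.comp ψ) (DihedralGroup.r 1 ^ 2 * DihedralGroup.sr 1) =
          (χ.comp ψ) (DihedralGroup.sr 1) := by
        rw [e1, map_mul, map_mul, mul_right_comm, ← map_mul, mul_inv_cancel, map_one, one_mul]
      rw [map_mul] at e2
      exact mul_right_cancel₀ ((Group.isUnit _).map (χ.comp ψ)).ne_zero (e2.trans (one_mul _).symm)
    have h4 : (DihedralGroup.r 1 ^ 2 : DihedralGroup k) ^ p = 1 := by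
      rw [← map_eq_one_iff ψ hψ, map_pow]
      exact Subtype.ext ((hχ _).1 h1)
    rw [← pow_mul, ← orderOf_dvd_iff_pow_eq_one, DihedralGroup.orderOf_r_one] at h4
    obtain ⟨n, -, hn⟩ := FiniteField.card F p
    have h7 : k.Coprime p := by
      rw [Nat.coprime_comm, hp'.coprime_iff_not_dvd]
      intro h5
      have h8 : p ∣ q - 1 := hkd ▸ h5.mul_right _
      have h9 : p ∣ q := by rw [← hF, hn]; exact dvd_pow_self p n.ne_zero
      have := (Nat.dvd_sub_iff_right (by omega) h9).1 h8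
      exact hp'.ne_one (Nat.dvd_one.1 this)
    have := Nat.le_of_dvd (by norm_num) (h7.dvd_of_dvd_mul_right h4)
    omega
  · have h1 : Nat.card M ≤ 2 * k' ∧ Nat.card M ∣ 2 * k' := by
      rcases h with ⟨-, h⟩ | ⟨⟨e⟩⟩
      · exact ⟨by omega, h ▸ Dvd.intro_left _ rfl⟩
      · rw [Nat.card_congr e.toEquiv, DihedralGroup.nat_card]; exact ⟨le_rfl, dvd_rfl⟩
    obtain ⟨j, hj⟩ := hdvd'
    have hj2 : 2 ≤ j := by
      rcases j with _ | _ | j <;> omega
    have h8 : 2 * k * 2 ≤ 2 * k * j := Nat.mul_le_mul_left _ hj2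
    rcases hd with ⟨h4, h5⟩ | ⟨h4, h5⟩ <;> rw [h5] at hk' hkd <;> rcases hk' with hk' | hk' <;>
      have := Nat.le_of_dvd (by omega) hk' <;> omega
  · have h1 := Lib.PSL2Max.order_A4 (e (Subgroup.inclusion hM.le r))
    rw [e.orderOf_eq, hr'] at h1
    have h4 := Lib.PSL2Max.A4_no_six ((D.subgroupOf M).map e.toMonoidHom)
    rw [Subgroup.card_map_of_injective e.injective,
      Nat.card_congr (Subgroup.subgroupOfEquivOfLe hM.le).toEquiv, hD] at h4
    omega
  · have h1 := Lib.PSL2Max.order_S4 (e (Subgroup.inclusion hM.le r))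
    rw [e.orderOf_eq, hr'] at h1
    rw [Nat.card_congr e.toEquiv, Lib.PSL2Small.card_S4] at hdvd
    obtain rfl : q = 4 := by
      rcases hd with ⟨h4, h5⟩ | ⟨h4, h5⟩ <;> rw [h5] at hkd <;> omega
    norm_num [-Nat.card_eq_fintype_card] at hG; omega
  · have h1 := Lib.PSL2Max.order_A5 (e (Subgroup.inclusion hM.le r))
    rw [e.orderOf_eq, hr'] at h1
    rw [Nat.card_congr e.toEquiv, Lib.PSL2Small.card_A5] at hdvd hne
    obtain rfl : q = 4 := by
      rcases hd with ⟨h4, h5⟩ | ⟨h4, h5⟩ <;> rw [h5] at hkd <;> omega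
    norm_num [-Nat.card_eq_fintype_card] at hG; omega
  · rcases Lib.PSL2Max.subfield_cases hF M F₀ h with h | ⟨s, m, -, hs, hm, hsm, hc, ho⟩
    · exact hM' h
    · have h1 : s ^ 2 ≤ q := hsm ▸ Nat.pow_le_pow_right (by omega) hm
      have h4 := ho (Subgroup.inclusion hM.le r)
      rw [hr'] at h4
      rcases hd with ⟨h5, h7⟩ | ⟨h5, h7⟩ <;> rw [h7] at hkd
      · obtain rfl : s = 2 := by
          by_contra h8
          have h9 : 3 ≤ s := by omega
          have : q ≤ s + 2 := by omega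
          nlinarith
        omega
      · have h8 : q ≤ 2 * s + 3 := by omega
        have h9 : s ≤ 3 := by nlinarith
        omega

end Cfsg.Agent.S0812
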