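import Cfsg.Statements.S0813
import Cfsg.Agent.Lib.AutPSL

set_option autoImplicit false
open Cfsg

namespace Cfsg.Agent.S0813

/-- |Aut(PSL_n(q))|, q = p^f: for n ≥ 3 it is 2 f |PGL_n(q)|, and for n = 2 (q ≥ 4) it is f |PGL_2(q)|. -/
theorem result {F : Type*} [Field F] [Fintype F] (p f : ℕ) [Fact p.Prime] (hf : 1 ≤ f) (hF : Fintype.card F = p ^ f) (n : ℕ) (hn : 2 ≤ n) (h2 : n = 2 → 4 ≤ p ^ f) : Nat.card (MulAut (Matrix.ProjectiveSpecialLinearGroup (Fin n) F)) = (if n = 2 then 1 else 2) * f * Nat.card (Matrix.ProjGenLinGroup (Fin n) F) := by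
  have : CharP F p := charP_of_card_eq_prime_pow hF
  have : Nontrivial (Fin n) := Fin.nontrivial_iff_two_le.2 hn
  have h1 := Lib.AutPSL.card_gam (F := F) (ι := Fin n) p
  rw [Lib.AutLift.card_ringAut hF] at h1
  change Nat.card (MulAut (Lib.AutLift.PQ (Matrix.SpecialLinearGroup (Fin n) F))) = _
  split_ifs with h
  · rw [Lib.AutPSL.gam_eq_top p (by simpa using h), Subgroup.card_top] at h1
    rw [h1, one_mul]
  · rw [← (Lib.AutPSL.gam (Fin n) F).index_mul_card, h1,
      Lib.AutPSL.index_gam p (by rw [Fintype.card_fin]; omega), mul_assoc]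

end Cfsg.Agent.S0813
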