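import Cfsg.Statements.S0814
import Cfsg.Agent.Lib.AutSp4

set_option autoImplicit false
open Cfsg

namespace Cfsg.Agent.S0814

open Cfsg.Agent.Lib.AutLift Cfsg.Agent.Lib.AutSymp Cfsg.Agent.Lib.AutSp4

/-- |Aut(PSp_2m(q))| = gcd(2, q−1) · f · |PSp_2m(q)| for q = p^f, m ≥ 2, (m, q) ≠ (2, 2), with an extra factor 2 exactly when m = 2 and p = 2. -/
theorem result {F : Type*} [Field F] [Fintype F] (p f : ℕ) [Fact p.Prime] (hf : 1 ≤ f) (hF : Fintype.card F = p ^ f) (m : ℕ) (hm : 2 ≤ m) (h22 : m = 2 → 3 ≤ p ^ f) : Nat.card (MulAut (Cfsg.PSp m F)) = (if m = 2 ∧ p = 2 then 2 else 1) * Nat.gcd 2 (p ^ f - 1) * f * Nat.card (Cfsg.PSp m F) := by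
  have hc : CharP F p := charP_of_card_eq_prime_pow hF
  have h1 := card_aut_sp (F := F) hm p
  rw [card_ringAut hF, Nat.card_eq_fintype_card (α := F), hF] at h1
  refine h1.trans ?_
  congr 3
  split_ifs with h
  · obtain ⟨rfl, rfl⟩ := h
    exact index_sp4
  · rw [range_eq_top (good_sympB hm) (by simp; omega) ?_ p, Subgroup.index_top]
    by_cases h2 : p = 2
    · right
      have : m ≠ 2 := fun h3 => h ⟨h3, h2⟩
      simp; omega
    · left
      intro h3
      exact h2 ((Nat.prime_dvd_prime_iff_eq Fact.out Nat.prime_two).mp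
        ((CharP.cast_eq_zero_iff F p 2).mp h3))

end Cfsg.Agent.S0814
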