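import Cfsg.Statements.S0816
import Cfsg.Agent.Lib.AutOrth2

set_option autoImplicit false
open Cfsg

namespace Cfsg.Agent.S0816

open Cfsg.Agent.Lib.AutLift Cfsg.Agent.Lib.AutOrth Cfsg.Agent.Lib.AutOrth2 Cfsg.Agent.Lib.FormDisc
  Cfsg.Agent.Lib.AutRoot

/-- |Aut(PΩ_(2m+1)(q))| = 2 f · |PΩ_(2m+1)(q)| for q = p^f odd and m ≥ 3 (for the form quadFormOdd). -/
theorem result {F : Type*} [Field F] [Fintype F] (p f : ℕ) [Fact p.Prime] (hf : 1 ≤ f) (hF : Fintype.card F = p ^ f) (hodd : Odd p) (m : ℕ) (hm : 3 ≤ m) : Nat.card (MulAut (Cfsg.POmega F (Cfsg.quadFormOdd m F))) = 2 * f * Nat.card (Cfsg.POmega F (Cfsg.quadFormOdd m F)) := by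
  have h2 : (2 : F) ≠ 0 := Lib.FormField.two_ne_zero_of_odd (hF ▸ hodd.pow)
  have h : OG (qOdd m F) _ := ⟨rfl, qOdd_sep h2 m, by simp; omega⟩
  have h1 := card_aut_odd h h2 (by simp [parity_simps]) fun τ => ⟨coordSemi _ τ,
    mem_sim h one_ne_zero fun v => by
      simp [coe_qOdd, quadFormOdd, coordSemi_apply, show (coordSemi _ τ).τ = τ from rfl], rfl⟩
  rw [card_ringAut hF, ← card_mulAut_pq (omegaEquiv h), ← card_pq (omegaEquiv h)] at h1
  exact h1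

end Cfsg.Agent.S0816
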