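import Cfsg.Statements.S0817
import Cfsg.Agent.Lib.AutD4
import Cfsg.Agent.S0790

set_option autoImplicit false
open Cfsg

namespace Cfsg.Agent.S0817

open Cfsg.Agent.Lib.AutOrth Cfsg.Agent.Lib.AutOrth2 Cfsg.Agent.Lib.FormDisc Cfsg.Agent.Lib.AutRoot
  Cfsg.Agent.Lib.AutD4

/-- |Aut(PΩ⁺_2m(q))| for q = p^f, m ≥ 4: |PΩ⁺_2m(q)| times f, times 3 when m = 4, times 2 if p = 2, and times 8 or 4 if p is odd according as m(q−1)/2 is even or odd. -/
theorem result {F : Type*} [Field F] [Fintype F] (p f : ℕ) [Fact p.Prime] (hf : 1 ≤ f) (hF : Fintype.card F = p ^ f) (m : ℕ) (hm : 4 ≤ m) : Nat.card (MulAut (Cfsg.POmega F (Cfsg.quadFormPlus m F))) = (if m = 4 then 3 else 1) * (if p = 2 then 2 else (if Even (m * (p ^ f - 1) / 2) then 8 else 4)) * f * Nat.card (Cfsg.POmega F (Cfsg.quadFormPlus m F)) := by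
  have h : OG (qPlus m F) _ := ⟨rfl, qPlus_sep m, by simp; omega⟩
  have h1 := card_omega_even h p f hF (fun τ => ⟨coordSemi _ τ, mem_sim h one_ne_zero fun v => by
    simp [coe_qPlus, quadFormPlus, coordSemi_apply, show (coordSemi _ τ).τ = τ from rfl], rfl⟩)
    (fun l hl => ⟨diagEquiv (Sum.elim (fun _ => l) fun _ => 1) (by rintro (i | i) <;> simp [hl]),
      fun v => by simp [coe_qPlus, quadFormPlus, diagEquiv_apply, Finset.mul_sum, mul_assoc]⟩)
    (Even (m * (p ^ f - 1) / 2)) fun hodd => by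
      rw [← hF, ← (pow_mod_four_iff hodd m).1]
      exact S0790.result rfl hodd m (by omega)
  refine h1.trans ?_
  congr 3
  split_ifs with h4
  · subst h4
    exact sc_mu.index_eq
  · rw [range_eq_top h fun h8 => absurd h8 (by simp; omega), Subgroup.index_top]

end Cfsg.Agent.S0817
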