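import Cfsg.Statements.S0819
import Cfsg.Agent.Lib.GF4

set_option autoImplicit false
open Cfsg

namespace Cfsg.Agent.S0819

open Cfsg.Agent.Lib.GF4

theorem cayley {R : Type*} [CommRing R] (M : Matrix (Fin 3) (Fin 3) R) :
    ∃ t s : R, M ^ 3 = t • M ^ 2 + s • M + M.det • (1 : Matrix (Fin 3) (Fin 3) R) := by
  refine ⟨M 0 0 + M 1 1 + M 2 2, M 0 1 * M 1 0 + M 0 2 * M 2 0 + M 1 2 * M 2 1 - M 0 0 * M 1 1 -
    M 0 0 * M 2 2 - M 1 1 * M 2 2, ?_⟩
  ext i j
  fin_cases i <;> fin_cases j <;>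
    simp [pow_succ, Matrix.mul_apply, Fin.sum_univ_three, Matrix.det_fin_three] <;> ring

/-- Multiplication by `M` in the basis `1, M, M²`. -/
def step {R : Type*} [CommRing R] (t s : R) (x : R × R × R) : R × R × R :=
  (x.2.2, x.1 + s * x.2.2, x.2.1 + t * x.2.2)

theorem pow_eq {R : Type*} [CommRing R] {M : Matrix (Fin 3) (Fin 3) R} {t s : R}
    (h : M ^ 3 = t • M ^ 2 + s • M + (1 : R) • (1 : Matrix (Fin 3) (Fin 3) R)) (n : ℕ) :
    M ^ n = ((step t s)^[n] (1, 0, 0)).1 • (1 : Matrix (Fin 3) (Fin 3) R) +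
      ((step t s)^[n] (1, 0, 0)).2.1 • M + ((step t s)^[n] (1, 0, 0)).2.2 • M ^ 2 := by
  induction n with
  | zero => simp
  | succ n ih =>
    rw [Function.iterate_succ_apply', pow_succ, ih]
    simp only [step, add_mul, smul_mul_assoc, one_mul, ← pow_succ, ← sq, h]
    module

theorem check : ∀ t s : K4, (step t s)^[21] (1, 0, 0) = (1, 0, 0) ∨
    (∃ a, (step t s)^[5] (1, 0, 0) = (a, 0, 0)) ∨ (step t s)^[12] (1, 0, 0) = (1, 0, 0) := by
  decide +kernel


/-- No element of PSL_3(4) has order 15. -/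
theorem result {F : Type*} [Field F] [Fintype F] (hF : Fintype.card F = 4) (g : Matrix.ProjectiveSpecialLinearGroup (Fin 3) F) : orderOf g ≠ 15 := by
  obtain ⟨e⟩ := Lib.GF4.nonempty_equiv hF
  rw [← (Lib.LinearCongr.pslCongr e).orderOf_eq]
  generalize Lib.LinearCongr.pslCongr e g = g
  induction g using QuotientGroup.induction_on with | H g =>
  obtain ⟨t, s, h⟩ := cayley g.1
  rw [g.2] at h
  have key : ∀ n a, (step t s)^[n] (1, 0, 0) = (a, 0, 0) →
      orderOf (g : Matrix.ProjectiveSpecialLinearGroup (Fin 3) K4) ∣ n := by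
    intro n a ha
    have h1 := pow_eq h n
    rw [ha] at h1
    rw [orderOf_dvd_iff_pow_eq_one, ← QuotientGroup.mk_pow, QuotientGroup.eq_one_iff,
      Subgroup.mem_center_iff]
    intro k
    apply Subtype.ext
    change k.1 * g.1 ^ n = g.1 ^ n * k.1
    simp [h1]
  intro h15
  rcases check t s with h1 | ⟨a, h1⟩ | h1 <;> have := h15 ▸ key _ _ h1 <;> omega

end Cfsg.Agent.S0819
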