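import Cfsg.Statements.S0820
import Cfsg.Agent.Lib.Transvec

set_option autoImplicit false
open Cfsg

namespace Cfsg.Agent.S0820

open Matrix

theorem isConj_std {F : Type*} [Field F] (t : SpecialLinearGroup (Fin 3) F) (ht : t ≠ 1)
    (hs : (t.1 - 1) * (t.1 - 1) = 0) :
    IsConj (SpecialLinearGroup.transvection (show (1 : Fin 3) ≠ 0 by decide) (1 : F)) t := by
  have hr : (t.1 - 1).rank = 1 := by
    have h1 := Matrix.rank_add_rank_le_card_of_mul_eq_zero hs
    have h2 : (t.1 - 1).rank ≠ 0 := by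
      intro h
      apply ht
      apply Subtype.ext
      have : LinearMap.range (t.1 - 1).mulVecLin = ⊥ := Submodule.finrank_eq_zero.1 h
      rw [LinearMap.range_eq_bot] at this
      have h3 : t.1 - 1 = 0 := Matrix.toLin'.injective (by rw [map_zero]; exact this)
      exact sub_eq_zero.1 h3
    simp only [Fintype.card_fin] at h1
    omega
  obtain ⟨g, v, h0, hv, hg⟩ := Lib.Transvec.conj_into_root (t := t) 0 hr hs
  obtain ⟨c, d, hcd⟩ : ∃ c d : F, v 1 * d - v 2 * c = 1 := by
    by_cases h1 : v 1 = 0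
    · have h2 : v 2 ≠ 0 := by
        intro h2
        apply hv
        ext i; fin_cases i <;> simp [h0, h1, h2]
      exact ⟨-(v 2)⁻¹, 0, by field_simp; simp⟩
    · exact ⟨0, (v 1)⁻¹, by field_simp; simp⟩
  let k : SpecialLinearGroup (Fin 3) F := ⟨!![1, 0, 0; 0, v 1, c; 0, v 2, d], by
    rw [det_fin_three]; simp; linear_combination hcd⟩
  have hk : k * SpecialLinearGroup.transvection (show (1 : Fin 3) ≠ 0 by decide) (1 : F) =
      (g⁻¹ * t * g) * k := by
    apply Subtype.ext
    change k.1 * (1 + single 1 0 1) = (g⁻¹ * t * g).1 * k.1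
    rw [hg]
    change !![1, 0, 0; 0, v 1, c; 0, v 2, d] * _ = _ * !![1, 0, 0; 0, v 1, c; 0, v 2, d]
    ext i j
    fin_cases i <;> fin_cases j <;>
      simp [Matrix.mul_apply, Fin.sum_univ_three, vecMulVec_apply, h0, Matrix.one_apply]
  rw [isConj_iff]
  refine ⟨g * k, ?_⟩
  rw [mul_assoc g, hk]; group

theorem exists_lift {F : Type*} [Field F] [Fintype F] (hF : Fintype.card F = 4)
    (x : ProjectiveSpecialLinearGroup (Fin 3) F) (hx : orderOf x = 2) :
    ∃ t : SpecialLinearGroup (Fin 3) F, (t : ProjectiveSpecialLinearGroup (Fin 3) F) = x ∧ t ≠ 1 ∧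
      (t.1 - 1) * (t.1 - 1) = 0 := by
  induction x using QuotientGroup.induction_on with | H g =>
  have h2 : g ^ 2 ∈ Subgroup.center (SpecialLinearGroup (Fin 3) F) := by
    rw [← QuotientGroup.eq_one_iff, QuotientGroup.mk_pow, ← hx, pow_orderOf_eq_one]
  obtain ⟨r, hr, hg⟩ := Matrix.SpecialLinearGroup.mem_center_iff.1 h2
  have h6 : g ^ 6 = 1 := by
    apply Subtype.ext
    rw [show 6 = 2 * 3 by norm_num, pow_mul]
    change (g ^ 2).1 ^ 3 = 1
    rw [← hg, ← map_pow]
    rw [Fintype.card_fin] at hr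
    rw [hr, map_one]
  have hF2 : (2 : F) = 0 := by
    have := FiniteField.cast_card_eq_zero F
    rw [hF] at this
    have h4 : (2 : F) ^ 2 = 0 := by rw [← this]; norm_num
    exact pow_eq_zero_iff two_ne_zero |>.1 h4
  have hmk : ((g ^ 3 : SpecialLinearGroup (Fin 3) F) : ProjectiveSpecialLinearGroup (Fin 3) F) =
      g := by
    rw [pow_succ, QuotientGroup.mk_mul, (QuotientGroup.eq_one_iff _).2 h2, one_mul]
  refine ⟨g ^ 3, hmk, ?_, ?_⟩
  · intro h
    rw [← hmk, h] at hx
    simp at hx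
  · have h3 : (g ^ 3).1 * (g ^ 3).1 = 1 := by
      have : g ^ 3 * g ^ 3 = 1 := by rw [← pow_add, h6]
      exact congrArg Subtype.val this
    have h4 : (g ^ 3).1 + (g ^ 3).1 = 0 := by rw [← two_smul F, hF2, zero_smul]
    have h5 : (1 : Matrix (Fin 3) (Fin 3) F) + 1 = 0 := by rw [← two_smul F, hF2, zero_smul]
    rw [sub_mul, mul_sub, mul_sub, h3, mul_one, one_mul, one_mul]
    calc 1 - (g ^ 3).1 - ((g ^ 3).1 - 1) = (1 + 1) - ((g ^ 3).1 + (g ^ 3).1) := by abel
      _ = 0 := by rw [h4, h5, sub_zero]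

/-- Any two elements of order 2 of PSL_3(4) are conjugate. -/
theorem result {F : Type*} [Field F] [Fintype F] (hF : Fintype.card F = 4) (x y : Matrix.ProjectiveSpecialLinearGroup (Fin 3) F) (hx : orderOf x = 2) (hy : orderOf y = 2) : IsConj x y := by
  obtain ⟨s, rfl, hs1, hs⟩ := exists_lift hF x hx
  obtain ⟨t, rfl, ht1, ht⟩ := exists_lift hF y hy
  exact (QuotientGroup.mk' _).map_isConj ((isConj_std s hs1 hs).symm.trans (isConj_std t ht1 ht))

end Cfsg.Agent.S0820
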