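import Cfsg.Statements.S0821
import Cfsg.Agent.Lib.AutOrth2
import Cfsg.Agent.Lib.AutSymp

set_option autoImplicit false
open Cfsg

namespace Cfsg.Agent.S0821

open Cfsg.Agent.Lib.AutLift Cfsg.Agent.Lib.AutOrth Cfsg.Agent.Lib.AutOrth2 Cfsg.Agent.Lib.FormDisc
  Cfsg.Agent.Lib.AutRoot Cfsg.Agent.Lib.AutSymp Cfsg.Agent.Lib.AutPhi Cfsg.Agent.Lib.AutForm
  Cfsg.Agent.Lib.AutPsi Cfsg.Agent.Lib.AutSemi

theorem false_of_equiv {F V V' : Type*} [Field F] [Finite F] [AddCommGroup V] [Module F V]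
    [FiniteDimensional F V] [AddCommGroup V'] [Module F V'] [FiniteDimensional F V']
    {Q : QuadraticForm F V} {B : V →ₗ[F] V →ₗ[F] F} {B' : V' →ₗ[F] V' →ₗ[F] F} (h : OG Q B)
    (h' : Good B' (NU V')) (h2 : (2 : F) ≠ 0) (α : PQ (XX B Q) ≃* PQ (XX B' (NU V'))) : False := by
  obtain ⟨p, hp⟩ := CharP.exists F
  have := Fact.mk (CharP.char_is_prime F p)
  have hG := h.good
  obtain ⟨e, he⟩ := hG.ex
  obtain ⟨f, hf, hef⟩ := he.exists_partner h.fs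
  obtain ⟨a, b, ha, hb, hab⟩ := exists_hyp_WW h he hef
  obtain ⟨⟨c, d, hc, -, hcd, ⟨h1, -, h3, h4⟩, ⟨h5, -, h7, h8⟩⟩, -⟩ :=
    exists_frame h he hef ha hab (WW_e a) (WW_f a) (WW_e b) (WW_f b)
  have hU : ∀ w, B e w = 0 → ∃ u : XX B Q, u.1 ∈ Qg B Q e ∧ Ei Q B e w u.1 := fun w hw => by
    obtain ⟨g, hg, hg'⟩ := exists_ei' h (sing he) hw
    exact ⟨⟨g, mem_XX he hg⟩, hg, hg'⟩
  have hne : ∀ {w z} {u : XX B Q}, B e z = 0 → B w z ≠ 0 → Ei Q B e w u.1 → u ≠ 1 := by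
    rintro w z u k1 k2 k3 rfl
    simpa [k1, k2, he.1] using (k3 z).symm
  have hT : ∀ {w z} {u : XX B Q}, B e w = 0 → Q w = 0 → B e z = 0 → B w z ≠ 0 → Ei Q B e w u.1 →
      ∃ e', Pt (NU V') e' ∧ (lift p α u).1 ∈ Tg B' (NU V') e' ∧ (lift p α u).1 ≠ 1 :=
    fun k1 k2 k3 k4 k5 => by
      have k6 := (pc_of_rt (p := p) h ⟨e, _, sing he, k2, k1, k5⟩ (hne k3 k4 k5)).lift (α := α) hG.cenP
        h'.cenP
      obtain ⟨e', k7, k8⟩ := exists_Tg_of_pc_odd h' h2 k6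
      exact ⟨e', k7, k8, fun h0 => k6.1 (Subtype.ext h0)⟩
  have hmul : ∀ {u v : XX B Q}, u.1 ∈ Qg B Q e → v.1 ∈ Qg B Q e →
      lift p α (u * v) = lift p α u * lift p α v := fun hu hv =>
    lift_mul h'.cenP (isPGroup_Qg hG he) hu hv
  obtain ⟨t, k1, k2⟩ := hU c h1
  obtain ⟨e₀, m1, m2, m3⟩ := hT h1 (sing hc) h5 (by simp [hcd]) k2
  have key : ∀ {a b : V} {u : XX B Q}, B e a = 0 → Q a = 0 → B e b = 0 → B a b = 1 → B a c = 0 →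
      B a d = 0 → u.1 ∈ Qg B Q e → Ei Q B e a u.1 → (lift p α u).1 ∈ Tg B' (NU V') e₀ :=
    fun {a b u} n1 n2 n3 n4 n5 n6 n7 n8 => by
      obtain ⟨e₁, m4, m5, m6⟩ := hT n1 n2 n3 (by simp [n4]) n8
      obtain ⟨e₂, -, m7, -⟩ := hT (u := u * t) (by simp [n1, h1]) (by simp [h.add, n2, sing hc, n5]) h5
        (by simp [n6, hcd]) (n8.mul h (sing he) n1 h1 k2)
      rw [hmul n7 k1] at m7
      exact (rootFam h').mem_of_span m4 m1.1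
        (mem_span_of_Tg_mul h'.fs m4 m1 m5 m2 m6 m3 m7) m5
  obtain ⟨u₁, k3, k4⟩ := hU a (WW_e a)
  obtain ⟨u₂, k5, k6⟩ := hU b (WW_e b)
  have k7 := k4.mul h (sing he) (WW_e a) (WW_e b) k6
  have k8 : IsP p (u₁ * u₂) := hG.isP he (mul_mem k3 k5)
  have k9 := (pc_of_Tg (p := p) h' m1.1 (u := lift p α (u₁ * u₂)) (hmul k3 k5 ▸ mul_mem
    (key (WW_e a) (sing ha) (WW_e b) hab h3 h7 k3 k4)
    (key (WW_e b) (sing hb) (WW_e a) (h.symm _ _ ▸ hab) h4 h8 k5 k6))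
    (lift_ne_one hG.cenP h'.cenP k8 (hne (WW_e b) (by
      simp [hab, self_eq_zero h.fs hb.2]) k7))).lift (α := α.symm) h'.cenP hG.cenP
  rw [lift_symm_lift hG.cenP h'.cenP k8] at k9
  simpa [h.add, sing ha, sing hb, hab] using
    (k7.rt_iff h he (by simp [WW_e])).mp (rt_of_pc h k9)

/-- PSp_2m(q) ≇ PΩ_(2m+1)(q) for q odd and m ≥ 3 (they have the same order). -/
theorem result {F : Type*} [Field F] [Fintype F] (hodd : Odd (Fintype.card F)) (m : ℕ) (hm : 3 ≤ m) : IsEmpty (Cfsg.PSp m F ≃* Cfsg.POmega F (Cfsg.quadFormOdd m F)) := by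
  have h2 : (2 : F) ≠ 0 := Lib.FormField.two_ne_zero_of_odd hodd
  have h : OG (qOdd m F) _ := ⟨rfl, qOdd_sep h2 m, by simp; omega⟩
  exact ⟨fun α => false_of_equiv h (good_sympB (by omega : 2 ≤ m)) h2
    ((pqEquiv (omegaEquiv h)).symm.trans (α.symm.trans (pqEquiv (spXX (by omega)))))⟩

end Cfsg.Agent.S0821
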