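import Cfsg.Statements.S0822
import Cfsg.Agent.Lib.GF4
import Cfsg.Agent.Lib.SUBasic
import Cfsg.Agent.Lib.FormSpin

set_option autoImplicit false
open Cfsg

namespace Cfsg.Agent.S0822

open Matrix Cfsg.Agent.Lib.GF4 Cfsg.Agent.Lib.GF4.K4 Cfsg.Agent.Lib.FormMatrix
  Cfsg.Agent.Lib.FormUnitary

attribute [local instance] Nat.fact_prime_three

/-- Decoding of two bits. -/
def dec (n : ℕ) : K4 :=
  match n % 4 with
  | 0 => o
  | 1 => i
  | 2 => w
  | _ => v

/-- The bijection between the points of `PG(3,3)` and the non-isotropic points of `U₄(2)`. -/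
def pt (x : Fin 2 ⊕ Fin 2 → ZMod 3) : Fin 4 → K4 := fun j =>
  dec (1116451614545640987328317582402291318445379972036409572170411723904409943430720805806721758913103021401616175704201397480319331852777039050315647841662857312222064508277796638272001014861031030784 >>>
    (8 * (27 * (x (.inl 0)).val + 9 * (x (.inl 1)).val + 3 * (x (.inr 0)).val + (x (.inr 1)).val) +
      2 * j.val))

theorem norm_pt : ∀ x, x ≠ 0 → hermForm 4 K4 2 (pt x) (pt x) = 1 := by decide +kernel

/-- The vector with given coordinates. -/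
def vec (a b c d : ZMod 3) : Fin 2 ⊕ Fin 2 → ZMod 3 := Sum.elim ![a, b] ![c, d]

theorem eq_vec (x : Fin 2 ⊕ Fin 2 → ZMod 3) :
    x = vec (x (.inl 0)) (x (.inl 1)) (x (.inr 0)) (x (.inr 1)) := by
  ext (k | k) <;> fin_cases k <;> rfl

theorem compat_aux : ∀ a b c d a' b' c' d' : ZMod 3, vec a b c d ≠ 0 → ∃ s : K4, s ≠ 0 ∧
    pt (vec a' b' c' d') + (v * hermForm 4 K4 2 (pt (vec a' b' c' d')) (pt (vec a b c d))) •
      pt (vec a b c d) =
      s • pt (vec a' b' c' d' + (c' * a - a' * c + (d' * b - b' * d)) • vec a b c d) := by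
  decide +kernel

theorem compat (y x : Fin 2 ⊕ Fin 2 → ZMod 3) (hy : y ≠ 0) : ∃ s : K4, s ≠ 0 ∧
    pt x + (v * hermForm 4 K4 2 (pt x) (pt y)) • pt y = s • pt (x + sympForm 2 (ZMod 3) x y • y) := by
  have := compat_aux _ _ _ _ (x (.inl 0)) (x (.inl 1)) (x (.inr 0)) (x (.inr 1)) (eq_vec y ▸ hy)
  rwa [← eq_vec, ← eq_vec, ← Fin.sum_univ_two
    (fun k => x (.inr k) * y (.inl k) - x (.inl k) * y (.inr k)), ← sympForm_eq] at this

theorem inj_aux : ∀ a b c d a' b' c' d' : ZMod 3, ∀ s : K4, s ≠ 0 →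
    pt (vec a b c d) = s • pt (vec a' b' c' d') →
      vec a' b' c' d' = vec a b c d ∨ vec a' b' c' d' = -vec a b c d := by
  decide +kernel

theorem pt_inj {x y : Fin 2 ⊕ Fin 2 → ZMod 3} {s : K4} (hs : s ≠ 0) (h : pt x = s • pt y) :
    y = x ∨ y = -x := by
  have := inj_aux (x (.inl 0)) (x (.inl 1)) (x (.inr 0)) (x (.inr 1)) (y (.inl 0)) (y (.inl 1))
    (y (.inr 0)) (y (.inr 1)) s hs (by rwa [← eq_vec x, ← eq_vec y])
  rwa [← eq_vec, ← eq_vec] at this

/-- The symplectic group. -/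
noncomputable abbrev G := symp (sympB 2 (ZMod 3))

/-- The special unitary group. -/
noncomputable abbrev H := unit (hermB card_eq_sq 4) ⊓ (LinearEquiv.det (R := K4) (M := Fin 4 → K4)).ker

/-- Pairs inducing the same permutation of the forty points. -/
def rel : Subgroup (G × H) where
  carrier := {p | ∀ x, ∃ s : K4, s ≠ 0 ∧ p.2.1 (pt x) = s • pt (p.1.1 x)}
  one_mem' x := ⟨1, one_ne_zero, (one_smul _ _).symm⟩
  mul_mem' {p q} hp hq x := by
    obtain ⟨s, hs, e⟩ := hq x
    obtain ⟨t, ht, e'⟩ := hp (q.1.1 x)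
    refine ⟨s * t, mul_ne_zero hs ht, ?_⟩
    change p.2.1 (q.2.1 _) = _ • pt (p.1.1 (q.1.1 x))
    rw [e, map_smul, e', smul_smul]
  inv_mem' {p} hp x := by
    obtain ⟨s, hs, e⟩ := hp (p.1.1.symm x)
    refine ⟨s⁻¹, inv_ne_zero hs, ?_⟩
    change p.2.1.symm _ = _ • pt (p.1.1.symm x)
    rw [LinearEquiv.apply_symm_apply] at e
    rw [LinearEquiv.symm_apply_eq, map_smul, e, smul_smul, inv_mul_cancel₀ hs, one_smul]

theorem eq_one_of_rel (h : H) (hh : ∀ x, ∃ s : K4, h.1 (pt x) = s • pt x) : h = 1 := by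
  have h1 : ∀ k : Fin 4, ∃ s : K4, h.1 (Pi.single k 1) = s • Pi.single k 1 := by
    have : ∀ k : Fin 4, ∃ x, pt x = Pi.single k 1 := by decide +kernel
    intro k
    obtain ⟨x, hx⟩ := this k
    exact hx ▸ hh x
  choose a ha using h1
  obtain ⟨s, hs⟩ := hh (vec 0 1 0 0)
  obtain ⟨t, ht⟩ := hh (vec 1 0 0 0)
  rw [show pt (vec 0 1 0 0) = Pi.single 0 1 + Pi.single 1 1 + Pi.single 3 1 by decide +kernel,
    map_add, map_add, ha, ha, ha] at hs
  rw [show pt (vec 1 0 0 0) = Pi.single 0 1 + Pi.single 1 1 + Pi.single 2 1 by decide +kernel,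
    map_add, map_add, ha, ha, ha] at ht
  have h2 : ∀ k, a k = a 0 := by
    have e0 := congrFun hs 0
    have e1 := congrFun hs 1
    have e3 := congrFun hs 3
    have f0 := congrFun ht 0
    have f2 := congrFun ht 2
    simp at e0 e1 e3 f0 f2
    intro k
    fin_cases k
    · rfl
    · exact e1.trans e0.symm
    · exact f2.trans f0.symm
    · exact e3.trans e0.symm
  have h3 : ∀ x, h.1 x = a 0 • x := fun x => by
    have : (h.1 : (Fin 4 → K4) →ₗ[K4] (Fin 4 → K4)) = a 0 • LinearMap.id :=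
      (Pi.basisFun K4 (Fin 4)).ext fun k => by simp [ha, h2 k]
    exact LinearMap.congr_fun this x
  have h4 := det_of_smul h.1 h3
  rw [show LinearEquiv.det h.1 = 1 from h.2.2, Module.finrank_fin_fun] at h4
  have h5 : ∀ s : K4, 1 = s ^ 4 → s = 1 := by decide +kernel
  exact Subtype.ext (LinearEquiv.ext fun x => by rw [h3, h5 _ h4, one_smul]; rfl)

theorem exists_refl {y : Fin 4 → K4} (hy : hermForm 4 K4 2 y y = 1) :
    ∃ h : H, ∀ x, h.1 x = v • (x + (v * hermForm 4 K4 2 x y) • y) := by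
  have hB := isHerm_hermB card_eq_sq 4
  obtain ⟨g, h1, h2⟩ := hB.exists_qrefl (u := y) hy (μ := w) (by decide +kernel)
  obtain ⟨z, -, h3⟩ := hB.exists_scalar (a := v) (by decide +kernel)
  refine ⟨⟨(z * g).1, (z * g).2, Units.ext ?_⟩, fun x => ?_⟩
  · change ((LinearEquiv.det (z.1 * g.1) : K4ˣ) : K4) = 1
    rw [map_mul, Units.val_mul, h2, det_of_smul _ h3, Module.finrank_fin_fun]
    decide +kernel
  · change z.1 (g.1 x) = _
    rw [h3, h1]; rfl

theorem exists_rel (g : G) : ∃ h, (g, h) ∈ rel := by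
  have : rel.map (MonoidHom.fst G H) = ⊤ := by
    rw [eq_top_iff, ← Lib.FormSymp.closure_sympTv (sympB_nondegenerate 2).1 (sympB_isAlt 2),
      Subgroup.closure_le]
    have key : ∀ (y) (t : G), (∀ x, t.1 x = x + (1 * sympB 2 (ZMod 3) x y) • y) →
        t ∈ rel.map (MonoidHom.fst G H) := by
      intro y t ht
      by_cases hy : y = 0
      · rw [show t = 1 from Subtype.ext (LinearEquiv.ext fun x => by simp [ht, hy])]
        exact one_mem _
      obtain ⟨h, hh⟩ := exists_refl (norm_pt y hy)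
      refine ⟨(t, h), fun x => ?_, rfl⟩
      obtain ⟨s, hs, e⟩ := compat y x hy
      exact ⟨v * s, mul_ne_zero (by decide) hs, by rw [hh, e, ht, one_mul, sympB_apply, smul_smul]⟩
    rintro t ⟨y, c, ht⟩
    have hc : ∀ c : ZMod 3, c = 0 ∨ c = 1 ∨ c = 1 + 1 := by decide
    rcases hc c with rfl | rfl | rfl
    · rw [show t = 1 from Subtype.ext (LinearEquiv.ext fun x => by simp [ht])]
      exact one_mem _
    · exact key y t ht
    · obtain ⟨t', ht'⟩ := Lib.FormSymp.exists_sympTv (sympB_nondegenerate 2).1 (sympB_isAlt 2) y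
        (1 : ZMod 3)
      rw [show t = t' * t' from Subtype.ext (LinearEquiv.ext fun x => by
        change _ = t'.1 (t'.1 x)
        simp [ht, ht', sympB_isAlt 2 y, add_mul, add_smul, add_assoc])]
      exact mul_mem (key y t' ht') (key y t' ht')
  obtain ⟨p, hp, rfl⟩ := this ▸ Subgroup.mem_top g
  exact ⟨p.2, hp⟩

theorem center_H : Subgroup.center H = ⊥ := by
  rw [eq_bot_iff]
  intro z hz
  refine eq_one_of_rel z fun x => ?_
  by_cases hx : x = 0
  · exact ⟨0, by rw [hx, show pt 0 = 0 by decide +kernel]; simp⟩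
  obtain ⟨h, hh⟩ := exists_refl (norm_pt x hx)
  have h1 : h.1 (z.1 (pt x)) = z.1 (h.1 (pt x)) :=
    congrArg (fun k : H => k.1 (pt x)) (Subgroup.mem_center_iff.1 hz h)
  rw [hh, hh, map_smul, map_add, map_smul, norm_pt x hx,
    smul_right_inj (show v ≠ 0 by decide), add_right_inj, mul_smul, mul_smul, one_smul,
    smul_right_inj (show v ≠ 0 by decide)] at h1
  exact ⟨_, h1.symm⟩

theorem main : Nonempty (H ⧸ Subgroup.center H ≃* G ⧸ Subgroup.center G) := by
  have h1 : ∀ h : H, ((1 : G), h) ∈ rel → h = 1 := fun h hh =>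
    eq_one_of_rel h fun x => (hh x).imp fun _ e => e.2
  obtain ⟨φ, hφ⟩ := Lib.FormSpin.exists_hom_of_relation (rel : Set (G × H))
    (by
      rw [eq_top_iff]
      intro g _
      obtain ⟨h, hh⟩ := exists_rel g
      exact Subgroup.subset_closure ⟨_, hh, rfl⟩)
    (fun h hh => h1 h (by rwa [Subgroup.closure_eq] at hh))
  let z : G := ⟨LinearEquiv.neg _, mem_symp.2 fun x y => by simp⟩
  have h2 : ∀ g ∈ φ.ker, g = 1 ∨ g = z := by
    intro g hg
    obtain ⟨h, hh⟩ := exists_rel g
    obtain rfl : h = 1 := (hφ _ hh).symm.trans hg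
    have h3 : ∀ x, g.1 x = x ∨ g.1 x = -x := fun x => by
      obtain ⟨s, hs, e⟩ := hh x
      exact pt_inj hs e
    by_contra! hc
    obtain ⟨x, hx⟩ : ∃ x, g.1 x ≠ x := by
      by_contra! h; exact hc.1 (Subtype.ext (LinearEquiv.ext h))
    obtain ⟨y, hy⟩ : ∃ y, g.1 y ≠ -y := by
      by_contra! h; exact hc.2 (Subtype.ext (LinearEquiv.ext h))
    have e1 := (h3 x).resolve_left hx
    have e2 := (h3 y).resolve_right hy
    have h4 : ∀ x : Fin 2 ⊕ Fin 2 → ZMod 3, -x = x → x = 0 := by decide +kernel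
    rcases h3 (x + y) with e | e <;> rw [map_add, e1, e2] at e
    · rw [h4 x (add_right_cancel e)] at hx; simp at hx
    · rw [neg_add, add_right_inj] at e
      exact hy (e2.trans e)
  have hG : Nat.card G = 51840 := by
    rw [← Nat.card_congr (spEquiv 2 (ZMod 3)).toEquiv, Lib.FormOrder.card_symplecticGroup]
    simp [Finset.prod_range_succ]
  have hH : Nat.card H = 25920 := by
    have h1 := Lib.SUBasic.card_SU card_eq_sq (n := 4) (by norm_num)
    rw [Nat.card_congr (suEquiv card_eq_sq 4).toEquiv] at h1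
    simp only [Finset.prod_range_succ, Lib.FormOrder.uf] at h1
    norm_num [-Nat.card_eq_fintype_card] at h1
    change 3 * Nat.card H = _ at h1
    omega
  have : Finite H := Nat.finite_of_card_ne_zero (by omega)
  have hk : Nat.card φ.ker ≤ 2 := by
    classical
    have : (φ.ker : Set G) ⊆ ↑({1, z} : Finset G) := fun g hg => by simpa using h2 g hg
    have h3 := Set.ncard_le_ncard this
    rw [Set.ncard_coe_finset, ← Nat.card_coe_set_eq] at h3
    exact h3.trans Finset.card_le_two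
  have hs : Function.Surjective φ := by
    rw [← MonoidHom.range_eq_top]
    refine Subgroup.eq_top_of_le_card _ ?_
    have h3 := φ.ker.index_mul_card
    rw [Subgroup.index_ker, hG] at h3
    have := Nat.mul_le_mul_left (Nat.card φ.range) hk
    omega
  have hc : Subgroup.center G = φ.ker := by
    refine le_antisymm (fun g hg => ?_) fun g hg => ?_
    · rw [MonoidHom.mem_ker, ← Subgroup.mem_bot, ← center_H, Subgroup.mem_center_iff]
      intro h
      obtain ⟨k, rfl⟩ := hs h
      rw [← map_mul, Subgroup.mem_center_iff.1 hg k, map_mul]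
    · rcases h2 g hg with rfl | rfl
      · exact one_mem _
      · exact Subgroup.mem_center_iff.2 fun g => Subtype.ext (LinearEquiv.ext fun x => map_neg g.1 x)
  exact ⟨(QuotientGroup.quotientMulEquivOfEq center_H).trans (QuotientGroup.quotientBot.trans
    ((QuotientGroup.quotientMulEquivOfEq hc).trans
      (QuotientGroup.quotientKerEquivOfSurjective φ hs)).symm)⟩


/-- PSU_4(2) ≅ PSp_4(3): with |F| = 4 and |K| = 3, the projective special unitary group of the standard Hermitian form on F^4 is isomorphic to PSp_4(K). -/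
theorem result {F K : Type*} [Field F] [Fintype F] [Field K] [Fintype K] (hF : Fintype.card F = 4) (hK : Fintype.card K = 3) : Nonempty (Cfsg.PSU 4 F 2 ≃* Cfsg.PSp 2 K) := by
  obtain ⟨e⟩ := Lib.GF4.nonempty_equiv hF
  obtain ⟨e'⟩ := Lib.GF4.nonempty_equiv_zmod 3 hK
  obtain ⟨f⟩ := main
  exact ⟨(quotCenterCongr ((suCongr e 4 2).trans (suEquiv card_eq_sq 4))).trans
    (f.trans (quotCenterCongr ((spCongr e' 2).trans (spEquiv 2 (ZMod 3)))).symm)⟩

end Cfsg.Agent.S0822
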