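import Cfsg.Statements.S0823
import Cfsg.Agent.Lib.GF4
import Cfsg.Agent.Lib.Heart
import Cfsg.Agent.Lib.FormDisc

set_option autoImplicit false
open Cfsg

namespace Cfsg.Agent.S0823

open Cfsg.Agent.Lib.FormDisc Matrix

attribute [local instance] Nat.fact_prime_three

/-- The quotient map. -/
def matA : Matrix (Unit ⊕ (Fin 1 ⊕ Fin 1)) (Fin 4) (ZMod 3) :=
  Sum.elim (fun _ => ![0, 0, 2, 1]) (Sum.elim ![![2, 0, 2, 2]] ![![0, 1, 1, 1]])

/-- The section, transposed. -/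
def matC : Matrix (Unit ⊕ (Fin 1 ⊕ Fin 1)) (Fin 4) (ZMod 3) :=
  Sum.elim (fun _ => ![0, 0, 1, 2]) (Sum.elim ![![0, 1, 1, 1]] ![![2, 0, 2, 2]])

theorem heart : Lib.Heart.IsHeart matA.mulVecLin matCᵀ.mulVecLin :=
  Lib.Heart.isHeart_of_matrix matA matCᵀ 0 2
    (by decide +kernel) (by decide +kernel) (by decide +kernel) (by decide +kernel)

theorem norm_eq : ∀ i j : Fin 4, i ≠ j →
    quadFormOdd 1 (ZMod 3) (matA *ᵥ (Pi.single i 1 - Pi.single j 1)) = 1 := by
  decide +kernel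

theorem polar_eq : ∀ i j : Fin 4, i ≠ j → ∀ v,
    QuadraticMap.polar (quadFormOdd 1 (ZMod 3)) (matA *ᵥ (Pi.single i 1 - Pi.single j 1)) v =
      (matCᵀ *ᵥ v) i - (matCᵀ *ᵥ v) j := by
  decide +kernel

theorem nonsing : ∀ v, quadFormOdd 1 (ZMod 3) v ≠ 0 → ∃ σ : Equiv.Perm (Fin 4),
    (∀ x, matA *ᵥ ((matCᵀ *ᵥ x) ∘ σ.symm) = x - (quadFormOdd 1 (ZMod 3) v *
      QuadraticMap.polar (quadFormOdd 1 (ZMod 3)) v x) • v) ∨
    ∀ x, matA *ᵥ ((matCᵀ *ᵥ x) ∘ σ.symm) = -(x - (quadFormOdd 1 (ZMod 3) v *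
      QuadraticMap.polar (quadFormOdd 1 (ZMod 3)) v x) • v) := by
  decide +kernel

theorem faithful : ∀ σ : Equiv.Perm (Fin 4), (∀ x, matA *ᵥ ((matCᵀ *ᵥ x) ∘ σ.symm) = x) ∨
    (∀ x, matA *ᵥ ((matCᵀ *ᵥ x) ∘ σ.symm) = -x) → σ = 1 := by
  decide +kernel

theorem sq_eq : ∀ x : ZMod 3, x ≠ 0 → x * x = 1 := by decide


/-- SO_3(3) ≅ S_4: the determinant-one isometries of the form x_0² + x_1y_1 over the field with 3 elements form a group isomorphic to the symmetric group on 4 letters. -/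
theorem result {F : Type*} [Field F] [Fintype F] (hF : Fintype.card F = 3) : Nonempty (↥(Cfsg.specialIsometryGroup F (Cfsg.quadFormOdd 1 F)) ≃* Equiv.Perm (Fin 4)) := by
  obtain ⟨e⟩ := Lib.GF4.nonempty_equiv_zmod 3 hF
  have hQ := qOdd_sep (F := ZMod 3) (by decide) 1
  obtain ⟨φ, h1, h2⟩ := heart.exists_orth (Q := qOdd 1 (ZMod 3)) fun i j hij v => by
    rw [show qOdd 1 (ZMod 3) (matA.mulVecLin _) = 1 from norm_eq i j hij, inv_one, one_mul]
    exact polar_eq i j hij v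
  let G := Lib.FormMatrix.orth (qOdd 1 (ZMod 3))
  let z : G := ⟨LinearEquiv.neg _, Lib.FormMatrix.mem_orth.2 fun v => QuadraticMap.map_neg _ v⟩
  have hz : ∀ g : G, g * z = z * g := fun g => Subtype.ext (LinearEquiv.ext fun v => map_neg g.1 v)
  have hzz : z * z = 1 := Subtype.ext (LinearEquiv.ext fun v => neg_neg v)
  let δ : G →* (ZMod 3)ˣ := LinearEquiv.det.comp G.subtype
  have hδz : δ z = -1 := by
    apply Units.ext
    refine (LinearEquiv.coe_det _).trans ?_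
    change LinearMap.det (-LinearMap.id : _ →ₗ[ZMod 3] _) = -1
    rw [← neg_one_smul (ZMod 3), LinearMap.det_smul]
    simp
  have hu : ∀ u : (ZMod 3)ˣ, u = 1 ∨ u = -1 := by decide
  have hu' : (-1 : (ZMod 3)ˣ) ≠ 1 := by decide
  let ψ : G →* δ.ker := MonoidHom.mk' (fun g => if h : δ g = 1 then ⟨g, h⟩ else
    ⟨z * g, by rw [MonoidHom.mem_ker, map_mul, hδz, (hu _).resolve_left h]; simp⟩) fun a b => by
      apply Subtype.ext
      rcases hu (δ a) with ha | ha <;> rcases hu (δ b) with hb | hb <;> simp [ha, hb, hu']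
      · rw [← mul_assoc, ← hz, mul_assoc]
      · rw [mul_assoc]
      · rw [mul_assoc, ← mul_assoc a, hz, ← mul_assoc, ← mul_assoc, hzz, one_mul]
  have hψ : ∀ g : G, (ψ g : G) = g ∨ (ψ g : G) = z * g := fun g => by
    by_cases h : δ g = 1
    · left; simp [ψ, h]
    · right; simp [ψ, h]
  have hψz : ψ z = 1 := Subtype.ext (by simp [ψ, hδz, hu', hzz])
  have hinj : Function.Injective (ψ.comp φ) := by
    rw [injective_iff_map_eq_one]
    intro σ hσ
    have h3 : (ψ (φ σ) : G) = 1 := congrArg Subtype.val hσ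
    refine faithful σ ?_
    rcases hψ (φ σ) with h | h <;> rw [h] at h3
    · left; intro v
      rw [← Matrix.mulVecLin_apply, ← Matrix.mulVecLin_apply, ← heart.rep_apply, ← h1, h3]; rfl
    · right; intro v
      rw [← Matrix.mulVecLin_apply, ← Matrix.mulVecLin_apply, ← heart.rep_apply, ← h1,
        eq_inv_of_mul_eq_one_right h3, inv_eq_of_mul_eq_one_right hzz]; rfl
  have hsurj : Function.Surjective (ψ.comp φ) := by
    have h3 : ∀ g : G, g ∈ (ψ.comp φ).range.comap ψ := by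
      rw [← Subgroup.eq_top_iff', eq_top_iff, ← Lib.FormOrth.closure_reflSet hQ (Or.inr (by simp)),
        Subgroup.closure_le]
      rintro _ ⟨v, hv, rfl⟩
      obtain ⟨σ, h⟩ := nonsing v hv
      refine ⟨σ, ?_⟩
      have h4 : (qOdd 1 (ZMod 3) v)⁻¹ = quadFormOdd 1 (ZMod 3) v :=
        inv_eq_of_mul_eq_one_right (sq_eq _ hv)
      rcases h with h | h
      · refine congrArg ψ (Subtype.ext (LinearEquiv.ext fun x => ?_))
        rw [h1, Lib.FormOrth.refl_apply, h4]; exact h x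
      · rw [MonoidHom.comp_apply, ← one_mul (ψ (Lib.FormOrth.refl _ _)), ← hψz, ← map_mul]
        refine congrArg ψ (Subtype.ext (LinearEquiv.ext fun x => ?_))
        change _ = -(Lib.FormOrth.refl (qOdd 1 (ZMod 3)) v).1 x
        rw [h1, Lib.FormOrth.refl_apply, h4]; exact h x
    intro g
    obtain ⟨σ, hσ⟩ := h3 g
    exact ⟨σ, hσ.trans (Subtype.ext (by simp [ψ, MonoidHom.mem_ker.1 g.2]))⟩
  exact ⟨(Lib.GF4.specialIsometryCongr e _ (quadFormOdd 1 (ZMod 3)) fun v => by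
    simp [quadFormOdd]).trans ((Lib.FormMatrix.subEquiv (Lib.FormMatrix.orthEquiv (qOdd 1 (ZMod 3)))
      _ δ.ker fun g => by
        refine (Lib.FormMatrix.mem_specialIsometryGroup _ g).trans ?_
        rw [← Lib.FormMatrix.det_orthEquiv]
        rfl).trans (MulEquiv.ofBijective _ ⟨hinj, hsurj⟩).symm)⟩

end Cfsg.Agent.S0823
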