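import Cfsg.Statements.S0825
import Cfsg.Agent.Lib.GF4
import Cfsg.Agent.Lib.Heart
import Cfsg.Agent.Lib.FormDisc

set_option autoImplicit false
open Cfsg

namespace Cfsg.Agent.S0825

open Cfsg.Agent.Lib.FormDisc Matrix

/-- The quotient map. -/
def matA : Matrix (Fin 3 ⊕ Fin 3) (Fin 8) (ZMod 2) :=
  Sum.elim ![![0, 0, 0, 1, 1, 1, 1, 0], ![0, 0, 1, 1, 1, 0, 0, 1], ![0, 1, 1, 0, 1, 0, 1, 0]]
    ![![0, 0, 0, 0, 1, 1, 1, 1], ![0, 0, 1, 1, 0, 0, 1, 1], ![0, 1, 0, 1, 0, 1, 0, 1]]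

/-- The section. -/
def matB : Matrix (Fin 8) (Fin 3 ⊕ Fin 3) (ZMod 2) := fun i k => matA k.swap i

theorem heart : Lib.Heart.IsHeart matA.mulVecLin matB.mulVecLin :=
  Lib.Heart.isHeart_of_matrix matA matB ![0, 1, 1, 1, 1, 1, 1, 1] ![1, 0, 0, 0, 0, 0, 0, 0]
    (by decide +kernel) (by decide +kernel) (by decide +kernel) (by decide +kernel)

theorem norm_eq : ∀ i j : Fin 8, i ≠ j →
    quadFormPlus 3 (ZMod 2) (matA *ᵥ (Pi.single i 1 - Pi.single j 1)) = 1 := by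
  decide +kernel

theorem polar_eq : ∀ i j : Fin 8, i ≠ j → ∀ v,
    QuadraticMap.polar (quadFormPlus 3 (ZMod 2)) (matA *ᵥ (Pi.single i 1 - Pi.single j 1)) v =
      (matB *ᵥ v) i - (matB *ᵥ v) j := by
  decide +kernel

theorem nonsing : ∀ v, quadFormPlus 3 (ZMod 2) v ≠ 0 →
    ∃ i j : Fin 8, i ≠ j ∧ v = matA *ᵥ (Pi.single i 1 - Pi.single j 1) := by
  decide +kernel


/-- O⁺_6(2) ≅ S_8: the isometry group of the hyperbolic form x_1y_1 + x_2y_2 + x_3y_3 over the field with 2 elements is isomorphic to the symmetric group on 8 letters. -/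
theorem result {F : Type*} [Field F] [Fintype F] (hF : Fintype.card F = 2) : Nonempty (↥(Cfsg.isometryGroup F (Cfsg.quadFormPlus 3 F)) ≃* Equiv.Perm (Fin 8)) := by
  obtain ⟨e⟩ := Lib.GF4.nonempty_equiv_zmod 2 hF
  obtain ⟨f⟩ := heart.nonempty_equiv (Q := qPlus 3 (ZMod 2)) (by simp)
    (fun i j hij v => by
      rw [show qPlus 3 (ZMod 2) (matA.mulVecLin _) = 1 from norm_eq i j hij, inv_one, one_mul]
      exact polar_eq i j hij v)
    (Lib.FormOrth.closure_reflSet (qPlus_sep 3) (Or.inr (by simp))) nonsing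
  exact ⟨(Lib.GF4.isometryCongr e _ (quadFormPlus 3 (ZMod 2)) fun v => by simp [quadFormPlus]).trans
    ((Lib.FormMatrix.orthEquiv (qPlus 3 (ZMod 2))).trans f)⟩

end Cfsg.Agent.S0825
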