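import Cfsg.Statements.S0826
import Cfsg.Agent.Lib.Heart

set_option autoImplicit false
open Cfsg

namespace Cfsg.Agent.S0826

/-- S_2n ≤ Sp_(2n−2)(2) for n ≥ 3: there is an injective homomorphism from the symmetric group on 2n letters into the symplectic group of degree 2n − 2 over the field with two elements. -/
theorem result (n : ℕ) (hn : 3 ≤ n) : ∃ f : Equiv.Perm (Fin (2 * n)) →* Matrix.symplecticGroup (Fin (n - 1)) (ZMod 2), Function.Injective f := by
  obtain ⟨m, rfl⟩ : ∃ m, n = m + 1 := ⟨n - 1, by omega⟩
  let κ := Fin (2 * m)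
  have hc : Fintype.card (Option (Option κ)) = 2 * (m + 1) := by simp [κ]; ring
  let b : (κ → ZMod 2) →ₗ[ZMod 2] (Option (Option κ) → ZMod 2) :=
    { toFun := fun v i => i.elim 0 fun j => j.elim (∑ k, v k) v
      map_add' := fun u v => by
        ext (_ | _ | i) <;> simp [Finset.sum_add_distrib]
      map_smul' := fun c v => by
        ext (_ | _ | i) <;> simp [Finset.mul_sum] }
  let a : (Option (Option κ) → ZMod 2) →ₗ[ZMod 2] (κ → ZMod 2) :=
    { toFun := fun w i => w (some (some i)) + w none
      map_add' := fun u v => by ext i; simp; ring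
      map_smul' := fun c v => by ext i; simp; ring }
  have h2 : ∀ x : ZMod 2, x + x = 0 := by decide
  have h2' : (2 : ZMod 2) = 0 := rfl
  have h : Lib.Heart.IsHeart a b :=
    { sum_b := fun v => by simp [b, Fintype.sum_option, h2]
      b_a := fun w hw => ⟨w none, by
        ext (_ | _ | i)
        · simp [b, h2]
        · simp only [Fintype.sum_option] at hw
          simp [a, b, Finset.sum_add_distrib, κ, h2']
          linear_combination hw - h2 (w none) - h2 (w (some none))
        · simp [a, b]⟩
      a_one := by ext i; simp [a, h2]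
      a_b := fun v => by ext i; simp [a, b] }
  let B : LinearMap.BilinForm (ZMod 2) (κ → ZMod 2) :=
    (dotProductBilin (ZMod 2) (ZMod 2)).compl₁₂ b b
  have hB : ∀ u v, B u v = b u ⬝ᵥ b v := fun _ _ => rfl
  have hA : B.IsAlt := fun v => by
    have : ∀ x : ZMod 2, x * x = x := by decide
    simp only [hB, dotProduct, this, h.sum_b]
  have hsep : B.SeparatingLeft := fun u hu => by
    have h1 : ∀ k, u k = ∑ k, u k := fun k => by
      have := hu (Pi.single k 1)
      simp [hB, b, dotProduct, Fintype.sum_option, Pi.single_apply] at this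
      linear_combination this - h2 (∑ k, u k)
    have h3 : ∑ k, u k = 0 := by
      rw [Finset.sum_congr rfl fun k _ => h1 k]
      simp [κ, h2']
    ext k
    rw [h1, h3]; rfl
  obtain ⟨e⟩ := Lib.FormMatrix.nonempty_symp_equiv B hsep hA (m := m) (by simp [κ])
  have hmem : ∀ σ, h.rep σ ∈ Lib.FormMatrix.symp B := fun σ =>
    Lib.FormMatrix.mem_symp.2 fun u v => by
      obtain ⟨c, hc1⟩ := h.b_rep σ u
      obtain ⟨d, hd1⟩ := h.b_rep σ v
      have hu := (Equiv.sum_comp σ.symm (b u)).trans (h.sum_b u)
      have hv := (Equiv.sum_comp σ.symm (b v)).trans (h.sum_b v)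
      rw [hB, hB, hc1, hd1, ← comp_equiv_dotProduct_comp_equiv (b u) (b v) σ.symm]
      simp only [dotProduct, Pi.add_apply, Pi.smul_apply, smul_eq_mul, mul_one, add_mul, mul_add,
        Finset.sum_add_distrib, ← Finset.sum_mul, ← Finset.mul_sum, Function.comp_apply, hu, hv,
        Finset.sum_const, Finset.card_univ, hc]
      simp [h2']
  refine ⟨e.toMonoidHom.comp ((h.rep.codRestrict _ hmem).comp
    (Fintype.equivFinOfCardEq hc).symm.permCongrHom.toMonoidHom), e.injective.comp ?_⟩
  exact ((MonoidHom.injective_codRestrict _ _ _).2 (h.rep_injective (by omega))).comp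
    (MulEquiv.injective _)

end Cfsg.Agent.S0826
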