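import Cfsg.Statements.S0827
import Cfsg.Agent.Lib.GF4
import Cfsg.Agent.Lib.SUBasic

set_option autoImplicit false
open Cfsg

namespace Cfsg.Agent.S0827

open Matrix Cfsg.Agent.Lib.GF4 Cfsg.Agent.Lib.GF4.K4

/-- An element of `SU₃(2)` from a matrix. -/
def su (M : Matrix (Fin 3) (Fin 3) K4)
    (h : M.det = 1 ∧ ∀ i j, ∑ k, M k i * M k j ^ 2 = if i = j then 1 else 0) : SU 3 K4 2 :=
  ⟨⟨M, h.1⟩, Lib.SUBasic.mem_SU_of card_eq_sq _ h.2⟩

/-- Matrices of a quaternion subgroup. -/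
def qmat : QuaternionGroup 2 → Matrix (Fin 3) (Fin 3) K4
  | .a k => !![1, 1, 1; 1, w, v; 1, v, w] ^ k.val
  | .xa k => !![1, w, w; v, w, v; v, v, w] * !![1, 1, 1; 1, w, v; 1, v, w] ^ k.val

/-- Matrices of the normal subgroup. -/
def nmat (u : Multiplicative (ZMod 3 × ZMod 3)) : Matrix (Fin 3) (Fin 3) K4 :=
  !![1, 0, 0; 0, w, 0; 0, 0, v] ^ u.toAdd.1.val * !![0, 1, 0; 0, 0, 1; 1, 0, 0] ^ u.toAdd.2.val

theorem qmat_mem : ∀ x, (qmat x).det = 1 ∧
    ∀ i j, ∑ k, qmat x k i * qmat x k j ^ 2 = if i = j then 1 else 0 := by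
  simp only [det_fin_three]; decide +kernel

theorem nmat_mem : ∀ x, (nmat x).det = 1 ∧
    ∀ i j, ∑ k, nmat x k i * nmat x k j ^ 2 = if i = j then 1 else 0 := by
  simp only [det_fin_three]; decide +kernel

theorem qmat_mul : ∀ x y, qmat (x * y) = qmat x * qmat y := by decide +kernel

theorem nmat_mul : ∀ x y, ∃ a : K4, nmat (x * y) = a • (nmat x * nmat y) := by decide +kernel

theorem qmat_inj : ∀ x (a : K4), qmat x = a • 1 → x = 1 := by decide +kernel

theorem nmat_inj : ∀ x (a : K4), nmat x = a • 1 → x = 1 := by decide +kernel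

theorem conj_eq : ∀ x y, ∃ z, ∃ a : K4, qmat x * nmat y = a • (nmat z * qmat x) := by
  decide +kernel

theorem mem_center_iff (g : SU 3 K4 2) :
    g ∈ Subgroup.center (SU 3 K4 2) ↔ ∃ a : K4, g.1.1 = a • 1 := by
  rw [Subgroup.mem_center_iff]
  constructor
  · intro h
    have h1 : nmat (.ofAdd (1, 0)) * g.1.1 = g.1.1 * nmat (.ofAdd (1, 0)) :=
      congrArg (fun x : SU 3 K4 2 => x.1.1) (h (su _ (nmat_mem _)))
    have h2 : nmat (.ofAdd (0, 1)) * g.1.1 = g.1.1 * nmat (.ofAdd (0, 1)) :=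
      congrArg (fun x : SU 3 K4 2 => x.1.1) (h (su _ (nmat_mem _)))
    rw [show nmat (.ofAdd (1, 0)) = diagonal ![1, w, v] by decide +kernel] at h1
    rw [show nmat (.ofAdd (0, 1)) = !![0, 1, 0; 0, 0, 1; 1, 0, 0] by decide +kernel] at h2
    have h3 : ∀ i j : Fin 3, i ≠ j → ∀ x : K4, ![1, w, v] i * x = x * ![1, w, v] j → x = 0 := by
      decide +kernel
    have h4 : ∀ i j, i ≠ j → g.1.1 i j = 0 := fun i j hij => h3 i j hij _ (by
      simpa only [diagonal_mul, mul_diagonal] using congrFun (congrFun h1 i) j)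
    have h5 := congrFun (congrFun h2 0) 1
    have h6 := congrFun (congrFun h2 1) 2
    simp [Matrix.mul_apply, Fin.sum_univ_three, vecMul, dotProduct] at h5 h6
    refine ⟨g.1.1 0 0, ?_⟩
    ext i j
    fin_cases i <;> fin_cases j <;> simp [h4, h5, h6]
  · rintro ⟨a, ha⟩ k
    apply Subtype.ext; apply Subtype.ext
    change k.1.1 * g.1.1 = g.1.1 * k.1.1
    simp [ha]

theorem mk_eq {g h : SU 3 K4 2} {a : K4} (e : g.1.1 = a • h.1.1) : (g : PSU 3 K4 2) = h := by
  rw [eq_comm, QuotientGroup.eq, mem_center_iff]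
  refine ⟨a, ?_⟩
  change (h.1⁻¹).1 * g.1.1 = _
  rw [e, Matrix.mul_smul]
  exact congrArg (fun x : SpecialLinearGroup (Fin 3) K4 => a • x.1) (inv_mul_cancel h.1)

theorem card_center : Nat.card (Subgroup.center (SU 3 K4 2)) = 3 := by
  let z : SU 3 K4 2 := su (w • 1) (by simp only [det_fin_three]; decide +kernel)
  have : Fact (Nat.Prime 3) := ⟨Nat.prime_three⟩
  have h1 : orderOf z = 3 := by
    refine orderOf_eq_prime (Subtype.ext (Subtype.ext ?_)) fun h => ?_
    · change (w • (1 : Matrix (Fin 3) (Fin 3) K4)) ^ 3 = 1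
      decide +kernel
    · have : w • (1 : Matrix (Fin 3) (Fin 3) K4) = 1 := congrArg (fun x : SU 3 K4 2 => x.1.1) h
      revert this; decide +kernel
  refine Eq.trans ?_ ((Nat.card_zpowers z).trans h1)
  refine congrArg (fun K : Subgroup (SU 3 K4 2) => Nat.card K) ?_
  refine le_antisymm (fun g hg => ?_) (Subgroup.zpowers_le.2 ((mem_center_iff z).2 ⟨w, rfl⟩))
  obtain ⟨a, ha⟩ := (mem_center_iff g).1 hg
  have h2 : ∀ a : K4, a = 0 ∨ ∃ k : Fin 3, a • (1 : Matrix (Fin 3) (Fin 3) K4) = (w • 1) ^ k.1 := by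
    decide +kernel
  rcases h2 a with rfl | ⟨k, hk⟩
  · have := g.1.2
    rw [ha, zero_smul, det_zero] at this
    exact absurd this zero_ne_one
  · exact Subgroup.mem_zpowers_iff.2 ⟨k.1, Subtype.ext (Subtype.ext (by
      rw [zpow_natCast]; exact (ha.trans hk).symm))⟩

theorem card_psu : Nat.card (PSU 3 K4 2) = 72 := by
  have h1 := Lib.SUBasic.card_SU card_eq_sq (n := 3) (by norm_num)
  have h2 := Subgroup.card_eq_card_quotient_mul_card_subgroup (Subgroup.center (SU 3 K4 2))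
  rw [card_center] at h2
  simp only [Finset.prod_range_succ, Lib.FormOrder.uf] at h1
  norm_num [-Nat.card_eq_fintype_card] at h1
  change _ = Nat.card (PSU 3 K4 2) * 3 at h2
  omega

theorem main : ∃ (N : Subgroup (PSU 3 K4 2)) (_ : N.Normal), Nat.card N = 9 ∧
    (∀ x ∈ N, x ^ 3 = 1) ∧ Nonempty (PSU 3 K4 2 ⧸ N ≃* QuaternionGroup 2) := by
  let f : Multiplicative (ZMod 3 × ZMod 3) →* PSU 3 K4 2 :=
    MonoidHom.mk' (fun u => (su _ (nmat_mem u) : PSU 3 K4 2)) fun x y => by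
      obtain ⟨a, ha⟩ := nmat_mul x y
      exact mk_eq (h := su _ (nmat_mem x) * su _ (nmat_mem y)) ha
  let ψ : QuaternionGroup 2 →* PSU 3 K4 2 :=
    MonoidHom.mk' (fun u => (su _ (qmat_mem u) : PSU 3 K4 2)) fun x y =>
      mk_eq (h := su _ (qmat_mem x) * su _ (qmat_mem y)) (a := 1)
        ((qmat_mul x y).trans (one_smul _ _).symm)
  have hf : Function.Injective f := (injective_iff_map_eq_one f).2 fun x hx => by
    obtain ⟨a, ha⟩ := (mem_center_iff _).1 ((QuotientGroup.eq_one_iff _).1 hx)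
    exact nmat_inj x a ha
  have hψ : Function.Injective ψ := (injective_iff_map_eq_one ψ).2 fun x hx => by
    obtain ⟨a, ha⟩ := (mem_center_iff _).1 ((QuotientGroup.eq_one_iff _).1 hx)
    exact qmat_inj x a ha
  have h9 : Nat.card f.range = 9 := by
    rw [← Nat.card_congr (MonoidHom.ofInjective hf).toEquiv]; simp
  have h8 : Nat.card (QuaternionGroup 2) = 8 := by
    rw [Nat.card_eq_fintype_card, QuaternionGroup.card]
  have h3 : ∀ x ∈ f.range, x ^ 3 = 1 := by
    rintro _ ⟨u, rfl⟩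
    have : ∀ u : Multiplicative (ZMod 3 × ZMod 3), u ^ 3 = 1 := by decide +kernel
    rw [← map_pow, this, map_one]
  have : Finite (PSU 3 K4 2) := Nat.finite_of_card_ne_zero (by rw [card_psu]; norm_num)
  have hle : ψ.range ≤ Subgroup.normalizer (f.range : Set (PSU 3 K4 2)) := by
    rintro _ ⟨x, rfl⟩
    refine Subgroup.mem_normalizer_fintype ?_
    rintro _ ⟨y, rfl⟩
    obtain ⟨z, a, h⟩ := conj_eq x y
    refine ⟨z, ?_⟩
    rw [eq_mul_inv_iff_mul_eq, eq_comm]
    exact mk_eq (g := su _ (qmat_mem x) * su _ (nmat_mem y))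
      (h := su _ (nmat_mem z) * su _ (qmat_mem x)) h
  have hN : f.range.Normal := by
    rw [← Subgroup.normalizer_eq_top_iff]
    refine Subgroup.eq_top_of_le_card _ (Nat.le_of_dvd Nat.card_pos ?_)
    have e1 := Subgroup.card_dvd_of_le hle
    have e2 := Subgroup.card_dvd_of_le (Subgroup.le_normalizer (H := f.range))
    rw [← Nat.card_congr (MonoidHom.ofInjective hψ).toEquiv, h8] at e1
    rw [h9] at e2
    rw [card_psu]
    exact Nat.Coprime.mul_dvd_of_dvd_of_dvd (by norm_num : Nat.Coprime 8 9) e1 e2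
  refine ⟨f.range, hN, h9, h3, ⟨(MulEquiv.ofBijective ((QuotientGroup.mk' f.range).comp ψ)
    (Function.Injective.bijective_of_nat_card_le ?_ ?_)).symm⟩⟩
  · rw [injective_iff_map_eq_one]
    intro x hx
    have h4 := h3 _ ((QuotientGroup.eq_one_iff _).1 hx)
    rw [← map_pow, map_eq_one_iff ψ hψ] at h4
    have : ∀ x : QuaternionGroup 2, x ^ 3 = 1 → x = 1 := by decide +kernel
    exact this x h4
  · have h4 := Subgroup.card_eq_card_quotient_mul_card_subgroup f.range
    rw [h9, card_psu] at h4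
    omega


/-- U_3(2) ≅ 3².Q_8: PSU_3(2) (form over the field with 4 elements) has a normal subgroup N which is elementary abelian of order 9 such that the quotient by N is isomorphic to the quaternion group of order 8. -/
theorem result {F : Type*} [Field F] [Fintype F] (hF : Fintype.card F = 4) : ∃ (N : Subgroup (Cfsg.PSU 3 F 2)) (_ : N.Normal), Nat.card N = 9 ∧ (∀ x ∈ N, x ^ 3 = 1) ∧ Nonempty (Cfsg.PSU 3 F 2 ⧸ N ≃* QuaternionGroup 2) := by
  obtain ⟨e⟩ := Lib.GF4.nonempty_equiv hF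
  let φ : PSU 3 F 2 ≃* PSU 3 K4 2 := Lib.GF4.quotCenterCongr (Lib.GF4.suCongr e 3 2)
  obtain ⟨N, hN, h1, h2, ⟨f⟩⟩ := main
  have h3 : (N.comap φ.toMonoidHom).map φ.toMonoidHom = N :=
    Subgroup.map_comap_eq_self_of_surjective φ.surjective N
  refine ⟨N.comap φ.toMonoidHom, hN.comap _, ?_, fun x hx => ?_, ⟨?_⟩⟩
  · rw [← h1, ← Subgroup.card_map_of_injective (f := φ.toMonoidHom) φ.injective, h3]
  · exact φ.injective (by rw [map_pow, map_one]; exact h2 _ hx)
  · exact (QuotientGroup.congr _ _ φ h3).trans f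

end Cfsg.Agent.S0827
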