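import Cfsg.Statements.S0828
import Cfsg.Agent.Lib.FormUnitary

set_option autoImplicit false
open Cfsg

namespace Cfsg.Agent.S0828

open Module Cfsg.Agent.Lib.FormMatrix Cfsg.Agent.Lib.FormField Cfsg.Agent.Lib.FormUnitary
  Cfsg.Agent.Lib.FormStab Cfsg.Agent.Lib.FormOrder Cfsg.Agent.Lib.FormBasis
  Cfsg.Agent.Lib.FormPerp

theorem card_notMem {F V : Type*} [Field F] [Finite F] [AddCommGroup V] [Module F V]
    [FiniteDimensional F V] {U W : Submodule F V} (h : U ≤ W) :
    Nat.card {w : V // w ∈ W ∧ w ∉ U} = Nat.card F ^ finrank F W - Nat.card F ^ finrank F U := by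
  have : Finite V := Module.finite_of_finite F
  rw [← Module.natCard_eq_pow_finrank, ← Module.natCard_eq_pow_finrank]
  exact Set.ncard_sdiff (s := (U : Set V)) (t := (W : Set V)) h

/-- The symplectic generalised quadrangle over a field with q elements: the number of 2-dimensional subspaces of F^4 on which the symplectic form vanishes is (q + 1)(q² + 1), and every non-zero vector lies in exactly q + 1 of them. -/
theorem result {F : Type*} [Field F] [Fintype F] {q : ℕ} (hF : Fintype.card F = q) : Nat.card {W : Submodule F (Fin 2 ⊕ Fin 2 → F) // Module.finrank F W = 2 ∧ ∀ u ∈ W, ∀ v ∈ W, Cfsg.sympForm 2 F u v = 0} = (q + 1) * (q ^ 2 + 1) ∧ ∀ v : Fin 2 ⊕ Fin 2 → F, v ≠ 0 → Nat.card {W : Submodule F (Fin 2 ⊕ Fin 2 → F) // Module.finrank F W = 2 ∧ v ∈ W ∧ ∀ u ∈ W, ∀ w ∈ W, Cfsg.sympForm 2 F u w = 0} = q + 1 := by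
  have h := isFormSpace_symp (F := F) 2
  have hA := sympB_isAlt (F := F) 2
  have hq : 2 ≤ q := hF ▸ Fintype.one_lt_card
  have hV : finrank F (Fin 2 ⊕ Fin 2 → F) = 2 * 2 := by simp
  constructor
  · obtain ⟨W, hW, hW2⟩ := exists_totSing h (fun U hU h2 => by
      obtain ⟨v, hv, hv0⟩ := Submodule.exists_mem_ne_zero_of_ne_bot
        (ne_bot_of_finrank_pos (W := U) (by omega))
      exact ⟨v, hv, hv0, rfl⟩) 2 hV.ge
    have h1 := card_totSing_mul h hW
    rw [card_symp_stab h.sep hA hV hW.1 hW2, card_symp 2 _ h.sep hA hV, hW2,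
      Nat.card_eq_fintype_card (α := F), hF] at h1
    have h2 : Nat.card {W : Submodule F (Fin 2 ⊕ Fin 2 → F) // Module.finrank F W = 2 ∧
        ∀ u ∈ W, ∀ v ∈ W, Cfsg.sympForm 2 F u v = 0} =
        Nat.card {U : Submodule F (Fin 2 ⊕ Fin 2 → F) //
        finrank F U = 2 ∧ TotSing (σ := RingHom.id F) (sympB 2 F) (fun _ => ()) U} :=
      Nat.card_congr (Equiv.subtypeEquivRight fun U => and_congr_right fun _ =>
        ⟨fun hU => ⟨fun u hu v hv => by rw [sympB_apply]; exact hU u hu v hv, fun u hu => rfl⟩,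
          fun hU u hu v hv => by rw [← sympB_apply]; exact hU.1 u hu v hv⟩)
    rw [h2]
    generalize Nat.card {U : Submodule F (Fin 2 ⊕ Fin 2 → F) //
        finrank F U = 2 ∧ TotSing (σ := RingHom.id F) (sympB 2 F) (fun _ => ()) U} = x at h1
    have h3 := congrArg (Nat.cast : ℕ → ℤ) h1
    have hq1 : 1 ≤ q := by omega
    have h4 : q ^ 1 ≤ q ^ 2 := Nat.pow_le_pow_right (by positivity) (by omega)
    have h5 : q ^ 0 ≤ q ^ 2 := Nat.pow_le_pow_right (by positivity) (by omega)
    have h7 : ∀ k, 1 ≤ q ^ k := fun k => Nat.one_le_pow _ _ hq1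
    simp only [Fin.prod_univ_two, Fin.val_zero, Fin.val_one, Finset.prod_range_succ,
      Finset.prod_range_zero, Nat.cast_mul, Nat.cast_sub h4, Nat.cast_sub h5, Nat.sub_self,
      Nat.cast_sub (h7 _)] at h3
    push_cast at h3
    have hq' : (2 : ℤ) ≤ q := by exact_mod_cast hq
    have h6 : (q : ℤ) ^ 4 * (q ^ 2 - 1) * (q - 1) ≠ 0 := by
      have : (1 : ℤ) < q ^ 2 := by nlinarith
      have : (1 : ℤ) < q := by omega
      positivity
    zify
    apply mul_right_cancel₀ h6
    linear_combination h3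
  · intro v hv
    classical
    let X := {W : Submodule F (Fin 2 ⊕ Fin 2 → F) // Module.finrank F W = 2 ∧ v ∈ W ∧
      ∀ u ∈ W, ∀ w ∈ W, Cfsg.sympForm 2 F u w = 0}
    have hL := totSing_singleton h (x := v) rfl
    have hL1 : finrank F (F ∙ v) = 1 := finrank_span_singleton hv
    have : Finite (Submodule F (Fin 2 ⊕ Fin 2 → F)) :=
      Finite.of_injective _ SetLike.coe_injective
    have := Fintype.ofFinite X
    have e : {w // w ∈ perp (sympB 2 F) (F ∙ v) ∧ w ∉ F ∙ v} ≃
        Σ W : X, {w // w ∈ W.1 ∧ w ∉ F ∙ v} := by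
      symm
      refine Equiv.ofBijective (fun p => ⟨p.2.1, mem_perp_singleton.mpr (by
        rw [sympB_apply]; exact p.1.2.2.2 _ p.1.2.2.1 _ p.2.2.1), p.2.2.2⟩) ⟨?_, ?_⟩
      · have key : ∀ (W : X) (w), w ∈ W.1 → w ∉ F ∙ v → W.1 = (F ∙ v) ⊔ F ∙ w := fun W w h1 h2 => by
          symm
          apply Submodule.eq_of_le_of_finrank_eq
          · exact sup_le ((Submodule.span_singleton_le_iff_mem _ _).mpr W.2.2.1)
              ((Submodule.span_singleton_le_iff_mem _ _).mpr h1)
          · rw [Submodule.finrank_sup_span_singleton h2, hL1, W.2.1]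
        rintro ⟨W, w, h1, h2⟩ ⟨W', w', h1', h2'⟩ hww
        obtain rfl : w = w' := congrArg Subtype.val hww
        obtain rfl : W = W' := Subtype.ext ((key W w h1 h2).trans (key W' w h1' h2').symm)
        rfl
      · rintro ⟨w, h1, h2⟩
        have h3 := hL.sup_singleton h (x := w) rfl h1
        exact ⟨⟨⟨(F ∙ v) ⊔ F ∙ w, by rw [Submodule.finrank_sup_span_singleton h2, hL1],
          Submodule.mem_sup_left (Submodule.mem_span_singleton_self v),
          fun a ha b hb => by rw [← sympB_apply]; exact h3.1 a ha b hb⟩,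
          w, Submodule.mem_sup_right (Submodule.mem_span_singleton_self w), h2⟩, rfl⟩
    have h1 := Nat.card_congr e
    rw [card_notMem hL.le_perp, Nat.card_sigma, Finset.sum_congr rfl
      (fun W _ => by
        rw [card_notMem ((Submodule.span_singleton_le_iff_mem _ _).mpr W.2.2.1), W.2.1, hL1]),
      finrank_perp h, hL1, hV, Finset.sum_const, Finset.card_univ, Nat.card_eq_fintype_card,
      hF, smul_eq_mul, ← Nat.card_eq_fintype_card] at h1
    have h4 : q ^ 1 ≤ q ^ 2 := Nat.pow_le_pow_right (by positivity) (by omega)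
    have h5 : q ^ 1 ≤ q ^ (2 * 2 - 1) := Nat.pow_le_pow_right (by positivity) (by omega)
    have h3 := congrArg (Nat.cast : ℕ → ℤ) h1
    rw [Nat.cast_mul, Nat.cast_sub h4, Nat.cast_sub h5] at h3
    push_cast at h3
    have hq' : (2 : ℤ) ≤ q := by exact_mod_cast hq
    have h6 : (q : ℤ) ^ 2 - q ≠ 0 := by nlinarith
    change Nat.card X = q + 1
    zify
    apply mul_right_cancel₀ h6
    linear_combination -h3

end Cfsg.Agent.S0828
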