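import Cfsg.Statements.S0829
import Cfsg.Agent.Lib.FormUnitary

set_option autoImplicit false
open Cfsg

namespace Cfsg.Agent.S0829

open Module Cfsg.Agent.Lib.FormMatrix Cfsg.Agent.Lib.FormField Cfsg.Agent.Lib.FormUnitary
  Cfsg.Agent.Lib.FormStab Cfsg.Agent.Lib.FormOrder Cfsg.Agent.Lib.FormBasis

/-- The unitary quadrangle of PSU_4(q): with |F| = q², the number of 2-dimensional subspaces of F^4 on which the Hermitian form Σ x_i y_i^q vanishes is (q + 1)(q³ + 1). -/
theorem result {F : Type*} [Field F] [Fintype F] {q : ℕ} (hF : Fintype.card F = q ^ 2) : Nat.card {W : Submodule F (Fin 4 → F) // Module.finrank F W = 2 ∧ ∀ u ∈ W, ∀ v ∈ W, Cfsg.hermForm 4 F q u v = 0} = (q + 1) * (q ^ 3 + 1) := by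
  have h := isHerm_hermB hF 4
  have hq := two_le_of_card_sq hF
  obtain ⟨W, hW, hW2⟩ := h.exists_totSing 2 (by simp)
  have h1 := card_totSing_mul h.fs hW
  rw [card_unit_stab (n := 4) hF h.symm h.sep (by simp) hW.1 hW2,
    card_unit hF 4 _ h.symm h.sep (by simp), hW2] at h1
  have h2 : Nat.card {W : Submodule F (Fin 4 → F) // Module.finrank F W = 2 ∧
      ∀ u ∈ W, ∀ v ∈ W, Cfsg.hermForm 4 F q u v = 0} = Nat.card {U : Submodule F (Fin 4 → F) //
      finrank F U = 2 ∧ TotSing (hermB hF 4) (fun v => hermB hF 4 v v) U} :=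
    Nat.card_congr (Equiv.subtypeEquivRight fun U => and_congr_right fun _ =>
      ⟨fun hU => ⟨fun u hu v hv => hU v hv u hu, fun u hu => (hU u hu u hu).trans (by simp)⟩,
        fun hU u hu v hv => hU.1 v hv u hu⟩)
  rw [h2]
  generalize Nat.card {U : Submodule F (Fin 4 → F) //
      finrank F U = 2 ∧ TotSing (hermB hF 4) (fun v => hermB hF 4 v v) U} = x at h1
  have h3 := congrArg (Nat.cast : ℕ → ℤ) h1
  have hq1 : 1 ≤ q := by omega
  have h4 : (q ^ 2) ^ 1 ≤ (q ^ 2) ^ 2 := Nat.pow_le_pow_right (by positivity) (by omega)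
  have h5 : (q ^ 2) ^ 0 ≤ (q ^ 2) ^ 2 := Nat.pow_le_pow_right (by positivity) (by omega)
  simp only [Fin.prod_univ_two, Fin.val_zero, Fin.val_one, Finset.prod_range_succ,
    Finset.prod_range_zero, Nat.cast_mul, cast_uf hq1, Nat.cast_sub h4, Nat.cast_sub h5] at h3
  push_cast at h3
  have hq' : (2 : ℤ) ≤ q := by exact_mod_cast hq
  have h6 : (q : ℤ) ^ 6 * (q ^ 4 - 1) * (q ^ 2 - 1) ≠ 0 := by
    have : (1 : ℤ) < q ^ 2 := by nlinarith
    have : (1 : ℤ) < q ^ 4 := by nlinarith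
    positivity
  zify
  apply mul_right_cancel₀ h6
  linear_combination h3

end Cfsg.Agent.S0829
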