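import Cfsg.Statements.S0831
import Cfsg.Agent.Lib.FormGen

set_option autoImplicit false
open Cfsg

namespace Cfsg.Agent.S0831

open Module Cfsg.Agent.Lib.FormDisc Cfsg.Agent.Lib.FormGen Cfsg.Agent.Lib.FormBasis

/-- The two families of maximal totally singular subspaces of the hyperbolic quadric: for the form Σ x_i y_i on F^(2m), m ≥ 1, and m-dimensional subspaces U, W, X on which it vanishes, the parities of m − dim(U ∩ W), m − dim(W ∩ X) and m − dim(U ∩ X) sum to an even number (so 'even codimension of the intersection' is an equivalence relation), and there exist two such subspaces meeting in codimension 1 (so there are exactly two classes). -/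
theorem result {F : Type*} [Field F] (m : ℕ) (hm : 1 ≤ m) : (∀ U W X : Submodule F (Fin m ⊕ Fin m → F), (Module.finrank F U = m ∧ ∀ w ∈ U, Cfsg.quadFormPlus m F w = 0) → (Module.finrank F W = m ∧ ∀ w ∈ W, Cfsg.quadFormPlus m F w = 0) → (Module.finrank F X = m ∧ ∀ w ∈ X, Cfsg.quadFormPlus m F w = 0) → Even ((m - Module.finrank F ↥(U ⊓ W)) + (m - Module.finrank F ↥(W ⊓ X)) + (m - Module.finrank F ↥(U ⊓ X)))) ∧ ∃ U W : Submodule F (Fin m ⊕ Fin m → F), (Module.finrank F U = m ∧ ∀ w ∈ U, Cfsg.quadFormPlus m F w = 0) ∧ (Module.finrank F W = m ∧ ∀ w ∈ W, Cfsg.quadFormPlus m F w = 0) ∧ Module.finrank F ↥(U ⊓ W) + 1 = m := by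
  have hQ := qPlus_sep (F := F) m
  have hV : finrank F (Fin m ⊕ Fin m → F) = 2 * m := by simp [two_mul]
  refine ⟨fun U W X hU hW hX => Gen.even hQ hV hU hW hX, ?_⟩
  obtain ⟨E, hE⟩ := exists_gen_qPlus (F := F) m
  obtain ⟨e, hli, rfl⟩ := exists_family E hE.1
  have hd : m - 1 ≤ m := by omega
  have h1 : finrank F (Submodule.span F (Set.range (e ∘ Fin.castLE hd))) + 1 = m := by
    rw [finrank_span_eq_card (hli.comp _ (Fin.castLE_injective hd)), Fintype.card_fin]; omega
  have h2 := Submodule.span_mono (R := F) (Set.range_comp_subset_range (Fin.castLE hd) e)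
  obtain ⟨W', hW', h3, h4⟩ := Gen.exists_ne hQ h1 hE h2
  exact ⟨_, W', hE, hW', Gen.finrank_inf_of_ne h1 hE hW' h2 h3 h4⟩

end Cfsg.Agent.S0831
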