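import Cfsg.Statements.S0832
import Cfsg.Agent.Lib.FormGen

set_option autoImplicit false
open Cfsg

namespace Cfsg.Agent.S0832

open Module Cfsg.Agent.Lib.FormDisc Cfsg.Agent.Lib.FormGen Cfsg.Agent.Lib.FormBasis

/-- For the form Σ x_i y_i on F^(2m) over a finite field, m ≥ 1: an (m−1)-dimensional subspace on which the form vanishes is contained in exactly two m-dimensional subspaces on which it vanishes. -/
theorem result {F : Type*} [Field F] [Finite F] (m : ℕ) (hm : 1 ≤ m) (U : Submodule F (Fin m ⊕ Fin m → F)) (hU : Module.finrank F U + 1 = m ∧ ∀ u ∈ U, Cfsg.quadFormPlus m F u = 0) : Nat.card {W : Submodule F (Fin m ⊕ Fin m → F) // Module.finrank F W = m ∧ (∀ w ∈ W, Cfsg.quadFormPlus m F w = 0) ∧ U ≤ W} = 2 := by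
  have hQ := qPlus_sep (F := F) m
  have hV : finrank F (Fin m ⊕ Fin m → F) = 2 * m := by simp [two_mul]
  obtain ⟨E, hE⟩ := exists_gen_qPlus (F := F) m
  obtain ⟨W, hW, hUW⟩ := Gen.exists_ge hQ hE hU.2 (by omega)
  obtain ⟨W', hW', hUW', hne⟩ := Gen.exists_ne hQ hU.1 hW hUW
  rw [Nat.card_eq_two_iff]
  refine ⟨⟨W, hW.1, hW.2, hUW⟩, ⟨W', hW'.1, hW'.2, hUW'⟩, fun h => hne (congrArg Subtype.val h), ?_⟩
  rw [Set.eq_univ_iff_forall]
  rintro ⟨X, h1, h2, h3⟩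
  rcases Gen.eq_or_eq hQ hV hU.1 hW hW' ⟨h1, h2⟩ hUW hUW' h3 hne with rfl | rfl <;> simp

end Cfsg.Agent.S0832
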