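import Cfsg.Statements.S0833
import Cfsg.Agent.Lib.FormBasis

set_option autoImplicit false
open Cfsg

namespace Cfsg.Agent.S0833

open Cfsg.Agent.Lib.FormBasis Module TensorProduct

/-- If B₁, B₂ are non-degenerate alternating forms on U (dim 2k) and W (dim 2l), then B₁ ⊗ B₂ on U ⊗ W is symmetric, non-degenerate, and vanishes identically on some subspace of dimension 2kl (half of dim U ⊗ W). -/
theorem result {F U W : Type*} [Field F] [Fintype F] [AddCommGroup U] [Module F U] [FiniteDimensional F U] [AddCommGroup W] [Module F W] [FiniteDimensional F W] (B₁ : LinearMap.BilinForm F U) (B₂ : LinearMap.BilinForm F W) (h₁ : B₁.Nondegenerate) (h₂ : B₂.Nondegenerate) (hA₁ : B₁.IsAlt) (hA₂ : B₂.IsAlt) (k l : ℕ) (hU : Module.finrank F U = 2 * k) (hW : Module.finrank F W = 2 * l) : (B₁.tmul B₂).IsSymm ∧ (B₁.tmul B₂).Nondegenerate ∧ (∃ X : Submodule F (TensorProduct F U W), Module.finrank F X = 2 * k * l ∧ ∀ x ∈ X, ∀ y ∈ X, (B₁.tmul B₂) x y = 0) := by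
  have key : ∀ x x' y y', (B₁.tmul B₂) (x ⊗ₜ[F] y) (x' ⊗ₜ[F] y') = B₂ y y' * B₁ x x' :=
    fun x x' y y' => LinearMap.BilinForm.tensorDistrib_tmul F F B₁ B₂ x y x' y'
  have hS : (B₁.tmul B₂).IsSymm := by
    rw [LinearMap.isSymm_iff_eq_flip]
    ext x y x' y'
    simp only [AlgebraTensorModule.curry_apply, LinearMap.restrictScalars_self, curry_apply,
      LinearMap.flip_apply, key, ← hA₁.neg_eq x x', ← hA₂.neg_eq y y']
    ring
  refine ⟨hS, ?_, ?_⟩
  · rw [hS.isRefl.nondegenerate_iff_separatingRight]
    intro z hz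
    let a := Module.finBasis F U
    let b := Module.finBasis F W
    have h3 : ∀ p, (a.tensorProduct b).repr z p = 0 := by
      rintro ⟨i, j⟩
      have := hz (B₁.dualBasis h₁ a i ⊗ₜ[F] B₂.dualBasis h₂ b j)
      rw [← (a.tensorProduct b).sum_repr z, map_sum,
        Finset.sum_eq_single (i, j) (fun p _ hp => ?_) (by simp)] at this
      · simpa [key, LinearMap.BilinForm.apply_dualBasis_left] using this
      · obtain ⟨i', j'⟩ := p
        rw [map_smul, Basis.tensorProduct_apply, key, LinearMap.BilinForm.apply_dualBasis_left,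
          LinearMap.BilinForm.apply_dualBasis_left]
        by_cases hi : i' = i
        · have hj : j' ≠ j := fun hj => hp (by rw [hi, hj])
          simp [hj]
        · simp [hi]
    rw [← (a.tensorProduct b).sum_repr z]
    simp [h3]
  · obtain ⟨m, β, hβ⟩ := exists_symplectic_basis B₁ h₁.1 hA₁
    have hm : m = k := by
      have := Module.finrank_eq_card_basis β
      simp only [Fintype.card_sum, Fintype.card_fin] at this
      omega
    subst hm
    let X := Submodule.span F (Set.range fun i => β (Sum.inl i))
    have hX : finrank F X = m := (finrank_span_eq_card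
      (β.linearIndependent.comp Sum.inl Sum.inl_injective)).trans (Fintype.card_fin m)
    have hX0 : ∀ u ∈ X, ∀ v ∈ X, B₁ u v = 0 :=
      (totSing_span (Cfsg.Agent.Lib.FormWitt.isFormSpace_alt B₁ h₁.1 hA₁)
        (by rintro _ ⟨i, rfl⟩ _ ⟨j, rfl⟩; exact hβ.ee i j) (fun _ _ => rfl)).1
    refine ⟨LinearMap.range (LinearMap.rTensor W X.subtype), ?_, ?_⟩
    · rw [LinearMap.finrank_range_of_inj
        (Module.Flat.rTensor_preserves_injective_linearMap _ X.subtype_injective),
        Module.finrank_tensorProduct, hX, hW]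
      ring
    · rintro _ ⟨x, rfl⟩ _ ⟨y, rfl⟩
      induction x using TensorProduct.induction_on with
      | zero => simp
      | add x x' h3 h4 => rw [map_add, map_add, LinearMap.add_apply, h3, h4, add_zero]
      | tmul u w =>
        induction y using TensorProduct.induction_on with
        | zero => simp
        | add y y' h3 h4 => rw [map_add, map_add, h3, h4, add_zero]
        | tmul u' w' =>
          rw [LinearMap.rTensor_tmul, LinearMap.rTensor_tmul, key, Submodule.subtype_apply,
            Submodule.subtype_apply, hX0 _ u.2 _ u'.2, mul_zero]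

end Cfsg.Agent.S0833
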