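import Cfsg.Statements.S0834
import Cfsg.Agent.Lib.FormDisc

set_option autoImplicit false
open Cfsg

namespace Cfsg.Agent.S0834

open Cfsg.Agent.Lib.FormDisc Module

theorem tmul_isSymm {F U W : Type*} [Field F] [AddCommGroup U] [Module F U] [AddCommGroup W]
    [Module F W] {B₁ : LinearMap.BilinForm F U} {B₂ : LinearMap.BilinForm F W} (hS₁ : B₁.IsSymm)
    (hS₂ : B₂.IsSymm) : LinearMap.BilinForm.IsSymm (B₁.tmul B₂) :=
  LinearMap.BilinForm.isSymm_iff.mpr (LinearMap.IsSymm.tmul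
    (LinearMap.BilinForm.isSymm_iff.mp hS₁) (LinearMap.BilinForm.isSymm_iff.mp hS₂))

theorem isOB_tmul {F U W : Type*} [Field F] [AddCommGroup U] [Module F U] [FiniteDimensional F U]
    [AddCommGroup W] [Module F W] [FiniteDimensional F W] {B₁ : LinearMap.BilinForm F U}
    {B₂ : LinearMap.BilinForm F W} {ι κ : Type*} [Fintype ι] [Fintype κ] {a : ι → U} {b : κ → W}
    (ha : IsOB B₁ a) (hb : IsOB B₂ b) :
    IsOB (B₁.tmul B₂) (fun p : ι × κ => a p.1 ⊗ₜ[F] b p.2) ∧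
      ∏ p : ι × κ, (B₁.tmul B₂) (a p.1 ⊗ₜ[F] b p.2) (a p.1 ⊗ₜ[F] b p.2) =
        (∏ i, B₁ (a i) (a i)) ^ finrank F W * (∏ j, B₂ (b j) (b j)) ^ finrank F U := by
  have key : ∀ x x' y y', (B₁.tmul B₂) (x ⊗ₜ[F] y) (x' ⊗ₜ[F] y') = B₂ y y' * B₁ x x' :=
    fun x x' y y' => LinearMap.BilinForm.tensorDistrib_tmul F F B₁ B₂ x y x' y'
  refine ⟨⟨?_, fun p => by rw [key]; exact mul_ne_zero (hb.ne _) (ha.ne _), ?_⟩, ?_⟩
  · rintro ⟨i, j⟩ ⟨i', j'⟩ h
    rw [key]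
    by_cases hi : i = i'
    · rw [hb.orth j j' fun hj => h (by rw [hi, hj]), zero_mul]
    · rw [ha.orth i i' hi, mul_zero]
  · rw [Fintype.card_prod, ha.card, hb.card, Module.finrank_tensorProduct]
  · simp only [key, Fintype.prod_prod_type, Finset.prod_mul_distrib, Finset.prod_const,
      Finset.card_univ, Finset.prod_pow, ha.card, hb.card, mul_comm]

/-- Over a finite field with 2 ≠ 0: if B₁ on U (dim 2k, k ≥ 1) and B₂ on W (dim 2l, l ≥ 1) are non-degenerate symmetric forms admitting no totally isotropic subspaces of dimensions k, resp. l (minus type), then B₁ ⊗ B₂ admits a totally isotropic subspace of dimension 2kl (plus type). -/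
theorem result {F U W : Type*} [Field F] [Fintype F] [AddCommGroup U] [Module F U] [FiniteDimensional F U] [AddCommGroup W] [Module F W] [FiniteDimensional F W] (h2 : (2 : F) ≠ 0) (B₁ : LinearMap.BilinForm F U) (B₂ : LinearMap.BilinForm F W) (h₁ : B₁.Nondegenerate) (h₂ : B₂.Nondegenerate) (hS₁ : B₁.IsSymm) (hS₂ : B₂.IsSymm) (k l : ℕ) (hk : 1 ≤ k) (hl : 1 ≤ l) (hU : Module.finrank F U = 2 * k) (hW : Module.finrank F W = 2 * l) (hm₁ : ¬ (∃ X : Submodule F (U), Module.finrank F X = k ∧ ∀ x ∈ X, ∀ y ∈ X, (B₁) x y = 0)) (hm₂ : ¬ (∃ X : Submodule F (W), Module.finrank F X = l ∧ ∀ x ∈ X, ∀ y ∈ X, (B₂) x y = 0)) : (∃ X : Submodule F (TensorProduct F U W), Module.finrank F X = 2 * k * l ∧ ∀ x ∈ X, ∀ y ∈ X, (B₁.tmul B₂) x y = 0) := by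
  obtain ⟨a, ha⟩ := exists_isOB h2 hS₁ h₁.1
  obtain ⟨b, hb⟩ := exists_isOB h2 hS₂ h₂.1
  obtain ⟨h3, h4⟩ := isOB_tmul ha hb
  rw [h3.plus_iff h2 (tmul_isSymm hS₁ hS₂) (by rw [Module.finrank_tensorProduct, hU, hW]; ring), h4]
  generalize (∏ i, B₁ (a i) (a i)) = x
  generalize (∏ i, B₂ (b i) (b i)) = y
  rw [hU, hW]
  exact ⟨(-1) ^ (k * l) * x ^ l * y ^ k, by ring⟩

end Cfsg.Agent.S0834
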