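import Cfsg.Statements.S0835
import Cfsg.Agent.Lib.FormDisc
import Cfsg.Agent.S0834

set_option autoImplicit false
open Cfsg

namespace Cfsg.Agent.S0835

open Cfsg.Agent.Lib.FormDisc Cfsg.Agent.Lib.FormSpin Cfsg.Agent.S0834

/-- Over a finite field with 2 ≠ 0: if B₁ on U (dim 2k, k ≥ 1) is non-degenerate symmetric of minus type (no totally isotropic k-subspace) and B₂ on W (dim 2l + 1) is non-degenerate symmetric, then B₁ ⊗ B₂ (dimension 2k(2l+1)) admits no totally isotropic subspace of dimension k(2l+1) (minus type). -/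
theorem result {F U W : Type*} [Field F] [Fintype F] [AddCommGroup U] [Module F U] [FiniteDimensional F U] [AddCommGroup W] [Module F W] [FiniteDimensional F W] (h2 : (2 : F) ≠ 0) (B₁ : LinearMap.BilinForm F U) (B₂ : LinearMap.BilinForm F W) (h₁ : B₁.Nondegenerate) (h₂ : B₂.Nondegenerate) (hS₁ : B₁.IsSymm) (hS₂ : B₂.IsSymm) (k l : ℕ) (hk : 1 ≤ k) (hU : Module.finrank F U = 2 * k) (hW : Module.finrank F W = 2 * l + 1) (hm₁ : ¬ (∃ X : Submodule F (U), Module.finrank F X = k ∧ ∀ x ∈ X, ∀ y ∈ X, (B₁) x y = 0)) : ¬ (∃ X : Submodule F (TensorProduct F U W), Module.finrank F X = k * (2 * l + 1) ∧ ∀ x ∈ X, ∀ y ∈ X, (B₁.tmul B₂) x y = 0) := by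
  obtain ⟨a, ha⟩ := exists_isOB h2 hS₁ h₁.1
  obtain ⟨b, hb⟩ := exists_isOB h2 hS₂ h₂.1
  obtain ⟨h3, h4⟩ := isOB_tmul ha hb
  rw [ha.plus_iff h2 hS₁ hU] at hm₁
  rw [h3.plus_iff h2 (tmul_isSymm hS₁ hS₂) (by rw [Module.finrank_tensorProduct, hU, hW]; ring), h4]
  have hx := ha.prod_ne_zero
  have hy := hb.prod_ne_zero
  generalize (∏ i, B₁ (a i) (a i)) = x at *
  generalize (∏ i, B₂ (b i) (b i)) = y at *
  rw [hU, hW]
  intro h
  apply hm₁
  apply isSquare_of_mul_left (a := ((-1) ^ (k * l) * x ^ l * y ^ k) * ((-1) ^ (k * l) * x ^ l * y ^ k))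
    (by simp [hx, hy]) ⟨_, rfl⟩
  exact isSquare_congr h (by ring)

end Cfsg.Agent.S0835
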