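import Cfsg.Statements.S0836
-- import your own Cfsg.Agent.* helpers here

set_option autoImplicit false
open Cfsg

namespace Cfsg.Agent.S0836

/-- For i ≠ j and any scalar c, the elementary transvection 1 + c E_ij is a commutator ⁅g, h⁆ of two elements of SL_n(F) provided n ≥ 3, or n = 2 and F contains x ≠ 0 with x² ≠ 1. -/
theorem result {F : Type*} [Field F] (n : ℕ) (hn : 3 ≤ n ∨ (n = 2 ∧ ∃ x : F, x ≠ 0 ∧ x ^ 2 ≠ 1)) (i j : Fin n) (hij : i ≠ j) (c : F) (t : Matrix.SpecialLinearGroup (Fin n) F) (ht : (t : Matrix (Fin n) (Fin n) F) = Matrix.transvection i j c) : t ∈ commutatorSet (Matrix.SpecialLinearGroup (Fin n) F) := by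
  have ht' : t = Matrix.SpecialLinearGroup.transvection hij c := Subtype.ext ht
  subst ht'
  rcases hn with hn | ⟨rfl, x, hx0, hx1⟩
  · obtain ⟨k, hki, hkj⟩ : ∃ k : Fin n, k ≠ i ∧ k ≠ j := by
      by_contra hcon
      push Not at hcon
      have : (Finset.univ : Finset (Fin n)) ⊆ {i, j} := by
        intro k _
        by_cases h : k = i
        · simp [h]
        · simp [hcon k h]
      have h2 := (Finset.card_le_card this).trans Finset.card_le_two
      simp at h2
      omega
    refine ⟨Matrix.SpecialLinearGroup.transvection hki.symm c,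
      Matrix.SpecialLinearGroup.transvection hkj 1, ?_⟩
    rw [commutatorElement_def, Matrix.SpecialLinearGroup.transvection_inv,
      Matrix.SpecialLinearGroup.transvection_inv]
    apply Subtype.ext
    simp only [Matrix.SpecialLinearGroup.coe_mul, Matrix.SpecialLinearGroup.transvection_coe]
    simp only [mul_add, add_mul, mul_one, one_mul, Matrix.single_mul_single_same,
      Matrix.single_mul_single_of_ne _ _ _ _ hki, Matrix.single_mul_single_of_ne _ _ _ _ hki.symm,
      Matrix.single_mul_single_of_ne _ _ _ _ hkj.symm, Matrix.single_mul_single_of_ne _ _ _ _ hij.symm,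
      add_zero, zero_mul, ← Matrix.single_neg, mul_neg, neg_mul, neg_zero, neg_neg]
    abel
  · have hsq : x ^ 2 - 1 ≠ 0 := sub_ne_zero_of_ne hx1
    refine ⟨Matrix.SpecialLinearGroup.diag2n hij x hx0,
      Matrix.SpecialLinearGroup.transvection hij (c / (x ^ 2 - 1)), ?_⟩
    rw [commutatorElement_def, mul_inv_eq_iff_eq_mul, mul_inv_eq_iff_eq_mul]
    apply Subtype.ext
    simp only [Matrix.SpecialLinearGroup.coe_mul, Matrix.SpecialLinearGroup.transvection_coe,
      Matrix.SpecialLinearGroup.diag2n_coe]
    ext a b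
    fin_cases i <;> fin_cases j <;> (try exact absurd rfl hij) <;> fin_cases a <;> fin_cases b <;>
      simp [Matrix.mul_apply, Fin.sum_univ_two, Matrix.diagonal_apply, Matrix.one_apply] <;>
      field_simp <;> ring

end Cfsg.Agent.S0836
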