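import Cfsg.Statements.S0837
import Cfsg.Agent.Lib.FormStab

set_option autoImplicit false
open Cfsg

namespace Cfsg.Agent.S0837

open Module Cfsg.Agent.Lib.FormWitt Cfsg.Agent.Lib.FormPerp Cfsg.Agent.Lib.FormMatrix
  Cfsg.Agent.Lib.FormStab

/-- If W ≤ F^n (|F| = q²) is a k-dimensional subspace on which the Hermitian form Σ x_i y_i^q is non-degenerate, then the stabiliser of W in GU_n(q) is isomorphic to GU_k(q) × GU_(n−k)(q). -/
theorem result {F : Type*} [Field F] [Fintype F] {q : ℕ} (hF : Fintype.card F = q ^ 2) (n k : ℕ) (hk : k ≤ n) (W : Submodule F (Fin n → F)) (hWk : Module.finrank F W = k) (hW : ∀ u ∈ W, (∀ v ∈ W, Cfsg.hermForm n F q u v = 0) → u = 0) : Nonempty (↥((Cfsg.stabilizing (Cfsg.glToMat (Fin n) F) (W : Set (Fin n → F))).subgroupOf (Cfsg.GU n F q)) ≃* ↥(Cfsg.GU k F q) × ↥(Cfsg.GU (n - k) F q)) := by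
  have h := isFormSpace_hermB hF n
  have hS := hermB_isSymm hF n
  have hW' : NondegOn (hermB hF n) W := fun u hu h0 =>
    hW u hu fun v hv => by rw [← hermB_apply hF]; exact h.refl (h0 v hv)
  have e1 := restrictEquiv (guEquiv hF n)
    ((Cfsg.stabilizing (Cfsg.glToMat (Fin n) F) (W : Set (Fin n → F))).subgroupOf (Cfsg.GU n F q))
    (unit (hermB hF n) ⊓ stab W) inf_le_left
    (fun g => ⟨fun hg => ⟨(guEquiv hF n g).2, hg⟩, fun hg => hg.2⟩)
  obtain ⟨e2⟩ := nonempty_unit_equiv hF ((hermB hF n).domRestrict₁₂ W W)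
    ⟨fun u v => hS.eq u.1 v.1⟩ (restrict h hW').sep hWk
  obtain ⟨e3⟩ := nonempty_unit_equiv hF (n := n - k)
    ((hermB hF n).domRestrict₁₂ (perp (hermB hF n) W) (perp (hermB hF n) W))
    ⟨fun u v => hS.eq u.1 v.1⟩ (restrict h (hW'.perp h)).sep (by
      rw [finrank_perp h, hWk]
      simp)
  exact ⟨(e1.trans (stabEquiv h hW')).trans (e2.prodCongr e3)⟩

end Cfsg.Agent.S0837
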