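import Cfsg.Statements.S0838
import Cfsg.Agent.Lib.FormDisc

set_option autoImplicit false
open Cfsg

namespace Cfsg.Agent.S0838

open Cfsg.Agent.Lib.FormDisc Cfsg.Agent.Lib.FormOrth QuadraticMap

/-- Over a finite field with 2 ≠ 0 and n odd: two quadratic forms Q₁, Q₂ on F^n with non-degenerate polar forms are similar — there are an invertible linear map g and a scalar c ≠ 0 with Q₂ (g v) = c · Q₁ v for all v. -/
theorem result {F : Type*} [Field F] [Fintype F] (h2 : (2 : F) ≠ 0) {n : ℕ} (hn : Odd n) (Q₁ Q₂ : QuadraticForm F (Fin n → F)) (h₁ : (QuadraticMap.polarBilin Q₁).Nondegenerate) (h₂ : (QuadraticMap.polarBilin Q₂).Nondegenerate) : ∃ (g : (Fin n → F) ≃ₗ[F] (Fin n → F)) (c : F), c ≠ 0 ∧ ∀ v, Q₂ (g v) = c * Q₁ v := by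
  have hS : ∀ Q : QuadraticForm F (Fin n → F), LinearMap.BilinForm.IsSymm (polarBilin Q) :=
    fun Q => ⟨fun x y => polar_comm Q x y⟩
  obtain ⟨a, ha⟩ := exists_isOB h2 (hS Q₁) h₁.1
  obtain ⟨b, hb⟩ := exists_isOB h2 (hS Q₂) h₂.1
  set x := ∏ i, polarBilin Q₁ (a i) (a i) with hx
  set y := ∏ i, polarBilin Q₂ (b i) (b i) with hy
  have hc : x * y ≠ 0 := mul_ne_zero ha.prod_ne_zero hb.prod_ne_zero
  have ha' : IsOB ((x * y) • polarBilin Q₁) a :=
    ⟨fun i j hij => by rw [LinearMap.smul_apply, LinearMap.smul_apply, ha.orth i j hij, smul_zero],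
      fun i => mul_ne_zero hc (ha.ne i), ha.card⟩
  obtain ⟨k, hk⟩ := hn
  obtain ⟨e, he⟩ := exists_equiv_of_isSquare h2 ((hS Q₁).smul (x * y)) (hS Q₂) ha' hb rfl (by
    simp only [LinearMap.smul_apply, smul_eq_mul, Finset.prod_mul_distrib, Finset.prod_const,
      Finset.card_univ, Fintype.card_fin, Module.finrank_fin_fun, ← hx, ← hy]
    exact ⟨(x * y) ^ (k + 1), by rw [hk]; ring⟩)
  refine ⟨e, x * y, hc, fun v => mul_left_cancel₀ h2 ?_⟩
  have := he v v
  simp only [LinearMap.smul_apply, polarBilin_apply_apply, polar_self', smul_eq_mul] at this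
  linear_combination this

end Cfsg.Agent.S0838
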