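import Cfsg.Statements.S0840
import Cfsg.Agent.Lib.CharClassMul

set_option autoImplicit false
open scoped ComplexConjugate
open Cfsg

namespace Cfsg.Agent.S0840

theorem result {G : Type*} [Group G] [Finite G] (a b c : G) : (Nat.card {p : G × G // IsConj a p.1 ∧ IsConj b p.2 ∧ p.1 * p.2 = c} : ℂ) = (Nat.card {x : G // IsConj a x} : ℂ) * (Nat.card {x : G // IsConj b x} : ℂ) / (Nat.card G : ℂ) * ∑ᶠ χ : Cfsg.IrrCharacter G, (χ : G → ℂ) a * (χ : G → ℂ) b * conj ((χ : G → ℂ) c) / (χ : G → ℂ) 1 := by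
  classical
  have := Fintype.ofFinite G
  rw [Lib.CharBasic.finsum_irr (fun χ => χ a * χ b * conj (χ c) / χ 1)]
  have := Lib.CharClassMul.card_pairs_eq a b c
  simp only [Nat.card_eq_fintype_card, Fintype.card_subtype] at this ⊢
  convert this

end Cfsg.Agent.S0840
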