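import Cfsg.Statements.S0842
import Cfsg.Agent.Lib.QuatSylow

set_option autoImplicit false
open Cfsg

namespace Cfsg.Agent.S0842

open Lib.QuatSylow

theorem result {G : Type*} [Group G] [Finite G] (S : Sylow 2 G) (n : ℕ) (e : (S : Subgroup G) ≃* QuaternionGroup (2 ^ (n + 2))) (D : Subgroup G) (hD : D = ⁅(S : Subgroup G), (S : Subgroup G)⁆) : ∃ K : Subgroup G, Odd (Nat.card K) ∧ K ≤ Subgroup.centralizer (D : Set G) ∧ Subgroup.normalizer (D : Set G) ≤ Subgroup.normalizer (K : Set G) ∧ K ⊔ (S : Subgroup G) = Subgroup.normalizer (D : Set G) ∧ K ⊔ ((S : Subgroup G) ⊓ Subgroup.centralizer (D : Set G)) = Subgroup.centralizer (D : Set G) ∧ ((Subgroup.centralizer (D : Set G)).subgroupOf (Subgroup.normalizer (D : Set G))).index = 2 := by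
  obtain ⟨a, x, h⟩ := exists_qData (S : Subgroup G) n e
  rw [h.commutator_eq] at hD
  subst hD
  obtain ⟨K, h1, h2, h3, h4, -⟩ := exists_complement h
  refine ⟨K, h1, h2, h3, ?_, ?_, relIndex_centralizer h⟩
  · rw [← centralizer_sup h, ← h4, sup_assoc, sup_eq_right.mpr h.zpowers_le]
  · rw [h.inf_centralizer, h4]

end Cfsg.Agent.S0842
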