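import Cfsg.Statements.S0843
import Cfsg.Agent.Lib.QuatSylow

set_option autoImplicit false
open Cfsg

namespace Cfsg.Agent.S0843

open Lib.QuatSylow

theorem result {G : Type*} [Group G] [Finite G] (S : Sylow 2 G) (n : ℕ) (e : (S : Subgroup G) ≃* QuaternionGroup (2 ^ (n + 2))) (D : Subgroup G) (hD : D = ⁅(S : Subgroup G), (S : Subgroup G)⁆) : (∀ y : G, y ∈ Subgroup.centralizer (D : Set G) → Nat.card D ∣ orderOf y → D ≤ Subgroup.zpowers y) ∧ (∀ g y : G, y ∈ Subgroup.centralizer (D : Set G) → Nat.card D ∣ orderOf y → g * y * g⁻¹ ∈ Subgroup.centralizer (D : Set G) → g ∈ Subgroup.normalizer (D : Set G)) ∧ (∀ g y : G, g ∈ Subgroup.normalizer (D : Set G) → y ∈ Subgroup.centralizer (D : Set G) → Nat.card D ∣ orderOf y → g * y * g⁻¹ ∈ Subgroup.centralizer (D : Set G) ∧ Nat.card D ∣ orderOf (g * y * g⁻¹)) := by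
  obtain ⟨a, x, h⟩ := exists_qData (S : Subgroup G) n e
  rw [h.commutator_eq] at hD
  subst hD
  rw [h.card_D]
  refine ⟨fun y hy hd => D_le_zpowers h hy hd,
    fun g y hy hd hg => mem_normalizer_of_conj_mem h hy hd hg, fun g y hg hy hd => ⟨?_, ?_⟩⟩
  · exact (Subgroup.mem_normalizer_iff.mp
      (Lib.PCoreConj.normalizer_le_normalizer_centralizer _ hg) y).mp hy
  · rwa [show g * y * g⁻¹ = MulAut.conj g y from rfl, MulEquiv.orderOf_eq]

end Cfsg.Agent.S0843
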