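import Cfsg.Statements.S0850
import Cfsg.Agent.Lib.CharTIFN

set_option autoImplicit false
open Cfsg

namespace Cfsg.Agent.S0850

theorem result {G : Type*} [Group G] [Fintype G] (K : Subgroup G) (hTI : ∀ g : G, g ∉ Subgroup.normalizer (K : Set G) → ∀ k ∈ K, g * k * g⁻¹ ∈ K → k = 1) (hlt : K < Subgroup.normalizer (K : Set G)) (hC : ∀ k ∈ K, k ≠ 1 → Subgroup.centralizer ({k} : Set G) ≤ K) : (∀ x ∈ Subgroup.normalizer (K : Set G), x ∉ K → ∀ g : G, g * x * g⁻¹ ∉ K) ∧ ∀ (ϑ : Subgroup.normalizer (K : Set G) → ℂ), Cfsg.IsClassFunction (Subgroup.normalizer (K : Set G)) ϑ → (∀ x : Subgroup.normalizer (K : Set G), (x : G) ∉ K → ϑ x = 0) → ϑ 1 = 0 → ∀ x : Subgroup.normalizer (K : Set G), Cfsg.indFun (Subgroup.normalizer (K : Set G)) ϑ x = ϑ x :=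
  ⟨fun _ hx hxK g => Lib.CharTIFN.conj_not_mem hTI hC hx hxK g,
    fun _ h1 h2 h3 x => Lib.CharTIFN.indFun_eq hTI hC h1 h2 h3 x⟩

end Cfsg.Agent.S0850
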