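import Cfsg.Statements.S0851
import Cfsg.Agent.Lib.CharTIFN

set_option autoImplicit false
open Cfsg

namespace Cfsg.Agent.S0851

open Lib.CharBasic Lib.CharOrth Lib.CharInd Lib.CharFrob Lib.CharTIFN

theorem result {G : Type*} [Group G] [Fintype G] (K : Subgroup G) (hTI : ∀ g : G, g ∉ Subgroup.normalizer (K : Set G) → ∀ k ∈ K, g * k * g⁻¹ ∈ K → k = 1) (hlt : K < Subgroup.normalizer (K : Set G)) (hC : ∀ k ∈ K, k ≠ 1 → Subgroup.centralizer ({k} : Set G) ≤ K) (hab : ∀ a ∈ K, ∀ b ∈ K, a * b = b * a) : (Nat.card {χ : Cfsg.IrrCharacter (Subgroup.normalizer (K : Set G)) // ∃ k : Subgroup.normalizer (K : Set G), (k : G) ∈ K ∧ (χ : ↥(Subgroup.normalizer (K : Set G)) → ℂ) k ≠ (χ : ↥(Subgroup.normalizer (K : Set G)) → ℂ) 1} = 1 ∧ ∃ p : ℕ, p.Prime ∧ Cfsg.IsElementaryAbelian p K ∧ Nat.card K = (K.subgroupOf (Subgroup.normalizer (K : Set G))).index + 1) ∨ ∃ (ε : ℂ) (f : {χ : Cfsg.IrrCharacter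 (Subgroup.normalizer (K : Set G)) // ∃ k : Subgroup.normalizer (K : Set G), (k : G) ∈ K ∧ (χ : ↥(Subgroup.normalizer (K : Set G)) → ℂ) k ≠ (χ : ↥(Subgroup.normalizer (K : Set G)) → ℂ) 1} → Cfsg.IrrCharacter G), (ε = 1 ∨ ε = -1) ∧ Function.Injective f ∧ ∀ χ ξ, Cfsg.indFun (Subgroup.normalizer (K : Set G)) ((χ.1 : ↥(Subgroup.normalizer (K : Set G)) → ℂ) - (ξ.1 : ↥(Subgroup.normalizer (K : Set G)) → ℂ)) = ε • ((f χ : G → ℂ) - (f ξ : G → ℂ)) := by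
  classical
  right
  have hdeg : ∀ χ : ↥(Subgroup.normalizer (K : Set G)) → ℂ, IsIrrCharacter _ χ →
      (∃ k : Subgroup.normalizer (K : Set G), (k : G) ∈ K ∧ χ k ≠ χ 1) →
      χ 1 = (K.subgroupOf (Subgroup.normalizer (K : Set G))).index := by
    intro χ hχ h
    obtain ⟨θ, h1, -, h2⟩ := exists_deg_eq (K.subgroupOf _) (frob_subgroupOf hC _) hχ h
    rw [h2, irr_one_eq_one_of_comm' (fun a b => Subtype.ext (Subtype.ext (hab _ a.2 _ b.2))) h1,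
      mul_one]
  refine exists_family_of_diff _ ?_ ?_ ?_ ?_
  · intro χ ξ
    exact genChar_indFun _ (genChar_sub (genChar_of_irr χ.1.2) (genChar_of_irr ξ.1.2))
  · intro χ ξ ζ
    rw [← indFun_sub, sub_sub_sub_cancel_right]
  · intro χ ξ
    rw [indFun_one_apply, Pi.sub_apply, hdeg _ χ.1.2 χ.2, hdeg _ ξ.1.2 ξ.2, sub_self, mul_zero]
  · intro χ ξ hne
    have hv : ∀ x : Subgroup.normalizer (K : Set G), (x : G) ∉ K →
        ((χ.1 : ↥(Subgroup.normalizer (K : Set G)) → ℂ) -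
          (ξ.1 : ↥(Subgroup.normalizer (K : Set G)) → ℂ)) x = 0 := by
      intro x hx
      rw [Pi.sub_apply, irr_vanish hC χ.1.2 χ.2 x hx, irr_vanish hC ξ.1.2 ξ.2 x hx, sub_self]
    have hne' : (χ.1 : ↥(Subgroup.normalizer (K : Set G)) → ℂ) ≠ ξ.1 :=
      fun h => hne (Subtype.ext (Subtype.ext h))
    rw [cinner_indFun_indFun hTI hv
      (by rw [Pi.sub_apply, hdeg _ χ.1.2 χ.2, hdeg _ ξ.1.2 ξ.2, sub_self])
      (classFun_sub (irr_classFun χ.1.2) (irr_classFun ξ.1.2)) hv,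
      cinner_sub_left, cinner_sub_right, cinner_sub_right, cinner_irr_self χ.1.2,
      cinner_irr_self ξ.1.2, cinner_irr_ne χ.1.2 ξ.1.2 hne', cinner_irr_ne ξ.1.2 χ.1.2 hne'.symm]
    norm_num

end Cfsg.Agent.S0851
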