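import Cfsg.Statements.S0852
import Cfsg.Agent.Lib.CharTIFNStar

set_option autoImplicit false
open Cfsg

namespace Cfsg.Agent.S0852

open Lib.CharBasic Lib.CharOrth Lib.CharInd Lib.CharFrob Lib.CharTIFN Lib.CharTIFNStar

theorem result {G : Type*} [Group G] [Fintype G] (K : Subgroup G) (hTI : ∀ g : G, g ∉ Subgroup.normalizer (K : Set G) → ∀ k ∈ K, g * k * g⁻¹ ∈ K → k = 1) (hlt : K < Subgroup.normalizer (K : Set G)) (hC : ∀ k ∈ K, k ≠ 1 → Subgroup.centralizer ({k} : Set G) ≤ K) [Fintype ↥(Subgroup.normalizer (K : Set G))] (S : Set (↥(Subgroup.normalizer (K : Set G)) → ℂ)) (hS : S = {χ : ↥(Subgroup.normalizer (K : Set G)) → ℂ | Cfsg.IsIrrCharacter ↥(Subgroup.normalizer (K : Set G)) χ ∧ ∃ k : ↥(Subgroup.normalizer (K : Set G)), (k : G) ∈ K ∧ χ k ≠ χ 1}) (htwo : ∃ χ ∈ S, ∃ ξ ∈ S, χ ≠ ξ) (star : (↥(Subgroup.normalizer (K : Set G)) → ℂ) → (G → ℂ)) (hstar : Cfsg.IsLinearIsometryOn (Cfsg.zspan S) star) (hext : ∀ α ∈ Cfsg.zspanOn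 S ({1}ᶜ : Set ↥(Subgroup.normalizer (K : Set G))), star α = Cfsg.indFun (Subgroup.normalizer (K : Set G)) α) (ψ : G → ℂ) (hψ : Cfsg.IsIrrCharacter G ψ) : (∃ χ ∈ S, ψ = star χ ∨ ψ = -star χ) ↔ ∃ a ∈ K, ∃ b ∈ K, a ≠ 1 ∧ b ≠ 1 ∧ ψ a ≠ ψ b := by
  classical
  have hirr : ∀ χ ∈ S, IsIrrCharacter _ χ := fun χ hχ => by rw [hS] at hχ; exact hχ.1
  have hnt : ∀ χ ∈ S, ∃ k ∈ K.subgroupOf (Subgroup.normalizer (K : Set G)), χ k ≠ χ 1 :=
    fun χ hχ => by rw [hS] at hχ; exact hχ.2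
  have hmem : ∀ χ, IsIrrCharacter _ χ →
      (∃ k ∈ K.subgroupOf (Subgroup.normalizer (K : Set G)), χ k ≠ χ 1) → χ ∈ S :=
    fun χ h1 h2 => by rw [hS]; exact ⟨h1, h2⟩
  constructor
  · rintro ⟨χ, hχ, hψχ⟩
    by_contra hcon
    push Not at hcon
    have hconst : ∀ a ∈ K, ∀ b ∈ K, a ≠ 1 → b ≠ 1 → star χ a = star χ b := by
      intro a ha b hb ha1 hb1
      have := hcon a ha b hb ha1 hb1
      rcases hψχ with h | h
      · rwa [h] at this
      · rw [h] at this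
        simpa using this
    obtain ⟨c, hc⟩ := exists_const_star hirr hstar hext hχ
    have hcl : IsClassFunction _ ((fun x : Subgroup.normalizer (K : Set G) => star χ x) - χ) :=
      classFun_sub (classFun_res (genChar_classFun (hstar.2.2.2 _ (mem_zspan hχ))) _)
        (irr_classFun (hirr χ hχ))
    have h1 : ∀ k ∈ K.subgroupOf (Subgroup.normalizer (K : Set G)),
        ∀ l ∈ K.subgroupOf (Subgroup.normalizer (K : Set G)), k ≠ 1 → l ≠ 1 → χ k = χ l := by
      intro k hk l hl hk1 hl1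
      have h2 := const_of_cinner_eq (K.subgroupOf _) hcl c
        (fun ξ h1 h2 => hc ξ (hmem ξ h1 h2)) hk hk1 hl hl1
      have h3 := hconst k hk l hl (fun h => hk1 (Subtype.ext h)) (fun h => hl1 (Subtype.ext h))
      simp only [Pi.sub_apply, h3] at h2
      linear_combination -h2
    obtain ⟨ξ, hξ, hne⟩ : ∃ ξ ∈ S, χ ≠ ξ := by
      obtain ⟨a, ha, b, hb, hab⟩ := htwo
      by_cases h : χ = a
      · exact ⟨b, hb, h ▸ hab⟩
      · exact ⟨a, ha, h⟩
    obtain ⟨k, hk, hk'⟩ := hnt χ hχ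
    have hk1 : k ≠ 1 := by rintro rfl; exact hk' rfl
    -- `χ = χ k • 1_K + (χ 1 - χ k) • δ₁`
    have h0 := cinner_irr_ne (hirr ξ hξ) (hirr χ hχ) hne.symm
    have hsum := sum_normal_eq_zero (K.subgroupOf _) (hirr ξ hξ) (hnt ξ hξ)
    have hsum' := sum_extendByZero_mul (K.subgroupOf (Subgroup.normalizer (K : Set G)))
      (fun _ => 1) ξ
    simp only [one_mul] at hsum'
    rw [← hsum'] at hsum
    unfold classInner at h0
    rw [mul_eq_zero, or_iff_right (inv_ne_zero card_ne_zero)] at h0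
    have h4 : ∀ x, ξ x * (starRingEnd ℂ) (χ x) =
        (starRingEnd ℂ) (χ k) * (extendByZero (K.subgroupOf _) (fun _ => (1 : ℂ)) x * ξ x) +
          if x = 1 then ξ 1 * (starRingEnd ℂ) (χ 1 - χ k) else 0 := by
      intro x
      by_cases hx : x ∈ K.subgroupOf (Subgroup.normalizer (K : Set G))
      · rw [extendByZero_of_mem _ _ hx]
        by_cases hx1 : x = 1
        · rw [if_pos hx1, hx1, map_sub]; ring
        · rw [if_neg hx1, h1 x hx k hk hx1 hk1]; ring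
      · have hx1 : x ≠ 1 := by rintro rfl; exact hx (Subgroup.one_mem _)
        rw [extendByZero_of_not_mem _ _ hx, if_neg hx1,
          irr_vanish hC (hirr ξ hξ) (hnt ξ hξ) x hx]
        ring
    simp only [h4] at h0
    rw [Finset.sum_add_distrib, ← Finset.mul_sum, hsum, Finset.sum_ite_eq'] at h0
    simp only [Finset.mem_univ, if_true, mul_zero, zero_add, mul_eq_zero,
      irr_one_ne_zero (hirr ξ hξ), false_or, map_eq_zero] at h0
    exact hk' (sub_eq_zero.mp h0).symm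
  · rintro ⟨a, ha, b, hb, ha1, hb1, hab⟩
    by_contra hcon
    push Not at hcon
    obtain ⟨c, hc⟩ := exists_const hirr hstar hext (irr_classFun hψ) (φ := 0) (fun χ hχ => by
      rw [cinner_zero_left]
      exact cinner_star_eq_zero hstar hχ (hirr χ hχ) hψ (hcon χ hχ).1 (hcon χ hχ).2)
    rw [sub_zero] at hc
    exact hab (const_of_cinner_eq (K.subgroupOf (Subgroup.normalizer (K : Set G)))
      (classFun_res (irr_classFun hψ) _) c (fun ξ h1 h2 => hc ξ (hmem ξ h1 h2))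
      (k := ⟨a, hlt.le ha⟩) (l := ⟨b, hlt.le hb⟩) ha (fun h => ha1 (congrArg Subtype.val h))
      hb (fun h => hb1 (congrArg Subtype.val h)))

end Cfsg.Agent.S0852
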