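import Cfsg.Statements.S0853
import Cfsg.Agent.Lib.CharTIFNStar

set_option autoImplicit false
open Cfsg

namespace Cfsg.Agent.S0853

open Lib.CharBasic Lib.CharOrth Lib.CharInd Lib.CharFrob Lib.CharTIFN Lib.CharTIFNStar

theorem result {G : Type*} [Group G] [Fintype G] (K : Subgroup G) (hTI : ∀ g : G, g ∉ Subgroup.normalizer (K : Set G) → ∀ k ∈ K, g * k * g⁻¹ ∈ K → k = 1) (hlt : K < Subgroup.normalizer (K : Set G)) (hC : ∀ k ∈ K, k ≠ 1 → Subgroup.centralizer ({k} : Set G) ≤ K) [Fintype ↥(Subgroup.normalizer (K : Set G))] (S : Set (↥(Subgroup.normalizer (K : Set G)) → ℂ)) (hS : S = {χ : ↥(Subgroup.normalizer (K : Set G)) → ℂ | Cfsg.IsIrrCharacter ↥(Subgroup.normalizer (K : Set G)) χ ∧ ∃ k : ↥(Subgroup.normalizer (K : Set G)), (k : G) ∈ K ∧ χ k ≠ χ 1}) (htwo : ∃ χ ∈ S, ∃ ξ ∈ S, χ ≠ ξ) (star : (↥(Subgroup.normalizer (K : Set G)) → ℂ) → (G → ℂ)) (hstar : Cfsg.IsLinearIsometryOn (Cfsg.zspan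 S) star) (hext : ∀ α ∈ Cfsg.zspanOn S ({1}ᶜ : Set ↥(Subgroup.normalizer (K : Set G))), star α = Cfsg.indFun (Subgroup.normalizer (K : Set G)) α) : ∃ m : ℤ, ∀ χ ∈ S, ∀ k : ↥(Subgroup.normalizer (K : Set G)), (k : G) ∈ K → k ≠ 1 → star χ k - χ k = (m : ℂ) * χ 1 / ((K.subgroupOf (Subgroup.normalizer (K : Set G))).index : ℂ) := by
  classical
  have hirr : ∀ χ ∈ S, IsIrrCharacter _ χ := fun χ hχ => by rw [hS] at hχ; exact hχ.1
  have hnt : ∀ χ ∈ S, ∃ k ∈ K.subgroupOf (Subgroup.normalizer (K : Set G)), χ k ≠ χ 1 :=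
    fun χ hχ => by rw [hS] at hχ; exact hχ.2
  have hmem : ∀ χ, IsIrrCharacter _ χ →
      (∃ k ∈ K.subgroupOf (Subgroup.normalizer (K : Set G)), χ k ≠ χ 1) → χ ∈ S :=
    fun χ h1 h2 => by rw [hS]; exact ⟨h1, h2⟩
  have hC' := frob_subgroupOf hC (Subgroup.normalizer (K : Set G))
  obtain ⟨ξ, hξ, -⟩ := htwo
  obtain ⟨k₀, hk₀, hk₀'⟩ := hnt ξ hξ
  have hk₀1 : k₀ ≠ 1 := by rintro rfl; exact hk₀' rfl
  have hnontriv : Nontrivial (K.subgroupOf (Subgroup.normalizer (K : Set G))) :=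
    ⟨⟨⟨k₀, hk₀⟩, 1, fun h => hk₀1 (congrArg Subtype.val h)⟩⟩
  have hgen : ∀ χ ∈ S, IsGeneralizedCharacter _
      ((fun x : Subgroup.normalizer (K : Set G) => star χ x) - χ) := fun χ hχ =>
    genChar_sub (genChar_res (hstar.2.2.2 _ (mem_zspan hχ)) _) (genChar_of_irr (hirr χ hχ))
  have hconst : ∀ χ ∈ S, ∀ k ∈ K.subgroupOf (Subgroup.normalizer (K : Set G)), k ≠ 1 →
      star χ k - χ k = star χ k₀ - χ k₀ := by
    intro χ hχ k hk hk1
    obtain ⟨c, hc⟩ := exists_const_star hirr hstar hext hχ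
    exact const_of_cinner_eq (K.subgroupOf _) (genChar_classFun (hgen χ hχ)) c
      (fun ξ h1 h2 => hc ξ (hmem ξ h1 h2)) hk hk1 hk₀ hk₀1
  have hint : ∀ χ ∈ S, ∃ m : ℤ, star χ k₀ - χ k₀ = m := by
    intro χ hχ
    exact int_of_const (genChar_res (hgen χ hχ) (K.subgroupOf _))
      (fun k hk => hconst χ hχ k k.2 (fun h => hk (Subtype.ext h)))
  have hξ1 := irr_one_ne_zero (hirr ξ hξ)
  have hrel : ∀ χ ∈ S, star χ k₀ - χ k₀ = (star ξ k₀ - ξ k₀) / ξ 1 * χ 1 := by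
    intro χ hχ
    have h1 := congrFun (star_eq_indFun hirr hstar hext hχ hξ) k₀
    rw [indFun_eq_on hTI (classFun_sub (classFun_smul _ (irr_classFun (hirr χ hχ)))
      (classFun_smul _ (irr_classFun (hirr ξ hξ)))) (fun x hx => by
        simp [irr_vanish hC (hirr χ hχ) (hnt χ hχ) x hx,
          irr_vanish hC (hirr ξ hξ) (hnt ξ hξ) x hx]) hk₀ hk₀1] at h1
    simp only [Pi.sub_apply, Pi.smul_apply, smul_eq_mul] at h1
    field_simp
    linear_combination h1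
  obtain ⟨m, hm⟩ := int_of_forall_mul_deg (G := K.subgroupOf (Subgroup.normalizer (K : Set G)))
    (z := (star ξ k₀ - ξ k₀) / ξ 1 * (K.subgroupOf (Subgroup.normalizer (K : Set G))).index)
    (fun θ hθ h1 => by
      have h2 := hmem _ (irr_indFun _ hC' hθ h1) (indFun_nontrivial _ hC' hθ h1)
      obtain ⟨m, hm⟩ := hint _ h2
      refine ⟨m, ?_⟩
      rw [← hm, hrel _ h2, indFun_one_apply, mul_assoc])
  refine ⟨m, fun χ hχ k hk hk1 => ?_⟩
  have hne : ((K.subgroupOf (Subgroup.normalizer (K : Set G))).index : ℂ) ≠ 0 := by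
    exact_mod_cast Subgroup.index_ne_zero_of_finite
  rw [hconst χ hχ k hk hk1, hrel χ hχ, ← hm]
  field_simp

end Cfsg.Agent.S0853
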