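import Cfsg.Statements.S0855
import Cfsg.Agent.Lib.CharExtend
import Cfsg.Agent.Lib.SolvBasic

set_option autoImplicit false
open Cfsg

namespace Cfsg.Agent.S0855

open Cfsg.Agent.Lib.CharRep Cfsg.Agent.Lib.CharBasic Cfsg.Agent.Lib.CharOrth Cfsg.Agent.Lib.CharInd Cfsg.Agent.Lib.CharInt Cfsg.Agent.Lib.CharClifford Cfsg.Agent.Lib.CharExtend
open Cfsg.Agent.Lib.SolvBasic

universe u

theorem exists_normal_index {G : Type u} [Group G] [Finite G] {p : ℕ} (hp : p.Prime)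
    (hd : p ∣ Nat.card G) (h : ∀ χ, IsIrrCharacter G χ → deg χ = 1 ∨ p ∣ deg χ) :
    ∃ K : Subgroup G, K.Normal ∧ K ≠ ⊤ ∧ ∃ k, K.index = p ^ k := by
  classical
  haveI := Fact.mk hp
  have h1 : p ∣ ((irr G).filter (fun χ => deg χ = 1)).card := by
    rw [← sum_irr_deg_sq, ← Finset.sum_filter_add_sum_filter_not (irr G) (fun χ => deg χ = 1)] at hd
    have h2 : ∑ χ ∈ (irr G).filter (fun χ => deg χ = 1), deg χ ^ 2 =
        ((irr G).filter (fun χ => deg χ = 1)).card := by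
      rw [Finset.card_eq_sum_ones]
      exact Finset.sum_congr rfl (fun χ hχ => by rw [(Finset.mem_filter.1 hχ).2]; rfl)
    rw [h2] at hd
    refine (Nat.dvd_add_left ?_).1 hd
    exact Finset.dvd_sum (fun χ hχ => Dvd.dvd.pow
      ((h χ (mem_irr.1 (Finset.mem_filter.1 hχ).1)).resolve_left (Finset.mem_filter.1 hχ).2)
      two_ne_zero)
  have h2 : Nat.card (G →* ℂˣ) = ((irr G).filter (fun χ => deg χ = 1)).card := by
    rw [← Nat.card_eq_finsetCard]
    refine Nat.card_eq_of_bijective (fun φ => ⟨fun g => (φ g : ℂ), Finset.mem_filter.2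
      ⟨mem_irr.2 (irr_of_unitsHom φ), deg_eq_of_eq (by simp)⟩⟩) ⟨fun φ ψ e => ?_, ?_⟩
    · exact unitsHom_coe_injective (congrArg Subtype.val e)
    · rintro ⟨χ, hχ⟩
      have hχ' := Finset.mem_filter.1 hχ
      obtain ⟨φ, rfl⟩ := exists_hom_of_linear (irr_isChar (mem_irr.1 hχ'.1)) (by
        rw [← deg_cast (irr_isChar (mem_irr.1 hχ'.1)), hχ'.2, Nat.cast_one])
      exact ⟨φ, rfl⟩
  haveI : Finite (G →* ℂˣ) := Nat.finite_of_card_ne_zero (by
    rw [h2]
    exact Finset.card_ne_zero.2 ⟨fun _ => 1, Finset.mem_filter.2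
      ⟨mem_irr.2 irr_one, deg_eq_of_eq (by simp)⟩⟩)
  obtain ⟨φ, hφ⟩ := exists_prime_orderOf_dvd_card' p (h2 ▸ h1)
  refine ⟨φ.ker, inferInstance, fun htop => ?_, ?_⟩
  · have : orderOf φ ∣ 1 := hom_orderOf_dvd (fun g => by
      rw [pow_one, ← MonoidHom.mem_ker, htop]; trivial)
    rw [hφ, Nat.dvd_one] at this
    exact hp.one_lt.ne' this
  · haveI : Finite φ.range := Finite.of_surjective _ φ.rangeRestrict_surjective
    rw [Subgroup.index_ker, ← IsPGroup.iff_card]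
    rintro ⟨_, g, rfl⟩
    refine ⟨1, Subtype.ext ?_⟩
    rw [pow_one, ← hφ]
    exact hom_pow_orderOf φ g

theorem exists_complement {p : ℕ} (hp : p.Prime) (G : Type u) [Group G] [Finite G] :
    (∀ χ, IsIrrCharacter G χ → ∃ k, deg χ = p ^ k) →
      ∃ A : Subgroup G, A.Normal ∧ Nat.Coprime (Nat.card A) p ∧ ∃ k : ℕ, A.index = p ^ k := by
  refine card_induction (P := fun G _ _ => (∀ χ, IsIrrCharacter G χ → ∃ k, deg χ = p ^ k) →
      ∃ A : Subgroup G, A.Normal ∧ Nat.Coprime (Nat.card A) p ∧ ∃ k : ℕ, A.index = p ^ k) ?_ G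
  intro G _ _ ih h
  by_cases hd : p ∣ Nat.card G
  swap
  · exact ⟨⊤, inferInstance, by
      rw [Subgroup.card_top]; exact ((Nat.Prime.coprime_iff_not_dvd hp).2 hd).symm, 0, by simp⟩
  obtain ⟨K, hK, hKtop, k, hk⟩ := exists_normal_index hp hd (fun χ hχ => by
    obtain ⟨k, hk⟩ := h χ hχ
    rcases k with _ | k
    · left; simpa using hk
    · right; rw [hk]; exact dvd_pow_self p k.succ_ne_zero)
  haveI := Fintype.ofFinite G
  haveI := Fintype.ofFinite K
  obtain ⟨A, hA, hAp, l, hl⟩ := ih K (card_lt_of_ne_top hKtop) (fun θ hθ => by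
    obtain ⟨χ, hχ, h1⟩ := exists_irr_over K.subtype K.subtype_injective (irr_isChar hθ)
      (irr_ne_zero hθ)
    obtain ⟨m, hm⟩ := h χ hχ
    obtain ⟨j, -, hj⟩ := (Nat.dvd_prime_pow hp).1 (hm ▸ (ofNormal K).deg_dvd_deg hχ hθ h1)
    exact ⟨j, hj⟩)
  refine ⟨A.map K.subtype, ⟨?_⟩, by rwa [card_map_subtype], l + k,
    by rw [Subgroup.index_map_subtype, hl, hk, pow_add]⟩
  rintro _ ⟨a, ha, rfl⟩ g
  refine ⟨(ofNormal K).aut g a, ?_, rfl⟩
  have h1 : Subgroup.zpowers ((ofNormal K).aut g a) ≤ A := by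
    apply le_of_coprime_card_index
    rw [Nat.card_zpowers, MulEquiv.orderOf_eq, hl]
    exact Nat.Coprime.pow_right _ (hAp.coprime_dvd_left (A.orderOf_dvd_natCard ha))
  exact h1 (Subgroup.mem_zpowers _)

/-- For a finite group G and a prime p: every irreducible character of G has degree a power of p if and only if G has an abelian normal subgroup whose order is prime to p and whose index is a power of p. -/
theorem result {G : Type*} [Group G] [Finite G] (p : ℕ) (hp : p.Prime) : (∀ χ : Cfsg.IrrCharacter G, ∃ k : ℕ, (χ : G → ℂ) 1 = (p : ℂ) ^ k) ↔ ∃ A : Subgroup G, A.Normal ∧ (∀ a ∈ A, ∀ b ∈ A, a * b = b * a) ∧ Nat.Coprime (Nat.card A) p ∧ ∃ k : ℕ, A.index = p ^ k := by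
  haveI := Fintype.ofFinite G
  constructor
  · intro h
    have h' : ∀ χ, IsIrrCharacter G χ → ∃ k, deg χ = p ^ k := fun χ hχ => by
      obtain ⟨k, hk⟩ := h ⟨χ, hχ⟩
      exact ⟨k, deg_eq_of_eq (by rw [Nat.cast_pow]; exact hk)⟩
    obtain ⟨A, hA, hAp, hk⟩ := exists_complement hp G h'
    refine ⟨A, hA, fun a ha b hb => ?_, hAp, hk⟩
    haveI := Fintype.ofFinite A
    refine congrArg Subtype.val (comm_of_forall_irr_linear (G := A) (fun θ hθ => ?_) ⟨a, ha⟩ ⟨b, hb⟩)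
    obtain ⟨χ, hχ, h1⟩ := exists_irr_over A.subtype A.subtype_injective (irr_isChar hθ)
      (irr_ne_zero hθ)
    obtain ⟨m, hm⟩ := h' χ hχ
    have h2 : deg θ = 1 := Nat.eq_one_of_dvd_coprimes (hAp.pow_right m) (deg_dvd_card hθ)
      (hm ▸ (ofNormal A).deg_dvd_deg hχ hθ h1)
    rw [← deg_cast (irr_isChar hθ), h2, Nat.cast_one]
  · rintro ⟨A, hA, hab, -, k, hk⟩ ⟨χ, hχ⟩
    haveI := Fintype.ofFinite A
    have := deg_dvd_index_of_comm (ofNormal A) hχ (fun a b => Subtype.ext (hab a a.2 b b.2))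
    rw [ofNormal_index, hk] at this
    obtain ⟨j, -, hj⟩ := (Nat.dvd_prime_pow hp).1 this
    exact ⟨j, by rw [← Nat.cast_pow, ← hj, deg_cast (irr_isChar hχ)]⟩

end Cfsg.Agent.S0855
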