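import Cfsg.Statements.S0858
import Cfsg.Agent.Lib.CharGoingDown

set_option autoImplicit false
open Cfsg

namespace Cfsg.Agent.S0858

open Cfsg.Agent.Lib.CharRep Cfsg.Agent.Lib.CharBasic Cfsg.Agent.Lib.CharOrth
  Cfsg.Agent.Lib.CharInd Cfsg.Agent.Lib.CharInt Cfsg.Agent.Lib.CharClifford
  Cfsg.Agent.Lib.CharGoingDown

/-- Let N be a normal subgroup of the finite group G with G / N solvable, and suppose that for every subgroup H containing N and all subgroups L < K between N and H that are normal in H with no subgroup normal in H strictly between them, the index of L in K is not a perfect square. Then every irreducible character χ of G is induced from an irreducible character ψ of some subgroup H containing N such that the restriction of ψ to N is irreducible. -/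
theorem result {G : Type*} [Group G] [Fintype G] (N : Subgroup G) [N.Normal] (hsolv : Group.IsSolvable (G ⧸ N)) (hchief : ∀ (H K L : Subgroup G), N ≤ L → L < K → K ≤ H → (∀ h ∈ H, ∀ k ∈ K, h * k * h⁻¹ ∈ K) → (∀ h ∈ H, ∀ l ∈ L, h * l * h⁻¹ ∈ L) → (∀ M : Subgroup G, L ≤ M → M ≤ K → (∀ h ∈ H, ∀ m ∈ M, h * m * h⁻¹ ∈ M) → M = L ∨ M = K) → ¬ IsSquare (L.relIndex K)) (χ : G → ℂ) (hχ : Cfsg.IsIrrCharacter G χ) : ∃ (H : Subgroup G) (hNH : N ≤ H) (ψ : H → ℂ), Cfsg.IsIrrCharacter H ψ ∧ Cfsg.indFun H ψ = χ ∧ Cfsg.IsIrrCharacter N (fun n : N => ψ ⟨(n : G), hNH n.2⟩) := by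
  classical
  simp only [indFun_eq_ind]
  obtain ⟨H, ⟨hNH, ψ, hψ, hind⟩, hmin⟩ := WellFounded.has_min (wellFounded_lt (α := Subgroup G))
    {H : Subgroup G | N ≤ H ∧ ∃ ψ : H → ℂ, IsIrrCharacter H ψ ∧ ind H.subtype ψ = χ}
    ⟨⊤, le_top, fun g => χ g, irr_comp_equiv hχ Subgroup.topEquiv,
      ind_surjective_comp (⊤ : Subgroup G).subtype (fun g => ⟨⟨g, trivial⟩, rfl⟩) (irr_classFun hχ)⟩
  haveI := Fintype.ofFinite H
  have hhom : ∀ (L : Subgroup G) (hLH : L ≤ H), N ≤ L → (∀ h ∈ H, ∀ l ∈ L, h * l * h⁻¹ ∈ L) →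
      ∃ (θ : L → ℂ) (e : ℕ), IsIrrCharacter L θ ∧ (fun l : L => ψ ⟨l, hLH l.2⟩) = (e : ℂ) • θ := by
    intro L hLH hNL hL
    haveI := Fintype.ofFinite L
    by_contra hne
    obtain ⟨T, hT, hLT, η, hη, h⟩ := (ofLe hLH hL).exists_ind_of_not_homogeneous hψ hne
    refine hmin (T.map H.subtype) ⟨fun n hn => ⟨⟨n, hNH hn⟩, hLT ⟨n, hNL hn⟩, rfl⟩, _,
      irr_comp_equiv hη (T.equivMapOfInjective H.subtype H.subtype_injective).symm, ?_⟩ ?_
    · rw [← ind_map_subtype, h, hind]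
    · refine lt_of_le_of_ne (Subgroup.map_subtype_le T) (fun e => hT ?_)
      rw [eq_top_iff]
      intro x _
      have : (x : G) ∈ T.map H.subtype := e.symm ▸ x.2
      obtain ⟨y, hy, e'⟩ := this
      rwa [← show y = x from Subtype.ext e']
  obtain ⟨K, ⟨hNK, hKH, hK, hψK⟩, hKmin⟩ := WellFounded.has_min (wellFounded_lt (α := Subgroup G))
    {K : Subgroup G | N ≤ K ∧ ∃ hKH : K ≤ H, (∀ h ∈ H, ∀ k ∈ K, h * k * h⁻¹ ∈ K) ∧
      IsIrrCharacter K (fun k : K => ψ ⟨k, hKH k.2⟩)}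
    ⟨H, hNH, le_rfl, fun h hh k hk => H.mul_mem (H.mul_mem hh hk) (H.inv_mem hh), hψ⟩
  refine ⟨H, hNH, ψ, hψ, hind, ?_⟩
  rcases eq_or_lt_of_le hNK with rfl | hlt
  · exact hψK
  exfalso
  obtain ⟨L, ⟨hNL, hLK, hL⟩, hLmax⟩ := WellFounded.has_min (wellFounded_gt (α := Subgroup G))
    {L : Subgroup G | N ≤ L ∧ L < K ∧ ∀ h ∈ H, ∀ l ∈ L, h * l * h⁻¹ ∈ L}
    ⟨N, le_rfl, hlt, fun h _ l hl => Subgroup.Normal.conj_mem inferInstance l hl h⟩
  have hch : ∀ M : Subgroup G, L ≤ M → M ≤ K → (∀ h ∈ H, ∀ m ∈ M, h * m * h⁻¹ ∈ M) →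
      M = L ∨ M = K := by
    intro M h1 h2 h3
    rcases eq_or_lt_of_le h2 with h4 | h4
    · exact Or.inr h4
    · left
      by_contra h5
      exact hLmax M ⟨hNL.trans h1, h4, h3⟩ (lt_of_le_of_ne h1 (Ne.symm h5))
  have hab := commutator_le_of_chief N H K L hsolv hNL hLK hKH hK hL hch
  rcases going_down H K L hLK.le hKH hK hL hch hab hψK (fun h hh k =>
    irr_classFun hψ ⟨k, hKH k.2⟩ ⟨h, hh⟩) with h | ⟨φ, e, -, -, h⟩ | ⟨F, hF, hcard, h⟩
  · exact hKmin L ⟨hNL, hLK.le.trans hKH, hL, h⟩ hLK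
  · exact hchief H K L hNL hLK hKH hK hL hch ⟨e, by rw [← h, sq]⟩
  · obtain ⟨θ, e, hθ, h2⟩ := hhom L (hLK.le.trans hKH) hNL hL
    haveI := Fintype.ofFinite L
    have h3 : ∀ φ ∈ F, φ = θ := by
      intro φ hφ
      have h4 : classInner (∑ φ ∈ F, φ) φ = 1 := by
        rw [cinner_sum_left, Finset.sum_eq_single φ, cinner_irr_self (hF φ hφ)]
        · intro η hη hne
          exact cinner_irr_ne (hF η hη) (hF φ hφ) hne
        · intro h'; exact (h' hφ).elim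
      rw [← h, h2, cinner_smul_left] at h4
      exact (irr_eq_of_inner_ne_zero hθ (hF φ hφ)
        (right_ne_zero_of_mul (h4 ▸ one_ne_zero))).symm
    have h5 : F.card ≤ 1 := Finset.card_le_one.2 (fun a ha b hb => (h3 a ha).trans (h3 b hb).symm)
    have h6 : L.relIndex K ≠ 0 := Subgroup.index_ne_zero_of_finite
    have h7 : L.relIndex K = 1 := by omega
    exact hLK.not_ge (Subgroup.relIndex_eq_one.1 h7)

end Cfsg.Agent.S0858
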