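import Cfsg.Statements.S0859
import Cfsg.Agent.Lib.CharBerger

set_option autoImplicit false
open Cfsg

namespace Cfsg.Agent.S0859

open Cfsg.Agent.Lib.CharRep Cfsg.Agent.Lib.CharBasic Cfsg.Agent.Lib.CharOrth Cfsg.Agent.Lib.CharInd Cfsg.Agent.Lib.CharInt Cfsg.Agent.Lib.CharClifford Cfsg.Agent.Lib.SolvBasic Cfsg.Agent.Lib.CharBerger

universe u

theorem irr_res_of_ind {X : Type u} [Group X] [Finite X] (T M : Subgroup X) [M.Normal] {ξ : T → ℂ}
    (hξ : IsCharacter T ξ) (h : IsIrrCharacter M (fun m : M => ind T.subtype ξ m)) :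
    IsIrrCharacter (M.subgroupOf T) (fun x : M.subgroupOf T => ξ x) := by
  haveI := Fintype.ofFinite X
  haveI := Fintype.ofFinite ↥(T ⊔ M)
  have hT : T ≤ T ⊔ M := le_sup_left
  have hM : M ≤ T ⊔ M := le_sup_right
  have hΘ := isChar_ind T.subtype hξ
  have hη := isChar_ind (Subgroup.inclusion hT) hξ
  have e := ind_subtype_inclusion hT ξ
  have hη' := irr_of_ind_irr _ (T ⊔ M).subtype_injective hη (e ▸ irr_of_res_irr hΘ M h)
  have h1 := cinner_res_ind_ne_zero _ (T ⊔ M).subtype_injective hη (irr_ne_zero hη')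
  rw [e] at h1
  have h2 := irr_eq_of_inner_ne_zero
    (irr_of_comp_irr (isChar_res hΘ (T ⊔ M)) (Subgroup.inclusion hM) h) hη' h1
  have h3 := res_ind_of_mul_le (T ⊔ M) T M (T ⊓ M) hT hM inf_le_left inf_le_right le_rfl
    (fun g hg => by
      obtain ⟨k, hk, x, hx, e⟩ := mem_normal_sup_iff.1 (sup_comm T M ▸ hg)
      exact ⟨k, hk, x, hx, e.symm⟩) (char_classFun hξ)
  rw [← h2] at h3
  have h4 := irr_of_ind_irr _ (Subgroup.inclusion_injective (inf_le_right : T ⊓ M ≤ M))
    (isChar_res_le inf_le_left hξ) (h3 ▸ h)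
  exact irr_of_comp_irr (isChar_res hξ _)
    ((Subgroup.inclusion (inf_le_left : T ⊓ M ≤ T)).codRestrict (M.subgroupOf T)
      (fun x => x.2.2)) h4

theorem aux {G : Type u} [Group G] [Finite G] [Group.IsSolvable G] (N : Subgroup G) [N.Normal]
    (hab : ∀ (p : ℕ) [Fact p.Prime] (P : Sylow p N), ∀ a ∈ P, ∀ b ∈ P, a * b = b * a)
    (X : Type u) [Group X] [Finite X] : ∀ (f : X →* G), Function.Injective f →
      ∀ θ : X → ℂ, IsCharacter X θ → IsIrrCharacter (N.comap f) (fun x : N.comap f => θ x) →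
      ∃ (U : Subgroup G) (lam : U → ℂ), IsCharacter U lam ∧ lam 1 = 1 ∧
        ind U.subtype lam = ind f θ := by
  refine card_induction (P := fun X _ _ => ∀ (f : X →* G), Function.Injective f →
      ∀ θ : X → ℂ, IsCharacter X θ → IsIrrCharacter (N.comap f) (fun x : N.comap f => θ x) →
      ∃ (U : Subgroup G) (lam : U → ℂ), IsCharacter U lam ∧ lam 1 = 1 ∧
        ind U.subtype lam = ind f θ) ?_ X
  intro X _ _ ih f hf θ hθ hθM
  have hθ' := irr_of_res_irr hθ _ hθM
  haveI := Fintype.ofFinite X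
  haveI : Group.IsSolvable X := Group.isSolvable_of_isSolvable_injective hf
  by_cases hprim : ∃ T : Subgroup X, T ≠ ⊤ ∧ ∃ ξ : T → ℂ, IsIrrCharacter T ξ ∧ ind T.subtype ξ = θ
  · obtain ⟨T, hT, ξ, hξ, rfl⟩ := hprim
    rw [ind_ind]
    exact ih T (card_lt_of_ne_top hT) (f.comp T.subtype) (hf.comp T.subtype_injective) ξ
      (irr_isChar hξ) (irr_res_of_ind T (N.comap f) (irr_isChar hξ) hθM)
  have h1 : θ 1 = 1 := by
    haveI := ccenter_normal (char_classFun hθ)
    haveI := cker_normal (char_classFun hθ)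
    have hM : N.comap f ≤ ccenter θ := by
      by_contra hne
      obtain ⟨A, hA⟩ : ∃ A, N.comap f ⊓ ccenter θ = A := ⟨_, rfl⟩
      haveI : A.Normal := hA ▸ inferInstance
      obtain ⟨B, hB, hAB, hBM, hmin⟩ := exists_chief_above (N := A)
        (K := N.comap f) (hA ▸ lt_of_le_of_ne inf_le_left (fun h => hne (h ▸ inf_le_right)))
      obtain ⟨p, hp, -, hpB, -⟩ := hmin.exists_prime
      haveI := Fact.mk hp
      obtain ⟨b, hb⟩ := IsPGroup.iff_card.1 hpB
      have h3 : A.relIndex B = p ^ b := by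
        have h4 := card_map_mk_mul B A
        rw [inf_eq_left.2 hAB.le, ← card_mul_relIndex hAB.le, mul_comm] at h4
        rw [← hb]
        exact (Nat.eq_of_mul_eq_mul_left Nat.card_pos h4).symm
      obtain ⟨P⟩ : Nonempty (Sylow p B) := inferInstance
      have hdec := exists_mul_eq_of_coprime_index (H := (P : Subgroup B)) (K := A.subgroupOf B)
        (by
          change Nat.Coprime _ (A.relIndex B)
          rw [h3]; exact ((Nat.Prime.coprime_iff_not_dvd hp).2 P.not_dvd_index).symm.pow_right _)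
      let j : B →* N := (f.comp B.subtype).codRestrict N (fun x => hBM x.2)
      obtain ⟨Q, hQ⟩ := (P.isPGroup'.map j).exists_le_sylow
      have hP : ∀ x ∈ (P : Subgroup B), ∀ y ∈ (P : Subgroup B), (x : X) * y = y * x :=
        fun x hx y hy => hf (by
          rw [map_mul, map_mul]
          exact congrArg Subtype.val (hab p Q _ (hQ ⟨x, hx, rfl⟩) _ (hQ ⟨y, hy, rfl⟩)))
      have hcomm : ∀ x y : B, (x : X) * y * (x : X)⁻¹ * (y : X)⁻¹ ∈ cker θ := fun x y => by
        obtain ⟨a, ha, x, hx, rfl⟩ := hdec x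
        obtain ⟨c, hc, y, hy, rfl⟩ := hdec y
        have key : ∀ a : X, a ∈ A → ∀ z : X, Commute (a : X ⧸ cker θ) z := fun a ha z => by
          have := commutator_mem_cker_of_mem_ccenter hθ (hA ▸ ha : a ∈ N.comap f ⊓ ccenter θ).2 z
          rw [← QuotientGroup.eq_one_iff] at this
          simp only [QuotientGroup.mk_mul, QuotientGroup.mk_inv] at this
          exact commutatorElement_eq_one_iff_commute.1 this
        rw [← QuotientGroup.eq_one_iff]
        simp only [Subgroup.coe_mul, QuotientGroup.mk_mul, QuotientGroup.mk_inv]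
        refine commutatorElement_eq_one_iff_commute.2 (Commute.mul_left
          (Commute.mul_right (key a ha _) (key a ha _)) (Commute.mul_right (key c hc _).symm ?_))
        change _ * _ = _ * _
        rw [← QuotientGroup.mk_mul, hP x hx y hy, QuotientGroup.mk_mul]
      haveI := Fintype.ofFinite B
      obtain ⟨β, e, hβ, he⟩ : ∃ (β : B → ℂ) (e : ℕ), IsIrrCharacter B β ∧
          (fun n : B => θ n) = (e : ℂ) • β := by
        by_contra h
        obtain ⟨T, hT, -, ξ, hξ, hξe⟩ := (ofNormal B).exists_ind_of_not_homogeneous hθ' h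
        exact hprim ⟨T, hT, ξ, hξ, hξe⟩
      have he' : ∀ n : B, θ n = e * β n := congrFun he
      have he0 : (e : ℂ) ≠ 0 := fun h => irr_one_ne_zero hθ' (by simpa [h] using he' 1)
      have hβ1 : β 1 = 1 := linear_of_commutator_le_cker hβ (fun x y z =>
        mul_left_cancel₀ he0 (by rw [← he', ← he']; exact hcomm x y z))
      refine hAB.2 (fun x hx => hA ▸ ⟨hBM hx, (mem_ccenter hθ).2 ?_⟩)
      rw [he' ⟨x, hx⟩, norm_mul, linear_norm (irr_isChar hβ) hβ1, mul_one, Complex.norm_natCast,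
        deg_eq_of_eq (n := e) (by simpa [hβ1] using he' 1)]
    have := linear_of_commutator_le_cker hθM (fun a b z =>
      commutator_mem_cker_of_mem_ccenter hθ (hM a.2) b z)
    exact this
  exact ⟨f.range, _, isChar_comp hθ (MonoidHom.ofInjective hf).symm.toMonoidHom, by simpa using h1,
    (ind_eq_ind_range f hf θ).symm⟩

/-- Let G be a finite solvable group and N a normal subgroup such that for every prime p every Sylow p-subgroup of N is abelian. Suppose every irreducible character of G is induced from an irreducible character of some subgroup containing N whose restriction to N is irreducible. Then every irreducible character of G is induced from a character of degree 1 of some subgroup. -/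
theorem result {G : Type*} [Group G] [Fintype G] [Group.IsSolvable G] (N : Subgroup G) [N.Normal] (hab : ∀ (p : ℕ) [Fact p.Prime] (P : Sylow p N), ∀ a ∈ P, ∀ b ∈ P, a * b = b * a) (hrel : ∀ χ : G → ℂ, Cfsg.IsIrrCharacter G χ → ∃ (H : Subgroup G) (hNH : N ≤ H) (ψ : H → ℂ), Cfsg.IsIrrCharacter H ψ ∧ Cfsg.indFun H ψ = χ ∧ Cfsg.IsIrrCharacter N (fun n : N => ψ ⟨(n : G), hNH n.2⟩)) (χ : G → ℂ) (hχ : Cfsg.IsIrrCharacter G χ) : ∃ (U : Subgroup G) (lam : U → ℂ), Cfsg.IsCharacter U lam ∧ lam 1 = 1 ∧ Cfsg.indFun U lam = χ := by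
  obtain ⟨H, hNH, ψ, hψ, rfl, hψN⟩ := hrel χ hχ
  simp only [indFun_eq_ind]
  exact aux N hab H H.subtype H.subtype_injective ψ (irr_isChar hψ)
    (irr_of_comp_irr (isChar_res (irr_isChar hψ) _)
      ((Subgroup.inclusion hNH).codRestrict (N.comap H.subtype) (fun x => x.2)) hψN)

end Cfsg.Agent.S0859
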