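import Cfsg.Statements.S0860
import Cfsg.Agent.Lib.CharOrth

set_option autoImplicit false
open Cfsg

namespace Cfsg.Agent.S0860

open Cfsg.Agent.Lib.CharRep Cfsg.Agent.Lib.CharBasic Cfsg.Agent.Lib.CharOrth
open scoped ComplexConjugate

theorem sum_card_centralizer {G : Type*} [Group G] [Fintype G] [Fintype (ConjClasses G)]
    (F : ConjClasses G → ℂ) :
    ∑ g : G, F (ConjClasses.mk g) * (Nat.card (Subgroup.centralizer ({g} : Set G)) : ℂ) =
      Nat.card G * ∑ C, F C := by
  classical
  rw [← Finset.sum_fiberwise (s := Finset.univ) (g := ConjClasses.mk), Finset.mul_sum]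
  refine Finset.sum_congr rfl (fun C _ => ?_)
  obtain ⟨x, rfl⟩ := ConjClasses.mk_surjective C
  have h1 : ∀ g ∈ Finset.univ.filter (fun g => ConjClasses.mk g = ConjClasses.mk x),
      F (ConjClasses.mk g) * (Nat.card (Subgroup.centralizer ({g} : Set G)) : ℂ) =
      F (ConjClasses.mk x) * (Nat.card (Subgroup.centralizer ({x} : Set G)) : ℂ) := by
    intro g hg
    have h2 := (Finset.mem_filter.1 hg).2
    have h3 := ConjClasses.mk_eq_mk_iff_isConj.1 h2
    rw [h2, ← second_orth_self, ← second_orth_self]
    congr 1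
    refine Finset.sum_congr rfl (fun χ hχ => ?_)
    rw [classFun_isConj (irr_classFun (mem_irr.1 hχ)) h3]
  rw [Finset.sum_congr rfl h1, Finset.sum_const, ← card_isConj_mul_card_centralizer x,
    nsmul_eq_mul, Nat.card_eq_fintype_card (α := {y // IsConj x y}), Fintype.card_subtype]
  have : Finset.univ.filter (fun g => ConjClasses.mk g = ConjClasses.mk x) =
      Finset.univ.filter (fun g => IsConj x g) := by
    ext g
    simp only [Finset.mem_filter, Finset.mem_univ, true_and, ConjClasses.mk_eq_mk_iff_isConj]
    exact isConj_comm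
  rw [this]
  push_cast
  ring

/-- Let a group A act on the set of irreducible characters and on the set of conjugacy classes of a finite group G in such a way that (a • χ) evaluated on the class a • C equals χ evaluated on C, for all a, χ and C. Then every element of A fixes exactly as many irreducible characters as it fixes conjugacy classes. -/
theorem result {G : Type*} [Group G] [Finite G] {A : Type*} [Group A] [MulAction A (Cfsg.IrrCharacter G)] [MulAction A (ConjClasses G)] (hcompat : ∀ (a : A) (χ : Cfsg.IrrCharacter G) (g g' : G), ConjClasses.mk g' = a • ConjClasses.mk g → ((a • χ : Cfsg.IrrCharacter G) : G → ℂ) g' = (χ : G → ℂ) g) (a : A) : Nat.card {χ : Cfsg.IrrCharacter G // a • χ = χ} = Nat.card {C : ConjClasses G // a • C = C} := by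
  classical
  haveI := Fintype.ofFinite G
  haveI := Fintype.ofFinite (ConjClasses G)
  haveI := Fintype.ofFinite (Cfsg.IrrCharacter G)
  have hs : ∀ g : G, ∃ g' : G, ConjClasses.mk g' = a⁻¹ • ConjClasses.mk g :=
    fun g => ConjClasses.mk_surjective _
  choose s hs using hs
  have h1 : ∀ (χ : Cfsg.IrrCharacter G) (g : G),
      ((a • χ : Cfsg.IrrCharacter G) : G → ℂ) g = (χ : G → ℂ) (s g) :=
    fun χ g => hcompat a χ (s g) g (by rw [hs, smul_inv_smul])
  have h2 : (Nat.card {χ : Cfsg.IrrCharacter G // a • χ = χ} : ℂ) =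
      ∑ χ : Cfsg.IrrCharacter G, classInner ((a • χ : Cfsg.IrrCharacter G) : G → ℂ) (χ : G → ℂ) := by
    rw [Nat.card_eq_fintype_card, Fintype.card_subtype, ← Finset.sum_boole]
    refine Finset.sum_congr rfl (fun χ _ => ?_)
    rw [cinner_irr (a • χ).2 χ.2]
    simp only [Subtype.ext_iff]
  have h3 : ∀ g : G, ∑ χ : Cfsg.IrrCharacter G, (χ : G → ℂ) (s g) * conj ((χ : G → ℂ) g) =
      (if a • ConjClasses.mk g = ConjClasses.mk g then 1 else 0) *
        (Nat.card (Subgroup.centralizer ({g} : Set G)) : ℂ) := by
    intro g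
    rw [sum_irrCharacter (fun χ => χ (s g) * conj (χ g))]
    have h4 : IsConj (s g) g ↔ a • ConjClasses.mk g = ConjClasses.mk g := by
      rw [← ConjClasses.mk_eq_mk_iff_isConj, hs, inv_smul_eq_iff, eq_comm]
    split_ifs with h
    · rw [one_mul, ← second_orth_self]
      refine Finset.sum_congr rfl (fun χ hχ => ?_)
      rw [classFun_isConj (irr_classFun (mem_irr.1 hχ)) (h4.2 h)]
    · rw [zero_mul, second_orth_of_not_isConj (fun h' => h (h4.1 h'))]
  simp only [classInner, h1, ← Finset.mul_sum] at h2
  rw [Finset.sum_comm] at h2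
  simp only [h3] at h2
  rw [sum_card_centralizer (fun C => if a • C = C then 1 else 0), ← mul_assoc,
    inv_mul_cancel₀ card_ne_zero, one_mul, Finset.sum_boole, ← Fintype.card_subtype,
    ← Nat.card_eq_fintype_card] at h2
  exact_mod_cast h2

end Cfsg.Agent.S0860
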