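import Cfsg.Statements.S0861
import Cfsg.Agent.Lib.CharMod
import Cfsg.Agent.Lib.CharExtend
import Cfsg.Agent.Lib.CharGalois

set_option autoImplicit false
open Cfsg

namespace Cfsg.Agent.S0861

open Cfsg.Agent.Lib.CharRep Cfsg.Agent.Lib.CharBasic Cfsg.Agent.Lib.CharOrth Cfsg.Agent.Lib.CharInd Cfsg.Agent.Lib.CharInt Cfsg.Agent.Lib.CharClifford Cfsg.Agent.Lib.CharMod Cfsg.Agent.Lib.CharExtend Cfsg.Agent.Lib.CharGalois

/-- Let P be a normal abelian Sylow p-subgroup of the finite group G and suppose some element g of P has centralizer exactly P. Then the number of irreducible characters of G is at most the order of P, and if equality holds then G / P is abelian (the commutator subgroup lies in P). -/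
theorem result {G : Type*} [Group G] [Finite G] (p : ℕ) [Fact p.Prime] (P : Sylow p G) [(P : Subgroup G).Normal] (hab : ∀ a ∈ P, ∀ b ∈ P, a * b = b * a) (g : G) (hg : g ∈ P) (hC : Subgroup.centralizer ({g} : Set G) = P) : Nat.card (Cfsg.IrrCharacter G) ≤ Nat.card P ∧ (Nat.card (Cfsg.IrrCharacter G) = Nat.card P → commutator G ≤ P) := by
  classical
  have hp : p.Prime := Fact.out
  haveI := Fintype.ofFinite G
  haveI := Fintype.ofFinite (P : Subgroup G)
  have hn : 0 < orderOf g := orderOf_pos g
  have h0 : ∀ χ, IsIrrCharacter G χ → χ g ≠ 0 := fun χ hχ => by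
    obtain ⟨k, hk⟩ := P.isPGroup' ⟨g, hg⟩
    refine char_ne_zero_of_not_dvd hp (irr_isChar hχ) (fun h => P.not_dvd_index ?_) (k := k)
      (congrArg Subtype.val hk)
    have := deg_dvd_index_of_comm (ofNormal (P : Subgroup G)) hχ
      (fun a b => Subtype.ext (hab a a.2 b b.2))
    rw [ofNormal_index] at this
    exact h.trans this
  have h1 : ∀ χ ∈ irr G, ((orderOf g).totient : ℝ) ≤
      ∑ k ∈ (Finset.range (orderOf g)).filter (Nat.Coprime (orderOf g)), ‖χ (g ^ k)‖ ^ 2 :=
    fun χ hχ => totient_le_sum_sq hn (genChar_of_irr (mem_irr.1 hχ)) (pow_orderOf_eq_one g)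
      (h0 χ (mem_irr.1 hχ))
  have h2 : ∑ χ ∈ irr G, ∑ k ∈ (Finset.range (orderOf g)).filter (Nat.Coprime (orderOf g)),
      ‖χ (g ^ k)‖ ^ 2 = (Nat.card P : ℝ) * (orderOf g).totient := by
    rw [Finset.sum_comm, Nat.totient_eq_card_coprime, mul_comm, ← nsmul_eq_mul,
      ← Finset.sum_const]
    refine Finset.sum_congr rfl (fun k hk => ?_)
    rw [second_orth_self_real]
    have : Subgroup.centralizer ({g ^ k} : Set G) = P := by
      apply le_antisymm
      · rw [← hC]
        intro x hx
        rw [Subgroup.mem_centralizer_singleton_iff] at hx ⊢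
        obtain ⟨m, hm⟩ := exists_pow_eq_self_of_coprime (Finset.mem_filter.1 hk).2.symm
        rw [← hm]
        exact (Commute.pow_right hx m).eq
      · intro x hx
        rw [Subgroup.mem_centralizer_singleton_iff]
        exact hab x hx _ ((P : Subgroup G).pow_mem hg k)
    rw [this]
  have ht : (0 : ℝ) < (orderOf g).totient := by exact_mod_cast Nat.totient_pos.2 hn
  have h3 : ∑ _χ ∈ irr G, ((orderOf g).totient : ℝ) = ((irr G).card : ℝ) * (orderOf g).totient := by
    rw [Finset.sum_const, nsmul_eq_mul]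
  rw [card_irrCharacter]
  constructor
  · have := Finset.sum_le_sum h1
    rw [h2, h3] at this
    exact_mod_cast le_of_mul_le_mul_right this ht
  · intro heq
    have h4 := (Finset.sum_eq_sum_iff_of_le h1).1 (by rw [h2, h3, heq])
    have h5 := comm_of_forall_irr_linear (G := G ⧸ (P : Subgroup G)) (fun χ hχ => by
      have hχ' := irr_comp_surjective hχ (QuotientGroup.mk' (P : Subgroup G))
        (QuotientGroup.mk'_surjective _)
      have h6 := h4 _ (mem_irr.2 hχ')
      have h7 : ∀ k, QuotientGroup.mk' (P : Subgroup G) (g ^ k) = 1 := fun k =>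
        (QuotientGroup.eq_one_iff _).2 ((P : Subgroup G).pow_mem hg k)
      simp only [h7] at h6
      rw [Finset.sum_const, ← Nat.totient_eq_card_coprime, nsmul_eq_mul, ← deg_cast (irr_isChar hχ),
        Complex.norm_natCast, left_eq_mul₀ ht.ne'] at h6
      have h8 : deg χ ^ 2 = 1 := by exact_mod_cast h6
      rw [← deg_cast (irr_isChar hχ), (Nat.pow_eq_one.1 h8).resolve_right two_ne_zero, Nat.cast_one])
    rw [commutator, Subgroup.commutator_le]
    intro a _ b _
    rw [← QuotientGroup.eq_one_iff, commutatorElement_def]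
    simp only [QuotientGroup.mk_mul, QuotientGroup.mk_inv]
    rw [h5 a b]; group

end Cfsg.Agent.S0861
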