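import Cfsg.Statements.S0865
import Cfsg.Agent.Lib.CharExtend

set_option autoImplicit false
open Cfsg

namespace Cfsg.Agent.S0865

open Cfsg.Agent.Lib.CharRep Cfsg.Agent.Lib.CharBasic Cfsg.Agent.Lib.CharOrth Cfsg.Agent.Lib.CharInd Cfsg.Agent.Lib.CharInt Cfsg.Agent.Lib.CharClifford Cfsg.Agent.Lib.CharExtend

/-- Let N be a normal subgroup of the finite group G and λ a character of N of degree 1, invariant under conjugation by G, whose order (under pointwise multiplication) is coprime to the index of N. Then there is a character μ of G of degree 1 restricting to λ with the same order as λ, and μ is the only degree-1 character of G restricting to λ whose order is coprime to the index of N. -/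
theorem result {G : Type*} [Group G] [Finite G] (N : Subgroup G) [hN : N.Normal] (lam : N → ℂ) (hlam : Cfsg.IsCharacter N lam ∧ lam 1 = 1) (hinv : ∀ (g : G) (n : N), lam ⟨g * n * g⁻¹, hN.conj_mem (n : G) n.2 g⟩ = lam n) (hcop : Nat.Coprime N.index (orderOf lam)) : ∃ μ : G → ℂ, (Cfsg.IsCharacter G μ ∧ μ 1 = 1 ∧ (∀ n : N, μ n = lam n) ∧ orderOf μ = orderOf lam) ∧ ∀ μ' : G → ℂ, Cfsg.IsCharacter G μ' ∧ μ' 1 = 1 → (∀ n : N, μ' n = lam n) → Nat.Coprime N.index (orderOf μ') → μ' = μ := by
  obtain ⟨lam', rfl⟩ := exists_hom_of_linear hlam.1 hlam.2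
  rw [orderOf_coe_unitsHom] at hcop
  rw [← ofNormal_index] at hcop
  obtain ⟨μ, hμ, hμo⟩ := exists_hom_ext_of_coprime (ofNormal N) lam'
    (fun g n => Units.ext (hinv g n)) hcop
  refine ⟨fun g => (μ g : ℂ), ⟨isChar_of_unitsHom μ, by simp, fun n => congrArg Units.val (hμ n),
    by rw [orderOf_coe_unitsHom, orderOf_coe_unitsHom, hμo]⟩, fun μ' h1 h2 h3 => ?_⟩
  obtain ⟨μ'', rfl⟩ := exists_hom_of_linear h1.1 h1.2
  rw [orderOf_coe_unitsHom, ← ofNormal_index] at h3
  rw [hom_ext_unique (ofNormal N) (μ := μ'') (μ' := μ)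
    (fun n => by rw [hμ]; exact Units.ext (h2 n)) h3 (hμo ▸ hcop)]

end Cfsg.Agent.S0865
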