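import Cfsg.Statements.S0866
import Cfsg.Agent.Lib.CharExtend

set_option autoImplicit false
open Cfsg

namespace Cfsg.Agent.S0866

open Cfsg.Agent.Lib.CharRep Cfsg.Agent.Lib.CharBasic Cfsg.Agent.Lib.CharOrth Cfsg.Agent.Lib.CharInd Cfsg.Agent.Lib.CharInt Cfsg.Agent.Lib.CharClifford Cfsg.Agent.Lib.CharExtend

/-- Let N be a normal subgroup of the finite group G and ϑ an irreducible character of N, invariant under conjugation by G, of degree d coprime to the index of N. Then ϑ is the restriction of an irreducible character of G if and only if the determinantal character of ϑ is the restriction of a character of G of degree 1. -/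
theorem result {G : Type*} [Group G] [Finite G] (N : Subgroup G) [hN : N.Normal] (ϑ : N → ℂ) (hϑ : Cfsg.IsIrrCharacter N ϑ) (hinv : ∀ (g : G) (n : N), ϑ ⟨g * n * g⁻¹, hN.conj_mem (n : G) n.2 g⟩ = ϑ n) (d : ℕ) (hd : ϑ 1 = d) (hcop : Nat.Coprime N.index d) : (∃ χ : G → ℂ, Cfsg.IsIrrCharacter G χ ∧ (∀ n : N, χ n = ϑ n)) ↔ ∃ μ : G → ℂ, Cfsg.IsCharacter G μ ∧ μ 1 = 1 ∧ ∀ n : N, μ n = Cfsg.detChar ϑ n := by
  constructor
  · rintro ⟨χ, hχ, hres⟩
    refine ⟨Cfsg.detChar χ, isChar_detChar χ, detChar_one_apply χ, fun n => ?_⟩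
    have := congrFun (detChar_comp (irr_isChar hχ) N.subtype) n
    rw [show (fun h => χ (N.subtype h)) = ϑ from funext hres] at this
    exact this.symm
  · rintro ⟨μ, hμ, hμ1, hμN⟩
    obtain ⟨μ', rfl⟩ := exists_hom_of_linear hμ hμ1
    exact ext_of_det (ofNormal N) hϑ hinv (by rw [ofNormal_index, deg_eq_of_eq hd]; exact hcop)
      μ' hμN

end Cfsg.Agent.S0866
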