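import Cfsg.Statements.S0868
import Cfsg.Agent.Lib.CharGoingDown

set_option autoImplicit false
open scoped ComplexConjugate
open Cfsg

namespace Cfsg.Agent.S0868

open Cfsg.Agent.Lib.CharRep Cfsg.Agent.Lib.CharBasic Cfsg.Agent.Lib.CharOrth
  Cfsg.Agent.Lib.CharInd Cfsg.Agent.Lib.CharInt Cfsg.Agent.Lib.CharClifford
  Cfsg.Agent.Lib.CharGoingDown

/-- Let N be a normal subgroup of the finite group G, χ an irreducible character of G whose restriction ϑ to N is irreducible, and ψ an irreducible character of G. Define η on G by η g = (1 / order of N) * Σ over n in N of ψ (n * g) * conj (χ (n * g)). Then: if the restriction of ψ to N has nonzero inner product with ϑ, η is an irreducible character of G; if that inner product is zero, η vanishes identically; and if ψ = χ then η is identically 1. -/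
theorem result {G : Type*} [Group G] [Fintype G] (N : Subgroup G) [N.Normal] [Fintype N] (χ : G → ℂ) (hχ : Cfsg.IsIrrCharacter G χ) (hχN : Cfsg.IsIrrCharacter N (fun n : N => χ n)) (ψ : G → ℂ) (hψ : Cfsg.IsIrrCharacter G ψ) (η : G → ℂ) (hη : η = fun g => (Nat.card N : ℂ)⁻¹ * ∑ n : N, ψ ((n : G) * g) * conj (χ ((n : G) * g))) : (Cfsg.classInner (fun n : N => ψ n) (fun n : N => χ n) ≠ 0 → Cfsg.IsIrrCharacter G η) ∧ (Cfsg.classInner (fun n : N => ψ n) (fun n : N => χ n) = 0 → η = 0) ∧ (ψ = χ → η = fun _ => 1) := by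
  classical
  let E := ofNormal N
  have hχ' := irr_isChar hχ
  have h1 : η = ∑ τ ∈ (irr G).filter (fun τ => ∀ n, E.i n ∈ cker τ),
      classInner ψ (τ * χ) • τ := by
    have := avg_classFun E (classFun_mul (irr_classFun hψ) (classFun_star (irr_classFun hχ)))
    simp only [← cinner_mul_right] at this
    rw [hη, ← this]
    rfl
  have h2 : ∀ β, IsIrrCharacter G β → (∀ n, E.i n ∈ cker β) → ψ = β * χ → η = β := by
    intro β hβ hker e
    rw [h1, Finset.sum_eq_single β]
    · rw [← e, cinner_irr_self hψ, one_smul]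
    · intro τ hτ hne
      obtain ⟨hτ1, hτ2⟩ := Finset.mem_filter.1 hτ
      rw [cinner_irr_ne hψ (E.gallagher_irr hχ' hχN (mem_irr.1 hτ1) hτ2), zero_smul]
      intro e'
      exact hne (E.gallagher_inj hχ' hχN (mem_irr.1 hτ1) hτ2 hβ hker (e'.symm.trans e))
    · intro h'
      exact (h' (Finset.mem_filter.2 ⟨mem_irr.2 hβ, hker⟩)).elim
  refine ⟨fun h => ?_, fun h => ?_, fun h => ?_⟩
  · obtain ⟨β, hβ, hker, e⟩ := E.gallagher_surj hχ' hχN hψ h
    rwa [h2 β hβ hker e]
  · rw [h1]
    refine Finset.sum_eq_zero (fun τ hτ => ?_)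
    obtain ⟨hτ1, hτ2⟩ := Finset.mem_filter.1 hτ
    have := (E.gallagher_bijOn hχ' hχN).1 ⟨mem_irr.1 hτ1, hτ2⟩
    rw [cinner_irr_ne hψ this.1, zero_smul]
    rintro rfl
    exact this.2 h
  · exact h2 _ irr_one (fun n x => rfl) (by rw [h]; ext; simp)

end Cfsg.Agent.S0868
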