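import Cfsg.Statements.S0869
import Cfsg.Agent.Lib.CharBrauer

set_option autoImplicit false
open Cfsg

namespace Cfsg.Agent.S0869

open Cfsg.Agent.Lib.CharRep Cfsg.Agent.Lib.CharBasic Cfsg.Agent.Lib.CharOrth
  Cfsg.Agent.Lib.CharInd Cfsg.Agent.Lib.CharInt Cfsg.Agent.Lib.CharClifford
  Cfsg.Agent.Lib.CharBrauer

/-- Let S be a nonempty finite type and R an additive subgroup of the integer-valued functions on S that is closed under pointwise multiplication. If the constant function 1 is not in R, then there exist a point x of S and a prime p such that p divides f x for every f in R. -/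
theorem result {S : Type*} [Finite S] [Nonempty S] (R : AddSubgroup (S → ℤ)) (hmul : ∀ f ∈ R, ∀ g ∈ R, f * g ∈ R) (h1 : (1 : S → ℤ) ∉ R) : ∃ (x : S) (p : ℕ), p.Prime ∧ ∀ f ∈ R, (p : ℤ) ∣ f x := by
  classical
  by_contra hne
  push Not at hne
  have h2 : ∀ x : S, ∃ f ∈ R, f x = 1 := by
    intro x
    exact one_mem_of_forall_prime (R.map (Pi.evalAddMonoidHom (fun _ => ℤ) x)) (fun p hp => by
      obtain ⟨f, hf, h⟩ := hne x p hp
      exact ⟨f x, ⟨f, hf, rfl⟩, h⟩)
  choose f hf hf1 using h2
  have key : ∀ s : Finset S, ∃ r ∈ R, ∏ x ∈ s, (1 - f x) = 1 - r := by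
    intro s
    induction s using Finset.induction_on with
    | empty => exact ⟨0, R.zero_mem, by simp⟩
    | insert x s hx ih =>
      obtain ⟨r, hr, e⟩ := ih
      refine ⟨r + f x - f x * r, R.sub_mem (R.add_mem hr (hf x)) (hmul _ (hf x) _ hr), ?_⟩
      rw [Finset.prod_insert hx, e]
      ring
  haveI := Fintype.ofFinite S
  obtain ⟨r, hr, e⟩ := key Finset.univ
  have h0 : ∏ x, (1 - f x) = 0 := by
    ext y
    rw [Finset.prod_apply]
    exact Finset.prod_eq_zero (Finset.mem_univ y) (by simp [hf1])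
  rw [h0, eq_comm, sub_eq_zero] at e
  exact h1 (e ▸ hr)

end Cfsg.Agent.S0869
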