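import Cfsg.Statements.S0872
import Cfsg.Agent.Lib.CharBrauer

set_option autoImplicit false
open Cfsg

namespace Cfsg.Agent.S0872

open Cfsg.Agent.Lib.CharRep Cfsg.Agent.Lib.CharBasic Cfsg.Agent.Lib.CharOrth
  Cfsg.Agent.Lib.CharInd Cfsg.Agent.Lib.CharInt Cfsg.Agent.Lib.CharClifford
  Cfsg.Agent.Lib.CharBrauer

/-- For a finite group G and a prime p there are an integer m not divisible by p and a ℤ-linear combination of functions induced from the constant function 1 on subgroups H, each having a cyclic normal subgroup of order prime to p and p-power index in H, that equals the constant function m. -/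
theorem result {G : Type*} [Group G] [Fintype G] (p : ℕ) (hp : p.Prime) : ∃ (m : ℤ) (a : Subgroup G → ℤ), ¬ (p : ℤ) ∣ m ∧ (∀ H, a H ≠ 0 → (∃ C : Subgroup G, C ≤ H ∧ H ≤ Subgroup.normalizer (C : Set G) ∧ IsCyclic C ∧ Nat.Coprime (Nat.card C) p ∧ ∃ k : ℕ, C.relIndex H = p ^ k)) ∧ (fun _ : G => (m : ℂ)) = ∑ H : Subgroup G, (a H : ℂ) • Cfsg.indFun H (fun _ => 1) := by
  classical
  simp only [indFun_eq_ind]
  obtain ⟨m, hm, h⟩ := exists_const_mem_permSpan (G := G) hp
  have key : ∀ f ∈ permSpan p G, ∃ a : Subgroup G → ℤ, (∀ H, a H ≠ 0 → QE p H) ∧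
      f = ∑ H : Subgroup G, (a H : ℂ) • ind H.subtype (fun _ => 1) := by
    intro f hf
    induction hf using AddSubgroup.closure_induction with
    | mem x hx =>
      obtain ⟨H, hH, rfl⟩ := hx
      refine ⟨Pi.single H 1, fun U hU => ?_, ?_⟩
      · by_cases e : U = H
        · rwa [e]
        · exact (hU (Pi.single_eq_of_ne e 1)).elim
      · rw [Finset.sum_eq_single H]
        · simp
        · intro U _ hU
          simp [Pi.single_eq_of_ne hU]
        · simp
    | zero => exact ⟨0, by simp, by simp⟩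
    | add x y _ _ h1 h2 =>
      obtain ⟨a, ha, rfl⟩ := h1
      obtain ⟨b, hb, rfl⟩ := h2
      refine ⟨a + b, fun H hH => ?_, by simp [add_smul, Finset.sum_add_distrib]⟩
      by_cases h0 : a H = 0
      · exact hb H (by simpa [h0] using hH)
      · exact ha H h0
    | neg x _ h1 =>
      obtain ⟨a, ha, rfl⟩ := h1
      exact ⟨-a, fun H hH => ha H (by simpa using hH), by simp⟩
  obtain ⟨a, ha, e⟩ := key _ h
  exact ⟨m, a, by exact_mod_cast hm, ha, by simpa using e⟩

end Cfsg.Agent.S0872
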