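import Cfsg.Statements.S0875
import Cfsg.Agent.Lib.CharMod

set_option autoImplicit false
open Cfsg

namespace Cfsg.Agent.S0875

open Cfsg.Agent.Lib.CharRep Cfsg.Agent.Lib.CharBasic Cfsg.Agent.Lib.CharOrth Cfsg.Agent.Lib.CharInd Cfsg.Agent.Lib.CharInt Cfsg.Agent.Lib.CharClifford Cfsg.Agent.Lib.CharMod

/-- Let G be a finite group of order m * n with m and n coprime, and g an element whose order is coprime to m. Every x in G factors uniquely as x = u * v with u, v commuting, the order of u coprime to n and the order of v coprime to m; let ϑ be the function on G equal to n at those x whose factor v is conjugate to g and equal to 0 elsewhere. Then ϑ is a linear combination of the irreducible characters of G with algebraic-integer coefficients. -/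
theorem result {G : Type*} [Group G] [Fintype G] (m n : ℕ) (hmn : Nat.card G = m * n) (hcop : Nat.Coprime m n) (g : G) (hg : Nat.Coprime (orderOf g) m) (ϑ : G → ℂ) (hϑ1 : ∀ x : G, (∃ v : G, IsConj v g ∧ (∃ u : G, x = u * v ∧ Commute u v ∧ Nat.Coprime (orderOf u) n ∧ Nat.Coprime (orderOf v) m)) → ϑ x = n) (hϑ0 : ∀ x : G, (¬ ∃ v : G, IsConj v g ∧ (∃ u : G, x = u * v ∧ Commute u v ∧ Nat.Coprime (orderOf u) n ∧ Nat.Coprime (orderOf v) m)) → ϑ x = 0) : ∃ c : Cfsg.IrrCharacter G → ℂ, (∀ χ, c χ ∈ Cfsg.AlgInt) ∧ ϑ = ∑ᶠ χ : Cfsg.IrrCharacter G, c χ • (χ : G → ℂ) := by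
  classical
  obtain ⟨e, he, he'⟩ := Nat.chineseRemainder hcop 0 1
  have he : m ∣ e := (Nat.modEq_zero_iff_dvd).1 he
  let f : G → ℂ := fun x => if IsConj (x ^ e) g then 1 else 0
  have hf : IsClassFunction G f := fun x h => by
    have : IsConj ((h * x * h⁻¹) ^ e) g ↔ IsConj (x ^ e) g := by
      rw [conj_pow]
      have h1 : IsConj (x ^ e) (h * x ^ e * h⁻¹) := isConj_iff.2 ⟨h, rfl⟩
      exact ⟨fun h2 => h1.trans h2, fun h2 => h1.symm.trans h2⟩
    simp only [f, this]
  have hϑ : ϑ = (n : ℂ) • f := by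
    ext x
    obtain ⟨u, v, hx, hc, hu, hv⟩ := exists_decomp hmn hcop x
    have hv' : x ^ e = v := hx ▸ mul_pow_eq_of_coprime hmn he he' hc hu hv
    by_cases h : IsConj (x ^ e) g
    · rw [hϑ1 x ⟨v, hv' ▸ h, u, hx, hc, hu, hv⟩]
      simp only [Pi.smul_apply, f, h, if_true, smul_eq_mul, mul_one]
    · rw [hϑ0 x]
      · simp only [Pi.smul_apply, f, h, if_false, smul_eq_mul, mul_zero]
      · rintro ⟨v', h1, u', hx', hc', hu', hv''⟩
        exact h (by rwa [hx', mul_pow_eq_of_coprime hmn he he' hc' hu' hv''])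
  refine ⟨fun χ => classInner ϑ χ, fun χ => ?_, ?_⟩
  · rw [hϑ]
    refine isIntegral_cinner_of_part hmn hcop he he' hf (fun x => ?_)
      (fun x y h => by simp only [f, h]) (irr_isChar χ.2)
    simp only [f]
    split_ifs
    · exact isIntegral_one
    · exact isIntegral_zero
  · rw [finsum_irr (fun χ => classInner ϑ χ • χ)]
    exact classFun_expand (fun x h => by simp only [hϑ, Pi.smul_apply, hf x h])

end Cfsg.Agent.S0875
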