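import Cfsg.Statements.S0876
import Cfsg.Agent.Lib.CharMod

set_option autoImplicit false
open Cfsg

namespace Cfsg.Agent.S0876

open Cfsg.Agent.Lib.CharRep Cfsg.Agent.Lib.CharBasic Cfsg.Agent.Lib.CharOrth Cfsg.Agent.Lib.CharInd Cfsg.Agent.Lib.CharInt Cfsg.Agent.Lib.CharClifford Cfsg.Agent.Lib.CharMod

/-- Let G be a finite group, p a prime and M a maximal ideal of the ring of algebraic integers containing p. Let x, y be elements with p-parts a and b (so a⁻¹ * x and b⁻¹ * y are their p-regular parts). Then a⁻¹ * x and b⁻¹ * y are conjugate in G if and only if, for every irreducible character χ, the difference χ x - χ y lies in the local ideal at M. -/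
theorem result {G : Type*} [Group G] [Finite G] (p : ℕ) (M : Ideal Cfsg.AlgInt) (hM : Cfsg.IsPModular p M) (x y a b : G) (ha : Cfsg.IsPPart p x a) (hb : Cfsg.IsPPart p y b) : IsConj (a⁻¹ * x) (b⁻¹ * y) ↔ ∀ χ : Cfsg.IrrCharacter G, Cfsg.MemLocalIdeal M ((χ : G → ℂ) x - (χ : G → ℂ) y) := by
  classical
  haveI := Fintype.ofFinite G
  obtain ⟨u, rfl, hau, ⟨k, hk⟩, hu⟩ := ha
  obtain ⟨v, rfl, hbv, ⟨l, hl⟩, hv⟩ := hb
  simp only [inv_mul_cancel_left]
  have hx : ∀ χ, IsCharacter G χ → χ (a * u) - χ u ∈ mset M := fun χ hχ =>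
    char_sub_mem_mset hM hχ hau (hk ▸ pow_orderOf_eq_one a)
  have hy : ∀ χ, IsCharacter G χ → χ (b * v) - χ v ∈ mset M := fun χ hχ =>
    char_sub_mem_mset hM hχ hbv (hl ▸ pow_orderOf_eq_one b)
  constructor
  · rintro h ⟨χ, hχ⟩
    apply memLocalIdeal_of_mem_mset hM
    have := (mset M).sub_mem (hx χ (irr_isChar hχ)) (hy χ (irr_isChar hχ))
    rw [classFun_isConj (irr_classFun hχ) h] at this
    simpa using this
  · intro h
    obtain ⟨j, n, hn, hmn⟩ := Nat.exists_eq_pow_mul_and_not_dvd (Nat.card_pos (α := G)).ne' p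
      hM.1.one_lt.ne'
    have hpn : p.Coprime n := (Nat.Prime.coprime_iff_not_dvd hM.1).2 hn
    have hcop : (p ^ j).Coprime n := hpn.pow_left j
    obtain ⟨e, he, he'⟩ := Nat.chineseRemainder hcop 0 1
    have he : p ^ j ∣ e := (Nat.modEq_zero_iff_dvd).1 he
    let f : G → ℂ := fun x => if IsConj (x ^ e) u then 1 else 0
    have hf : IsClassFunction G f := fun x h => by
      have : IsConj ((h * x * h⁻¹) ^ e) u ↔ IsConj (x ^ e) u := by
        rw [conj_pow]
        have h1 : IsConj (x ^ e) (h * x ^ e * h⁻¹) := isConj_iff.2 ⟨h, rfl⟩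
        exact ⟨fun h2 => h1.trans h2, fun h2 => h1.symm.trans h2⟩
      simp only [f, this]
    have hf' : IsClassFunction G ((n : ℂ) • f) := fun x h => by simp only [Pi.smul_apply, hf x h]
    have h1 : ((n : ℂ) • f) (a * u) - ((n : ℂ) • f) (b * v) ∈ mset M := by
      rw [classFun_expand_apply hf', classFun_expand_apply hf' (b * v), ← Finset.sum_sub_distrib]
      refine (mset M).sum_mem (fun χ hχ => ?_)
      have hχ' := irr_isChar (mem_irr.1 hχ)
      rw [← mul_sub]
      refine mul_mem_mset (isIntegral_cinner_of_part hmn hcop he he' hf (fun x => ?_)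
        (fun x y h => by simp only [f, h]) hχ') (mem_mset_of_memLocalIdeal hM
          ((isIntegral_char hχ' _).sub (isIntegral_char hχ' _)) (h ⟨χ, mem_irr.1 hχ⟩))
      simp only [f]
      split_ifs
      · exact isIntegral_one
      · exact isIntegral_zero
    have e1 : (a * u) ^ e = u := mul_pow_eq_of_coprime hmn he he' hau (hk ▸ hpn.pow_left k)
      (((Nat.Prime.coprime_iff_not_dvd hM.1).2 hu).symm.pow_right j)
    have e2 : (b * v) ^ e = v := mul_pow_eq_of_coprime hmn he he' hbv (hl ▸ hpn.pow_left l)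
      (((Nat.Prime.coprime_iff_not_dvd hM.1).2 hv).symm.pow_right j)
    by_contra hne
    have hne' : ¬ IsConj v u := fun h => hne h.symm
    simp only [Pi.smul_apply, f, e1, e2, IsConj.refl, hne', if_true, if_false, smul_eq_mul,
      mul_one, mul_zero, sub_zero, natCast_mem_mset_iff hM] at h1
    exact hn h1

end Cfsg.Agent.S0876
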