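import Cfsg.Statements.S0877
import Cfsg.Agent.Lib.CharBrauer

set_option autoImplicit false
open Cfsg

namespace Cfsg.Agent.S0877

open Lib.CharBasic Lib.CharOrth Lib.CharInd Lib.CharInt Lib.CharBrauer Finset
open scoped ComplexConjugate

theorem isElementary_of_surjective {p : ℕ} (hp : p.Prime) {E E' : Type*} [Group E] [Group E']
    (f : E →* E') (hf : Function.Surjective f) (h : IsElementary p E) : IsElementary p E' := by
  obtain ⟨z, hz, h1, k, h2⟩ := h
  refine ⟨f z, ?_, Nat.Coprime.coprime_dvd_left (orderOf_map_dvd f z) h1, ?_⟩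
  · rw [Subgroup.mem_center_iff] at hz ⊢
    intro y
    obtain ⟨y, rfl⟩ := hf y
    rw [← map_mul, hz, map_mul]
  · have := (Subgroup.zpowers z).index_map_dvd hf
    rw [MonoidHom.map_zpowers, h2] at this
    obtain ⟨j, -, hj⟩ := (Nat.dvd_prime_pow hp).mp this
    exact ⟨j, hj⟩

theorem mul_pow_of_elementary {p m n N : ℕ} (hp : p.Prime) {E : Type*} [Group E] [Finite E]
    (h : IsElementary p E) (hmn : m.Coprime n) (hE : Nat.card E ∣ m * n) (h1 : N ≡ 1 [MOD m])
    (h2 : n ∣ N) (x y : E) : (x * y) ^ N = x ^ N * y ^ N := by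
  have := Fact.mk hp
  obtain ⟨z, hz, -, k, hk⟩ := h
  obtain ⟨P⟩ : Nonempty (Sylow p E) := inferInstance
  have hle : Subgroup.zpowers z ≤ Subgroup.center E := Subgroup.zpowers_le.mpr hz
  have hn : (Subgroup.zpowers z).Normal :=
    ⟨fun a ha g => by rw [Subgroup.mem_center_iff.mp (hle ha) g]; simpa using ha⟩
  have htop : Subgroup.zpowers z ⊔ (P : Subgroup E) = ⊤ := by
    rw [← Subgroup.index_eq_one]
    apply Nat.eq_one_of_dvd_coprimes (a := p ^ k) (b := (P : Subgroup E).index)
    · exact Nat.Coprime.pow_left _ ((Nat.Prime.coprime_iff_not_dvd hp).mpr P.not_dvd_index)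
    · exact hk ▸ Subgroup.index_dvd_of_le le_sup_left
    · exact Subgroup.index_dvd_of_le le_sup_right
  have hdec : ∀ x : E, ∃ a ∈ Subgroup.center E, ∃ u ∈ (P : Subgroup E), a * u = x := by
    intro x
    obtain ⟨a, ha, u, hu, h⟩ := Subgroup.mem_sup_of_normal_left.mp (htop ▸ Subgroup.mem_top x)
    exact ⟨a, hle ha, u, hu, h⟩
  obtain ⟨j, hj⟩ := P.isPGroup'.exists_card_eq
  have hPd : p ^ j ∣ m * n := hj ▸ (Subgroup.card_subgroup_dvd_card _).trans hE
  have hord : ∀ u ∈ (P : Subgroup E), orderOf u ∣ p ^ j := fun u hu => by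
    rw [← hj]; exact Subgroup.orderOf_dvd_natCard _ hu
  have hP : ∀ u ∈ (P : Subgroup E), ∀ v ∈ (P : Subgroup E), (u * v) ^ N = u ^ N * v ^ N := by
    by_cases hpn : p ∣ n
    · have h3 : p ^ j ∣ n := Nat.Coprime.dvd_of_dvd_mul_left
        (Nat.Coprime.pow_left _ (Nat.Coprime.coprime_dvd_left hpn hmn.symm)) hPd
      have h4 : ∀ u ∈ (P : Subgroup E), u ^ N = 1 := fun u hu =>
        orderOf_dvd_iff_pow_eq_one.mp (((hord u hu).trans h3).trans h2)
      intro u hu v hv
      rw [h4 u hu, h4 v hv, h4 _ (Subgroup.mul_mem _ hu hv), one_mul]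
    · have h3 : p ^ j ∣ m := Nat.Coprime.dvd_of_dvd_mul_right
        (Nat.Coprime.pow_left _ ((Nat.Prime.coprime_iff_not_dvd hp).mpr hpn)) hPd
      have h4 : ∀ u ∈ (P : Subgroup E), u ^ N = u := fun u hu => by
        conv_rhs => rw [← pow_one u]
        exact pow_eq_pow_iff_modEq.mpr (h1.of_dvd ((hord u hu).trans h3))
      intro u hu v hv
      rw [h4 u hu, h4 v hv, h4 _ (Subgroup.mul_mem _ hu hv)]
  obtain ⟨a, ha, u, hu, rfl⟩ := hdec x
  obtain ⟨b, hb, v, hv, rfl⟩ := hdec y
  have hc : ∀ c ∈ Subgroup.center E, ∀ w, Commute c w := fun c hc w =>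
    (Subgroup.mem_center_iff.mp hc w).symm
  rw [show a * u * (b * v) = a * (b * (u * v)) by rw [mul_assoc, ← mul_assoc u, ← (hc b hb u).eq, mul_assoc],
    (hc a ha _).mul_pow, (hc b hb _).mul_pow, (hc a ha _).mul_pow, (hc b hb _).mul_pow, hP u hu v hv,
    mul_assoc, ← mul_assoc (u ^ N), ← (hc _ (Subgroup.pow_mem _ hb N) (u ^ N)).eq, mul_assoc]

theorem result {G : Type*} [Group G] [Finite G] (H : Subgroup G) (hHall : Nat.Coprime (Nat.card H) H.index) (hfus : ∀ x ∈ H, ∀ y ∈ H, IsConj x y → ∃ h ∈ H, h * x * h⁻¹ = y) (helem : ∀ (E : Subgroup G) (p : ℕ), p.Prime → Cfsg.IsElementary p E → Nat.card E ∣ Nat.card H → ∃ g : G, E.map (MulAut.conj g).toMonoidHom ≤ H) : ∃ K : Subgroup G, K.Normal ∧ K ⊔ H = ⊤ ∧ K ⊓ H = ⊥ := by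
  classical
  have := Fintype.ofFinite G
  obtain ⟨N, hN1, hN2⟩ := Nat.chineseRemainder hHall 1 0
  replace hN2 : H.index ∣ N := (Nat.modEq_zero_iff_dvd).mp hN2
  have hG : Nat.card G = Nat.card H * H.index := H.card_mul_index.symm
  have hpow : ∀ g : G, (g ^ N) ^ Nat.card H = 1 := by
    intro g
    obtain ⟨k, rfl⟩ := hN2
    rw [← pow_mul, show H.index * k * Nat.card H = Nat.card G * k by rw [hG]; ring, pow_mul,
      pow_card_eq_one', one_pow]
  have hex : ∀ g : G, ∃ h : H, IsConj (g ^ N) (h : G) := by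
    intro g
    obtain ⟨p, hp1, hp⟩ := Nat.exists_infinite_primes (orderOf (g ^ N) + 1)
    obtain ⟨x, hx⟩ := helem (Subgroup.zpowers (g ^ N)) p hp ⟨⟨g ^ N, Subgroup.mem_zpowers _⟩, by
      rw [Subgroup.mem_center_iff]
      rintro ⟨_, k, rfl⟩
      exact Subtype.ext (Commute.zpow_left (Commute.refl _) k).eq, by
      rw [Subgroup.orderOf_mk]
      exact (Nat.coprime_of_lt_prime (orderOf_pos _).ne' hp1 hp).symm, 0, by
      rw [pow_zero, Subgroup.index_eq_one, eq_top_iff]
      rintro ⟨_, k, rfl⟩ -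
      exact ⟨k, rfl⟩⟩ (by
      rw [Nat.card_zpowers]
      exact orderOf_dvd_of_pow_eq_one (hpow g))
    exact ⟨⟨_, hx ⟨g ^ N, Subgroup.mem_zpowers _, rfl⟩⟩, isConj_iff.mpr ⟨x, rfl⟩⟩
  choose c hc using hex
  have hfus' : ∀ x y : H, IsConj (x : G) y → IsConj x y := by
    intro x y h
    obtain ⟨k, hk, h1⟩ := hfus x x.2 y y.2 h
    exact isConj_iff.mpr ⟨⟨k, hk⟩, Subtype.ext h1⟩
  have hcH : ∀ h : H, IsConj h (c h) := by
    intro h
    apply hfus'
    have h1 : (h : G) ^ N = h := by
      conv_rhs => rw [← pow_one (h : G)]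
      exact pow_eq_pow_iff_modEq.mpr (hN1.of_dvd (Subgroup.orderOf_dvd_natCard _ h.2))
    have := hc h
    rwa [h1] at this
  have hc1 : c 1 = 1 := (isConj_one_right.mp (hcH 1))
  have hcl : ∀ φ : H → ℂ, IsClassFunction H φ → IsClassFunction G (fun g => φ (c g)) := by
    intro φ hφ g x
    apply classFun_isConj hφ
    apply hfus'
    refine (hc _).symm.trans (IsConj.trans ?_ (hc g))
    exact isConj_iff.mpr ⟨x⁻¹, by rw [conj_pow]; group⟩
  have hgen : ∀ φ : H → ℂ, IsCharacter H φ → IsGeneralizedCharacter G (fun g => φ (c g)) := by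
    intro φ hφ
    refine genChar_of_elementary (hcl φ (char_classFun hφ)) fun p hp E hE => ?_
    let F : E →* G := E.subtype.comp (MonoidHom.mk' (fun x => x ^ N)
      (mul_pow_of_elementary hp hE hHall (hG ▸ Subgroup.card_subgroup_dvd_card E) hN1 hN2))
    obtain ⟨x, hx⟩ := helem F.range p hp
      (isElementary_of_surjective hp _ F.rangeRestrict_surjective hE) (by
      refine Nat.Coprime.dvd_of_dvd_mul_right (n := H.index) ?_
        (hG ▸ Subgroup.card_subgroup_dvd_card _)
      rw [Nat.coprime_iff_gcd_eq_one, Nat.eq_one_iff_not_exists_prime_dvd]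
      intro q hq hd
      have := Fact.mk hq
      obtain ⟨⟨_, y, rfl⟩, hy⟩ := exists_prime_orderOf_dvd_card' q (hd.trans (Nat.gcd_dvd_left _ _))
      rw [← Subgroup.orderOf_coe] at hy
      have h1 : q ∣ Nat.card H := hy ▸ orderOf_dvd_of_pow_eq_one (hpow y)
      exact hq.one_lt.ne' (Nat.eq_one_of_dvd_coprimes hHall h1 (hd.trans (Nat.gcd_dvd_right _ _))))
    let F' : E →* H := ((MulAut.conj x).toMonoidHom.comp F).codRestrict H
      (fun y => hx ⟨F y, ⟨y, rfl⟩, rfl⟩)
    have := genChar_of_char (isChar_comp hφ F')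
    convert this using 2 with y
    apply classFun_isConj (char_classFun hφ)
    apply hfus'
    exact (hc y).symm.trans (isConj_iff.mpr ⟨x, rfl⟩)
  let W : H → ℕ := fun h => ∑ g : G, #{x : H | x * c g * x⁻¹ = h}
  have hW1 : ∀ h, Nat.card G ≤ W h := by
    intro h
    apply Nat.le_of_dvd
    · obtain ⟨x, hx⟩ := isConj_iff.mp (hcH h).symm
      exact Finset.sum_pos' (fun _ _ => Nat.zero_le _)
        ⟨h, Finset.mem_univ _, Finset.card_pos.mpr ⟨x, by simpa using hx⟩⟩
    · apply dvd_of_isIntegral_div Nat.card_pos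
      have h1 : (W h : ℂ) / Nat.card G =
          ∑ χ ∈ irr H, χ h * classInner (fun _ => 1) (fun g => χ (c g)) := by
        simp only [W, Nat.cast_sum, classInner, one_mul]
        simp only [← Fintype.card_subtype, ← Nat.card_eq_fintype_card, ← sum_irr_mul_conj_eq_card]
        rw [Finset.sum_comm, Finset.sum_div]
        refine Finset.sum_congr rfl fun χ _ => ?_
        rw [← Finset.mul_sum]
        ring
      rw [h1]
      refine IsIntegral.sum _ fun χ hχ => ?_
      have hχ' := irr_isChar (mem_irr.mp hχ)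
      obtain ⟨k, hk⟩ := genChar_inner_int (genChar_of_char isChar_one) (hgen χ hχ')
      rw [hk]
      exact (isIntegral_char hχ' h).mul (isIntegral_algebraMap (x := k))
  have hsum : ∀ F : H → ℂ, IsClassFunction H F →
      ∑ h : H, (W h : ℂ) * F h = Nat.card H * ∑ g : G, F (c g) := by
    intro F hF
    simp only [W, Nat.cast_sum, Finset.sum_mul]
    rw [Finset.sum_comm, Finset.mul_sum]
    refine Finset.sum_congr rfl fun g _ => ?_
    rw [Nat.card_eq_fintype_card, ← nsmul_eq_mul, ← Finset.card_univ, ← Finset.sum_const,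
      ← Finset.sum_fiberwise (s := Finset.univ) (g := fun x : H => x * c g * x⁻¹)
        (f := fun _ => F (c g))]
    refine Finset.sum_congr rfl fun h _ => ?_
    rw [← nsmul_eq_mul, ← Finset.sum_const]
    refine Finset.sum_congr rfl fun x hx => ?_
    simp only [Finset.mem_filter, Finset.mem_univ, true_and] at hx
    rw [← hx, hF]
  have hW : ∀ h, W h = Nat.card G := by
    have h1 := hsum (fun _ => 1) (classFun_const 1)
    simp only [mul_one, Finset.sum_const, Finset.card_univ, nsmul_eq_mul] at h1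
    have h2 : ∑ _h : H, Nat.card G = ∑ h : H, W h := by
      rw [Finset.sum_const, Finset.card_univ, smul_eq_mul, Nat.card_eq_fintype_card]
      rw [Nat.card_eq_fintype_card] at h1
      exact_mod_cast h1.symm
    intro h
    exact ((Finset.sum_eq_sum_iff_of_le (fun h _ => hW1 h)).mp h2 h (Finset.mem_univ _)).symm
  have hirr : ∀ φ : H → ℂ, IsIrrCharacter H φ → IsIrrCharacter G (fun g => φ (c g)) := by
    intro φ hφ
    apply genChar_norm_one_of_pos (hgen φ (irr_isChar hφ))
    · have h1 := hsum (φ * star φ) (classFun_mul (irr_classFun hφ) (classFun_star (irr_classFun hφ)))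
      have h2 := cinner_irr_self hφ
      unfold classInner at h2 ⊢
      simp only [hW, ← Finset.mul_sum, Pi.mul_apply, Pi.star_apply, RCLike.star_def] at h1
      rw [inv_mul_eq_one₀ card_ne_zero] at h2 ⊢
      rw [← h2, mul_comm] at h1
      exact mul_left_cancel₀ card_ne_zero h1
    · rw [hc1, ← deg_cast (irr_isChar hφ)]
      simp
  let K : Subgroup G := ⨅ φ : IrrCharacter H, cker (fun g => (φ : H → ℂ) (c g))
  have hK : ∀ g, g ∈ K ↔ c g = 1 := by
    intro g
    simp only [K, Subgroup.mem_iInf]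
    constructor
    · intro h
      apply eq_one_of_forall_irr
      intro φ hφ
      have := (mem_cker (irr_isChar (hirr φ hφ))).mp (h ⟨φ, hφ⟩)
      rwa [hc1] at this
    · intro h φ
      rw [mem_cker (irr_isChar (hirr _ φ.2)), h, hc1]
  have hdisj : K ⊓ H = ⊥ := by
    rw [eq_bot_iff]
    rintro x ⟨h1, h2⟩
    have := hcH ⟨x, h2⟩
    rw [(hK x).mp h1, isConj_one_left] at this
    exact congrArg Subtype.val this
  refine ⟨K, Subgroup.normal_iInf_normal fun φ => cker_normal (irr_classFun (hirr _ φ.2)), ?_, hdisj⟩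
  apply Subgroup.IsComplement'.sup_eq_top
  apply Subgroup.isComplement'_of_card_mul_and_disjoint _ (disjoint_iff.mpr hdisj)
  rw [← hW 1]
  simp only [W, mul_inv_eq_one, mul_eq_left]
  rw [Finset.sum_congr rfl (g := fun g => if g ∈ K then Nat.card H else 0) (fun g _ => by
    by_cases hg : c g = 1 <;> simp [hK, hg]), ← Finset.sum_filter, Finset.sum_const, smul_eq_mul,
    Nat.card_eq_fintype_card, Fintype.card_subtype]

end Cfsg.Agent.S0877
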