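import Cfsg.Statements.S0880
import Cfsg.Agent.Lib.Zassenhaus
import Cfsg.Agent.Lib.ConjCount

set_option autoImplicit false
open Cfsg

namespace Cfsg.Agent.S0880

open Finset

theorem result {G Ω : Type*} [Group G] [Finite G] [MulAction G Ω] [Fintype Ω] (hZ : Cfsg.IsZassenhausGroup G Ω) {a b : Ω} (hab : a ≠ b) [IsSimpleGroup G] (hodd : Odd (Nat.card ↥(MulAction.stabilizer G a ⊓ MulAction.stabilizer G b : Subgroup G))) (hlt : Nat.card ↥(MulAction.stabilizer G a ⊓ MulAction.stabilizer G b : Subgroup G) < Fintype.card Ω - 2) : ∃ x y : G, (∀ c : Ω, x • c ≠ c) ∧ (∀ c : Ω, y • c ≠ c) ∧ ¬ IsConj x y := by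
  classical
  have := Fintype.ofFinite G
  have h1 := Lib.Zassenhaus.card_fpf hZ
  have h2 := Lib.Zassenhaus.card_group hZ hab
  have h3 := Lib.Zassenhaus.three_le_card hZ
  have h4 := Lib.Zassenhaus.one_lt_card_stab2 hZ hab
  generalize Nat.card ↥(MulAction.stabilizer G a ⊓ MulAction.stabilizer G b : Subgroup G) = e at *
  obtain ⟨f, rfl⟩ := hodd
  obtain ⟨n, hn⟩ : ∃ n, Fintype.card Ω = n + 2 := ⟨Fintype.card Ω - 2, by omega⟩
  rw [hn] at h1 h2 h3
  simp only [Nat.add_sub_cancel, show n + 2 - 1 = n + 1 from rfl] at h1 h2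
  have hf : 1 ≤ f := by omega
  have hn0 : #{g : G | ∀ c : Ω, g • c ≠ c} = (n + 1) * ((n + 2) * f + 1) := by
    have : 2 * #{g : G | ∀ c : Ω, g • c ≠ c} = 2 * ((n + 1) * ((n + 2) * f + 1)) := by
      convert (show 2 * #{g : G | ∀ c : Ω, g • c ≠ c} = _ from Nat.eq_sub_of_add_eq (h1.trans h2))
      symm
      apply Nat.sub_eq_of_eq_add
      ring
    omega
  have hpos : 0 < #{g : G | ∀ c : Ω, g • c ≠ c} := by rw [hn0]; positivity
  obtain ⟨x, hx⟩ := Finset.card_pos.mp hpos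
  simp only [Finset.mem_filter, Finset.mem_univ, true_and] at hx
  by_contra hcon
  push Not at hcon
  have heq : ({g : G | ∀ c : Ω, g • c ≠ c} : Finset G) = ({y : G | IsConj x y} : Finset G) := by
    ext y
    simp only [Finset.mem_filter, Finset.mem_univ, true_and]
    refine ⟨fun hy => hcon x y hx hy, fun hy c hc => ?_⟩
    obtain ⟨g, rfl⟩ := isConj_iff.mp hy
    apply hx (g⁻¹ • c)
    rw [mul_smul, mul_smul, smul_eq_iff_eq_inv_smul] at hc
    exact hc
  have h5 := Lib.ConjCount.card_filter_isConj_mul x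
  have h6 : 1 < Nat.card (Subgroup.centralizer ({x} : Set G)) := by
    rw [Finite.one_lt_card_iff_nontrivial]
    refine ⟨⟨⟨x, Subgroup.mem_centralizer_singleton_iff.mpr rfl⟩, 1, fun h => ?_⟩⟩
    have : x = 1 := congrArg Subtype.val h
    exact hx a (by rw [this, one_smul])
  generalize Nat.card (Subgroup.centralizer ({x} : Set G)) = c at *
  have h7 : (n + 1) * (((n + 2) * f + 1) * c) = (n + 1) * ((n + 2) * (2 * f + 1)) := by
    have h8 : #{g : G | ∀ c : Ω, g • c ≠ c} * c = Nat.card G := by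
      rw [heq]; convert h5
    rw [hn0, h2] at h8
    linarith
  have h9 := Nat.eq_of_mul_eq_mul_left (by omega) h7
  rcases (show c = 2 ∨ 3 ≤ c by omega) with rfl | hc
  · nlinarith
  · have : ((n + 2) * f + 1) * 3 ≤ ((n + 2) * f + 1) * c := Nat.mul_le_mul_left _ hc
    nlinarith

end Cfsg.Agent.S0880
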