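import Cfsg.Statements.S0883
import Cfsg.Agent.Lib.ZassSimple

set_option autoImplicit false
open Cfsg

namespace Cfsg.Agent.S0883

open Lib.Zassenhaus Lib.ZassSimple

theorem result {G Ω : Type*} [Group G] [Finite G] [MulAction G Ω] [Fintype Ω] (hZ : Cfsg.IsZassenhausGroup G Ω) {a b : Ω} (hab : a ≠ b) [IsSimpleGroup G] (h e : ℕ) (hh : Fintype.card Ω = h + 1) (he : Nat.card ↥(MulAction.stabilizer G a ⊓ MulAction.stabilizer G b : Subgroup G) = e) (hodd : Odd e) (hlt : 2 * e < h - 1) (H : Subgroup G) (hHa : H ≤ MulAction.stabilizer G a) (hHcard : Nat.card H + 1 = Fintype.card Ω) (hHfix : ∀ u ∈ H, u ≠ 1 → ∀ c : Ω, u • c = c → c = a) (u : G) (hu : u ∈ H) (hu1 : u ≠ 1) (x y : G) (hx : orderOf x = 2) (hy : orderOf y = 2) (hxy : x * y = u) : orderOf u = 2 := by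
  have hodd' := he ▸ hodd
  have hx2 : x * x = 1 := by rw [← sq, ← hx, pow_orderOf_eq_one]
  have hy2 : y * y = 1 := by rw [← sq, ← hy, pow_orderOf_eq_one]
  have hinv : u⁻¹ = y * x := by
    rw [← hxy, mul_inv_rev, inv_eq_of_mul_eq_one_right hx2, inv_eq_of_mul_eq_one_right hy2]
  have hxa : x • a = a := kernel_ti hHa hHfix (H.inv_mem hu) (inv_ne_one.mpr hu1) (by
    rw [hinv, ← mul_assoc, mul_inv_cancel_right, hxy]; exact hu)
  have hya : y • a = a := kernel_ti hHa hHfix hu hu1 (by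
    rw [← hxy, ← mul_assoc, mul_inv_cancel_right, ← hinv]; exact H.inv_mem hu)
  have hxH : x ∈ H := (mem_kernel_iff hZ hHa hHcard hHfix x).mpr
    (Or.inr ⟨hxa, fun c hc => eq_of_involution_fix hZ hab hodd' hx hc hxa⟩)
  have hyH : y ∈ H := (mem_kernel_iff hZ hHa hHcard hHfix y).mpr
    (Or.inr ⟨hya, fun c hc => eq_of_involution_fix hZ hab hodd' hy hc hya⟩)
  rw [← centralizer_involution hZ hab hodd' hHa hHcard hHfix hxH hx,
    Subgroup.mem_centralizer_singleton_iff] at hyH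
  refine orderOf_eq_prime ?_ hu1
  rw [sq, ← eq_inv_iff_mul_eq_one, hinv, hyH, hxy]

end Cfsg.Agent.S0883
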