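import Cfsg.Statements.S0887
import Cfsg.Agent.Lib.CharExtend

set_option autoImplicit false
open Cfsg

namespace Cfsg.Agent.S0887

open Cfsg.Agent.Lib.CharRep Cfsg.Agent.Lib.CharBasic Cfsg.Agent.Lib.CharOrth Cfsg.Agent.Lib.CharInd Cfsg.Agent.Lib.CharInt Cfsg.Agent.Lib.CharClifford Cfsg.Agent.Lib.CharExtend

/-- Let N be a normal subgroup of the finite group G, χ an irreducible character of G and ϑ an irreducible character of N having nonzero inner product with the restriction of χ. If χ 1 = c and ϑ 1 = d as natural numbers, then d divides c and c / d divides the index of N. -/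
theorem result {G : Type*} [Group G] [Fintype G] (N : Subgroup G) [N.Normal] [Fintype N] (χ : G → ℂ) (hχ : Cfsg.IsIrrCharacter G χ) (ϑ : N → ℂ) (hϑ : Cfsg.IsIrrCharacter N ϑ) (hcon : Cfsg.classInner (fun n : N => χ n) ϑ ≠ 0) (c d : ℕ) (hc : χ 1 = c) (hd : ϑ 1 = d) : d ∣ c ∧ c / d ∣ N.index := by
  obtain ⟨e, he, he'⟩ := exists_deg_eq (ofNormal N) hχ hϑ hcon
  rw [deg_eq_of_eq hc, deg_eq_of_eq hd] at he
  have hd0 : 0 < d := deg_eq_of_eq hd ▸ irr_deg_pos hϑ
  rw [ofNormal_index] at he'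
  refine ⟨⟨e, by rw [he, mul_comm]⟩, ?_⟩
  rwa [he, Nat.mul_div_cancel _ hd0]

end Cfsg.Agent.S0887
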