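import Cfsg.Statements.S0891
import Cfsg.Agent.Lib.AltPres

set_option autoImplicit false
open Cfsg

namespace Cfsg.Agent.S0891

open Equiv Equiv.Perm Subgroup Lib.AltPres
open scoped commutatorElement

theorem exists_ring (ι : Type) [Fintype ι] [DecidableEq ι] :
    ∃ (R : Type) (_ : Ring R) (u : ι → R), (-1 : R) ≠ 1 ∧ (∀ i, u i * u i = 1) ∧
      ∀ i j, i ≠ j → u i * u j + u j * u i = 1 := by
  let M : Matrix ι ι ℚ := Matrix.of fun i j => if i = j then 1 else 1 / 2
  let Q : QuadraticForm ℚ (ι → ℚ) := LinearMap.BilinMap.toQuadraticMap (Matrix.toBilin' M)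
  refine ⟨CliffordAlgebra Q, inferInstance, fun i => CliffordAlgebra.ι Q (Pi.single i 1), ?_,
    fun i => ?_, fun i j hij => ?_⟩
  · intro h
    have h1 : algebraMap ℚ (CliffordAlgebra Q) (-1) = algebraMap ℚ _ 1 := by simpa using h
    have := (algebraMap ℚ (CliffordAlgebra Q)).injective h1
    norm_num at this
  · rw [CliffordAlgebra.ι_sq_scalar]
    simp [Q, M, Matrix.toBilin'_single]
  · rw [CliffordAlgebra.ι_mul_ι_add_swap]
    simp only [Q, LinearMap.BilinMap.polar_toQuadraticMap, Matrix.toBilin'_single, M,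
      Matrix.of_apply, if_neg hij, if_neg hij.symm]
    norm_num

theorem exists_group (ι : Type) [Fintype ι] [DecidableEq ι] (b : ι) :
    ∃ (X : Type) (_ : Group X) (y : ι → X) (w : X), w ∈ center X ∧ orderOf w = 2 ∧
      (∀ i, i ≠ b → y i ^ 3 = 1) ∧ ∀ i j, i ≠ b → j ≠ b → i ≠ j → (y i * y j) ^ 2 = w := by
  obtain ⟨R, _, u, h0, h1, h2⟩ := exists_ring ι
  have h3 : ∀ i j, u i * u j * (u j * u i) = 1 := fun i j => by
    rw [mul_assoc, ← mul_assoc (u j), h1, one_mul, h1]
  refine ⟨Rˣ, inferInstance, fun i => ⟨-(u i * u b), -(u b * u i), by simp [h3], by simp [h3]⟩, -1,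
    ?_, ?_, fun i hi => ?_, fun i j hi hj hij => ?_⟩
  · simp [mem_center_iff]
  · exact orderOf_eq_prime (by simp) (fun h => h0 (congrArg Units.val h))
  · ext
    have h4 : u b * u i = 1 - u i * u b := eq_sub_of_add_eq' (h2 i b hi)
    have h5 : u i * u b * (u i * u b) = u i * u b - 1 := by
      rw [mul_assoc, ← mul_assoc (u b), h4, sub_mul, one_mul, mul_assoc (u i), h1, mul_one, mul_sub,
        h1]
    simp only [Units.val_mul, Units.val_pow_eq_pow_val, Units.val_one, pow_succ, pow_zero, one_mul,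
      neg_mul, mul_neg, neg_neg]
    rw [h5, sub_mul, h5]
    simp
  · ext
    have h4 : u b * u j = 1 - u j * u b := eq_sub_of_add_eq' (h2 j b hj)
    have h5 : u i * u b * (u j * u b) = u i * (u b - u j) := by
      rw [mul_assoc, ← mul_assoc (u b), h4, sub_mul, one_mul, mul_assoc (u j), h1, mul_one]
    have h6 : (u b - u j) * u i = -(u i * (u b - u j)) := by
      rw [eq_neg_iff_add_eq_zero]
      have e1 := h2 i b hi
      have e2 := h2 i j hij
      rw [sub_mul, mul_sub]
      linear_combination (norm := noncomm_ring) e1 - e2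
    have h7 : (u b - u j) * (u b - u j) = 1 := by
      have e2 := h2 j b hj
      rw [sub_mul, mul_sub, mul_sub, h1, h1]
      linear_combination (norm := noncomm_ring) -e2
    simp only [Units.val_pow_eq_pow_val, Units.val_mul, pow_succ, pow_zero, one_mul, neg_mul_neg, h5,
      Units.val_neg, Units.val_one]
    rw [mul_assoc, ← mul_assoc (u b - u j), h6, neg_mul, mul_neg, mul_assoc, h7, mul_one, h1]

theorem result (n : ℕ) (hn : 4 ≤ n) : ∃ (Γ : Type) (_ : Group Γ) (_ : Finite Γ) (z : Γ) (hz : z ∈ Subgroup.center Γ), orderOf z = 2 ∧ z ∈ commutator Γ ∧ ∃ _ : (Subgroup.zpowers z).Normal, Nonempty (Γ ⧸ Subgroup.zpowers z ≃* alternatingGroup (Fin n)) := by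
  classical
  let a : Fin n := ⟨0, by omega⟩
  let b : Fin n := ⟨1, by omega⟩
  let c : Fin n := ⟨2, by omega⟩
  let d : Fin n := ⟨3, by omega⟩
  have hab : a ≠ b := by simp [a, b]
  obtain ⟨X, _, y, w, hw, hw2, hy3, hy2⟩ := exists_group (Fin n) b
  let s : Finset (Fin n) := Finset.univ.filter fun c => c ≠ a ∧ c ≠ b
  have hs : ∀ i, i ∈ s ↔ i ≠ a ∧ i ≠ b := by simp [s]
  let Y : Fin n → Perm (Fin n) × X := fun i => (cyc a b i, y i)
  let S : Set (Perm (Fin n) × X) := insert (1, w) (Y '' s)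
  let z : closure S := ⟨(1, w), subset_closure (Set.mem_insert _ _)⟩
  let Y' : Fin n → closure S := fun i =>
    if h : i ∈ s then ⟨Y i, subset_closure (Set.mem_insert_of_mem _ ⟨i, h, rfl⟩)⟩ else 1
  have hY' : ∀ i ∈ s, (Y' i : Perm (Fin n) × X) = Y i := fun i hi => by simp [Y', hi]
  have hz : z ∈ center (closure S) := by
    rw [mem_center_iff]
    intro g
    exact Subtype.ext (Prod.ext (by simp [z]) (mem_center_iff.mp hw g.1.2))
  have hzo : orderOf z = 2 := by
    rw [← Subgroup.orderOf_coe, Prod.orderOf_mk, orderOf_one, Nat.lcm_one_left, hw2]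
  have hz2 : z ^ 2 = 1 := by rw [← hzo, pow_orderOf_eq_one]
  have h3 : ∀ i ∈ s, Y' i ^ 3 = 1 := by
    intro i hi
    apply Subtype.ext
    rw [Subgroup.coe_pow, hY' i hi]
    rw [hs] at hi
    exact Prod.ext (cyc_pow_three hab hi.1.symm hi.2.symm) (hy3 i hi.2)
  have h2 : ∀ i ∈ s, ∀ j ∈ s, i ≠ j → (Y' i * Y' j) ^ 2 = z := by
    intro i hi j hj hij
    apply Subtype.ext
    rw [Subgroup.coe_pow, Subgroup.coe_mul, hY' i hi, hY' j hj]
    rw [hs] at hi hj
    exact Prod.ext (cyc_mul_cyc_sq hab hi.1.symm hi.2.symm hj.1.symm hj.2.symm hij)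
      (hy2 i j hi.2 hj.2 hij)
  have hgen : closure (Y' '' s) ⊔ zpowers z = ⊤ := by
    rw [eq_top_iff, ← closure_closure_coe_preimage, closure_le]
    rintro x (hx | ⟨i, hi, hx⟩)
    · exact mem_sup_right (by rw [show x = z from Subtype.ext hx]; exact mem_zpowers z)
    · exact mem_sup_left (subset_closure ⟨i, hi, Subtype.ext ((hY' i hi).trans hx)⟩)
  obtain ⟨hfin, hcard⟩ := card_le_of_gens s Y' hz hz2 h3 h2 hgen
  rw [card_index a b hab] at hcard
  let π : closure S →* Perm (Fin n) := (MonoidHom.fst _ _).comp (closure S).subtype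
  have hrange : π.range = alternatingGroup (Fin n) := by
    rw [MonoidHom.range_comp, Subgroup.range_subtype, MonoidHom.map_closure, Set.image_insert_eq,
      Set.image_image, ← closure_cyc hab]
    simp only [MonoidHom.coe_fst, Subgroup.closure_insert_one, Y, s, Finset.coe_filter,
      Finset.mem_univ, true_and]
  have hker : zpowers z = π.ker := by
    apply Subgroup.eq_of_le_of_card_ge (zpowers_le.mpr rfl)
    have : Nontrivial (Fin n) := ⟨⟨a, b, hab⟩⟩
    have h1 := π.ker.card_mul_index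
    have h4 := two_mul_nat_card_alternatingGroup (α := Fin n)
    rw [index_ker, hrange] at h1
    rw [Nat.card_perm, Nat.card_eq_fintype_card (α := Fin n)] at h4
    rw [Nat.card_zpowers, hzo]
    rw [← h1, ← h4] at hcard
    exact Nat.le_of_mul_le_mul_right hcard Nat.card_pos
  have hn := normal_zpowers_of_mem_center hz
  refine ⟨closure S, inferInstance, hfin, z, hz, hzo, ?_, hn,
    ⟨(QuotientGroup.quotientMulEquivOfEq hker).trans
      ((QuotientGroup.quotientKerEquivRange π).trans (MulEquiv.subgroupCongr hrange))⟩⟩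
  have hc : c ∈ s := by simp [hs, a, b, c]
  have hd : d ∈ s := by simp [hs, a, b, d]
  have hcd : c ≠ d := by simp [c, d]
  have e1 := h2 c hc d hd hcd
  have e2 := h2 d hd c hc hcd.symm
  have e3 := h3 c hc
  have e4 := h3 d hd
  generalize Y' c = p at *
  generalize Y' d = q at *
  have hzi : z⁻¹ = z := inv_eq_of_mul_eq_one_right (by rw [← sq, hz2])
  have hcomm : ∀ g, z * g = g * z := fun g => (mem_center_iff.mp hz g).symm
  have e5 : ⁅p * q, q * p⁆ = z := by
    have f1 : (p * q)⁻¹ = z * (p * q) := by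
      rw [← hzi, ← e1, sq]; group
    have f2 : (q * p)⁻¹ = z * (q * p) := by
      rw [← hzi, ← e2, sq]; group
    have f3 : p * p = p⁻¹ := eq_inv_of_mul_eq_one_left (by rw [← e3, pow_succ, sq])
    have f4 : q * q = q⁻¹ := eq_inv_of_mul_eq_one_left (by rw [← e4, pow_succ, sq])
    rw [commutatorElement_def, f1, f2]
    calc p * q * (q * p) * (z * (p * q)) * (z * (q * p))
        = p * (q * q) * p * (z * (p * q) * z) * (q * p) := by group
      _ = p * (q * q) * (p * p) * (q * q) * (p * p) * p⁻¹ := by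
        rw [hcomm, mul_assoc (p * q), ← sq z, hz2]; group
      _ = p * ((p * q) ^ 2)⁻¹ * p⁻¹ := by rw [f3, f4, sq]; group
      _ = z := by rw [e1, hzi, ← hcomm]; group
  rw [← e5]
  exact commutator_mem_commutator (mem_top _) (mem_top _)

end Cfsg.Agent.S0891
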