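import Cfsg.Statements.S0893
import Cfsg.Agent.Lib.CharExtraspecial

set_option autoImplicit false
open Cfsg

namespace Cfsg.Agent.S0893

open Lib.CharBasic Lib.CharOrth Lib.CharInd Lib.CharInt Lib.CharExtraspecial

theorem result {P : Type*} [Group P] [Fintype P] (p n : ℕ) [Fact p.Prime] (hP : Cfsg.IsExtraspecial p P) (hcard : Nat.card P = p ^ (2 * n + 1)) (A : Subgroup P) (hab : ∀ a ∈ A, ∀ b ∈ A, a * b = b * a) (hA : Nat.card A = p ^ (n + 1)) (lam : A → ℂ) (hlam : Cfsg.IsCharacter A lam ∧ lam 1 = 1) (hZ : ∃ a : A, (a : P) ∈ Subgroup.center P ∧ lam a ≠ 1) : Cfsg.IsIrrCharacter P (Cfsg.indFun A lam) ∧ ∀ x : P, x ∉ Subgroup.center P → Cfsg.indFun A lam x = 0 := by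
  classical
  have hp : p.Prime := Fact.out
  have hch := isChar_indFun A hlam.1
  have hidx : A.index = p ^ n := by
    have := A.index_mul_card
    rw [hA, hcard, show 2 * n + 1 = n + (n + 1) by ring, pow_add p n (n + 1)] at this
    exact Nat.eq_of_mul_eq_mul_right (pow_pos hp.pos _) this
  have hdeg : deg (indFun A lam) = p ^ n := by
    rw [deg_indFun A hlam.1, hidx, deg_eq_of_eq (n := 1) (by simpa using hlam.2), mul_one]
  have hne : indFun A lam ≠ 0 := by
    intro h
    rw [h, deg_eq_of_eq (n := 0) (by simp)] at hdeg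
    exact (pow_pos hp.pos n).ne hdeg
  obtain ⟨χ, hχ, hc⟩ := exists_irr_inner_ne_zero (char_classFun hch) hne
  have hnt : ∃ k ∈ Subgroup.center P, χ k ≠ χ 1 := by
    obtain ⟨a, ha, hla⟩ := hZ
    refine ⟨a, ha, fun h => hla ?_⟩
    have hc' := hc
    rw [cinner_indFun_left A lam (irr_classFun hχ), cinner_ne_zero_comm] at hc'
    have := cker_le_of_inner_ne_zero (isChar_res (irr_isChar hχ) A)
      (irr_of_linear hlam.1 hlam.2) hc' ((mem_cker (isChar_res (irr_isChar hχ) A)).mpr h)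
    rw [(mem_cker hlam.1).mp this, hlam.2]
  have heq := eq_of_inner_ne_zero_of_deg_le hch hχ hc
    (by rw [hdeg, deg_eq_of_nontrivial hP hcard hχ hnt])
  rw [heq]
  exact ⟨hχ, fun x hx => eq_zero_of_not_mem_center hP hχ hnt hx⟩

end Cfsg.Agent.S0893
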