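import Cfsg.Statements.S0894
import Cfsg.Agent.Lib.CharExtraspecial

set_option autoImplicit false
open Cfsg

namespace Cfsg.Agent.S0894

open Lib.CharBasic Lib.CharOrth Lib.CharInd Lib.CharInt Lib.CharFrob Lib.CharExtraspecial

theorem result {P : Type*} [Group P] [Finite P] (p n : ℕ) [Fact p.Prime] (hP : Cfsg.IsExtraspecial p P) (hcard : Nat.card P = p ^ (2 * n + 1)) : (∀ χ : Cfsg.IrrCharacter P, (χ : P → ℂ) 1 = 1 ∨ (χ : P → ℂ) 1 = (p : ℂ) ^ n) ∧ Nat.card {χ : Cfsg.IrrCharacter P // (χ : P → ℂ) 1 = (p : ℂ) ^ n} = p - 1 := by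
  classical
  have hp : p.Prime := Fact.out
  have hdeg : ∀ χ, IsIrrCharacter P χ → (∃ k ∈ Subgroup.center P, χ k ≠ χ 1) →
      χ 1 = (p : ℂ) ^ n := by
    intro χ hχ h
    rw [← deg_cast (irr_isChar hχ), deg_eq_of_nontrivial hP hcard hχ h]
    simp
  have hpn : (p : ℂ) ^ n ≠ 1 := by
    have := Nat.one_lt_pow (pos_of_card hP hcard).ne' hp.one_lt
    exact_mod_cast this.ne'
  refine ⟨fun χ => ?_, ?_⟩
  · by_cases h : ∃ k ∈ Subgroup.center P, (χ : P → ℂ) k ≠ (χ : P → ℂ) 1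
    · exact Or.inr (hdeg _ χ.2 h)
    · exact Or.inl (linear_of_trivial hP χ.2 h)
  · have h1 := sum_nontrivial (Subgroup.center P) 1
    rw [if_pos rfl, if_pos (Subgroup.one_mem _), Finset.sum_congr rfl (g := fun _ => (p : ℂ) ^ (2 * n))
      (fun χ hχ => by
        simp only [Finset.mem_filter, mem_irr] at hχ
        rw [hdeg χ hχ.1 hχ.2]; ring), Finset.sum_const, nsmul_eq_mul] at h1
    have hidx : (Subgroup.center P).index = p ^ (2 * n) := by
      have := (Subgroup.center P).index_mul_card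
      rw [hP.2, hcard, pow_succ] at this
      exact Nat.eq_of_mul_eq_mul_right hp.pos this
    rw [hidx, hcard] at h1
    have hp0 : (p : ℂ) ^ (2 * n) ≠ 0 := pow_ne_zero _ (by exact_mod_cast hp.ne_zero)
    have h2 := mul_right_cancel₀ hp0 (h1.trans (show _ = ((p - 1 : ℕ) : ℂ) * (p : ℂ) ^ (2 * n) by
      rw [Nat.cast_sub hp.one_le]; push_cast; ring))
    rw [← Nat.cast_inj (R := ℂ), ← h2, Nat.cast_inj, ← Nat.card_eq_finsetCard]
    apply Nat.card_congr
    refine ⟨fun χ => ⟨χ.1.1, ?_⟩, fun χ => ⟨⟨χ.1, ?_⟩, ?_⟩, fun _ => rfl, fun _ => rfl⟩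
    · simp only [Finset.mem_filter, mem_irr]
      refine ⟨χ.1.2, ?_⟩
      by_contra h
      exact hpn (χ.2.symm.trans (linear_of_trivial hP χ.1.2 h))
    · have := χ.2
      simp only [Finset.mem_filter, mem_irr] at this
      exact this.1
    · have := χ.2
      simp only [Finset.mem_filter, mem_irr] at this
      exact hdeg _ this.1 this.2

end Cfsg.Agent.S0894
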