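import Cfsg.Statements.S0895
import Cfsg.Agent.Lib.CharOrth

set_option autoImplicit false
open Cfsg

namespace Cfsg.Agent.S0895

open Lib.CharRep Lib.CharBasic Lib.CharOrth Matrix

theorem result {G : Type*} [Group G] [Fintype G] (χ : G → ℂ) (hχ : Cfsg.IsIrrCharacter G χ) (hreal : ∀ g : G, (χ g).im = 0) (d : ℕ) (hd : χ 1 = d) (hodd : Odd d) : (Nat.card G : ℂ)⁻¹ * ∑ s : G, χ (s * s) = 1 := by
  classical
  have h1 := cinner_irr_self hχ
  obtain ⟨n, ρ, hρ, rfl⟩ := hχ
  let R : G → Matrix (Fin n) (Fin n) ℂ := fun g => LinearMap.toMatrix' (ρ g)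
  have hRmul : ∀ g h, R (g * h) = R g * R h := fun g h => by
    simp only [R, map_mul, LinearMap.toMatrix'_mul]
  have hR1 : R 1 = 1 := by simp [R]
  have htr : ∀ g, ρ.character g = (R g).trace := fun g => by
    simp only [R, Representation.character]
    rw [← LinearMap.toMatrix_eq_toMatrix', LinearMap.trace_eq_matrix_trace ℂ (Pi.basisFun ℂ (Fin n))]
  have hlin : ∀ g, Matrix.toLin' (R g) = ρ g := fun g => by simp [R]
  have hn : n = d := by
    rw [htr, hR1] at hd
    simpa using hd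
  -- invariant forms
  have hinv : ∀ B : Matrix (Fin n) (Fin n) ℂ, (∀ g, (R g)ᵀ * B * R g = B) → B ≠ 0 → IsUnit B := by
    intro B hB h0
    rcases ((isIrreducible_iff ρ).mp hρ).2 (LinearMap.ker (Matrix.toLin' B)) (fun g v hv => by
      rw [LinearMap.mem_ker] at hv ⊢
      have h2 : B * R g = (R g⁻¹)ᵀ * B := by
        conv_rhs => rw [← hB g]
        rw [← Matrix.mul_assoc, ← Matrix.mul_assoc, ← Matrix.transpose_mul, ← hRmul]
        simp [hR1]
      rw [← hlin, ← LinearMap.comp_apply, ← Matrix.toLin'_mul, h2, Matrix.toLin'_mul,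
        LinearMap.comp_apply, hv, map_zero]) with h | h
    · rw [← Matrix.isUnit_toLin'_iff, LinearMap.isUnit_iff_ker_eq_bot]
      exact h
    · rw [LinearMap.ker_eq_top] at h
      exact absurd ((Matrix.toLin').map_eq_zero_iff.mp h) h0
  have hscal : ∀ B B' : Matrix (Fin n) (Fin n) ℂ, (∀ g, (R g)ᵀ * B * R g = B) → B ≠ 0 →
      (∀ g, (R g)ᵀ * B' * R g = B') → ∃ c : ℂ, B' = c • B := by
    intro B B' hB h0 hB'
    obtain ⟨u, rfl⟩ := hinv B hB h0
    have h2 : ∀ (C : Matrix (Fin n) (Fin n) ℂ), (∀ g, (R g)ᵀ * C * R g = C) →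
        ∀ g, C * R g = (R g⁻¹)ᵀ * C := by
      intro C hC g
      conv_rhs => rw [← hC g]
      rw [← Matrix.mul_assoc, ← Matrix.mul_assoc, ← Matrix.transpose_mul, ← hRmul]
      simp [hR1]
    obtain ⟨c, hc⟩ := schur ρ hρ (Matrix.toLin' ((u⁻¹ : (Matrix (Fin n) (Fin n) ℂ)ˣ) * B')) (fun g => by
      rw [← hlin, Module.End.mul_eq_comp, Module.End.mul_eq_comp, ← Matrix.toLin'_mul,
        ← Matrix.toLin'_mul, Matrix.mul_assoc, h2 B' hB' g, ← Matrix.mul_assoc,
        ← Matrix.mul_assoc]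
      congr 2
      rw [Units.inv_mul_eq_iff_eq_mul, ← Matrix.mul_assoc, h2 _ hB g, Matrix.mul_assoc]
      simp)
    refine ⟨c, ?_⟩
    have h3 : ((u⁻¹ : (Matrix (Fin n) (Fin n) ℂ)ˣ) : Matrix (Fin n) (Fin n) ℂ) * B' = c • 1 := by
      apply Matrix.toLin'.injective
      rw [hc, map_smul, Matrix.toLin'_one]
      rfl
    rw [Units.inv_mul_eq_iff_eq_mul] at h3
    rw [h3]; simp
  let T : Fin n → Fin n → Matrix (Fin n) (Fin n) ℂ := fun i j =>
    Matrix.of fun k l => ∑ g : G, R g i k * R g j l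
  have hT : ∀ i j g, (R g)ᵀ * T i j * R g = T i j := by
    intro i j g
    ext k l
    simp only [T, Matrix.mul_apply, Matrix.of_apply, Matrix.transpose_apply, Finset.mul_sum,
      Finset.sum_mul]
    rw [← Equiv.sum_comp (Equiv.mulRight g) (fun x => R x i k * R x j l)]
    simp only [Equiv.coe_mulRight, hRmul, Matrix.mul_apply, Finset.sum_mul, Finset.mul_sum]
    simp only [Finset.sum_comm (s := (Finset.univ : Finset G))]
    refine Finset.sum_congr rfl fun a _ => Finset.sum_congr rfl fun b _ =>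
      Finset.sum_congr rfl fun x _ => by ring
  have hA : ∑ i, ∑ j, T i j i j = Nat.card G := by
    have h2 : ∑ g : G, ρ.character g * ρ.character g = Nat.card G := by
      unfold classInner at h1
      rw [inv_mul_eq_one₀ card_ne_zero] at h1
      rw [h1]
      exact Finset.sum_congr rfl fun g _ => by rw [Complex.conj_eq_iff_im.mpr (hreal g)]
    rw [← h2]
    simp only [T, Matrix.of_apply, htr, Matrix.trace, Matrix.diag, Finset.sum_mul_sum]
    simp only [Finset.sum_comm (s := (Finset.univ : Finset G))]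
  have hB : ∑ i, ∑ j, T i j j i = ∑ s : G, ρ.character (s * s) := by
    simp only [T, Matrix.of_apply, htr, hRmul, Matrix.trace, Matrix.diag, Matrix.mul_apply]
    simp only [Finset.sum_comm (s := (Finset.univ : Finset G))]
  obtain ⟨i₀, j₀, h0⟩ : ∃ i j, T i j ≠ 0 := by
    by_contra h
    push Not at h
    simp only [h, Matrix.zero_apply, Finset.sum_const_zero] at hA
    exact card_ne_zero hA.symm
  obtain ⟨ε, hε⟩ := hscal (T i₀ j₀) (T i₀ j₀)ᵀ (hT i₀ j₀) h0 (fun g => by
    conv_rhs => rw [← hT i₀ j₀ g]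
    simp [Matrix.transpose_mul, Matrix.mul_assoc])
  have hε2 : ε * ε = 1 := by
    have h2 := congrArg Matrix.transpose hε
    rw [Matrix.transpose_transpose, Matrix.transpose_smul, hε, smul_smul] at h2
    have h3 : (ε * ε - 1) • T i₀ j₀ = 0 := by rw [sub_smul, one_smul, ← h2, sub_self]
    exact sub_eq_zero.mp ((smul_eq_zero.mp h3).resolve_right h0)
  have hε1 : ε = 1 := by
    rcases mul_self_eq_one_iff.mp hε2 with h | h
    · exact h
    · exfalso
      have h2 := congrArg Matrix.det hε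
      rw [Matrix.det_transpose, Matrix.det_smul, Fintype.card_fin, h, (hn ▸ hodd : Odd n).neg_one_pow] at h2
      have h3 := (Matrix.isUnit_iff_isUnit_det _).mp (hinv _ (hT i₀ j₀) h0)
      apply h3.ne_zero
      linear_combination (1 / 2 : ℂ) * h2
  rw [hε1, one_smul] at hε
  have hsym : ∀ i j k l, T i j k l = T i j l k := by
    intro i j k l
    obtain ⟨c, hc⟩ := hscal (T i₀ j₀) (T i j) (hT i₀ j₀) h0 (hT i j)
    rw [hc, Matrix.smul_apply, Matrix.smul_apply, ← Matrix.transpose_apply (T i₀ j₀) k l, hε]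
  rw [← hB, Finset.sum_congr rfl fun i _ => Finset.sum_congr rfl fun j _ => hsym i j j i, hA]
  exact inv_mul_cancel₀ card_ne_zero

end Cfsg.Agent.S0895
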