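import Cfsg.Statements.S0897
import Cfsg.Agent.Lib.CharElem

set_option autoImplicit false
open Cfsg

namespace Cfsg.Agent.S0897

open Cfsg.Agent.Lib.CharRep Cfsg.Agent.Lib.CharBasic Cfsg.Agent.Lib.CharOrth Cfsg.Agent.Lib.CharInd Cfsg.Agent.Lib.CharInt Cfsg.Agent.Lib.CharClifford Cfsg.Agent.Lib.CharMod Cfsg.Agent.Lib.CharExtend Cfsg.Agent.Lib.CharElem Cfsg.Agent.Lib.SolvBasic
open scoped Pointwise

/-- Let N be a normal subgroup of the finite group G with the index of N a power of the prime p, and P a Sylow p-subgroup of G such that P ⊓ N lies in the centre of P and every character of degree 1 of P ⊓ N is the restriction of a character of degree 1 of P. Then every irreducible character of N invariant under conjugation by G is the restriction of an irreducible character of G. -/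
theorem result {G : Type*} [Group G] [Fintype G] (p : ℕ) [Fact p.Prime] (N : Subgroup G) [hN : N.Normal] (hind : ∃ k : ℕ, N.index = p ^ k) (P : Sylow p G) (hcent : ∀ x ∈ (P : Subgroup G) ⊓ N, ∀ y ∈ (P : Subgroup G), x * y = y * x) (hlin : ∀ lam : ↥((P : Subgroup G) ⊓ N) → ℂ, Cfsg.IsCharacter ↥((P : Subgroup G) ⊓ N) lam → lam 1 = 1 → ∃ μ : ↥(P : Subgroup G) → ℂ, Cfsg.IsCharacter ↥(P : Subgroup G) μ ∧ μ 1 = 1 ∧ ∀ x : ↥((P : Subgroup G) ⊓ N), μ ⟨(x : G), x.2.1⟩ = lam x) (ϑ : N → ℂ) (hϑ : Cfsg.IsIrrCharacter N ϑ) (hinv : ∀ (g : G) (n : N), ϑ ⟨g * n * g⁻¹, hN.conj_mem (n : G) n.2 g⟩ = ϑ n) : ∃ χ : G → ℂ, Cfsg.IsIrrCharacter G χ ∧ ∀ n : N, χ n = ϑ n := by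
  have hp : p.Prime := Fact.out
  obtain ⟨k, hk⟩ := hind
  obtain ⟨E, _, φ, hE, h1, hφ, -, h3⟩ := exists_elementary_not_dvd hp N hk hϑ hinv
  haveI := Fintype.ofFinite N
  haveI := Fintype.ofFinite E
  obtain ⟨j, n, hn, hmn⟩ := Nat.exists_eq_pow_mul_and_not_dvd (Nat.card_pos (α := G)).ne' p
    hp.one_lt.ne'
  have hpn : p.Coprime n := (Nat.Prime.coprime_iff_not_dvd hp).2 hn
  have hcop : (p ^ j).Coprime n := hpn.pow_left j
  have hnm : Nat.card G = n * p ^ j := by rw [hmn, mul_comm]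
  obtain ⟨e, he, he'⟩ := Nat.chineseRemainder hcop 0 1
  have he : p ^ j ∣ e := (Nat.modEq_zero_iff_dvd).1 he
  obtain ⟨f, hf', hf⟩ := Nat.chineseRemainder hcop 1 0
  have hf : n ∣ f := (Nat.modEq_zero_iff_dvd).1 hf
  have hdec : ∀ x : G, x = x ^ f * x ^ e ∧ (x ^ f) ^ p ^ j = 1 ∧ (x ^ e) ^ n = 1 ∧
      (x ^ f) ^ f = x ^ f := fun x => by
    obtain ⟨u, v, hx, hc, hu, hv⟩ := exists_decomp hmn hcop x
    have e1 : x ^ e = v := hx ▸ mul_pow_eq_of_coprime hmn he he' hc hu hv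
    have e2 : x ^ f = u := by
      rw [hx, hc.eq]; exact mul_pow_eq_of_coprime hnm hf hf' hc.symm hv hu
    rw [e1, e2]
    exact ⟨hx, pow_eq_one_of_coprime hmn dvd_rfl hu, pow_eq_one_of_coprime hnm dvd_rfl hv,
      pow_eq_self_of_coprime hnm hf' hu⟩
  let π : E →* E := MonoidHom.mk' (· ^ e) (mul_pow_of_elementary hmn hcop he he' hp E hE)
  let π' : E →* E := MonoidHom.mk' (· ^ f) (mul_pow_of_elementary hnm hcop.symm hf hf' hp E hE)
  have hoe : ∀ x : G, (orderOf (x ^ e)).Coprime p := fun x =>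
    hpn.symm.coprime_dvd_left (orderOf_dvd_of_pow_eq_one (hdec x).2.2.1)
  have heN : ∀ x : G, x ^ e ∈ N := fun x => le_of_coprime_card_index
    (K := Subgroup.zpowers (x ^ e)) (by
      rw [Nat.card_zpowers, hk]; exact (hoe x).pow_right k) (Subgroup.mem_zpowers _)
  have hez : ∀ x y : E, Commute ((x : G) ^ e) y := fun x y => by
    obtain ⟨c, hc, -, l, hl⟩ := hE
    have hz : Subgroup.zpowers c ≤ Subgroup.center E := (Subgroup.zpowers_le).2 hc
    haveI : (Subgroup.zpowers c).Normal := ⟨fun a ha g => by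
      rw [Subgroup.mem_center_iff.1 (hz ha) g, mul_inv_cancel_right]; exact ha⟩
    have : x ^ e ∈ Subgroup.zpowers c := le_of_coprime_card_index
      (K := Subgroup.zpowers (x ^ e)) (by
        rw [Nat.card_zpowers, hl, ← Subgroup.orderOf_coe]; exact (hoe x).pow_right l)
        (Subgroup.mem_zpowers _)
    exact congrArg Subtype.val (Subgroup.mem_center_iff.1 (hz this) y).symm
  have hpg : IsPGroup p (E.subtype.comp π').range := by
    rintro ⟨_, x, rfl⟩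
    exact ⟨j, Subtype.ext (hdec x).2.1⟩
  obtain ⟨P', hP'⟩ := hpg.exists_le_sylow
  obtain ⟨g, rfl⟩ := MulAction.exists_smul_eq G P P'
  have hgP : ∀ x : E, g⁻¹ * (x : G) ^ f * g ∈ (P : Subgroup G) := fun x =>
    mem_conj_smul_iff.1 (hP' ⟨x, rfl⟩)
  have hgN : ∀ x : ↥(E ⊓ N), g⁻¹ * (x : G) ^ f * g ∈ N := fun x => by
    simpa using hN.conj_mem _ (N.pow_mem x.2.2 f) g⁻¹
  have hD : ∀ x y : ↥(E ⊓ N), x * y = y * x := fun x y => Subtype.ext (by
    have c1 : Commute ((x : G) ^ f) ((y : G) ^ f) := by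
      have := hcent _ ⟨hgP ⟨x, x.2.1⟩, hgN x⟩ _ (hgP ⟨y, y.2.1⟩)
      change _ * _ = _ * _
      apply mul_right_cancel (b := g)
      simpa [mul_assoc] using this
    have c2 : Commute ((x : G) ^ f * (x : G) ^ e) ((y : G) ^ f * (y : G) ^ e) :=
      Commute.mul_left (Commute.mul_right c1 ((hez ⟨y, y.2.1⟩ ⟨x, x.2.1⟩).pow_right f).symm)
        (by rw [← (hdec y).1]; exact hez ⟨x, x.2.1⟩ ⟨y, y.2.1⟩)
    rw [← (hdec x).1, ← (hdec y).1] at c2
    exact c2.eq)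
  obtain ⟨φ', rfl⟩ := exists_hom_of_linear (irr_isChar hφ) (irr_one_eq_one_of_comm' hD hφ)
  let i : ↥(E ⊓ N) →* E := Subgroup.inclusion inf_le_left
  let A : Subgroup ↥(E ⊓ N) := (π'.comp i).eqLocus i
  let J : E →* (P : Subgroup G) :=
    (((MulAut.conj g⁻¹).toMonoidHom.comp (E.subtype.comp π'))).codRestrict _ (fun x => by
      change g⁻¹ * (x : G) ^ f * g⁻¹⁻¹ ∈ _
      rw [inv_inv]; exact hgP x)
  have hJ : ∀ x : E, (J x : G) = g⁻¹ * (x : G) ^ f * g := fun x => by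
    change g⁻¹ * (x : G) ^ f * g⁻¹⁻¹ = _
    rw [inv_inv]
  let jA : A →* ↥((P : Subgroup G) ⊓ N) :=
    (((P : Subgroup G).subtype.comp J).comp (i.comp A.subtype)).codRestrict _ (fun x =>
      ⟨(J _).2, by
        change (J _ : G) ∈ N
        rw [hJ]; exact hgN x⟩)
  have hA : ∀ x : A, ((x : ↥(E ⊓ N)) : G) ^ f = (x : ↥(E ⊓ N)) := fun x =>
    congrArg Subtype.val x.2
  obtain ⟨lam, hlam⟩ := exists_hom_extend'
    (fun a b : ↥((P : Subgroup G) ⊓ N) => Subtype.ext (hcent a a.2 b b.2.1)) jA (fun x y h => by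
      have h1 : (J (i x) : G) = J (i y) := congrArg (fun z : ↥((P : Subgroup G) ⊓ N) => (z : G)) h
      rw [hJ, hJ, mul_left_inj, mul_right_inj] at h1
      exact Subtype.ext (Subtype.ext ((hA x).symm.trans (h1.trans (hA y))))) (φ'.comp A.subtype)
  obtain ⟨μ, hμ, hμ1, hμe⟩ := hlin _ (isChar_of_unitsHom lam) (by simp)
  obtain ⟨μ', rfl⟩ := exists_hom_of_linear hμ hμ1
  let πD : E →* ↥(E ⊓ N) := (E.subtype.comp π).codRestrict _ (fun x => ⟨(π x).2, heN x⟩)
  let ψ : E →* ℂˣ := μ'.comp J * φ'.comp πD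
  have hψ : ∀ x : ↥(E ⊓ N), ψ (i x) = φ' x := fun x => by
    let a : A := ⟨x ^ f, Subtype.ext (hdec x).2.2.2⟩
    have h1 : μ' (J (i x)) = φ' (x ^ f) := by
      have h2 : J (i x) = ⟨jA a, (jA a).2.1⟩ := Subtype.ext (by
        change _ = (J (i (x ^ f)) : G)
        rw [hJ, hJ]
        congr 2
        exact (hdec x).2.2.2.symm)
      rw [h2]
      exact (Units.ext (hμe (jA a))).trans (hlam a)
    change μ' (J (i x)) * φ' (x ^ e) = _
    rw [h1, ← map_mul]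
    congr 1
    exact Subtype.ext (hdec x).1.symm
  refine ext_of_not_dvd_mult (ofNormal N) hp (by rw [ofNormal_index, hk]) hϑ hinv
    (isChar_ind E.subtype (isChar_of_unitsHom ψ)) ?_
  have hθD : IsCharacter ↥(E ⊓ N) (fun x => ϑ ⟨x, x.2.2⟩) :=
    isChar_comp (irr_isChar hϑ) (Subgroup.inclusion inf_le_right)
  have h4 := cinner_res_ind E N (char_classFun (isChar_of_unitsHom ψ)) hinv
  rw [h1, Subgroup.index_top, Nat.cast_one, one_mul] at h4
  have h5 : (fun x : ↥(E ⊓ N) => (ψ ⟨x, x.2.1⟩ : ℂ)) = fun x => (φ' x : ℂ) :=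
    funext fun x => congrArg Units.val (hψ x)
  rw [h5, ← mult_cast (irr_isChar hφ) hθD, mult_comm (irr_isChar hφ) hθD] at h4
  exact (mult_eq_of_eq h4 ▸ h3 :)

end Cfsg.Agent.S0897
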