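import Cfsg.Statements.S0898
import Cfsg.Agent.Lib.CharGoingDown
import Cfsg.Agent.Lib.SolvBasic

set_option autoImplicit false
open Cfsg

namespace Cfsg.Agent.S0898

open Cfsg.Agent.Lib.CharRep Cfsg.Agent.Lib.CharBasic Cfsg.Agent.Lib.CharOrth Cfsg.Agent.Lib.CharInd Cfsg.Agent.Lib.CharInt Cfsg.Agent.Lib.CharClifford Cfsg.Agent.Lib.SolvBasic Cfsg.Agent.Lib.CharGoingDown
open scoped ComplexConjugate Pointwise

universe u

theorem sum_lt_of_TI {G : Type u} [Group G] [Fintype G] (N : Subgroup G) (S : Finset G)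
    (h1 : ∀ y : G, y⁻¹ * 1 * y ∉ S)
    (hTI : ∀ s ∈ S, ∀ g : G, g⁻¹ * s * g ∈ S → g ∈ N) (f : G → ℝ) (hf : ∀ g x, f (x⁻¹ * g * x) = f g)
    (h0 : ∀ g, 0 ≤ f g) (hpos : 0 < f 1) :
    (Nat.card G : ℝ) * ∑ s ∈ S, f s < Nat.card N * ∑ g : G, f g := by
  classical
  have e1 : (Nat.card G : ℝ) * ∑ s ∈ S, f s =
      ∑ g : G, ((Finset.univ.filter (fun y : G => y⁻¹ * g * y ∈ S)).card : ℝ) * f g := by
    simp only [Finset.card_filter, Nat.cast_sum, Finset.sum_mul]
    rw [Finset.sum_comm, Nat.card_eq_fintype_card, ← nsmul_eq_mul, ← Finset.card_univ,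
      ← Finset.sum_const]
    refine Finset.sum_congr rfl (fun y _ => ?_)
    rw [← Finset.sum_ite_mem_eq]
    refine (Fintype.sum_equiv (MulAut.conj y⁻¹).toEquiv _ _ (fun g => ?_)).symm
    simp only [MulEquiv.toEquiv_eq_coe, EquivLike.coe_coe, MulAut.conj_apply, inv_inv, hf]
    split_ifs <;> simp
  rw [e1, Finset.mul_sum]
  refine Finset.sum_lt_sum (fun g _ => mul_le_mul_of_nonneg_right ?_ (h0 g)) ⟨1, Finset.mem_univ _, ?_⟩
  · rcases (Finset.univ.filter (fun y : G => y⁻¹ * g * y ∈ S)).eq_empty_or_nonempty with h | ⟨y, hy⟩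
    · rw [h]; simp
    · rw [← Nat.card_eq_finsetCard]
      exact_mod_cast Nat.card_le_card_of_injective (β := N)
        (fun x : ↥(Finset.univ.filter (fun y : G => y⁻¹ * g * y ∈ S)) => ⟨y⁻¹ * x,
        hTI _ (Finset.mem_filter.1 hy).2 _ (by
          simpa [mul_assoc] using (Finset.mem_filter.1 x.2).2)⟩)
        (fun x x' e => Subtype.ext (mul_left_cancel (congrArg Subtype.val e)))
  · rw [Finset.filter_eq_empty_iff.2 (fun y _ => h1 y)]
    simp only [Finset.card_empty, Nat.cast_zero, zero_mul]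
    exact mul_pos (by exact_mod_cast Nat.card_pos) hpos

theorem sum_norm_sq_eq {G : Type u} [Group G] [Fintype G] (φ : G → ℂ) :
    ∑ g : G, ‖φ g‖ ^ 2 = Nat.card G * (classInner φ φ).re := by
  rw [cinner_self_eq, Complex.ofReal_re, mul_inv_cancel_left₀]
  exact_mod_cast Nat.card_pos.ne'

theorem part_a {G : Type u} [Group G] [Fintype G] (H : Subgroup G) [Fintype H]
    (hab : ∀ a ∈ H, ∀ b ∈ H, a * b = b * a) (hZ : H ⊓ Subgroup.center G = ⊥)
    (hone : ∀ g : G, g ∉ Subgroup.center G → ∀ a b : G,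
      Subgroup.centralizer ({g} : Set G) ⊓ MulAut.conj a • H ≠ ⊥ →
      Subgroup.centralizer ({g} : Set G) ⊓ MulAut.conj b • H ≠ ⊥ →
      MulAut.conj a • H = MulAut.conj b • H) (χ : G → ℂ) (hχ : IsIrrCharacter G χ)
    (hker : ∃ h ∈ H, χ h ≠ χ 1) :
    Nat.card H * mult (fun h : H => χ h) (fun _ => 1) ^ 2 < deg χ ^ 2 := by
  classical
  set N := Subgroup.normalizer (H : Set G) with hN
  set Z := Subgroup.center G with hZdef
  haveI := Fintype.ofFinite N
  haveI := Fintype.ofFinite Z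
  have hHN : H ≤ N := Subgroup.le_normalizer
  have hZN : Z ≤ N := Subgroup.center_le_normalizer _
  let S : Finset G := Finset.univ.filter (fun x => x ∉ Z ∧ ∃ h ∈ H, h ≠ 1 ∧ h * x = x * h)
  have hne : ∀ (g a h : G), h ∈ MulAut.conj a • H → h ≠ 1 → h * g = g * h →
      Subgroup.centralizer ({g} : Set G) ⊓ MulAut.conj a • H ≠ ⊥ := fun g a h h1 h2 h3 h4 =>
    h2 (Subgroup.mem_bot.1 (h4 ▸ ⟨Subgroup.mem_centralizer_singleton_iff.2 h3, h1⟩))
  have hSN : ∀ x ∈ S, x ∈ N := fun x hx => by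
    obtain ⟨-, h, hh, h1, h2⟩ := (Finset.mem_filter.1 hx).2
    rw [← conj_smul_eq_iff, ← conj_one_smul H, conj_smul_conj_smul, mul_one]
    refine hone h (fun hz => h1 (Subgroup.mem_bot.1 (hZ ▸ ⟨hh, hz⟩))) _ _
      (hne _ _ h ?_ h1 rfl) (hne _ _ h (by rwa [conj_one_smul]) h1 rfl)
    rwa [mem_conj_smul_iff, mul_assoc, h2, inv_mul_cancel_left]
  have hTI : ∀ s ∈ S, ∀ g : G, g⁻¹ * s * g ∈ S → g ∈ N := fun s hs g hg => by
    obtain ⟨hsZ, h, hh, h1, h2⟩ := (Finset.mem_filter.1 hs).2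
    obtain ⟨-, k, hk, k1, k2⟩ := (Finset.mem_filter.1 hg).2
    rw [← conj_smul_eq_iff, ← conj_one_smul H, conj_smul_conj_smul, mul_one]
    refine hone s hsZ _ _ (hne _ _ _ (conj_mem_conj_smul hk) (by simpa using k1) ?_)
      (hne _ _ h (by rwa [conj_one_smul]) h1 h2)
    calc g * k * g⁻¹ * s = g * (k * (g⁻¹ * s * g)) * g⁻¹ := by group
      _ = s * (g * k * g⁻¹) := by rw [k2]; group
  have hA := sum_lt_of_TI N S (fun y hy => (Finset.mem_filter.1 hy).2.1 (by simp)) hTI
    (fun g => ‖χ g‖ ^ 2) (fun g x => by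
      have := irr_classFun hχ g x⁻¹
      rw [inv_inv] at this
      simp only [this]) (fun g => by positivity)
    (by have := irr_one_ne_zero hχ; positivity)
  rw [sum_norm_sq_eq, cinner_irr_self hχ, Complex.one_re, mul_one, mul_comm (Nat.card N : ℝ),
    mul_lt_mul_iff_right₀ (by exact_mod_cast Nat.card_pos)] at hA
  let E := ofLe hHN (fun k hk l hl => (Subgroup.mem_normalizer_iff.1 hk l).1 hl)
  have hχN : IsCharacter N (fun x : N => χ x) := isChar_res (irr_isChar hχ) N
  set α : N → ℂ := fun g => (Nat.card H : ℂ)⁻¹ * ∑ n : H, χ (n * g) with hα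
  have hαe : α = ∑ τ ∈ irr N, (if ∀ n, E.i n ∈ cker τ then classInner (fun x : N => χ x) τ
      else 0) • τ := by
    have := avg_classFun E (char_classFun hχN)
    rw [Finset.sum_filter] at this
    refine this.trans (Finset.sum_congr rfl (fun τ _ => ?_))
    split_ifs <;> simp
  have hαg : IsGeneralizedCharacter N α := by
    rw [hαe]
    refine genChar_sum _ _ (fun τ hτ => ?_)
    split_ifs
    · rw [← mult_cast hχN (irr_isChar (mem_irr.1 hτ))]
      exact genChar_nsmul (genChar_of_irr (mem_irr.1 hτ)) _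
    · simpa using genChar_zero
  set β : N → ℂ := (fun x : N => χ x) - α with hβ
  have hβg : IsGeneralizedCharacter N β := genChar_sub (genChar_of_char hχN) hαg
  have horth : classInner α β = 0 := by
    rw [cinner_eq_sum_irr (genChar_classFun hαg)]
    refine Finset.sum_eq_zero (fun τ hτ => ?_)
    have h1 : classInner α τ = _ := hαe ▸ cinner_sum_irr _ (mem_irr.1 hτ)
    by_cases h : ∀ n, E.i n ∈ cker τ
    · rw [if_pos h] at h1
      rw [cinner_eq_zero_comm.1 (show classInner β τ = 0 by rw [hβ, cinner_sub_left, h1, sub_self]),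
        mul_zero]
    · rw [h1, if_neg h, zero_mul]
  have hαH : ∀ (h : H) (x : N), α (⟨h, hHN h.2⟩ * x) = α x := fun h x => by
    simp only [hα]
    congr 1
    exact Fintype.sum_equiv (Equiv.mulRight h) _ _ (fun n => by simp [mul_assoc])
  have hβ1 : 1 ≤ (classInner β β).re := by
    obtain ⟨m, hm⟩ := genChar_inner_int hβg hβg
    have h1 : (0 : ℝ) ≤ m := by
      have := congrArg Complex.re hm
      rw [cinner_self_eq, Complex.ofReal_re, Complex.intCast_re] at this
      rw [← this]; positivity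
    have h2 : m ≠ 0 := by
      rintro rfl
      have h3 := cinner_self_eq_zero (hm.trans Int.cast_zero)
      obtain ⟨h, hh, h4⟩ := hker
      have h5 : ∀ x : N, χ x = α x := fun x => sub_eq_zero.1 (congrFun h3 x)
      apply h4
      have := hαH ⟨h, hh⟩ 1
      rw [mul_one, ← h5, ← h5] at this
      exact this
    rw [hm, Complex.intCast_re]
    have : 0 ≤ m := by exact_mod_cast h1
    exact_mod_cast (by omega : 1 ≤ m)
  have hsum : ∑ x : N, ‖χ x‖ ^ 2 = ∑ x : N, ‖α x‖ ^ 2 + ∑ x : N, ‖β x‖ ^ 2 := by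
    have e : (fun x : N => χ x) = α + β := by rw [hβ]; abel
    rw [sum_norm_sq_eq (fun x : N => χ x), sum_norm_sq_eq, sum_norm_sq_eq, e, cinner_add_left,
      cinner_add_right, cinner_add_right, horth, cinner_eq_zero_comm.1 horth]
    simp [mul_add]
  let T : Finset N := Finset.univ.filter (fun x => (x : G) ∈ Z ∨ (x : G) ∈ S)
  have hoff : ∀ x : N, x ∉ T → χ x = α x := fun x hx => by
    have h1 : ¬ ((x : G) ∈ Z ∨ (x : G) ∈ S) := fun h => hx (Finset.mem_filter.2 ⟨by simp, h⟩)
    rw [not_or] at h1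
    let c : H → H := fun h => ⟨h * (x * h⁻¹ * (x : G)⁻¹), H.mul_mem h.2
      ((Subgroup.mem_normalizer_iff.1 x.2 _).1 (H.inv_mem h.2))⟩
    have hc : Function.Bijective c := Finite.injective_iff_bijective.1 (fun a b e => by
      by_contra hab'
      refine h1.2 (Finset.mem_filter.2 ⟨by simp, h1.1, (b : G)⁻¹ * a,
        H.mul_mem (H.inv_mem b.2) a.2, fun h => hab' (Subtype.ext (inv_mul_eq_one.1 h).symm), ?_⟩)
      have e' : (a : G) * (x * (a : G)⁻¹ * (x : G)⁻¹) = b * (x * (b : G)⁻¹ * (x : G)⁻¹) :=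
        congrArg Subtype.val e
      calc (b : G)⁻¹ * a * x = (b : G)⁻¹ * (a * (x * (a : G)⁻¹ * (x : G)⁻¹)) * x * a := by group
        _ = x * ((b : G)⁻¹ * a) := by rw [e']; group)
    simp only [hα]
    rw [← hc.sum_comp (fun n : H => χ (n * x)), Finset.sum_congr rfl (g := fun _ => χ x)
      (fun h _ => by
        rw [← irr_classFun hχ x h]
        congr 1
        simp [c, mul_assoc]), Finset.sum_const, Finset.card_univ, ← Nat.card_eq_fintype_card,
      nsmul_eq_mul, inv_mul_cancel_left₀ card_ne_zero]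
  have hT1 : ∑ x ∈ T, ‖χ x‖ ^ 2 = ∑ x ∈ T, ‖α x‖ ^ 2 + ∑ x : N, ‖β x‖ ^ 2 := by
    rw [← Finset.sum_add_sum_compl T, ← Finset.sum_add_sum_compl T (fun x => ‖α x‖ ^ 2),
      Finset.sum_congr rfl (s₁ := Tᶜ) (fun x hx => by rw [hoff x (Finset.mem_compl.1 hx)])] at hsum
    linarith
  have hT2 : ∑ x ∈ T, ‖χ x‖ ^ 2 = Nat.card Z * (deg χ : ℝ) ^ 2 + ∑ s ∈ S, ‖χ s‖ ^ 2 := by
    rw [← Finset.sum_filter_add_sum_filter_not T (fun x => (x : G) ∈ Z)]
    congr 1
    · rw [Finset.sum_congr rfl (g := fun _ => (deg χ : ℝ) ^ 2) (fun x hx => by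
        rw [(mem_ccenter (irr_isChar hχ)).1 (center_le_ccenter hχ (Finset.mem_filter.1 hx).2)]),
        Finset.sum_const, nsmul_eq_mul, ← Nat.card_eq_finsetCard]
      congr 2
      exact Nat.card_congr ⟨fun x => ⟨x.1, (Finset.mem_filter.1 x.2).2⟩,
        fun z => ⟨⟨z, hZN z.2⟩, by simp [T]⟩, fun _ => rfl, fun _ => rfl⟩
    · refine Finset.sum_bij (fun x _ => (x : G)) (fun x hx => ?_) (fun _ _ _ _ e => Subtype.ext e)
        (fun s hs => ⟨⟨s, hSN s hs⟩, ?_, rfl⟩) (fun _ _ => rfl)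
      · exact (Finset.mem_filter.1 (Finset.mem_filter.1 hx).1).2.resolve_left
          (Finset.mem_filter.1 hx).2
      · exact Finset.mem_filter.2 ⟨Finset.mem_filter.2 ⟨by simp, Or.inr hs⟩,
          (Finset.mem_filter.1 hs).2.1⟩
  have hT3 : (Nat.card Z : ℝ) * (Nat.card H * (mult (fun h : H => χ h) (fun _ => 1) : ℝ) ^ 2) ≤
      ∑ x ∈ T, ‖α x‖ ^ 2 := by
    let j : Z × H → N := fun x => ⟨x.2 * x.1, N.mul_mem (hHN x.2.2) (hZN x.1.2)⟩
    have hj : Function.Injective j := fun x y e => by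
      have e' : (x.2 : G) * x.1 = y.2 * y.1 := congrArg Subtype.val e
      have h1 : (y.2 : G)⁻¹ * x.2 = y.1 * (x.1 : G)⁻¹ := by
        rw [inv_mul_eq_iff_eq_mul, ← mul_assoc, ← e', mul_inv_cancel_right]
      have h2 : (y.2 : G)⁻¹ * x.2 = 1 := Subgroup.mem_bot.1 (hZ ▸ ⟨H.mul_mem (H.inv_mem y.2.2) x.2.2,
        h1 ▸ Z.mul_mem y.1.2 (Z.inv_mem x.1.2)⟩)
      exact Prod.ext (Subtype.ext (mul_inv_eq_one.1 (h1.symm.trans h2)).symm)
        (Subtype.ext (inv_mul_eq_one.1 h2).symm)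
    have h1 : ∑ x ∈ Finset.univ.map ⟨j, hj⟩, ‖α x‖ ^ 2 ≤ ∑ x ∈ T, ‖α x‖ ^ 2 :=
      Finset.sum_le_sum_of_subset_of_nonneg (fun x hx => by
        obtain ⟨⟨z, h⟩, -, rfl⟩ := Finset.mem_map.1 hx
        refine Finset.mem_filter.2 ⟨by simp, or_iff_not_imp_left.2 (fun hn =>
          Finset.mem_filter.2 ⟨by simp, hn, h, h.2, fun h1 => hn ?_, ?_⟩)⟩
        · change (h : G) * z ∈ Z
          rw [h1, one_mul]; exact z.2
        · change (h : G) * (h * z) = h * z * h
          rw [mul_assoc, Subgroup.mem_center_iff.1 z.2 h]) (fun _ _ _ => by positivity)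
    refine le_trans (le_of_eq ?_) h1
    rw [Finset.sum_map, Finset.sum_congr rfl
      (g := fun _ => (mult (fun h : H => χ h) (fun _ => 1) : ℝ) ^ 2), Finset.sum_const,
      Finset.card_univ, ← Nat.card_eq_fintype_card, Nat.card_prod, nsmul_eq_mul, Nat.cast_mul,
      mul_assoc]
    rintro ⟨z, h⟩ -
    have e : j (z, h) = ⟨h, hHN h.2⟩ * ⟨z, hZN z.2⟩ := rfl
    change ‖α (j (z, h))‖ ^ 2 = _
    rw [e, hαH]
    have h2 : α ⟨z, hZN z.2⟩ = χ z / χ 1 * mult (fun h : H => χ h) (fun _ => 1) := by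
      rw [mult_cast (isChar_res (irr_isChar hχ) H) isChar_one, cinner_one_right, mul_left_comm,
        Finset.mul_sum]
      simp only [hα]
      congr 1
      refine Finset.sum_congr rfl (fun n _ => ?_)
      rw [← ccenter_apply_mul (irr_one_ne_zero hχ) (center_le_ccenter hχ z.2),
        Subgroup.mem_center_iff.1 z.2 n]
    have h3 : (deg χ : ℝ) ≠ 0 := by exact_mod_cast (irr_deg_pos hχ).ne'
    rw [h2, norm_mul, norm_div, (mem_ccenter (irr_isChar hχ)).1 (center_le_ccenter hχ z.2),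
      ← deg_cast (irr_isChar hχ), Complex.norm_natCast, Complex.norm_natCast, div_self h3, one_mul]
  rw [sum_norm_sq_eq β] at hT1
  have h1 : (0 : ℝ) < Nat.card N := by exact_mod_cast Nat.card_pos
  have h2 : (0 : ℝ) < Nat.card Z := by exact_mod_cast Nat.card_pos
  have h3 : (Nat.card Z : ℝ) * (Nat.card H * (mult (fun h : H => χ h) (fun _ => 1) : ℝ) ^ 2) <
      Nat.card Z * (deg χ : ℝ) ^ 2 := by nlinarith
  exact_mod_cast lt_of_mul_lt_mul_left h3 h2.le

/-- Let H be an abelian subgroup of the finite group G meeting the centre of G trivially, such that for every non-central g the centralizer of g has nontrivial intersection with at most one conjugate of H. Let χ be an irreducible character of G with χ h ≠ χ 1 for some h in H, and let c be the inner product of the restriction of χ to H with the principal character. Then χ(1)² > (order of H)·c²; and if in addition χ 1 ≠ 1 and no proper normal subgroup of G contains H, then (1 + χ 1)² > order of H (both sides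 read as real numbers). -/
theorem result {G : Type*} [Group G] [Fintype G] (H : Subgroup G) [Fintype H] (hab : ∀ a ∈ H, ∀ b ∈ H, a * b = b * a) (hZ : H ⊓ Subgroup.center G = ⊥) (hone : ∀ g : G, g ∉ Subgroup.center G → ∀ a b : G, Subgroup.centralizer ({g} : Set G) ⊓ H.map (MulAut.conj a).toMonoidHom ≠ ⊥ → Subgroup.centralizer ({g} : Set G) ⊓ H.map (MulAut.conj b).toMonoidHom ≠ ⊥ → H.map (MulAut.conj a).toMonoidHom = H.map (MulAut.conj b).toMonoidHom) (χ : G → ℂ) (hχ : Cfsg.IsIrrCharacter G χ) (hker : ∃ h ∈ H, χ h ≠ χ 1) : (χ 1).re ^ 2 > (Nat.card H : ℝ) * (Cfsg.classInner (fun h : H => χ h) (fun _ => 1)).re ^ 2 ∧ (χ 1 ≠ 1 → (∀ M : Subgroup G, M.Normal → H ≤ M → M = ⊤) → (1 + (χ 1).re) ^ 2 > (Nat.card H : ℝ)) := by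
  classical
  have key := part_a H hab hZ hone
  have hd : (χ 1).re = deg χ := by rw [← deg_cast (irr_isChar hχ), Complex.natCast_re]
  have hχH : IsCharacter H (fun h : H => χ h) := isChar_res (irr_isChar hχ) H
  constructor
  · rw [hd, ← mult_cast hχH isChar_one, Complex.natCast_re]
    exact_mod_cast key χ hχ hker
  intro h1 hM
  have hd1 : 1 < deg χ := by
    have := irr_deg_pos hχ
    have h2 : deg χ ≠ 1 := fun h => h1 (by rw [← deg_cast (irr_isChar hχ), h, Nat.cast_one])
    omega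
  have hψ : IsCharacter G (χ * star χ) := isChar_mul (irr_isChar hχ) (isChar_star (irr_isChar hχ))
  have h2 : classInner (χ * star χ) (fun _ => 1) = 1 := by
    rw [cinner_mul_left, star_star]
    exact (congrArg _ (one_mul χ)).trans (cinner_irr_self hχ)
  have hθ := isChar_sub_of_inner_ne_zero hψ irr_one (by rw [h2]; exact one_ne_zero)
  have h3 : classInner (χ * star χ - fun _ => 1) (fun _ => 1) = 0 := by
    rw [cinner_sub_left, h2, cinner_irr_self irr_one, sub_self]
  have h4 : deg (χ * star χ - fun _ => 1) + 1 = deg χ ^ 2 := by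
    have : ((deg (χ * star χ - fun _ => 1) + 1 : ℕ) : ℂ) = (deg χ ^ 2 : ℕ) := by
      push_cast
      rw [deg_cast hθ, deg_cast (irr_isChar hχ)]
      simp [conj_char_one (irr_isChar hχ), sq]
    exact_mod_cast this
  have h5 : deg χ ≤ mult (fun h : H => (χ * star χ - fun _ => 1 : G → ℂ) h) (fun _ => 1) + 1 := by
    have e : mult (fun h : H => (χ * star χ - fun _ => 1 : G → ℂ) h) (fun _ => 1) + 1 =
        mult (fun h : H => χ h) (fun h : H => χ h) := by
      symm
      apply mult_eq_of_eq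
      rw [Nat.cast_add, mult_cast (isChar_res hθ H) isChar_one, Nat.cast_one]
      have : (fun h : H => (χ * star χ - fun _ => 1 : G → ℂ) h) =
          (fun h : H => χ h) * star (fun h : H => χ h) - fun _ => 1 := rfl
      rw [this, cinner_sub_left, cinner_irr_self irr_one, sub_add_cancel, cinner_mul_left, star_star]
      exact (congrArg _ (one_mul _)).symm
    rw [e, mult_eq_sum hχH hχH, show deg χ = deg (fun h : H => χ h) from rfl, deg_eq_sum hχH]
    refine Finset.sum_le_sum (fun τ hτ => ?_)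
    rw [deg_eq_of_eq (n := 1) (by
      simpa using irr_one_eq_one_of_comm' (fun a b : H => Subtype.ext (hab a a.2 b b.2))
        (mem_irr.1 hτ)), mul_one]
    exact Nat.le_mul_self _
  generalize (χ * star χ - fun _ => 1 : G → ℂ) = θ at hθ h3 h4 h5
  have h6 : √(Nat.card H : ℝ) * mult (fun h : H => θ h) (fun _ => 1) < deg θ := by
    have e : mult (fun h : H => θ h) (fun _ => 1) =
        ∑ τ ∈ irr G, mult θ τ * mult (fun h : H => τ h) (fun _ => 1) := by
      apply mult_eq_of_eq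
      have : (fun h : H => θ h) = ∑ τ ∈ irr G, (mult θ τ : ℂ) • (fun h : H => τ h) := by
        ext h
        conv_lhs => rw [char_expand hθ]
        simp [Finset.sum_apply]
      rw [this, cinner_sum_left, Nat.cast_sum]
      exact Finset.sum_congr rfl (fun τ hτ => by
        rw [cinner_smul_left, Nat.cast_mul, mult_cast (isChar_res (irr_isChar (mem_irr.1 hτ)) H)
          isChar_one])
    have h7 : ∀ τ ∈ irr G, mult θ τ ≠ 0 →
        √(Nat.card H : ℝ) * mult (fun h : H => τ h) (fun _ => 1) < deg τ := fun τ hτ h0 => by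
      have hτ' := mem_irr.1 hτ
      have h8 := key τ hτ' (by
        by_contra hne
        push Not at hne
        have := hM (cker τ) (cker_normal (irr_classFun hτ'))
          (fun h hh => (mem_cker (irr_isChar hτ')).2 (hne h hh))
        rw [irr_eq_one_of_cker_top hτ' (fun g => this ▸ Subgroup.mem_top g)] at h0
        exact h0 (mult_eq_of_eq (by rw [h3, Nat.cast_zero])))
      apply lt_of_pow_lt_pow_left₀ 2 (by positivity)
      rw [mul_pow, Real.sq_sqrt (by positivity)]
      exact_mod_cast h8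
    rw [e, deg_eq_sum hθ, Nat.cast_sum, Nat.cast_sum, Finset.mul_sum]
    obtain ⟨τ, hτ, h9⟩ := exists_irr_inner_ne_zero (char_classFun hθ) (fun h => by
      rw [h, deg_eq_of_eq (n := 0) (by simp)] at h4
      nlinarith)
    have h10 := (mult_ne_zero_iff hθ (irr_isChar hτ)).2 h9
    refine Finset.sum_lt_sum (fun τ hτ => ?_) ⟨τ, mem_irr.2 hτ, ?_⟩
    · rw [Nat.cast_mul, Nat.cast_mul, mul_left_comm]
      by_cases h0 : mult θ τ = 0
      · simp [h0]
      · exact mul_le_mul_of_nonneg_left (h7 τ hτ h0).le (by positivity)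
    · rw [Nat.cast_mul, Nat.cast_mul, mul_left_comm]
      exact mul_lt_mul_of_pos_left (h7 τ (mem_irr.2 hτ) h10) (by positivity)
  have h7 : (deg θ : ℝ) + 1 = (deg χ : ℝ) ^ 2 := by exact_mod_cast h4
  have h8 : (deg χ : ℝ) ≤ mult (fun h : H => θ h) (fun _ => 1) + 1 := by exact_mod_cast h5
  have h9 : (1 : ℝ) < deg χ := by exact_mod_cast hd1
  have h10 : √(Nat.card H : ℝ) < 1 + deg χ := by
    have h11 : √(Nat.card H : ℝ) * (deg χ - 1) < (1 + deg χ) * (deg χ - 1) := by
      have := Real.sqrt_nonneg (Nat.card H : ℝ)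
      nlinarith
    exact lt_of_mul_lt_mul_right h11 (by linarith)
  rw [hd]
  exact (Real.sqrt_lt' (by linarith)).1 h10

end Cfsg.Agent.S0898
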