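import Cfsg.Statements.S0899
import Cfsg.Agent.S0898
import Cfsg.Agent.Lib.CharExtend

set_option autoImplicit false
open Cfsg

namespace Cfsg.Agent.S0899

open Cfsg.Agent.Lib.CharRep Cfsg.Agent.Lib.CharBasic Cfsg.Agent.Lib.CharOrth Cfsg.Agent.Lib.CharInd Cfsg.Agent.Lib.CharInt Cfsg.Agent.Lib.CharClifford Cfsg.Agent.Lib.SolvBasic Cfsg.Agent.Lib.CharGoingDown Cfsg.Agent.Lib.CharExtend
open scoped ComplexConjugate Pointwise

universe u

/-- `p`-elements. -/
def PElt {G : Type u} [Group G] (p : ℕ) (x : G) : Prop := ∃ k : ℕ, x ^ p ^ k = 1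

theorem pElt_coe {G : Type u} [Group G] {p : ℕ} {T : Subgroup G} {x : T} :
    PElt p (x : G) ↔ PElt p x :=
  ⟨fun ⟨k, h⟩ => ⟨k, Subtype.ext h⟩, fun ⟨k, h⟩ => ⟨k, congrArg Subtype.val h⟩⟩

theorem pElt_of_mem {G : Type u} [Group G] {p : ℕ} {P : Subgroup G} (hP : IsPGroup p P) {x : G}
    (hx : x ∈ P) : PElt p x := pElt_coe.2 (hP ⟨x, hx⟩)

theorem pElt_conj {G : Type u} [Group G] {p : ℕ} {x : G} (h : PElt p x) (g : G) :
    PElt p (g * x * g⁻¹) := by
  obtain ⟨k, hk⟩ := h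
  exact ⟨k, by rw [conj_pow, hk]; simp⟩

theorem mem_of_normal {G : Type u} [Group G] [Finite G] {p : ℕ} [Fact p.Prime] (P : Sylow p G)
    (hP : (P : Subgroup G).Normal) {x : G} (hx : PElt p x) : x ∈ (P : Subgroup G) := by
  have h1 : IsPGroup p (Subgroup.zpowers x) := by
    rintro ⟨_, m, rfl⟩
    obtain ⟨k, hk⟩ := hx
    exact ⟨k, Subtype.ext (by
      change (x ^ m) ^ p ^ k = 1
      rw [← zpow_natCast, ← zpow_mul, mul_comm, zpow_mul, zpow_natCast, hk, one_zpow])⟩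
  obtain ⟨Q, hQ⟩ := h1.exists_le_sylow
  haveI := P.unique_of_normal hP
  rw [Subsingleton.elim P Q]
  exact hQ (Subgroup.mem_zpowers x)

/-- The subgroup of `p`-elements of `T`. -/
def pSub {G : Type u} [Group G] (p : ℕ) (T : Subgroup G)
    (h : ∀ x ∈ T, ∀ y ∈ T, PElt p x → PElt p y → PElt p (x * y)) : Subgroup G where
  carrier := {x | x ∈ T ∧ PElt p x}
  mul_mem' := fun hx hy => ⟨T.mul_mem hx.1 hy.1, h _ hx.1 _ hy.1 hx.2 hy.2⟩
  one_mem' := ⟨T.one_mem, 0, by simp⟩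
  inv_mem' := fun ⟨hx, k, hk⟩ => ⟨T.inv_mem hx, k, by rw [inv_pow, hk, inv_one]⟩

theorem exists_sylow {G : Type u} [Group G] {p : ℕ} (T : Subgroup G)
    (h : ∀ x ∈ T, ∀ y ∈ T, PElt p x → PElt p y → PElt p (x * y)) :
    ∃ P : Sylow p G, ∀ x ∈ T, PElt p x → x ∈ (P : Subgroup G) := by
  have h1 : IsPGroup p (pSub p T h) := fun x => pElt_coe.1 x.2.2
  obtain ⟨P, hP⟩ := h1.exists_le_sylow
  exact ⟨P, fun x hx hx' => hP ⟨hx, hx'⟩⟩

theorem mem_cker_of_forall {G : Type u} [Group G] [Fintype G] {χ : G → ℂ} (hχ : IsCharacter G χ)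
    {g : G} (h : ∀ ψ, IsIrrCharacter G ψ → classInner χ ψ ≠ 0 → g ∈ cker ψ) : g ∈ cker χ := by
  intro x
  rw [classFun_expand_apply (char_classFun hχ), classFun_expand_apply (char_classFun hχ) x]
  refine Finset.sum_congr rfl (fun ψ hψ => ?_)
  by_cases h0 : classInner χ ψ = 0
  · simp [h0]
  · rw [h ψ (mem_irr.1 hψ) h0 x]

theorem deg_sq_eq_index {G : Type u} [Group G] [Finite G] {θ : G → ℂ} (hθ : IsIrrCharacter G θ)
    (h : ∀ a b : G, a * b * a⁻¹ * b⁻¹ ∈ ccenter θ) : deg θ ^ 2 = (ccenter θ).index := by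
  haveI := ccenter_normal (irr_classFun hθ)
  obtain ⟨φ, hφ⟩ := exists_hom_of_le_ccenter (irr_one_ne_zero hθ) (ccenter θ).subtype
    (fun x => x.2)
  rw [← ofNormal_index]
  refine sq_eq_index_of_vanish (ofNormal (ccenter θ)) hθ (irr_of_unitsHom φ) ?_ (fun g hg => ?_)
  · ext x
    have := hφ x 1
    rw [mul_one, ← deg_cast (irr_isChar hθ), mul_comm] at this
    exact this
  · rw [ofNormal_range] at hg
    by_contra h0
    refine hg (mem_ccenter_of_commutator hθ (fun x => ?_))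
    obtain ⟨c, hc⟩ := h g x
    have h1 := hc (x * g * x⁻¹ * x * g⁻¹ * x⁻¹ * (x * g * x⁻¹))
    have e1 : g * x * g⁻¹ * x⁻¹ * (x * g * x⁻¹ * x * g⁻¹ * x⁻¹ * (x * g * x⁻¹)) = g := by group
    have e2 : x * g * x⁻¹ * x * g⁻¹ * x⁻¹ * (x * g * x⁻¹) = x * g * x⁻¹ := by group
    rw [e1, e2, irr_classFun hθ] at h1
    have h2 : (c : ℂ) = 1 := by
      apply mul_right_cancel₀ h0
      rw [← h1, one_mul]
    intro y
    rw [hc, h2, one_mul]

theorem ito_step {G : Type u} [Group G] [Finite G] {p q : ℕ} [hp : Fact p.Prime] [Fact q.Prime]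
    (hpq : p ≠ q) (P Q : Subgroup G) (hP : IsPGroup p P) (hQ : IsPGroup q Q) [Q.Normal]
    (hPQ : Q ⊔ P = ⊤) (hab : ∀ a ∈ P, ∀ b ∈ P, a * b = b * a)
    (hM : ∀ M : Subgroup G, M.Normal → P ≤ M → M = ⊤)
    (hC : ∀ R : Subgroup G, R < Q → R.Normal → R ≤ Subgroup.centralizer (P : Set G))
    {ψ : G → ℂ} (hψ : IsIrrCharacter G ψ) (h1 : ψ 1 ≠ 1) (hd : deg ψ + 1 < p) : P.Normal := by
  by_contra hPn
  haveI := Fintype.ofFinite G
  haveI := Fintype.ofFinite Q
  have hZ : ∀ R : Subgroup G, R < Q → R.Normal → R ≤ Subgroup.center G := fun R hR _ => by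
    rw [← Subgroup.centralizer_eq_top_iff_subset.symm.symm.trans Iff.rfl |>.trans
      SetLike.coe_subset_coe]
    exact hM _ inferInstance (Subgroup.le_centralizer_iff.1 (hC R hR inferInstance))
  obtain ⟨θ, hθ, h2⟩ := (ofNormal Q).exists_constituent hψ
  obtain ⟨e, he, he'⟩ := exists_deg_eq (ofNormal Q) hψ hθ h2
  obtain ⟨k, hk⟩ := IsPGroup.iff_card.1 hP
  have hidx : Q.index ∣ p ^ k := by
    rw [← hk, ← Subgroup.relIndex_top_right, ← hPQ, Subgroup.relIndex_sup_left]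
    exact Subgroup.relIndex_dvd_card _ _
  rw [ofNormal_index] at he'
  obtain ⟨j, -, hj⟩ := (Nat.dvd_prime_pow hp.out).1 (he'.trans hidx)
  have he1 : e = 1 := by
    rcases j with _ | j
    · simpa using hj
    · have h3 : p ≤ e := Nat.le_of_dvd (hj ▸ pow_pos hp.out.pos _)
        (hj ▸ dvd_pow_self p j.succ_ne_zero)
      have h4 : e ≤ deg ψ := he ▸ Nat.le_mul_of_pos_right e (irr_deg_pos hθ)
      omega
  rw [he1, one_mul] at he
  have hres : (fun x : Q => ψ x) = θ :=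
    eq_of_inner_ne_zero_of_deg_le (isChar_res (irr_isChar hψ) Q) hθ h2 he.le
  subst hres
  haveI := hQ.isNilpotent
  haveI : Nontrivial Q := by
    by_contra h
    rw [not_nontrivial_iff_subsingleton] at h
    exact h1 (irr_one_eq_one_of_comm' (fun a b : Q => Subsingleton.elim _ _) hθ)
  have hD : ⁅Q, Q⁆ < Q := by
    have := Group.IsSolvable.commutator_lt_top_of_nontrivial Q
    rwa [← Subgroup.map_subtype_lt_map_subtype, Subgroup.map_subtype_commutator,
      ← MonoidHom.range_eq_map, Subgroup.range_subtype] at this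
  have hD' := hZ _ hD inferInstance
  let C := Q ⊓ Subgroup.centralizer (P : Set G)
  have hZC : ∀ z ∈ Subgroup.center G, z ∈ Subgroup.centralizer (P : Set G) := fun z hz =>
    Subgroup.center_le_centralizer _ hz
  have hCn : C.Normal := normal_of_sup_eq_top (H := Q) (K := P) (fun x hx => by
      have key : ∀ x ∈ Q, ∀ c ∈ C, x * c * x⁻¹ ∈ C := fun x hx c hc => by
        have : x * c * x⁻¹ * c⁻¹ ∈ C := ⟨hD.le (Subgroup.commutator_mem_commutator hx hc.1),
          hZC _ (hD' (Subgroup.commutator_mem_commutator hx hc.1))⟩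
        simpa using C.mul_mem this hc
      rw [Subgroup.mem_normalizer_iff]
      exact fun c => ⟨key x hx c, fun h => by
        simpa [mul_assoc] using key x⁻¹ (Q.inv_mem hx) _ h⟩) (fun x hx => by
      rw [Subgroup.mem_normalizer_iff]
      have key : ∀ x ∈ P, ∀ c ∈ C, x * c * x⁻¹ ∈ C := fun x hx c hc => by
        rwa [hc.2 x hx, mul_inv_cancel_right]
      exact fun c => ⟨key x hx c, fun h => by
        simpa [mul_assoc] using key x⁻¹ (P.inv_mem hx) _ h⟩) hPQ
  have hCQ : C < Q := lt_of_le_of_ne inf_le_left (fun h => hPn (normal_of_sup_eq_top (H := Q)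
    (K := P) (((h ▸ inf_le_right : Q ≤ _)).trans (Subgroup.centralizer_le_normalizer _))
    Subgroup.le_normalizer hPQ))
  haveI := ccenter_normal (irr_classFun hψ)
  have hcc : ∀ x : Q, x ∈ ccenter (fun x : Q => ψ x) ↔ (x : G) ∈ ccenter ψ := fun x => by
    rw [mem_ccenter (irr_isChar hθ), mem_ccenter (irr_isChar hψ), he]
  have hZQ : Q ⊓ ccenter ψ < Q := lt_of_le_of_ne inf_le_left (fun h => h1 (by
    have := linear_of_commutator_le_cker hθ (fun a b => commutator_mem_cker_of_mem_ccenter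
      (irr_isChar hθ) ((hcc a).2 (h.ge a.2).2) b)
    exact this))
  have hCe : ccenter (fun x : Q => ψ x) = C.subgroupOf Q := by
    ext x
    rw [hcc, Subgroup.mem_subgroupOf]
    exact ⟨fun h => ⟨x.2, hC _ hZQ inferInstance ⟨x.2, h⟩⟩,
      fun h => center_le_ccenter hψ (hZ _ hCQ hCn h)⟩
  have h3 := deg_sq_eq_index hθ (fun a b => (hcc _).2 (center_le_ccenter hψ
    (hD' (Subgroup.commutator_mem_commutator a.2 b.2))))
  rw [hCe, ← he] at h3
  letI : MulAction P Q :=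
    { smul := fun x y => (ofNormal Q).a x y
      one_smul := fun y => (ofNormal Q).a_one y
      mul_smul := fun x y z => (ofNormal Q).a_mul x y z }
  have h4 := hP.card_modEq_card_fixedPoints Q
  have h5 : Nat.card (MulAction.fixedPoints P Q) = Nat.card (C.subgroupOf Q) :=
    Nat.card_congr (Equiv.subtypeEquivRight (fun y => ⟨fun h => ⟨y.2, fun x hx =>
      mul_inv_eq_iff_eq_mul.1 (congrArg Subtype.val (h ⟨x, hx⟩))⟩, fun h x => Subtype.ext
        (mul_inv_eq_iff_eq_mul.2 (h.2 x x.2))⟩))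
  rw [h5, ← (C.subgroupOf Q).index_mul_card, ← h3] at h4
  have h6 : (Nat.card (C.subgroupOf Q)).Coprime p := by
    obtain ⟨l, hl⟩ := IsPGroup.iff_card.1 (hQ.to_subgroup (C.subgroupOf Q))
    rw [hl]
    exact ((Nat.coprime_primes Fact.out hp.out).2 hpq.symm).pow_left l
  have h7 : deg ψ ^ 2 ≡ 1 [MOD p] := Nat.ModEq.cancel_right_of_coprime h6.symm (by
    rwa [one_mul])
  have h8 : 1 < deg ψ := by
    have := irr_deg_pos hψ
    have h2 : deg ψ ≠ 1 := fun h => h1 (by rw [← deg_cast (irr_isChar hψ), h, Nat.cast_one])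
    omega
  have h9 : p ∣ (deg ψ + 1) * (deg ψ - 1) := by
    rw [← Nat.sq_sub_sq, one_pow]
    exact (Nat.modEq_iff_dvd' (Nat.one_le_pow _ _ (by omega))).1 h7.symm
  rcases (Nat.Prime.dvd_mul hp.out).1 h9 with h | h
  · exact absurd (Nat.le_of_dvd (by omega) h) (by omega)
  · exact absurd (Nat.le_of_dvd (by omega) h) (by omega)

theorem aux (n p : ℕ) [hp : Fact p.Prime] (G : Type u) [Group G] [Finite G] :
    ∀ χ : G → ℂ, IsCharacter G χ → (∀ g ∈ cker χ, g = 1) → deg χ = n →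
    ((n + 1) ^ 2 ≤ p ∨ (n + 1 < p ∧ ∀ K : Subgroup G, ¬ p ^ 2 ∣ Nat.card K →
      ∀ x ∈ K, ∀ y ∈ K, PElt p x → PElt p y → PElt p (x * y))) →
    ∀ x y : G, PElt p x → PElt p y → PElt p (x * y) := by
  refine card_induction (P := fun G _ _ =>
    ∀ χ : G → ℂ, IsCharacter G χ → (∀ g ∈ cker χ, g = 1) → deg χ = n →
    ((n + 1) ^ 2 ≤ p ∨ (n + 1 < p ∧ ∀ K : Subgroup G, ¬ p ^ 2 ∣ Nat.card K →
      ∀ x ∈ K, ∀ y ∈ K, PElt p x → PElt p y → PElt p (x * y))) →
    ∀ x y : G, PElt p x → PElt p y → PElt p (x * y)) ?_ G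
  intro G _ _ ih χ hχ hf hn h
  haveI := Fintype.ofFinite G
  obtain ⟨P⟩ : Nonempty (Sylow p G) := inferInstance
  suffices hP : (P : Subgroup G).Normal from fun x y hx hy => pElt_of_mem P.isPGroup'
    ((P : Subgroup G).mul_mem (mem_of_normal P hP hx) (mem_of_normal P hP hy))
  by_contra hPn
  have hfr : ∀ (T : Subgroup G), ∀ g ∈ cker (fun x : T => χ x), g = 1 := fun T g hg =>
    Subtype.ext (hf g ((mem_cker hχ).2 ((mem_cker (isChar_res hχ T)).1 hg)))
  have hR : ∀ T : Subgroup G, T ≠ ⊤ → ∃ P : Sylow p G, ∀ x ∈ T, PElt p x → x ∈ (P : Subgroup G) :=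
    fun T hT => exists_sylow T (fun x hx y hy h1 h2 => pElt_coe.2
      (ih T (card_lt_of_ne_top hT) _ (isChar_res hχ T) (hfr T) hn (h.imp id (fun h =>
        ⟨h.1, fun K hK a ha b hb h3 h4 => pElt_coe.1 (h.2 (K.map T.subtype)
          (by rwa [card_map_subtype]) a ⟨a, ha, rfl⟩ b ⟨b, hb, rfl⟩ (pElt_coe.2 h3)
          (pElt_coe.2 h4))⟩)) ⟨x, hx⟩ ⟨y, hy⟩ (pElt_coe.1 h1) (pElt_coe.1 h2)))
  have hU : ∀ T : Subgroup G, T ≠ ⊤ → ∀ P₁ P₂ : Sylow p G, (P₁ : Subgroup G) ≤ T →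
      (P₂ : Subgroup G) ≤ T → P₁ = P₂ := fun T hT P₁ P₂ h1 h2 => by
    obtain ⟨P₀, h0⟩ := hR T hT
    have key : ∀ P₁ : Sylow p G, (P₁ : Subgroup G) ≤ T → P₀ = P₁ := fun P₁ h1 =>
      Sylow.ext (P₁.is_maximal' P₀.isPGroup'
        (fun x hx => h0 x (h1 hx) (pElt_of_mem P₁.isPGroup' hx)))
    rw [← key P₁ h1, ← key P₂ h2]
  have hN : ∀ T : Subgroup G, T ≠ ⊤ → (P : Subgroup G) ≤ T → ∀ g : G,
      MulAut.conj g • T = T → g ∈ Subgroup.normalizer ((P : Subgroup G) : Set G) :=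
    fun T hT h1 g hg => by
      rw [← conj_smul_eq_iff]
      exact congrArg Sylow.toSubgroup (hU T hT (g • P) P (hg ▸ conj_smul_mono g h1) h1)
  have hM : ∀ M : Subgroup G, M.Normal → (P : Subgroup G) ≤ M → M = ⊤ := fun M _ h1 => by
    by_contra hM
    exact hPn (Subgroup.normalizer_eq_top_iff.1 ((Subgroup.eq_top_iff' _).2
      (fun g => hN M hM h1 g (conj_smul_normal g M))))
  obtain ⟨ψ, hψ, hψχ, hψ1⟩ : ∃ ψ, IsIrrCharacter G ψ ∧ classInner χ ψ ≠ 0 ∧ ψ 1 ≠ 1 := by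
    by_contra hne
    push Not at hne
    refine hPn ⟨fun x hx g => ?_⟩
    have := hf (g * x * g⁻¹ * x⁻¹) (mem_cker_of_forall hχ (fun ψ hψ h0 =>
      commutator_mem_cker_of_linear (irr_isChar hψ) (hne ψ hψ h0) g x))
    rwa [mul_inv_eq_one.1 this]
  have hψn : deg ψ ≤ n := hn ▸ deg_le_of_inner_ne_zero hχ hψ hψχ
  have hψpos := irr_deg_pos hψ
  have hnp : n + 1 < p := h.elim (fun h => by nlinarith) (fun h => h.1)
  have hab : ∀ (P : Sylow p G), ∀ a ∈ (P : Subgroup G), ∀ b ∈ (P : Subgroup G), a * b = b * a :=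
    fun P a ha b hb => by
      haveI := Fintype.ofFinite (P : Subgroup G)
      have := hfr P (⟨a, ha⟩ * ⟨b, hb⟩ * (⟨a, ha⟩ : (P : Subgroup G))⁻¹ *
        (⟨b, hb⟩ : (P : Subgroup G))⁻¹) (mem_cker_of_forall (isChar_res hχ _) (fun τ hτ h0 => by
          refine commutator_mem_cker_of_linear (irr_isChar hτ) ?_ _ _
          obtain ⟨k, hk⟩ := IsPGroup.iff_card.1 P.isPGroup'
          obtain ⟨j, -, hj⟩ := (Nat.dvd_prime_pow hp.out).1 (hk ▸ deg_dvd_card hτ)
          have h1 : deg τ ≤ n := hn ▸ deg_le_of_inner_ne_zero (isChar_res hχ _) hτ h0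
          rcases j with _ | j
          · rw [← deg_cast (irr_isChar hτ), hj]; simp
          · have := Nat.le_of_dvd (irr_deg_pos hτ) (hj ▸ dvd_pow_self p j.succ_ne_zero)
            omega))
      exact commutatorElement_eq_one_iff_mul_comm.1 (congrArg Subtype.val this)
  have hTI : ∀ P₁ P₂ : Sylow p G, ∀ z ∈ (P₁ : Subgroup G), z ∈ (P₂ : Subgroup G) →
      z ∉ Subgroup.center G → P₁ = P₂ := fun P₁ P₂ z h1 h2 hz =>
    hU (Subgroup.centralizer {z}) (fun h => hz (Subgroup.centralizer_eq_top_iff_subset.1 h rfl))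
      P₁ P₂ (fun x hx => Subgroup.mem_centralizer_singleton_iff.2 (hab P₁ x hx z h1))
      (fun x hx => Subgroup.mem_centralizer_singleton_iff.2 (hab P₂ x hx z h2))
  by_cases hZ : (P : Subgroup G) ⊓ Subgroup.center G = ⊥
  · haveI := Fintype.ofFinite (P : Subgroup G)
    have hZ' : ∀ (a z : G), z ∈ MulAut.conj a • (P : Subgroup G) → z ∈ Subgroup.center G → z = 1 :=
      fun a z h1 h2 => by
        rw [mem_conj_smul_iff, Subgroup.mem_center_iff.1 h2 a⁻¹, inv_mul_cancel_right] at h1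
        exact Subgroup.mem_bot.1 (hZ ▸ ⟨h1, h2⟩)
    have h1 := (Cfsg.Agent.S0898.result (P : Subgroup G) (hab P) hZ (fun g hg a b ha hb => by
      obtain ⟨P₀, h0⟩ := hR (Subgroup.centralizer {g})
        (fun h => hg (Subgroup.centralizer_eq_top_iff_subset.1 h rfl))
      have key : ∀ a : G, Subgroup.centralizer ({g} : Set G) ⊓ MulAut.conj a • (P : Subgroup G) ≠ ⊥ →
          a • P = P₀ := fun a ha => by
        obtain ⟨⟨z, hz⟩, hz1⟩ := Subgroup.ne_bot_iff_exists_ne_one.1 ha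
        exact hTI _ _ z hz.2 (h0 z hz.1 (pElt_of_mem (a • P).isPGroup' hz.2))
          (fun h => hz1 (Subtype.ext (hZ' a z hz.2 h)))
      exact congrArg Sylow.toSubgroup ((key a ha).trans (key b hb).symm)) ψ hψ (by
        by_contra hne
        push Not at hne
        have := hM (cker ψ) (cker_normal (irr_classFun hψ))
          (fun h hh => (mem_cker (irr_isChar hψ)).2 (hne h hh))
        exact hψ1 (by rw [irr_eq_one_of_cker_top hψ (fun g => this ▸ Subgroup.mem_top g)]))).2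
        hψ1 hM
    rw [← deg_cast (irr_isChar hψ), Complex.natCast_re] at h1
    have h2 : Nat.card (P : Subgroup G) < (1 + deg ψ) ^ 2 := by exact_mod_cast h1
    have h3 : (1 + deg ψ) ^ 2 ≤ (n + 1) ^ 2 := Nat.pow_le_pow_left (by omega) 2
    rcases h with h | h
    · obtain ⟨k, hk⟩ := IsPGroup.iff_card.1 P.isPGroup'
      rcases k with _ | k
      · have h4 : (P : Subgroup G) = ⊥ := Subgroup.card_eq_one.1 (by simpa using hk)
        exact hPn (h4 ▸ inferInstance)
      · have := Nat.le_of_dvd Nat.card_pos (hk ▸ dvd_pow_self p k.succ_ne_zero)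
        omega
    · by_cases h4 : p ^ 2 ∣ Nat.card G
      · have h5 := Nat.le_of_dvd Nat.card_pos (P.pow_dvd_card_of_pow_dvd_card h4)
        have h6 : (n + 1) ^ 2 < p ^ 2 := Nat.pow_lt_pow_left hnp two_ne_zero
        omega
      · obtain ⟨P₀, h0⟩ := exists_sylow ⊤ (h.2 ⊤ (by rwa [Subgroup.card_top]))
        have key : ∀ P₁ : Sylow p G, P₀ = P₁ := fun P₁ => Sylow.ext (P₁.is_maximal' P₀.isPGroup'
          (fun x hx => h0 x trivial (pElt_of_mem P₁.isPGroup' hx)))
        haveI : Subsingleton (Sylow p G) := ⟨fun a b => (key a).symm.trans (key b)⟩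
        exact hPn P.normal_of_subsingleton
  obtain ⟨⟨z, hz⟩, hz1⟩ := Subgroup.ne_bot_iff_exists_ne_one.1 hZ
  letI : CommGroup (P : Subgroup G) := { (inferInstance : Group (P : Subgroup G)) with
    mul_comm := fun a b => Subtype.ext (hab P a a.2 b b.2) }
  let v := MonoidHom.transfer (MonoidHom.id (P : Subgroup G))
  have hK : v.ker ≠ ⊤ := fun hK => by
    have h1 : v z = 1 := (hK ▸ Subgroup.mem_top z : z ∈ v.ker)
    rw [MonoidHom.transfer_eq_pow _ _ (fun k g _ => by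
      rw [Subgroup.mem_center_iff.1 (Subgroup.pow_mem _ hz.2 k), inv_mul_cancel_right])] at h1
    have h2 : z ^ (P : Subgroup G).index = 1 := congrArg Subtype.val h1
    obtain ⟨k, hk⟩ := pElt_of_mem P.isPGroup' hz.1
    exact hz1 (Subtype.ext (orderOf_eq_one_iff.1 (Nat.eq_one_of_dvd_coprimes
      (((Nat.Prime.coprime_iff_not_dvd hp.out).2 P.not_dvd_index).pow_left k)
      (orderOf_dvd_of_pow_eq_one hk) (orderOf_dvd_of_pow_eq_one h2))))
  obtain ⟨k, hk⟩ : ∃ k, v.ker.index = p ^ k := by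
    rw [Subgroup.index_ker]
    exact IsPGroup.iff_card.1 (P.isPGroup'.to_subgroup _)
  generalize v.ker = K, (inferInstance : v.ker.Normal) = hKn at hK hk
  obtain ⟨R⟩ : Nonempty (Sylow p K) := inferInstance
  have hRZ : (R : Subgroup K).map K.subtype ≤ Subgroup.center G := by
    rintro _ ⟨x, hx, rfl⟩
    by_contra hxZ
    obtain ⟨P₀, h0⟩ := hR K hK
    have hx' : PElt p (x : G) := pElt_coe.2 (pElt_of_mem R.isPGroup' hx)
    have key : ∀ g : G, g • P₀ = P₀ := fun g => hTI _ _ x (mem_conj_smul_iff.2 (h0 _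
      (by simpa using hKn.conj_mem x x.2 g⁻¹) (by simpa using pElt_conj hx' g⁻¹))) (h0 x x.2 hx') hxZ
    obtain ⟨g, rfl⟩ := MulAction.exists_smul_eq G P₀ P
    rw [key] at hPn
    exact hPn (Subgroup.normalizer_eq_top_iff.1 ((Subgroup.eq_top_iff' _).2
      (fun g => conj_smul_eq_iff.1 (congrArg Sylow.toSubgroup (key g)))))
  have hcent : ∀ Q : Subgroup G, ∀ q : ℕ, q.Prime → p ≠ q → IsPGroup q Q →
      (P : Subgroup G) ≤ Subgroup.normalizer (Q : Set G) → Q ⊔ P ≠ ⊤ →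
      Q ≤ Subgroup.centralizer ((P : Subgroup G) : Set G) := fun Q q hq hpq hQ h1 h2 r hr x hx => by
    haveI := Fact.mk hq
    have h3 := hN _ h2 le_sup_right r (conj_smul_eq_of_mem (Subgroup.mem_sup_left hr))
    have h4 : r * x * r⁻¹ * x⁻¹ ∈ (P : Subgroup G) ⊓ Q := ⟨Subgroup.mul_mem _
      ((Subgroup.mem_normalizer_iff.1 h3 x).1 hx) (Subgroup.inv_mem _ hx), by
        have := Q.mul_mem hr ((Subgroup.mem_normalizer_iff.1 (h1 hx) _).1 (Q.inv_mem hr))
        simpa [mul_assoc] using this⟩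
    rw [(IsPGroup.disjoint_of_ne p q hpq _ _ P.isPGroup' hQ).eq_bot] at h4
    exact (commutatorElement_eq_one_iff_mul_comm.1 h4).symm
  have hC : Subgroup.centralizer ((P : Subgroup G) : Set G) = ⊤ := by
    rw [← Subgroup.index_eq_one]
    by_contra hne
    obtain ⟨q, hq, hqd⟩ := Nat.exists_prime_and_dvd hne
    haveI := Fact.mk hq
    by_cases hpq : p = q
    · subst hpq
      exact P.not_dvd_index (hqd.trans (Subgroup.index_dvd_of_le
        (fun x hx y hy => hab P y hy x hx)))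
    obtain ⟨Q₀⟩ : Nonempty (Sylow q G) := inferInstance
    have hQK : (Q₀ : Subgroup G) ≤ K := le_of_coprime_card_index (by
      obtain ⟨l, hl⟩ := IsPGroup.iff_card.1 Q₀.isPGroup'
      rw [hl, hk]
      exact Nat.coprime_pow_primes _ _ hq hp.out (Ne.symm hpq))
    have h1 := Sylow.normalizer_sup_eq_top' Q₀ hQK
    have h2 : ¬ p ∣ Nat.card (Sylow q G) := by
      rw [Q₀.card_eq_index_normalizer]
      set N := Subgroup.normalizer (Q₀ : Set G) with hN
      have h3 : N.index = N.relIndex K := by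
        have e1 := Subgroup.relIndex_mul_index (inf_le_left : N ⊓ K ≤ N)
        have e2 := Subgroup.relIndex_mul_index (inf_le_right : N ⊓ K ≤ K)
        rw [Subgroup.inf_relIndex_left, ← Subgroup.relIndex_sup_right, h1,
          Subgroup.relIndex_top_right] at e1
        rw [Subgroup.inf_relIndex_right, ← e1, mul_comm] at e2
        exact (Nat.eq_of_mul_eq_mul_left
          (Nat.pos_of_ne_zero Subgroup.index_ne_zero_of_finite) e2).symm
      rw [h3]
      refine fun h => R.not_dvd_index (h.trans (Subgroup.index_dvd_of_le (fun x hx => ?_)))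
      exact Subgroup.center_le_normalizer _ (hRZ ⟨x, hx, rfl⟩)
    obtain ⟨Q, hQ⟩ := P.isPGroup'.nonempty_fixed_point_of_prime_not_dvd_card (Sylow q G) h2
    have hPQ := ((P : Subgroup G).sylow_mem_fixedPoints_iff).1 hQ
    by_cases h3 : (Q : Subgroup G) ⊔ P = ⊤
    · haveI : (Q : Subgroup G).Normal := normal_of_sup_eq_top Subgroup.le_normalizer hPQ h3
      refine hPn (@ito_step G _ _ p q _ _ hpq P Q P.isPGroup' Q.isPGroup' this h3 (hab P) hM (fun R hRQ _ =>
        hcent R q hq hpq (Q.isPGroup'.to_le hRQ.le) (le_normalizer_of_normal' _ _) (fun h4 => ?_))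
        ψ hψ hψ1 (by omega))
      have h5 := dedekind_normal_left (A := R) (B := P) hRQ.le
      rw [h4, top_inf_eq, (IsPGroup.disjoint_of_ne p q hpq _ _ P.isPGroup' Q.isPGroup').eq_bot,
        sup_bot_eq] at h5
      exact hRQ.ne h5.symm
    · exact Q.not_dvd_index (hqd.trans (Subgroup.index_dvd_of_le
        (hcent Q q hq hpq Q.isPGroup' hPQ h3)))
  exact hPn (Subgroup.normalizer_eq_top_iff.1 (top_le_iff.1
    (hC ▸ Subgroup.centralizer_le_normalizer _)))

/-- Let G be a finite group with a faithful complex representation of degree n (on Fin n → ℂ) and p a prime. Suppose either that (n + 1) ^ 2 ≤ p, or that n + 1 < p and every subgroup of G whose order is not divisible by p ^ 2 has a normal Sylow p-subgroup. Then every Sylow p-subgroup of G is normal. -/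
theorem result {G : Type*} [Group G] [Finite G] (n : ℕ) (ρ : Representation ℂ G (Fin n → ℂ)) (hρ : Function.Injective ρ) (p : ℕ) [Fact p.Prime] (h : (n + 1) ^ 2 ≤ p ∨ (n + 1 < p ∧ ∀ K : Subgroup G, ¬ p ^ 2 ∣ Nat.card K → ∀ Q : Sylow p K, (Q : Subgroup K).Normal)) (P : Sylow p G) : (P : Subgroup G).Normal := by
  have key := aux n p G ρ.character (isCharacter_of_rep ρ)
    (fun g hg => hρ (by rw [(mem_cker_rep ρ).1 hg, map_one]))
    (deg_eq_of_eq (by simp [ρ.char_one])) (h.imp id (fun h => ⟨h.1, fun K hK x hx y hy h1 h2 => by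
      obtain ⟨Q⟩ : Nonempty (Sylow p K) := inferInstance
      exact pElt_coe.2 (pElt_of_mem Q.isPGroup' ((Q : Subgroup K).mul_mem
        (mem_of_normal Q (h.2 K hK Q) (x := ⟨x, hx⟩) (pElt_coe.1 h1))
        (mem_of_normal Q (h.2 K hK Q) (x := ⟨y, hy⟩) (pElt_coe.1 h2))))⟩))
  obtain ⟨P₀, h0⟩ := exists_sylow (p := p) ⊤ (fun x _ y _ => key x y)
  have key : ∀ P₁ : Sylow p G, P₀ = P₁ := fun P₁ => Sylow.ext (P₁.is_maximal' P₀.isPGroup'
    (fun x hx => h0 x trivial (pElt_of_mem P₁.isPGroup' hx)))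
  haveI : Subsingleton (Sylow p G) := ⟨fun a b => (key a).symm.trans (key b)⟩
  exact P.normal_of_subsingleton

end Cfsg.Agent.S0899
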