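import Cfsg.Statements.S0900
import Cfsg.Agent.Lib.CharClifford

set_option autoImplicit false
open Cfsg

namespace Cfsg.Agent.S0900

open Cfsg.Agent.Lib.CharRep Cfsg.Agent.Lib.CharBasic Cfsg.Agent.Lib.CharOrth
  Cfsg.Agent.Lib.CharInd Cfsg.Agent.Lib.CharInt Cfsg.Agent.Lib.CharClifford

/-- Let N be a normal subgroup of the finite group G, χ an irreducible character of G and ϑ an irreducible character of N having nonzero inner product with the restriction of χ. Consider: (a) the restriction of χ to N is e • ϑ for a natural number e with e ^ 2 equal to the index of N; (b) χ vanishes outside N and ϑ is invariant under conjugation by G; (c) ϑ is invariant and every irreducible character of G having nonzero inner product with the function induced from ϑ equals χ. Then (a) ↔ (b) and (a) ↔ (c). -/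
theorem result {G : Type*} [Group G] [Fintype G] (N : Subgroup G) [hN : N.Normal] [Fintype N] (χ : G → ℂ) (hχ : Cfsg.IsIrrCharacter G χ) (ϑ : N → ℂ) (hϑ : Cfsg.IsIrrCharacter N ϑ) (hcon : Cfsg.classInner (fun n : N => χ n) ϑ ≠ 0) : ((∃ e : ℕ, (fun n : N => χ n) = (e : ℂ) • ϑ ∧ e ^ 2 = N.index) ↔ ((∀ g : G, g ∉ N → χ g = 0) ∧ ∀ (g : G) (n : N), ϑ ⟨g * n * g⁻¹, hN.conj_mem (n : G) n.2 g⟩ = ϑ n)) ∧ ((∃ e : ℕ, (fun n : N => χ n) = (e : ℂ) • ϑ ∧ e ^ 2 = N.index) ↔ (∀ (g : G) (n : N), ϑ ⟨g * n * g⁻¹, hN.conj_mem (n : G) n.2 g⟩ = ϑ n ∧ ∀ ψ : G → ℂ, Cfsg.IsIrrCharacter G ψ → Cfsg.classInner (Cfsg.indFun N ϑ) ψ ≠ 0 → ψ = χ)) := by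
  let E := ofNormal N
  have hidx : E.index = N.index := ofNormal_index N
  have hχ' := irr_isChar hχ
  have hϑ' := irr_isChar hϑ
  have hres : IsCharacter N (fun n : N => χ n) := isChar_res hχ' N
  have ha : (∃ e : ℕ, (fun n : N => χ n) = (e : ℂ) • ϑ ∧ e ^ 2 = N.index) →
      E.Inv ϑ ∧ ∃ e : ℕ, e ≠ 0 ∧ ind N.subtype ϑ = (e : ℂ) • χ := by
    rintro ⟨e, h1, h2⟩
    refine ⟨E.inv_of_res_eq_smul hχ h1, e, ?_, ?_⟩
    · rintro rfl
      exact Subgroup.index_ne_zero_of_finite (h2.symm.trans (by simp))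
    · apply eq_smul_of_deg_le (isChar_ind _ hϑ') hχ
      · apply le_of_eq
        symm
        apply mult_eq_of_eq
        rw [cinner_ind_left _ _ (irr_classFun hχ), ← cinner_conj_symm]
        change (starRingEnd ℂ) (classInner (fun n : N => χ n) ϑ) = _
        rw [h1, cinner_smul_left, cinner_irr_self hϑ]
        simp
      · rw [deg_ind _ N.subtype_injective hϑ', Subgroup.range_subtype, ← h2]
        have h3 : deg χ = e * deg ϑ := by
          apply deg_eq_of_eq
          have := congrFun h1 1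
          rw [Nat.cast_mul, deg_cast hϑ']
          simpa using this
        rw [h3, sq, mul_assoc]
  constructor
  · constructor
    · intro h
      obtain ⟨h1, e, he, h2⟩ := ha h
      refine ⟨fun g hg => ?_, h1⟩
      have h3 := E.ind_eq_zero_of_not_mem ϑ (g := g) (by rwa [ofNormal_range])
      change ind N.subtype ϑ g = 0 at h3
      rw [h2] at h3
      simpa [he] using h3
    · rintro ⟨h1, h2⟩
      have h3 := E.res_eq_smul_of_inv hχ hϑ hcon h2
      refine ⟨_, h3, ?_⟩
      have h4 := E.ind_res_of_vanish (irr_classFun hχ) (fun g hg => h1 g (by rwa [ofNormal_range] at hg))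
      have h5 := cinner_ind_left E.i (fun n => χ (E.i n)) (irr_classFun hχ)
      rw [h4, cinner_smul_left, cinner_irr_self hχ, mul_one, h3, cinner_smul_left,
        cinner_smul_right, cinner_irr_self hϑ, hidx] at h5
      simp only [map_natCast, mul_one] at h5
      rw [sq]
      exact_mod_cast h5.symm
  · constructor
    · intro h g n
      obtain ⟨h1, e, he, h2⟩ := ha h
      refine ⟨h1 g n, fun ψ hψ h3 => ?_⟩
      rw [indFun_eq_ind, h2, cinner_smul_left] at h3
      exact (irr_eq_of_inner_ne_zero hχ hψ (right_ne_zero_of_mul h3)).symm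
    · intro h
      have h2 : E.Inv ϑ := fun g n => (h g n).1
      have h3 := E.res_eq_smul_of_inv hχ hϑ hcon h2
      refine ⟨_, h3, ?_⟩
      have h4 := eq_smul_of_unique_constituent (isChar_ind E.i hϑ') hχ (fun τ hτ h5 =>
        (h 1 1).2 τ hτ (by rw [indFun_eq_ind]; exact h5))
      have h5 : mult (ind E.i ϑ) χ = mult (fun n => χ (E.i n)) ϑ := by
        rw [mult, cinner_ind_left _ _ (irr_classFun hχ), cinner_char_symm hϑ' (isChar_comp hχ' E.i)]
        rfl
      have h6 := E.cinner_ind_ind_of_inv h2 ϑ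
      rw [h4, h5, cinner_smul_left, cinner_smul_right, cinner_irr_self hχ, cinner_irr_self hϑ,
        hidx] at h6
      simp only [map_natCast, mul_one] at h6
      rw [sq]
      exact_mod_cast h6

end Cfsg.Agent.S0900
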