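import Cfsg.Statements.S1644
import Cfsg.Agent.Lib.J1Final
import Cfsg.Agent.Lib.J1Sylow

set_option autoImplicit false
open Cfsg

namespace Cfsg.Agent.S1644

open Cfsg.Agent.Lib Cfsg.Agent.Lib.J1E Cfsg.Agent.Lib.J1Basic

/-- The first Janko group recognised by an involution centraliser, at the level of isomorphism: a finite simple group with abelian Sylow 2-subgroups of order 8 and an involution whose centraliser is isomorphic to Z/2 × A₅ is isomorphic to the subgroup of GL(7, 11) generated by the two explicit Janko matrices. -/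
theorem result {G : Type*} [Group G] [Finite G] [IsSimpleGroup G] (S : Sylow 2 G) (hS : IsMulCommutative (S : Subgroup G)) (h8 : Nat.card S = 8) (t : G) (ht : orderOf t = 2) (e : (Subgroup.centralizer ({t} : Set G)) ≃* Multiplicative (ZMod 2) × alternatingGroup (Fin 5)) : Cfsg.Spor.IsoJ1 G := by
  obtain ⟨φ⟩ := nonempty_equiv
  have hi : Iv t := iv_of_orderOf ht
  have mem : ∀ g, g ∈ Subgroup.centralizer ({t} : Set G) ↔ t * g = g * t := fun g => by
    simp [Subgroup.mem_centralizer_iff]
  let t' : Subgroup.centralizer ({t} : Set G) := ⟨t, (mem t).2 rfl⟩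
  let ψ := e.trans (MulEquiv.prodCongr (MulEquiv.refl _) φ.symm)
  have c : ∀ y, ψ t' * y = y * ψ t' := fun y => by
    obtain ⟨z, rfl⟩ := ψ.surjective y
    rw [← map_mul, ← map_mul]
    exact congrArg ψ (Subtype.ext ((mem z).1 z.2))
  have h2 : (ψ t').2 = 1 := by
    have k : ∀ p : E, (∀ y, p * y = y * p) → p = 1 := by decide +kernel
    exact k _ fun y => congrArg Prod.snd (c (1, y))
  have h1 : (ψ t').1 ≠ 1 := fun h => hi.2 (congrArg Subtype.val
    (ψ.injective (a₁ := t') (a₂ := 1) (by rw [map_one]; exact Prod.ext h h2)))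
  let f : E →* G := (Subgroup.subtype _).comp (ψ.symm.toMonoidHom.comp (MonoidHom.inr _ _))
  have hf : ∀ x, f x = (ψ.symm (1, x) : Subgroup.centralizer ({t} : Set G)) := fun _ => rfl
  refine J1Final.isoJ1 (J1Sylow.hyp S h8 hi (f := f) ⟨?_, fun x hx => h1 ?_, fun x => ?_,
    fun g hg => ?_⟩) hi
  · exact (Subgroup.subtype_injective _).comp (ψ.symm.injective.comp fun _ _ h => congrArg Prod.snd h)
  · have : ψ.symm (1, x) = t' := Subtype.ext hx
    rw [← this, ψ.apply_symm_apply]
  · exact (mem _).1 (ψ.symm (1, x)).2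
  · let y := ψ ⟨g, (mem g).2 hg⟩
    have hy : (ψ.symm y : G) = g := by simp [y]
    refine ⟨y.2, ?_⟩
    by_cases h : y.1 = 1
    · exact Or.inl (by rw [hf, ← h, ← hy])
    · have k : ∀ a b : Multiplicative (ZMod 2), a ≠ 1 → b ≠ 1 → a = b := by decide
      refine Or.inr ?_
      have : y = ψ t' * (1, y.2) := Prod.ext (by simpa using k _ _ h h1) (by simp [h2])
      rw [← hy, this, map_mul, ψ.symm_apply_apply, hf]
      simp [t', h2]

end Cfsg.Agent.S1644
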