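import Cfsg.Statements.S1650
import Cfsg.Agent.Lib.HNMain

set_option autoImplicit false
open Cfsg

namespace Cfsg.Agent.S1650

/-- The Harada–Norton group from an involution centraliser: if a finite simple group has an involution t whose centraliser has a normal subgroup M of index 2, containing its own centraliser in the involution centraliser, which is a non-split double cover of the Higman–Sims group, then the group has exactly two conjugacy classes of involutions and order 2^14·3^6·5^6·7·11·19. -/
theorem result {G : Type*} [Group G] [Finite G] [IsSimpleGroup G] (t : G) (ht : orderOf t = 2) (M : Subgroup (Subgroup.centralizer ({t} : Set G))) [M.Normal] (hM : M.index = 2) (hout : Subgroup.centralizer (M : Set (Subgroup.centralizer ({t} : Set G))) ≤ M) (hcov : Cfsg.IsNonsplitDoubleCover M Cfsg.Spor.HS) : Cfsg.IsHN G ∧ ∃ x y : G, orderOf x = 2 ∧ orderOf y = 2 ∧ ¬ IsConj x y ∧ ∀ z : G, orderOf z = 2 → IsConj z x ∨ IsConj z y := by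
  obtain ⟨⟨e⟩, h⟩ := Lib.HNMain.main t ht M hM hout hcov
  exact ⟨⟨inferInstance, (Nat.card_congr e.toEquiv).trans Lib.HNA.card_eq⟩, h⟩

end Cfsg.Agent.S1650
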