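import Cfsg.Statements.S1682
import Cfsg.Agent.Lib.HeA
import Cfsg.Agent.Lib.MatChk
import Cfsg.Agent.Lib.FormOrder
import Cfsg.Agent.Lib.TCS44a
import Cfsg.Agent.Lib.TCS44b
import Cfsg.Agent.Lib.TCS44c

set_option autoImplicit false
open Cfsg

namespace Cfsg.Agent.S1682

open Cfsg.Agent.Lib Cfsg.Agent.Lib.PermNet Cfsg.Agent.Lib.Words Cfsg.Agent.Lib.PermGroup
  Cfsg.Agent.Lib.MatChk Cfsg.Agent.Lib.GF4 Matrix

set_option maxRecDepth 100000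
set_option Elab.async false

/-- The relators of the subgroup of index two, on `a, c, d, e, f, e (b c d e) ^ 7`. -/
def K1 : List (List ℕ) :=
  [[0, 0], [2, 2], [4, 4], [6, 6], [8, 8], [10, 10], [0, 2, 0, 2], [0, 4, 0, 4], [0, 6, 0, 6],
  [0, 8, 0, 8], [0, 10, 0, 10, 0, 10, 0, 10, 0, 10, 0, 10], [2, 4, 2, 4, 2, 4, 2, 4, 2, 4, 2, 4,
  2, 4, 2, 4, 2, 4, 2, 4], [2, 6, 2, 6], [2, 8, 2, 8], [2, 10, 2, 10], [4, 6, 4, 6, 4, 6], [4, 8,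
  4, 8, 4, 8], [4, 10, 4, 10, 4, 10], [6, 8, 6, 8], [6, 10, 6, 10, 6, 10], [8, 10, 8, 10, 8, 10,
  8, 10], [2, 4, 6, 2, 4, 6, 2, 4, 6, 2, 4, 6, 2, 4, 6], [0, 2, 4, 2, 4, 2, 4, 2, 4, 2, 4], [8,
  4, 2, 4, 2, 6, 4, 8, 4, 2, 4, 6, 2, 4, 8, 4, 2, 4, 6, 2, 4], [6, 8, 10, 6, 8, 10, 6, 8, 10],
  [4, 6, 10, 4, 6, 10]]

/-- The generators. -/
def I1 : List ℕ := [0, 1, 2, 3, 4, 5]

theorem b1 {X : Type*} [Group X] (z : ℕ → X) (hz : ∀ w ∈ K1, wval z w = 1) :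
    (gp z [[0], [2], [4], [6], [8]]).relIndex (gp z [[0], [2], [4], [6], [8], [10]]) ≠ 0 ∧
    (gp z [[0], [2], [4], [6], [8]]).relIndex (gp z [[0], [2], [4], [6], [8], [10]]) ≤ 255 :=
  tc_wrap I1 hz [[0], [2], [4], [6], [8], [10]] TCS44a.bound _ _ (by decide +kernel)

theorem b2 {X : Type*} [Group X] (z : ℕ → X) (hz : ∀ w ∈ K1, wval z w = 1) :
    (gp z [[2], [4], [6]]).relIndex (gp z [[0], [2], [4], [6], [8]]) ≠ 0 ∧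
    (gp z [[2], [4], [6]]).relIndex (gp z [[0], [2], [4], [6], [8]]) ≤ 32 :=
  tc_wrap I1 hz [[0], [2], [4], [6], [8]] TCS44b.bound _ _ (by decide +kernel)

theorem b3 {X : Type*} [Group X] (z : ℕ → X) (hz : ∀ w ∈ K1, wval z w = 1) :
    (gp z []).relIndex (gp z [[2], [4], [6]]) ≠ 0 ∧
    (gp z []).relIndex (gp z [[2], [4], [6]]) ≤ 120 :=
  tc_wrap I1 hz [[2], [4], [6]] TCS44c.bound _ _ (by decide +kernel)

theorem card_le {X : Type*} [Group X] (z : ℕ → X) (hz : ∀ w ∈ K1, wval z w = 1) :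
    Nat.card (gp z (I1.map fun l => [2 * l])) ≠ 0 ∧
    Nat.card (gp z (I1.map fun l => [2 * l])) ≤ 979200 :=
  (card_le_of_relIndex (gp_mono (by decide)) (b1 z hz)
    (card_le_of_relIndex (gp_mono (by decide)) (b2 z hz)
    (card_le_of_relIndex (gp_mono (by decide)) (b3 z hz)
    (card_gp_nil z))))

/-- The matrices. -/
def ms : List Mat :=
  [[[1,3,1,2], [0,0,2,3], [0,0,1,0], [0,2,3,0]],
   [[1,0,0,0], [0,2,0,2], [0,0,1,0], [0,1,0,2]],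
   [[3,1,0,0], [3,3,0,0], [3,3,3,3], [3,1,1,3]],
   [[1,3,1,2], [0,2,2,2], [0,0,1,0], [0,1,3,2]],
   [[1,2,0,1], [0,3,1,1], [0,0,1,0], [0,3,2,3]],
   [[0,1,1,3], [3,0,3,3], [1,1,0,3], [1,2,1,0]],
   [[1,1,1,3], [0,2,3,2], [0,0,1,0], [0,1,1,2]],
   [[1,1,2,0], [0,3,1,1], [0,0,1,0], [0,2,1,1]],
   [[1,3,1,2], [0,2,3,0], [0,0,1,0], [0,0,2,3]],
   [[1,3,3,0], [0,0,2,3], [0,0,1,0], [0,2,1,2]],
   [[1,0,3,3], [0,1,3,3], [0,0,1,0], [0,0,0,1]],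
   [[1,0,1,1], [0,1,1,1], [0,0,1,0], [0,0,0,1]]]

theorem hw : wf (ar4 4) ms = true := by decide +kernel

theorem hrel : relsB (ar4 4) ms I1 K1 [1] = true := by decide +kernel

/-- The straight line program. -/
def st : List (ℕ × List ℕ × List ℕ) :=
  [(6, [], [0, 4]), (7, [], [2, 1, 5, 0, 2, 4, 2, 5, 1, 2, 4]), (8, [], [6, 7]), (9, [], [1, 7,
  7, 7, 6, 1]), (10, [], [9, 8, 9, 9]), (11, [], [8, 8, 9, 8, 9, 9, 8])]

theorem hst : slp (ar4 4) ms st I1 = true := by decide +kernel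

def t0 : T :=
  (.nd (.nd (.nd (.nd (.nd (.nd (.nd (.nd .lf 1 0 0 .lf) 2 6 2 (.nd .lf 3 6 2 .lf)) 4 6 4 (.nd
  (.nd .lf 5 4 3 .lf) 6 4 5 (.nd .lf 7 4 5 .lf))) 8 5 4 (.nd (.nd (.nd .lf 9 4 2 .lf) 10 4 5 (.nd
  .lf 11 4 5 .lf)) 12 7 5 (.nd (.nd .lf 13 6 5 .lf) 14 6 2 (.nd .lf 15 7 4 .lf)))) 16 6 2 (.nd
  (.nd (.nd (.nd .lf 17 3 4 .lf) 18 5 2 (.nd .lf 19 8 4 .lf)) 20 7 2 (.nd (.nd .lf 21 5 5 .lf) 22
  8 5 (.nd .lf 23 5 5 .lf))) 24 6 3 (.nd (.nd (.nd .lf 25 5 4 .lf) 26 3 2 (.nd .lf 27 7 1 .lf))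
  28 6 4 (.nd (.nd .lf 29 5 5 .lf) 30 6 2 (.nd .lf 31 6 1 .lf))))) 32 8 2 (.nd (.nd (.nd (.nd
  (.nd .lf 33 7 4 .lf) 34 8 2 (.nd .lf 35 7 2 .lf)) 36 4 4 (.nd (.nd .lf 37 4 4 .lf) 38 3 5 (.nd
  .lf 39 3 1 .lf))) 40 5 2 (.nd (.nd (.nd .lf 41 7 5 .lf) 42 6 5 (.nd .lf 43 7 1 .lf)) 44 4 2
  (.nd (.nd .lf 45 7 4 .lf) 46 6 3 (.nd .lf 47 5 2 .lf)))) 48 8 2 (.nd (.nd (.nd (.nd .lf 49 7 2
  .lf) 50 8 4 (.nd .lf 51 4 2 .lf)) 52 6 2 (.nd (.nd .lf 53 3 4 .lf) 54 9 3 (.nd .lf 55 2 3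
  .lf))) 56 6 4 (.nd (.nd (.nd .lf 57 6 3 .lf) 58 6 5 (.nd .lf 59 5 5 .lf)) 60 5 2 (.nd (.nd .lf
  61 6 5 .lf) 62 5 1 (.nd .lf 63 5 2 .lf)))))) 64 6 5 (.nd (.nd (.nd (.nd (.nd (.nd .lf 65 7 4
  .lf) 66 7 1 (.nd .lf 67 7 0 .lf)) 68 5 4 (.nd (.nd .lf 69 5 4 .lf) 70 3 2 (.nd .lf 71 4 2
  .lf))) 72 5 4 (.nd (.nd (.nd .lf 73 5 3 .lf) 74 3 5 (.nd .lf 75 5 5 .lf)) 76 8 2 (.nd (.nd .lf
  77 6 2 .lf) 78 10 5 (.nd .lf 79 4 2 .lf)))) 80 5 2 (.nd (.nd (.nd (.nd .lf 81 6 2 .lf) 82 7 0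
  (.nd .lf 83 6 3 .lf)) 84 5 2 (.nd (.nd .lf 85 5 4 .lf) 86 4 3 (.nd .lf 87 8 3 .lf))) 88 8 1
  (.nd (.nd (.nd .lf 89 6 5 .lf) 90 7 5 (.nd .lf 91 4 5 .lf)) 92 1 5 (.nd (.nd .lf 93 8 4 .lf) 94
  6 2 (.nd .lf 95 7 2 .lf))))) 96 6 1 (.nd (.nd (.nd (.nd (.nd .lf 97 5 4 .lf) 98 4 2 (.nd .lf 99
  7 3 .lf)) 100 6 2 (.nd (.nd .lf 101 7 3 .lf) 102 6 2 (.nd .lf 103 7 5 .lf))) 104 3 4 (.nd (.nd
  (.nd .lf 105 3 4 .lf) 106 2 5 (.nd .lf 107 2 2 .lf)) 108 8 4 (.nd (.nd .lf 109 7 5 .lf) 110 9 2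
  (.nd .lf 111 7 4 .lf)))) 112 5 1 (.nd (.nd (.nd (.nd .lf 113 5 2 .lf) 114 6 5 (.nd .lf 115 6 3
  .lf)) 116 7 4 (.nd (.nd .lf 117 6 0 .lf) 118 7 4 (.nd .lf 119 6 5 .lf))) 120 7 1 (.nd (.nd (.nd
  .lf 121 2 4 .lf) 122 8 3 (.nd .lf 123 3 3 .lf)) 124 9 4 (.nd (.nd .lf 125 7 2 .lf) 126 7 2 (.nd
  .lf 127 5 4 .lf))))))) 128 4 4 (.nd (.nd (.nd (.nd (.nd (.nd (.nd .lf 129 5 0 .lf) 130 4 5 (.nd
  .lf 131 6 4 .lf)) 132 8 2 (.nd (.nd .lf 133 3 5 .lf) 134 8 2 (.nd .lf 135 10 5 .lf))) 136 7 4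
  (.nd (.nd (.nd .lf 137 7 5 .lf) 138 6 2 (.nd .lf 139 7 4 .lf)) 140 5 3 (.nd (.nd .lf 141 5 1
  .lf) 142 5 3 (.nd .lf 143 4 2 .lf)))) 144 7 1 (.nd (.nd (.nd (.nd .lf 145 6 3 .lf) 146 7 2 (.nd
  .lf 147 5 5 .lf)) 148 7 4 (.nd (.nd .lf 149 2 0 .lf) 150 6 2 (.nd .lf 151 7 2 .lf))) 152 6 1
  (.nd (.nd (.nd .lf 153 6 5 .lf) 154 6 0 (.nd .lf 155 7 4 .lf)) 156 7 3 (.nd (.nd .lf 157 5 4
  .lf) 158 4 1 (.nd .lf 159 6 2 .lf))))) 160 4 4 (.nd (.nd (.nd (.nd (.nd .lf 161 4 4 .lf) 162 3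
  5 (.nd .lf 163 3 0 .lf)) 164 7 5 (.nd (.nd .lf 165 7 5 .lf) 166 10 4 (.nd .lf 167 6 2 .lf)))
  168 5 2 (.nd (.nd (.nd .lf 169 6 4 .lf) 170 5 1 (.nd .lf 171 6 3 .lf)) 172 6 1 (.nd (.nd .lf
  173 6 2 .lf) 174 6 5 (.nd .lf 175 6 2 .lf)))) 176 8 3 (.nd (.nd (.nd (.nd .lf 177 3 4 .lf) 178
  7 2 (.nd .lf 179 2 1 .lf)) 180 5 5 (.nd (.nd .lf 181 9 4 .lf) 182 7 2 (.nd .lf 183 8 2 .lf)))
  184 4 2 (.nd (.nd (.nd .lf 185 6 1 .lf) 186 7 5 (.nd .lf 187 5 3 .lf)) 188 5 2 (.nd (.nd .lf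
  189 6 4 .lf) 190 5 5 (.nd .lf 191 6 5 .lf)))))) 192 5 2 (.nd (.nd (.nd (.nd (.nd (.nd .lf 193 6
  4 .lf) 194 4 1 (.nd .lf 195 4 3 .lf)) 196 6 5 (.nd (.nd .lf 197 7 5 .lf) 198 7 1 (.nd .lf 199 7
  2 .lf))) 200 10 2 (.nd (.nd (.nd .lf 201 8 5 .lf) 202 8 2 (.nd .lf 203 8 2 .lf)) 204 5 4 (.nd
  (.nd .lf 205 4 0 .lf) 206 5 5 (.nd .lf 207 5 4 .lf)))) 208 6 1 (.nd (.nd (.nd (.nd .lf 209 4 4
  .lf) 210 4 2 (.nd .lf 211 7 3 .lf)) 212 5 5 (.nd (.nd .lf 213 6 5 .lf) 214 6 4 (.nd .lf 215 5 2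
  .lf))) 216 2 4 (.nd (.nd (.nd .lf 217 7 2 .lf) 218 7 4 (.nd .lf 219 6 2 .lf)) 220 6 2 (.nd (.nd
  .lf 221 5 3 .lf) 222 8 1 (.nd .lf 223 6 5 .lf))))) 224 7 1 (.nd (.nd (.nd (.nd (.nd .lf 225 6 2
  .lf) 226 6 5 (.nd .lf 227 6 5 .lf)) 228 5 1 (.nd (.nd .lf 229 6 4 .lf) 230 5 3 (.nd .lf 231 6 1
  .lf))) 232 9 4 (.nd (.nd (.nd .lf 233 6 5 .lf) 234 7 2 (.nd .lf 235 8 5 .lf)) 236 5 4 (.nd (.nd
  .lf 237 5 4 .lf) 238 4 5 (.nd .lf 239 4 0 .lf)))) 240 6 0 (.nd (.nd (.nd (.nd .lf 241 7 0 .lf)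
  242 6 2 (.nd .lf 243 6 5 .lf)) 244 6 1 (.nd (.nd .lf 245 5 5 .lf) 246 4 2 (.nd .lf 247 6 1
  .lf))) 248 6 4 (.nd (.nd (.nd .lf 249 8 2 .lf) 250 7 2 (.nd .lf 251 9 4 .lf)) 252 7 3 (.nd (.nd
  .lf 253 4 4 .lf) 254 8 1 (.nd .lf 255 1 2 .lf))))))))

theorem tl0 : level (ar4 4) ms [0, 1, 2, 3, 4, 5] [] 1 t0 255 = true := by decide +kernel

def t1 : T :=
  (.nd (.nd (.nd (.nd (.nd (.nd (.nd .lf 48 8 6 .lf) 49 6 7 .lf) 50 1 7 (.nd .lf 51 6 7 .lf)) 52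
  4 7 (.nd (.nd .lf 53 2 1 .lf) 54 5 6 (.nd .lf 55 7 7 .lf))) 56 4 6 (.nd (.nd (.nd .lf 57 5 7
  .lf) 58 4 1 (.nd .lf 59 5 7 .lf)) 60 5 7 (.nd (.nd .lf 61 7 1 .lf) 62 5 1 (.nd .lf 63 4 7
  .lf)))) 112 3 1 (.nd (.nd (.nd (.nd .lf 113 3 7 .lf) 114 6 7 (.nd .lf 115 6 1 .lf)) 116 5 7
  (.nd (.nd .lf 117 3 7 .lf) 118 6 6 (.nd .lf 119 3 1 .lf))) 120 5 1 (.nd (.nd (.nd .lf 121 1 6
  .lf) 122 4 7 (.nd .lf 123 8 1 .lf)) 124 8 7 (.nd (.nd .lf 125 3 7 .lf) 126 4 6 (.nd .lf 127 5 7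
  .lf))))) 176 4 7 (.nd (.nd (.nd (.nd (.nd .lf 177 6 7 .lf) 178 4 7 (.nd .lf 179 1 1 .lf)) 180 6
  6 (.nd (.nd .lf 181 3 7 .lf) 182 4 6 (.nd .lf 183 8 7 .lf))) 184 2 7 (.nd (.nd (.nd .lf 185 4 1
  .lf) 186 7 1 (.nd .lf 187 5 7 .lf)) 188 5 1 (.nd (.nd .lf 189 5 7 .lf) 190 3 6 (.nd .lf 191 6 1
  .lf)))) 240 6 1 (.nd (.nd (.nd (.nd .lf 241 4 1 .lf) 242 7 1 (.nd .lf 243 2 7 .lf)) 244 6 7
  (.nd (.nd .lf 245 6 7 .lf) 246 4 7 (.nd .lf 247 5 1 .lf))) 248 6 7 (.nd (.nd (.nd .lf 249 2 6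
  .lf) 250 7 6 (.nd .lf 251 7 7 .lf)) 252 5 1 (.nd (.nd .lf 253 7 1 .lf) 254 5 1 (.nd .lf 255 0 6
  .lf))))))

theorem tl1 : level (ar4 4) ms [6, 1, 7] [1] 255 t1 64 = true := by decide +kernel

def t2 : T :=
  (.nd (.nd (.nd (.nd .lf 18 3 9 .lf) 23 4 8 (.nd .lf 24 2 9 .lf)) 29 2 8 (.nd (.nd .lf 83 1 8
  .lf) 89 2 8 (.nd .lf 92 0 8 .lf))) 144 3 8 (.nd (.nd (.nd .lf 149 3 9 .lf) 154 1 9 (.nd .lf 159
  3 9 .lf)) 209 3 8 (.nd (.nd .lf 212 4 9 .lf) 219 4 8 (.nd .lf 222 2 9 .lf))))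

theorem tl2 : level (ar4 4) ms [8, 9] [255, 1] 92 t2 15 = true := by decide +kernel

def t3 : T :=
  (.nd (.nd (.nd .lf 179 0 10 .lf) 182 1 11 .lf) 185 2 11 (.nd .lf 188 1 10 .lf))

theorem tl3 : level (ar4 4) ms [10, 11] [92, 255, 1] 179 t3 4 = true := by decide +kernel


/-- The meaning of the codes. -/
def sm : Sem (ar4 4) K4 (Fin 2 ⊕ Fin 2) := sem4 4 (finSumFinEquiv : Fin 2 ⊕ Fin 2 ≃ Fin 4)

/-- The symplectic group. -/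
abbrev X := symplecticGroup (Fin 2) K4

/-- The matrix of an element. -/
def ρ : X →* Matrix (Fin 2 ⊕ Fin 2) (Fin 2 ⊕ Fin 2) K4 := Submonoid.subtype _

theorem ρ_inj : Function.Injective ρ := Subtype.val_injective

theorem rep_top : ∀ l ∈ I1, sm.Rep ρ ms ⊤ l := fun l hl =>
  ⟨⟨sm.mat (gm ms l), by rw [gm_eq, SymplecticGroup.mem_iff]; revert l; decide +kernel⟩, trivial, rfl⟩

/-- The generators. -/
noncomputable def f : ℕ → X := sm.el ρ ms ⊤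

theorem hf : ∀ w ∈ K1, wval f w = 1 := sm.rels_one hw ρ ρ_inj (sm.rho_el ρ rep_top) hrel

theorem card_ge : 979200 ≤ Nat.card (gp f (I1.map fun l => [2 * l])) := by
  have h := sm.rep_of_slp hw ρ st (sm.rep_gp ρ (sm.rho_el ρ rep_top)) hst
  rw [← sm.fx_nil ρ (gp _ _)]
  exact (sm.le_card ρ hw (Sem.Rep.sub _ _ h (by decide)) tl0
    (sm.le_card ρ hw (Sem.Rep.sub _ _ h (by decide)) tl1
    (sm.le_card ρ hw (Sem.Rep.sub _ _ h (by decide)) tl2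
    (sm.le_card ρ hw (Sem.Rep.sub _ _ h (by decide)) tl3
    (sm.one_le ρ _)))))

theorem gp_top : gp f (I1.map fun l => [2 * l]) = ⊤ := by
  refine Subgroup.eq_top_of_le_card _ (le_trans (le_of_eq ?_) card_ge)
  rw [FormOrder.card_symplecticGroup, K4.card_eq]
  decide

/-- The new generators, followed by `(a b) ^ 2`. -/
def ws : List (List ℕ) := [[0], [4], [6], [8], [10], [8, 14], [0, 2, 0, 2]]

/-- The conjugates of the generators under the last one. -/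
def cw : List (List ℕ) := [[0], [6, 2, 0], [4], [6], [8], [10]]

/-- The old generators in terms of the new ones. -/
def vs : List (List ℕ) := [[0], [2], [4], [6], [8], [12], [7, 10]]

/-- The relations to be checked. -/
def prs : List (List ℕ × List ℕ) := ([12, 12] :: K1).map (fun w => (subst ws w, [])) ++
  I1.map (fun i => (subst ws [12, 2 * i, 13], subst ws (cw.getD i []))) ++
  HeA.hs.zip (vs.map (subst ws))

theorem chk : RelsOn HeA.nets 2058 12 prs 0 12 :=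
  relsOn_of_B _ _ _ _ _ 12 _ (by decide +kernel) (by decide +kernel)

theorem hY : ∀ r ∈ prs, wval HeA.Y r.1 = wval HeA.Y r.2 := fun r hr =>
  (injective_iff_map_eq_one HeA.phi).2 (fun _ => HeA.phi_eq_one) (by
    rw [map_wval' HeA.hphi, map_wval' HeA.hphi]
    exact wval_eq_of_relsOn (K := 12) HeA.hv (by norm_num) chk r hr)

/-- The new generators as elements. -/
def z (i : ℕ) : Spor.He := wval HeA.Y (ws.getD i [])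

theorem hz' : ∀ w ∈ [12, 12] :: K1, wval z w = 1 := fun w hw =>
  (wval_subst _ ws w).symm.trans
    (hY (subst ws w, []) (List.mem_append_left _ (List.mem_append_left _ (List.mem_map_of_mem hw))))

theorem hz : ∀ w ∈ K1, wval z w = 1 := fun w hw => hz' w (List.mem_cons_of_mem _ hw)

/-- The subgroup of index two. -/
def N : Subgroup Spor.He := gp z (I1.map fun l => [2 * l])

theorem mem_normalizer : z 6 ∈ Subgroup.normalizer (N : Set Spor.He) := by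
  refine Subgroup.mem_normalizer_fintype fun x hx => ?_
  refine (gp_le (K := N.comap (MulAut.conj (z 6)).toMonoidHom)).2 (fun w hw => ?_) hx
  obtain ⟨i, hi, rfl⟩ := List.mem_map.1 hw
  have h := hY _ (List.mem_append_left _ (List.mem_append_right _ (List.mem_map_of_mem hi)))
  rw [wval_subst, wval_subst] at h
  have h1 : wval z (cw.getD i []) ∈ N := mem_gp_of_lettersIn (us := I1.map fun i => cw.getD i [])
    (by decide) _ (List.mem_map_of_mem hi)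
  rw [show wval z _ = wval z [12, 2 * i, 13] from h.symm] at h1
  simpa [wval, lval, mul_assoc] using h1

theorem hs_le : gp HeA.Y HeA.hs ≤ N ⊔ Subgroup.zpowers (z 6) := by
  refine gp_le.2 fun w hw => ?_
  obtain ⟨v, h1, h2⟩ := (by decide : ∀ w ∈ HeA.hs, ∃ v ∈ vs, (w, subst ws v) ∈ prs) w hw
  rw [hY _ h2, wval_subst]
  refine wval_mem fun l hl => ?_
  rcases (by decide : ∀ v ∈ vs, ∀ l ∈ v, l / 2 = 6 ∨ l / 2 ∈ I1) v h1 l hl with h | h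
  · exact h ▸ Subgroup.mem_sup_right (Subgroup.mem_zpowers _)
  · exact Subgroup.mem_sup_left (show z (l / 2) ∈ N from
      wval_single z (l / 2) ▸ mem_gp (List.mem_map_of_mem h))

theorem card_N : Nat.card N = 979200 := by
  have h1 := Subgroup.card_le_of_le hs_le
  have h2 : Nat.card (Subgroup.zpowers (z 6)) ≤ 2 := by
    rw [Nat.card_zpowers]
    exact orderOf_le_of_pow_eq_one (by norm_num)
      (by simpa [wval, lval, sq] using hz' _ List.mem_cons_self)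
  have h3 : Nat.card (N ⊔ Subgroup.zpowers (z 6) :) ≤ Nat.card N * Nat.card (Subgroup.zpowers (z 6)) := by
    rw [← SetLike.coe_sort_coe, Subgroup.coe_mul_of_right_le_normalizer_left _ _
      (Subgroup.zpowers_le.2 mem_normalizer)]
    exact Set.natCard_mul_le
  have h4 : Nat.card N ≤ _ := (card_le z hz).2
  have h5 := Nat.mul_le_mul_left (Nat.card N) h2
  rw [HeA.card_hs] at h1
  omega

theorem N_le : N ≤ gp HeA.Y HeA.hs := by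
  refine gp_le.2 fun w hw => ?_
  obtain ⟨i, hi, rfl⟩ := List.mem_map.1 hw
  have h7 : HeA.Y 7 ∈ gp HeA.Y HeA.hs := by
    have h : wval HeA.Y (HeA.hs.getD 6 []) = _ := hY (_, subst ws [7, 10]) (by decide)
    have h' : wval HeA.Y (HeA.hs.getD 6 []) ∈ gp HeA.Y HeA.hs := mem_gp (by decide)
    rw [h] at h'
    simpa [subst, ws, invW, invL, wval, lval] using h'
  rw [wval_single]
  refine wval_mem fun l hl => ?_
  rcases (by decide : ∀ i ∈ I1, ∀ l ∈ ws.getD i [], l / 2 = 7 ∨ [2 * (l / 2)] ∈ HeA.hs) i hi l hl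
    with h | h
  · exact h ▸ h7
  · exact wval_single HeA.Y (l / 2) ▸ mem_gp h

theorem final : ∃ (N : Subgroup (gp HeA.Y HeA.hs)) (K : Type) (_ : Field K) (_ : Fintype K),
    N.Normal ∧ N.index = 2 ∧ Fintype.card K = 4 ∧ Nonempty (N ≃* symplecticGroup (Fin 2) K) := by
  obtain ⟨e, -⟩ := PermModel.exists_hom_of_model hz hf (fun z hz => card_le z hz) card_N.ge card_ge
  have h : (N.subgroupOf (gp HeA.Y HeA.hs)).index = 2 := by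
    have := (N.subgroupOf (gp HeA.Y HeA.hs)).index_mul_card
    rw [Nat.card_congr (Subgroup.subgroupOfEquivOfLe N_le).toEquiv, card_N, HeA.card_hs] at this
    exact Nat.eq_of_mul_eq_mul_right (by norm_num) (this.trans (by norm_num))
  exact ⟨N.subgroupOf _, K4, inferInstance, inferInstance, Subgroup.normal_of_index_eq_two h, h, rfl,
    ⟨(Subgroup.subgroupOfEquivOfLe N_le).trans (e.trans
      ((MulEquiv.subgroupCongr gp_top).trans Subgroup.topEquiv))⟩⟩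


/-- In the presented Held group, the subgroup H generated by the images of a, c, d, e, f, (ab)^2 and (bcde)^7 has a normal subgroup of index 2 isomorphic to the 4-dimensional symplectic group over a field with four elements. -/
theorem result : ∃ (N : Subgroup (((Subgroup.closure ({Cfsg.Spor.He.a, Cfsg.Spor.He.c, Cfsg.Spor.He.d, Cfsg.Spor.He.e, Cfsg.Spor.He.f, (Cfsg.Spor.He.a * Cfsg.Spor.He.b) ^ 2, (Cfsg.Spor.He.b * Cfsg.Spor.He.c * Cfsg.Spor.He.d * Cfsg.Spor.He.e) ^ 7} : Set (FreeGroup Cfsg.Spor.He.Gen))).map (PresentedGroup.mk (Cfsg.Spor.coxRelators Cfsg.Spor.He.edges ∪ {r | r ∈ Cfsg.Spor.He.extra}))))) (K : Type) (_ : Field K) (_ : Fintype K), N.Normal ∧ N.index = 2 ∧ Fintype.card K = 4 ∧ Nonempty (N ≃* Matrix.symplecticGroup (Fin 2) K) := by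
  rw [HeBase.map_closure [.g 0, .g 2, .g 3, .g 4, .g 5, .pow (.mul (.g 0) (.g 1)) 2,
      .pow (.mul (.mul (.mul (.g 1) (.g 2)) (.g 3)) (.g 4)) 7] _
    (by ext; simp only [E.eval, HeBase.gen, List.map_cons, List.map_nil, List.mem_cons,
      List.not_mem_nil, or_false, Set.mem_insert_iff, Set.mem_singleton_iff, Set.mem_ofPred_eq]),
    ← HeA.gpY _ (by decide)]
  exact final

end Cfsg.Agent.S1682
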