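import Cfsg.Statements.S1667
import Cfsg.Agent.Lib.LeechRep
import Cfsg.Agent.Lib.LeechNear
import Cfsg.Agent.Lib.McRC0
import Cfsg.Agent.Lib.McTa
import Cfsg.Agent.Lib.McTb
import Cfsg.Agent.Lib.MatChk
import Cfsg.Agent.Lib.SUBasic

set_option autoImplicit false
open Cfsg

namespace Cfsg.Agent.S1667

open Cfsg.Agent.Lib Cfsg.Agent.Lib.PermNet Cfsg.Agent.Lib.Words Cfsg.Agent.Lib.PermGroup Cfsg.Agent.Lib.Rk3Aut
  Cfsg.Agent.Lib.Rk3Emb Cfsg.Agent.Lib.Rk3PH Cfsg.Agent.Lib.Rk3Iso Cfsg.Agent.Lib.Rk3Main Cfsg.Agent.Lib.Leech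
  Cfsg.Agent.Lib.LeechRep Cfsg.Agent.Lib.McR Cfsg.Spor Equiv

set_option maxRecDepth 100000
set_option Elab.async false

section
open MatChk Matrix

instance factSq : Fact (∀ r : ZMod 3, r ^ 2 ≠ -1 + 0 * r) := ⟨by decide⟩

abbrev K9 : Type := QuadraticAlgebra (ZMod 3) (-1) 0

instance fintypeK9 : Fintype K9 := Fintype.ofEquiv _ (QuadraticAlgebra.equivProd (-1) 0).symm

theorem card_K9 : Fintype.card K9 = 3 ^ 2 := by rw [Fintype.ofEquiv_card]; rfl

def tb (T x y : ℕ) : ℕ := Nat.mod (Nat.shiftRight T (Nat.mul 4 (Nat.add (Nat.mul 9 x) y))) 16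

def ar : Ar := ⟨9, 4, tb 0x435102768354021687543210876102768435021687354210876543768435102687354021876543210,
  fun x => tb 0x615237480138624570582471360264318750327165840741852630453786120876543210000000000 (Nat.mod x 9)⟩

def c9 (x : ℕ) : K9 := ⟨x, (x / 3 : ℕ)⟩

def sm : Sem ar K9 (Fin 4) where
  c x := c9 (x % 9)
  e := Equiv.refl _
  one_lt := by decide
  c_zero := rfl
  c_one := rfl
  c_inj := by decide +kernel
  ad_lt := by decide +kernel
  mu_lt x := (by decide +kernel : ∀ x < 9, ∀ y < 9, tb _ x y < 9) (x % 9) (Nat.mod_lt _ (by decide))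
  c_ad := by decide +kernel
  c_mu x := (by decide +kernel : ∀ x < 9, ∀ y < 9, c9 (tb _ x y % 9) = c9 x * c9 (y % 9)) (x % 9) (Nat.mod_lt _ (by decide))

def mt : List Mat := [[[0, 3, 0, 0], [1, 0, 0, 0], [0, 0, 0, 1], [0, 0, 6, 0]],
  [[1, 0, 1, 7], [0, 1, 8, 1], [2, 7, 1, 0], [8, 2, 0, 1]],
  [[1, 0, 6, 8], [0, 1, 5, 6], [6, 4, 1, 0], [7, 6, 0, 1]],
  [[4, 4, 0, 0], [5, 7, 0, 0], [0, 0, 1, 0], [0, 0, 0, 1]],
  [[1, 0, 2, 5], [0, 1, 8, 1], [1, 7, 1, 0], [4, 2, 0, 1]],
  [[1, 0, 3, 4], [0, 1, 5, 6], [3, 4, 1, 0], [5, 6, 0, 1]],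
  [[1, 0, 0, 0], [0, 1, 0, 0], [0, 0, 4, 4], [0, 0, 5, 7]],
  [[0, 0, 1, 0], [0, 0, 0, 1], [1, 0, 0, 0], [0, 1, 0, 0]],
  [[6, 0, 0, 0], [0, 3, 0, 0], [0, 0, 1, 0], [0, 0, 0, 1]],
  [[3, 0, 0, 0], [0, 3, 0, 0], [0, 0, 3, 0], [0, 0, 0, 3]]]

theorem hw : wf ar mt = true := by decide +kernel

abbrev X := SU 4 K9 3

def ρ : X →* Matrix (Fin 4) (Fin 4) K9 := SpecialLinearGroup.coeMonoidHom.comp (Subgroup.subtype _)

theorem ρ_inj : Function.Injective ρ := fun _ _ h => Subtype.ext (Subtype.ext h)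

theorem rep_top : ∀ l ∈ List.range 10, sm.Rep ρ mt ⊤ l := fun l hl => by
  refine ⟨⟨⟨sm.mat (gm mt l), ?_⟩, SUBasic.mem_SU_of card_K9 _ ?_⟩, trivial, rfl⟩
  · rw [det_succ_row_zero]
    simp only [det_fin_three]
    revert l
    decide +kernel
  · change ∀ i j, ∑ k, sm.mat (gm mt l) k i * sm.mat (gm mt l) k j ^ 3 = _
    revert l
    decide +kernel

noncomputable def u : ℕ → X := sm.el ρ mt ⊤

theorem ρ_u : ∀ l ∈ List.range 10, ρ (u l) = sm.mat (gm mt l) := sm.rho_el ρ rep_top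

noncomputable def f (l : ℕ) : PSU 4 K9 3 := QuotientGroup.mk' _ (u l)

theorem hf : ∀ r ∈ R, wval f r.1 = wval f r.2 := fun r hr => by
  obtain ⟨h₁, h₂, x, hx, h⟩ := (by decide +kernel : ∀ r ∈ R, evenB (List.range 10) r.1 = true ∧
    evenB (List.range 10) r.2 = true ∧ ∃ x < 9, eqB ar mt (r.1.map (· / 2)) (r.2.map (· / 2)) x = true) r hr
  have := sm.wm_eq hw hx h
  rw [← sm.rho_wval ρ ρ_u h₁, ← sm.rho_wval ρ ρ_u h₂] at this
  refine (map_wval (QuotientGroup.mk' _) u _).symm.trans (.trans (QuotientGroup.eq.2 (Subgroup.mem_center_iff.2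
    fun g => ρ_inj ?_)).symm (map_wval (QuotientGroup.mk' _) u _))
  simp only [map_mul, this, mul_smul_comm, smul_mul_assoc]
  simp [← map_mul]

theorem card_PSU : Nat.card (PSU 4 K9 3) ≤ 3265920 := by
  have h := (Subgroup.center X).index_mul_card
  have e : ρ (u 9) = sm.c 3 • 1 := (ρ_u 9 (by decide)).trans (by decide +kernel)
  have := Subgroup.card_le_of_le (Subgroup.zpowers_le_of_mem (Subgroup.mem_center_iff.2 fun g => ρ_inj (by simp [e]) :
    u 9 ∈ Subgroup.center X))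
  rw [Nat.card_zpowers, orderOf_eq_prime_pow (p := 2) (n := 1) (fun h => by
    have := congrArg ρ h
    rw [map_pow, e, map_one] at this
    exact absurd this (by decide +kernel)) (ρ_inj (by rw [map_pow, e, map_one]; decide +kernel))] at this
  have h' : 4 * Nat.card X = 52254720 := (SUBasic.card_SU card_K9 (n := 4) (by norm_num)).trans (by decide +kernel)
  exact Nat.le_of_mul_le_mul_right ((Nat.mul_le_mul_left _ this).trans (h.trans_le (by omega))) (by norm_num)

theorem f_ne : wval f [16, 12, 14, 0, 2] ≠ 1 := fun h => by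
  have := congrArg ρ (Subgroup.mem_center_iff.1 ((QuotientGroup.eq_one_iff _).1 ((map_wval _ u _).trans h)) (wval u [2]))
  rw [← wval_append, ← wval_append, sm.rho_wval ρ ρ_u (by decide), sm.rho_wval ρ ρ_u (by decide)] at this
  exact absurd ((sm.vec_apR hw [1, 0, 7, 6, 8, 1] 1).trans ((congrArg (· *ᵥ _) this).trans
    (sm.vec_apR hw [1, 1, 0, 7, 6, 8] 1).symm)) (by decide +kernel)

end

theorem card_le {Y : Type*} [Group Y] (z : ℕ → Y) (hz : ∀ w ∈ relW R, wval z w = 1) :
    Nat.card (gp z hs) ≠ 0 ∧ Nat.card (gp z hs) ≤ 112 * (10 * pcN dB) :=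
  card_le_of_relIndex (gp_mono (vs := P1) (by decide))
    (tc_wrap [] hz ((List.range 18).map ([·])) McTb.bound _ _ (by decide +kernel))
    (card_le_of_relIndex (gp_mono (vs := pcG dB) (by decide))
      (tc_wrap [] hz ((List.range 16).map ([·])) McTa.bound _ _ (by decide +kernel))
      (card_pc_le (fun r hr => derive_eq [] hz _ _ (by revert r; decide +kernel)) (by decide +kernel)))

theorem hrel : ∀ r ∈ rels0, wval nets.perm r.1 = wval nets.perm r.2 := wval_eq_of_relsOn hv (by norm_num) rels0_0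

theorem hR : ∀ r ∈ R, wval nets.perm r.1 = wval nets.perm r.2 := rels_of_B hv (by norm_num) r1

theorem hH : ∀ i < 17, nets.perm i ∈ gp nets.perm hs :=
  mem_of_defs (ds := defs) (derive [] (relW_one hrel) _ (by decide +kernel)) (by decide +kernel)
    (mem_gp_range (n := 9) (by decide))

theorem hle : gp nets.perm hs ≤ gp nets.perm ls :=
  gp_le.2 (mem_of_slp (derive [] (relW_one hrel) D (by decide +kernel)) hs slp ls le_rfl (by decide +kernel))

theorem pw {w : List ℕ} {n : ℕ} (h : (Words.rep n w, []) ∈ rels0) : wval nets.perm w ^ n = 1 :=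
  (wval_rep _ n w).symm.trans (hrel _ h)

theorem M : Model 112 162 (gp nets.perm hs) := model_gp hv sb sc (by norm_num) mod

instance : Finite (gp nets.perm hs) := finite_of_fix M.fix

theorem chain {B : Subgroup (Perm ℕ)} [Finite B] (h : gp nets.perm hs ≤ B) {m : ℕ}
    (hm : m ≤ Nat.card (fixer B [18, 11, 6, 1, 0])) : 3265920 * m ≤ Nat.card (fixer B [0]) := by
  have := fun {ws bs b seq lo len n} (h' : (List.all ws (lt 17) && levelB nets ws bs b seq lo len n) = true) =>
    @le_card_fixer _ _ hv B _ ws (mem_of_all_lt (fun i hi => h (hH i hi)) (Bool.and_eq_true_iff.1 h').1) bs b seq lo len n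
      (Bool.and_eq_true_iff.1 h').2
  have := this ch1 (this ch2 (this ch3 (this ch4 hm)))
  omega

theorem chain' {m : ℕ} (hm : m ≤ Nat.card (fixer (gp nets.perm hs) [18, 11, 6, 1, 0])) :
    3265920 * m ≤ Nat.card (gp nets.perm hs) := (chain le_rfl hm).trans (Subgroup.card_le_of_le fun _ h => h.1)

theorem card_ls : 275 * 3265920 ≤ Nat.card (gp nets.perm ls) :=
  have := finite_of_fix (fix_gp hv ls)
  fixer_nil (gp nets.perm ls) ▸ le_card_fixer hv ls (fun _ => mem_gp) _ _ _ _ _ _ (Bool.and_eq_true_iff.1 ch0).2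
    (chain hle (one_le_card_fixer _))

theorem iso : Nat.card (gp nets.perm hs) = 3265920 ∧ Nonempty (gp nets.perm hs ≃* PSU 4 K9 3) := by
  obtain ⟨hc, π, -, h₂⟩ := exists_hom (card_le _ (rels_prod (relW_one hR) (relW_one hf))) fun _ =>
    chain' (one_le_card_fixer _)
  replace hc : Nat.card (gp nets.perm hs) = 3265920 := hc
  have hs : lettersIn hs [[16, 12, 14, 0, 2]] = true := by decide
  refine ⟨hc, ⟨.ofBijective π ((injective_of π (p := 7)
    (fun N h h' => fix_or_dvd hv h h' hH M.orbb M.invb prim)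
    (fun g hg h => eq_one_of_chain (fun m h => hc ▸ chain' h) hg fun b hb => ?_) (by norm_num) (by norm_num)
    (by rw [hc]; norm_num) (s := ⟨_, mem_gp_of_lettersIn hs _ List.mem_cons_self⟩) (Subtype.ext (pw (by decide)))
    ?_).bijective_of_nat_card_le (hc ▸ card_PSU))⟩⟩
  · exact (show b = 0 ∨ b ∈ Set.Ico 1 (1 + 112) by revert b; decide).elim (· ▸ M.fix0 g hg) fun e => h b (ms_ivl _ _ ▸ e)
  · rw [h₂ _ _ (mem_gp_of_lettersIn hs _ List.mem_cons_self)]
    exact f_ne

theorem theta : ∃ θ : gp nets.perm hs ≃* gp nets.perm hs, ∀ w ∈ L2, ∃ h,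
    (θ ⟨wval nets.perm w, h⟩ : Perm ℕ) = wval (fun i => wval nets.perm (W.getD i [])) w := by
  have := exists_theta (f := fun i => wval nets.perm (W.getD i [])) (n := 9) (card_le _ (rels_prod
    (relW_one hR) (relW_one fun r hr => by
      simpa only [wval_subst] using rels_of_B hv (by norm_num) r2 _ (List.mem_map_of_mem hr)))) iso.1.ge (by decide)
  have e : gp (fun i => wval nets.perm (W.getD i [])) hs = gp nets.perm hs := le_antisymm
    (gp_le.2 fun w hw => wval_subst nets.perm W w ▸ mem_of_lt hH (by revert w; decide)) (gp_le.2 fun w hw => by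
      obtain ⟨v, h, h'⟩ := (by decide : ∀ w ∈ hs, ∃ v ∈ McR.V, (w, subst W v) ∈ rels0) w hw
      exact ((hrel _ h').trans (wval_subst _ W v)).symm ▸ mem_gp_of_lettersIn (by decide) v h)
  rw [e] at this
  obtain ⟨θ, h₁, h₂⟩ := this
  exact ⟨.ofBijective θ (Finite.surjective_iff_bijective.1 h₁), h₂ L2 (by decide)⟩

noncomputable def L : List (List ℤ) := List.map (Leech.dec 24) [0xc888888888888888888888c8, 0xaa888aaa8a8a88888888888a, 0xb99777979799999999999779, 0xb79999799977999799799979,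
  0xa88aa88888a8888a88a88a8a, 0xa8aa888888888a88a8a8a88a, 0xb97999999997977779999979, 0xa888888aa8aa88aa8888888a,
  0xb99799977979999999797979, 0xb99797799997979999997979, 0xa8aaaa88888a88a88888888a, 0xb97979977999997999979979,
  0xa88888aaa8888a88888aa88a, 0xb77999979799999979799979, 0xa888888a8a888a8aa8888a8a, 0xaaa8a8a88888888888aa888a,
  0xb99979799999979799979779, 0xa8a88888888888aa888aaa8a, 0xa88a8a8a88a8aa888888888a, 0xb97999979999779999997779,
  0xb99797999979997799979979, 0xaa88a88888aaa8888a88888a, 0xb79997999779799999997979, 0xb99779997997999797999979,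
  0xa88a8a88aa88888a8888a88a, 0xb77999999999799797979979, 0xaa8888888a888888aa8aa88a, 0xa8a8a888a888aa8a8888888a,
  0xb99979997799979979997979, 0xb99979999977997999997779, 0xb99799979999979977979979, 0xa88a888a888a88888a88aa8a,
  0xa888a88888a88aa8a88a888a, 0xb97977999999999799797979, 0xb79999999797979997999779, 0xa8a888888a8a888a8aa8888a,
  0xaa88aa8888888a888888aa8a, 0xa888a8a8888a888aa888a88a, 0xaaaa88888a88a88888888a8a, 0xb97979799797799999999979,
  0xb79799999999999779997779, 0xa8a88a8aa888888888a88a8a, 0xb97797997999799979999979, 0xb99999979999997797799779,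
  0xa88a88888888a8aaaa88888a, 0xb99999777997999979999779, 0xa8888a88a88a8a88aa88888a, 0xa888a8aa8888a8a888888a8a,
  0xb99977999999777997999979, 0xb99999797999797799997979, 0xa8888aa888888aaa88a8888a, 0xb99997999979979979799779,
  0xa8888888a8a8a888a888aa8a, 0xa888a888a88888a88aa8a88a, 0xb99779799999997979799979, 0xa88a8aa888888888a88a8a8a,
  0xb99997997999999997977779, 0xb99979999779999997779979, 0xb79997977999979799999979, 0xaa888888aaa88a8888a8888a,
  0xa888aa8a8888888a8a8a888a, 0xa88888a88aa8a88a888a888a, 0xaa8aa88aa8888888a888888a, 0xb79799797799999999979979,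
  0xb99979979979799779999979, 0xa88888aa88a88888aaa8888a, 0xb99999999997799977797979, 0xb99999779779977999999979,
  0xa88888888a8aaaa88888a88a, 0xb99997779999799999779979, 0xa8a88aa88888a8888a88a88a, 0xa88a888a8a8888a888aa888a,
  0xb97799999799997997997979, 0xb79999997979997977999979, 0xaa888888888a88a8a8a88a8a, 0xb97799999997999999779779,
  0xa8aa8888a8a888888a8a888a, 0xaa888a88a888a8a8888a888a, 0xb77997799999997999999779, 0xa8a888a888aa8a8888888a8a,
  0xb99999997977779999979979, 0xb97999799979999979977979, 0xa8a888a8aa8888a8a888888a, 0xb99997997797997999799979,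
  0xa8888a8888aa888888aaa88a, 0xb79799979997797999999979, 0xb97999797999979997799979, 0xa88a88a8a88aa88888a8888a,
  0xaaa8888a88888aa88a88888a, 0xb97999997779999799999779, 0xb79979779999999997997979, 0xaa8888a8a888888a8a888a8a,
  0xa8a8a88a8aa888888888a88a, 0xa888a888aa8a8888888a8a8a, 0xaa88888a8888a88a88a8a88a, 0xb79979997999799999799779,
  0xb99999979797999799977979, 0xb79977999997999979979979, 0xb99799999799779799799979, 0xa888aa888a88a888a8a8888a,
  0xaa8a8888888a8a8a888a888a, 0xaaa88a8888a8888aa888888a, 0xa88aa8a88a888a888a88888a, 0xb99997799799999777999979,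
  0xb77779999979979999999979, 0xa8a8888a888aa888a88a888a, 0xb99999999799797979979779, 0xa8888a888aa888a88a888a8a,
  0xb97997979977999997999979, 0xaa8a88a888a888a88888a88a, 0xa88888888888aa888aaa8a8a, 0xb99799799979799997999779,
  0xb79999999999977999777979, 0xc88888888888888888888c88, 0xc8888888888888888888c888, 0xc888888888888888888c8888,
  0xc88888888888888888c88888, 0xc8888888888888888c888888, 0xc888888888888888c8888888, 0xc88888888888888c88888888,
  0xc8888888888888c888888888, 0xc888888888888c8888888888, 0xc88888888888c88888888888, 0xc8888888888c888888888888,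
  0xc888888888c8888888888888, 0xc88888888c88888888888888, 0xc8888888c888888888888888, 0xc888888c8888888888888888,
  0xc88888c88888888888888888, 0xc8888c888888888888888888, 0xc888c8888888888888888888, 0xc88c88888888888888888888,
  0xc8c888888888888888888888, 0xcc8888888888888888888888, 0xa888aaa8a8a88888888888aa, 0xb79797997977999999999799,
  0xaaa88888a88a88888888a8aa, 0xb97779797999999999997799, 0xb99779779977999999979999, 0xaa88888a88a88888888a8aaa,
  0xb77797979999999999977999, 0xb97797799779999999799999, 0xb79779999797999999797999, 0xa88888a88a88888888a8aaaa,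
  0xb77977997799999997999999, 0xb99999797777999997997999, 0xb97999779799999997979799, 0xaa8a8a88888888888aa888aa,
  0xb99977799997999997799799, 0xb77999999979999997797799, 0xb79999977997999997779999, 0xa88a88888aaa8888a88888aa,
  0xb79979799779999979999799, 0xb97997999797999979997799, 0xb99997977779999979979999, 0xb97979997977999979799999,
  0xb79997797999999979797999, 0xb99979979999999979777799, 0xb77799799997999977999999, 0xa8a8a88888888888aa888aaa,
  0xb99777999979999977997999, 0xb99799997799999977799799, 0xa8aa88aa8888888a888888aa, 0xb77979979997999799999799,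
  0xb99997779979999799997799, 0xb97997797997999799979999, 0xb79979997979999799977999, 0xb99979777799999799799999,
  0xb79997999799999799779799, 0xb79799979779999797999999, 0xb99799799999999797777999, 0xb97779999799999779979999,
  0xb99797979997999779799999, 0xa8888888a888888aa8aa88aa, 0xb97999977999999777997999, 0xb99999999977999777979799,
  0xb79999977799997999997799, 0xb77999999777997999979999, 0xb99977799799997999977999, 0xb79977979979997999799999,
  0xb97999779997997999797999, 0xb99999797979997999779799, 0xb99797777999997997999999, 0xa88888a8888a88a88a8a88aa,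
  0xb79779999999997997979799, 0xb97799979979997979999799, 0xa8888a8a888888a8a888a8aa, 0xb99799997997997979977999,
  0xb99979979797997977999999, 0xb97997999999997977779999, 0xaa88a8888a8888aa888888aa, 0xb99799799797997799999799,
  0xb77799997999997799799999, 0xb97979799979997797999999, 0xb79997999997997797997999, 0xb99977997999997779999799,
  0xb79999779999997779979999, 0xb99999999779997779797999, 0xb97799977797979999999999, 0xa8a88a888a888a88888a88aa,
  0xb99799999779979999977799, 0xa888a88a888a8a8888a888aa, 0xb79799779999979999799799, 0xb99777997999979999779999,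
  0xb99979977979979997999799, 0xb79997799979979997979999, 0xb97979999997979997977999, 0xb99997979799979997797999,
  0xb97977779999979979999999, 0xb79999979977979979997999, 0xb77999997999979979979799, 0xb99999799797979979779999,
  0xb99977999777979799999999, 0xb77999799799979799997999, 0xb99999997997979799797799, 0xb97999979979979799779999,
  0xb97797999999979797999799, 0xa888888888a88a8a8a88a8aa, 0xb99799797979979779999999, 0xb79979999999979777799999,
  0xb79979797997977999999999, 0xa88a8888a8888aa888888aaa, 0xb97997997979977999997999, 0xb99997979997977999979799,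
  0xb97979999799977999799799, 0xb99799999977977997799999, 0xb79797999799977979999999, 0xb99999799999977977997799,
  0xb99779979999977799997999, 0xb99999997799977797979999, 0xb77999777979799999999999, 0xb99977977997799999997999,
  0xb97977999979799999979799, 0xa88aa8888888a888888aa8aa, 0xb79999799997799999977799, 0xb99999979777799999799799,
  0xb97999997799799999777999, 0xa888888aaa88a8888a8888aa, 0xb99797999797799997979999, 0xb97779979999799997799999,
  0xb99799779799799979997999, 0xb79799999979799979779999, 0xb79997979999799977999799, 0xb99979797999799977979999,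
  0xb79777799999799799999999, 0xa8888a88888aa88a88888aaa, 0xb97799999977799799997999, 0xb99799977999799799979799,
  0xb99979999799799797997799, 0xb99997997979799797799999, 0xb79999997797799779999999, 0xb97999799999799779799799,
  0xb99779997779797999999999, 0xa8a8888888a8a8a888a888aa, 0xb99797999999797999797799, 0xb97999997997797997999799,
  0xb99999979979797997977999, 0xb79999799799797997799999, 0xb99997799977797979999999, 0xb77979999999797979997999,
  0xb97997979799797799999999, 0xb99979999997797799779999, 0xb99997797799779999999799, 0xb79979979799779999979999,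
  0xb77997999997779999799999, 0xb99979799979779999797999, 0xb79799997999779997997999, 0xaa8888a88888aa88a88888aa,
  0xb99779999997779979999799, 0xb97999999779779977999999, 0xb99999779997779797999999, 0xb99997999999779779977999,
  0xb97799799999777999979999, 0xb99999977999777979799999, 0xb79999999979777799999799]

noncomputable def A : List (List ℤ) := List.map (Leech.dec 24) [0xaa688888688688888888686e, 0xaa68888868868888888868e6, 0x888aaa668aa8aa666aa68a88, 0xaae888886886888888886866,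
  0x888a6a6a8668aaaa6aaa8688, 0x8886a6aa86a8a66a6aaa8a88, 0x8886666a8aa86aa6aaaa8a88, 0x888aa6aa86a8aaa6aa668688,
  0x888aa6a68aa86aaa66aa8688, 0x8886aa668aa8a6aaaa6a8688, 0x888a66a68a68aa6aaa6a8a88, 0x8886aaa68668aaa6a6aa8a88,
  0xaa688888688e888888886866, 0x888a6aa686a866aaaaa68a88, 0x8886aaaa8a686aaa6a668a88, 0xaa688888e886888888886866,
  0x888aaaaa8a686666aaaa8688, 0x88866aaa8aa8aa6aa6a68688, 0x888a6aaa8aa8a6a6666a8a88, 0x888aa66a8a68a6aaa6a68a88,
  0x888aaa6a86a86a6aa66a8a88, 0xaa688888688688888888e866, 0x6ea88888a88a88888888a8aa, 0xe6a88888a88a88888888a8aa]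

def C : List (List ℤ) := [[2, 3, -1, 2, 2, 1, 1, 2, -2, 0, 1, 1, -2, -2, -1, 1, -2, 0, 2, 1, -2, -1, 4, 3],
  [2, -3, -1, -4, 2, 1, 1, 2, -2, -6, 1, -5, -2, 4, -7, 1, -2, 0, 2, 1, 4, -7, -8, 3],
  [4, -3, 1, -4, 4, -3, 3, 0, 2, 2, 7, -5, 4, 0, -3, -3, -6, 0, 4, 5, 2, -9, 0, -1],
  [4, -3, 1, -4, -2, 3, -3, 0, 2, -4, 1, -5, 4, 0, -3, 3, 0, 0, 4, 5, 2, -3, 0, -1],
  [4, 3, -5, 2, -2, 3, -9, 0, 2, 2, -5, 1, 4, -6, -3, -3, 6, 0, 4, -1, 2, 3, 0, -1],
  [-2, -3, 1, -4, -2, 3, 3, 0, 2, -4, 1, 1, -2, 0, 3, 3, 0, 0, -2, -1, 2, 3, 0, -1],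
  [-2, 3, 1, 8, 4, -3, 3, 0, -4, 2, 1, 1, -2, 0, 3, -3, 0, 0, -2, -7, -4, 3, 0, -1],
  [-5, 0, -2, 5, 1, -6, 0, -3, 2, 2, 1, 7, -5, 0, 3, 0, 0, 3, -8, -1, -1, 9, 0, -1],
  [1, -6, 4, -7, 1, 0, 6, 3, 2, -4, 1, -5, 1, 6, -3, 0, 0, 3, -2, -1, 5, -3, 0, -1],
  [1, 0, -2, -1, 1, 0, 0, -3, 2, 2, 7, 1, 1, 0, -3, 0, 0, -3, -2, 5, -1, -3, 0, -1],
  [1, 6, -2, 5, 1, 6, -6, 3, -4, 2, -5, 1, 1, -6, 3, 0, 0, -3, 4, -1, -7, 3, 0, -1],
  [1, 0, -2, -1, 1, 0, 0, 3, 2, -4, 1, 1, 1, 0, -3, 0, 0, -3, 4, 5, -1, -3, 0, -1],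
  [4, 9, 1, 2, -2, 3, -3, 0, -4, 2, -5, 1, 4, -6, 3, -3, 0, 0, 4, -1, -4, -3, 0, -1],
  [-2, 3, 1, 2, -2, -3, 3, 0, 2, 2, 1, 1, -2, 0, 3, 3, -6, 0, -2, -1, -4, 3, 0, -1],
  [1, 0, 4, -1, 1, 0, 0, -3, 2, 2, 1, 1, 1, 0, 3, 0, 0, -3, -2, -1, -1, -3, 0, -1],
  [-2, 3, 1, 2, -2, -3, -3, 0, 2, 2, 1, 1, -2, 0, 3, -3, 0, 0, -2, -1, 2, 3, 0, -1],
  [-2, 3, -5, 2, 4, 3, -3, 0, -4, -4, -5, 1, -2, 0, -3, 3, 6, 0, 4, -1, 2, 3, 0, -1],
  [-5, 0, -2, 5, 1, 0, 0, -3, 2, 2, 1, 1, -5, 0, 3, 0, 0, 3, -2, -1, -1, 3, 0, -1],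
  [4, 3, 1, 2, -2, 3, -3, 0, -4, 2, -5, 1, 4, 0, -3, -3, 0, 0, 4, -1, 2, -3, 0, -1],
  [1, 0, -2, -1, 1, 0, 0, 3, -4, 2, 1, 1, 1, 0, -3, 0, 0, 3, 4, -1, -1, -3, 0, -1],
  [-8, 3, 1, 8, 4, -3, 3, 0, -4, 2, 1, 7, -8, -6, 3, 3, 0, 0, -2, -1, -10, 9, 0, -1],
  [-2, -3, 1, 2, -2, -3, 3, 0, 2, 2, 1, 1, -2, 0, 3, 3, 0, 0, -8, -1, 2, 3, 0, -1],
  [10, -3, 1, -10, -2, 3, 9, 6, -4, -4, 1, -5, -2, 6, -3, 3, -6, 0, 4, 5, 2, -9, 0, -1],
  [-2, -3, 1, -2, -2, -1, -1, -2, 2, 0, -1, -1, 2, 2, 1, -1, 2, 0, -2, -1, 2, 1, -4, 3]]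

noncomputable def ql : List ℤ := dec 24 0xc8888888888888888888888c

theorem hq : leechU.1 = vec ql := by decide +kernel

theorem hL : L.length = 275 := by decide +kernel

theorem hv' : nets.Valid L.length := hL ▸ hv

theorem h₀ : ms (ivl 1 112) = {y | adj L 8 0 y} := ms_eq (by decide +kernel)

def g (i : ℕ) : M22 := if i = 0 then ⟨Golay.ofList [0, 20, 14, 15, 7, 3, 6, 10, 21, 9, 4, 22, 11, 13, 18, 5, 1, 8, 2, 19, 16, 17, 12, 23]
    [0, 16, 18, 5, 10, 15, 6, 4, 17, 9, 7, 12, 22, 13, 2, 3, 20, 21, 14, 19, 1, 8, 11, 23] (by decide +kernel),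
    ⟨Golay.mem_M24_of (by decide +kernel), rfl⟩, rfl⟩
  else ⟨Golay.ofList [0, 6, 2, 11, 8, 4, 3, 16, 18, 1, 21, 9, 13, 17, 5, 19, 15, 10, 14, 20, 7, 12, 22, 23]
    [0, 9, 2, 6, 5, 14, 1, 20, 4, 11, 17, 3, 21, 12, 18, 16, 7, 13, 8, 15, 19, 10, 22, 23] (by decide +kernel),
    ⟨Golay.mem_M24_of (by decide +kernel), rfl⟩, rfl⟩

theorem hL₁ : ∀ l ∈ L, l.length = 24 ∧ Chk (vec l) ∧ ldot l l = 32 ∧ ldot l vl = -24 ∧ ldot l ql = 16 := by
  decide +kernel

theorem rep : ∃ lab, ∃ φ : S leechU →* Perm ℕ, Rep L lab φ :=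
  exists_rep hq hL₁ (.of_map LeechNear.enc (by decide +kernel)) LeechNear.all (LeechNear.mem (by decide +kernel))

theorem hC : ∀ p r, ∑ k : Fin 24, (C.getD (Golay.idx p) []).getD k 0 * Rep.bas L ql
    [26, 7, 24, 70, 14, 50, 28, 27, 61, 66, 53, 99, 63, 75, 20, 92, 51, 37, 6, 57, 41, 39] k r = if p = r then 24 else 0 := by
  decide +kernel

section
variable {lab : ℕ → leechLattice} {φ : S leechU →* Perm ℕ} (R : Rep L lab φ)
include R

theorem e₀ : φ (incl (.inl rfl) (g 0)) = wval nets.perm [34] := R.eq_incl hv' _ [131, 245, 2, 246, 92, 12, 272, 253, 8, 247, 47, 54, 173, 9, 199, 37, 171, 82, 139, 63, 185, 21, 135, 239, 41, 158, 46, 15, 203, 252, 30, 237, 32, 137, 238, 70, 93, 27, 1, 244, 198, 143, 202, 72, 88, 98, 110, 190, 184, 192, 17, 200, 59, 53, 228, 14, 161, 160, 75, 84, 159, 101, 201, 172, 104, 217, 266, 20, 77, 40, 91, 186, 182, 225, 68, 240, 65, 74, 191, 61, 241, 218, 50, 254, 52, 85, 170, 94, 183, 141, 23, 35, 134, 99, 136, 142, 42, 268,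 140, 36, 105, 79, 60, 216, 138, 267, 226, 107, 111, 7, 26, 169, 187, 125, 126, 118, 114, 117, 121, 132, 120, 115, 133, 122, 124, 129, 116, 0, 119, 113, 130, 127, 128, 123, 4, 235, 87, 167, 64, 151, 45, 164, 231, 24, 148, 249, 103, 31, 248, 145, 66, 18, 212, 262, 51, 265, 214, 28, 270, 102, 204, 207, 162, 39, 89, 251, 155, 33, 153, 108, 174, 208, 19, 5, 86, 269, 83, 258, 195, 29, 49, 197, 43, 44, 188, 67, 221, 273, 48, 227, 10, 260, 180, 193, 255, 224, 6, 222, 69, 55, 154, 233, 96, 157, 57, 175, 243, 56, 16, 80, 211, 271, 232, 165, 236, 81, 146, 76, 215, 206, 261, 71, 181, 106, 178, 256, 223, 229, 11, 189, 3, 95, 152, 62, 250, 22, 156, 147, 242, 90, 58, 209, 34, 219, 163, 38, 230, 13, 144, 149, 264, 213, 179, 109, 176, 257, 73, 194, 274, 220, 78, 259, 168, 97, 234, 166, 150, 100, 263, 205, 25, 210, 196, 112, 177] (by decide +kernel)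

theorem e₁ : φ (incl (.inl rfl) (g 1)) = wval nets.perm [36] := R.eq_incl hv' _ [117, 59, 161, 205, 55, 105, 108, 134, 243, 269, 151, 23, 27, 150, 41, 100, 216, 245, 82, 255, 103, 109, 257, 160, 99, 194, 94, 10, 239, 111, 174, 52, 162, 238, 149, 84, 38, 18, 74, 225, 242, 93, 188, 56, 186, 204, 92, 221, 72, 48, 199, 146, 47, 233, 30, 14, 248, 170, 144, 15, 24, 50, 62, 219, 182, 12, 256, 86, 253, 229, 68, 173, 66, 90, 139, 175, 37, 190, 34, 79, 193, 270, 201, 57, 61, 73, 206, 32, 136, 148, 266, 36, 87, 4, 77, 184, 249, 169, 189, 71, 101, 1, 5, 207, 158, 7, 43, 143, 145, 267, 17, 227, 25, 113, 122, 119, 115, 114, 127, 129, 0, 132, 120, 124, 128, 116, 130, 126, 121, 125, 131, 118, 123, 133, 102, 152, 21, 268, 218, 91, 250, 211, 241, 110, 142, 265, 214, 26, 200, 234, 166, 65, 202, 235, 167, 138, 263, 247, 209, 31, 240, 157, 46, 135, 262, 212, 244, 203, 168, 156, 271, 172, 154, 60, 231, 164, 95, 3, 98, 63, 80, 16, 28, 217, 40, 45, 237, 64, 8, 96, 147,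 51, 97, 9, 22, 2, 58, 69, 155, 35, 251, 76, 210, 171, 137, 213, 246, 236, 198, 230, 163, 215, 141, 264, 232, 165, 153, 70, 208, 140, 104, 159, 39, 89, 75, 81, 13, 19, 42, 33, 220, 252, 191, 44, 274, 181, 261, 53, 197, 187, 273, 196, 176, 228, 226, 107, 258, 195, 254, 178, 179, 223, 54, 183, 106, 29, 49, 112, 67, 85, 83, 20, 224, 192, 177, 272, 259, 88, 185, 180, 222, 260, 6, 11, 78] (by decide +kernel)

theorem e₂ : wval nets.perm [38, 35] ∈ φ.range := R.mem_mat hv' hq (A := A) (by decide +kernel) (by decide +kernel)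
  (by decide +kernel) (im := [0, 1, 2, 3, 4, 83, 41, 19, 68, 53, 86, 79, 29, 90, 102, 94, 98, 45, 55, 7, 20, 74, 78, 70, 66, 112, 88, 108, 84, 12, 30, 49, 44, 46, 34, 42, 38, 56, 36, 76, 104, 6, 35, 57, 32, 17, 33, 99, 106, 31, 61, 111, 96, 9, 64, 18, 37, 43, 63, 91, 71, 50, 62, 58, 54, 65, 24, 103, 8, 69, 23, 60, 87, 73, 21, 82, 39, 77, 22, 11, 92, 93, 75, 5, 28, 97, 10, 72, 26, 105, 13, 59, 80, 81, 15, 95, 52, 85, 16, 47, 100, 109, 14, 67, 40, 89, 48, 107, 27, 101, 110, 51, 25, 196, 132, 152, 226, 244, 168, 242, 202, 179, 169, 123, 263, 241, 126, 274, 184, 219, 205, 257, 114, 136, 206, 135, 133, 183, 172, 147, 140, 164, 163, 187, 176, 233, 207, 139, 235, 149, 150, 236, 115, 173, 182, 199, 230, 239, 209, 165, 185, 204, 255, 142, 141, 159, 192, 167, 118, 122, 215, 228, 138, 153, 245, 225, 144, 194, 260, 121, 221, 249, 154, 137, 128, 160, 214, 143, 188, 256, 190, 212, 166, 197, 177, 252, 113, 193, 253, 155, 216, 222, 120, 247, 161, 130, 134, 146,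 240, 158, 266, 270, 191, 213, 186, 170, 200, 231, 218, 129, 250, 180, 201, 238, 248, 175, 116, 269, 171, 229, 156, 217, 254, 145, 264, 148, 151, 246, 223, 157, 208, 125, 119, 273, 117, 174, 237, 203, 224, 181, 220, 265, 195, 198, 232, 162, 189, 131, 258, 259, 178, 261, 262, 124, 234, 251, 210, 267, 268, 227, 211, 272, 271, 243, 127]) (by decide +kernel)

theorem e₃ : gp nets.perm ls ≤ φ.range := gp_le.2 (List.forall_mem_cons.2 ⟨⟨_, e₀ R⟩, List.forall_mem_cons.2 ⟨⟨_, e₁ R⟩,
  List.forall_mem_singleton.2 (by simpa [wval, lval] using mul_mem (e₂ R) ⟨_, e₀ R⟩)⟩⟩)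

theorem hA : φ.range ≤ autG (adj L 8) 275 := hL ▸ R.le 8

theorem hT : ∀ i < 20, nets.perm i ∈ autG (adj L 8) 275 := fun i hi => hA R (e₃ R ((Nat.lt_or_ge i 17).elim
  (fun h => hle (hH i h)) fun h => wval_single nets.perm i ▸ mem_gp (by revert i; decide)))

theorem equiv {G : Subgroup (Perm ℕ)} (h₁ : G ≤ autG (adj L 8) 275) (h₂ : Nat.card G = 275 * 3265920) :
    Nonempty (G ≃* McL) := by
  have h₃ := (card_le_of_bd (bd_of_exec_sep hv (hT R) h₀ ex)).trans (show _ ≤ 2 * Nat.card G by rw [h₂]; decide +kernel)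
  have := fun {w} n h => mem_of_odd (g := wval nets.perm w) (n := n) h₁ h₃ (mem_of_lt (hT R) h)
  exact ⟨(MulEquiv.subgroupCongr (final (hA R) (e₃ R) h₁ h₃ (gp_le.2 (List.forall_mem_cons.2 ⟨this 1 rfl (pw (by decide)),
    List.forall_mem_cons.2 ⟨this 2 rfl (pw (by decide)), List.forall_mem_singleton.2 (this 2 rfl (pw (by decide)))⟩⟩))
    (h₂ ▸ card_ls) (mem_autG hv (hT R) h₀ (fun _ _ h => hL ▸ h.1) sig) (R.not_mem hq (by decide +kernel) hC (by decide) hv'
      (bs' := [229, 268, 106, 176, 48, 76, 209, 254, 162, 91, 191, 257, 115, 224, 118, 252, 200, 262, 177, 19, 85, 6])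
      (y := vec (dec 24 0x8a88a88aaaaa8888888888a8)) (by decide +kernel) (by decide +kernel) (by decide +kernel))).1).trans
    (MonoidHom.ofInjective (R.injective hq (by decide +kernel) hC (by decide))).symm⟩

end

theorem main {G : Subgroup (Perm ℕ)} (E : Ext (1 + 112 + 162) (gp nets.perm hs) G) : IsoMcL G := by
  obtain ⟨lab, φ, R⟩ := rep
  obtain ⟨G', h, ⟨e⟩⟩ := exists_le_autG M E hv rfl hH (hT R) h₀ (fun _ _ h => hL ▸ h.1) (fun t ht g hg =>
    (gp_le (K := (autG _ _).comap (MulAut.conj _).toMonoidHom)).2 (fun w hw => by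
      obtain ⟨v, h, h'⟩ := (by decide : ∀ t ∈ rwA, ∀ w ∈ hs, ∃ r ∈ (w, w) :: rels0,
        r.1 = t.1 ++ w ++ invW t.1 ∧ lt 20 r.2 = true) t ht w hw
      have := mem_of_lt (hT R) h'.2
      rw [← (List.mem_cons.1 h).elim (· ▸ rfl) (hrel v), h'.1, wval_append, wval_append, wval_invW] at this
      exact this) hg) rw
  exact (equiv R h (by rw [← Nat.card_congr e.toEquiv, card_ext M E, iso.1])).map e.trans

theorem fix_of_cj {K : Subgroup (Perm ℕ)} (hK : K ≤ gp nets.perm hs) (hc : Cj (gp nets.perm hs) K (gp nets.perm us))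
    (hm : Nat.card K = 29160) : ∃ x ∈ ms (ivl 1 112), ∀ g ∈ K, g x = x := by
  obtain ⟨lab, φ, R⟩ := rep
  obtain ⟨u, hu, hc⟩ := hc
  let K' := K.comap (MulAut.conj u).toMonoidHom
  have e : Nat.card K' = 29160 := (card_comap_conj K u).trans hm
  have hH : K' ≤ gp nets.perm hs := fun g hg => by simpa [mul_assoc] using mul_mem (mul_mem (inv_mem hu) (hK hg)) hu
  obtain ⟨hx, h⟩ := Bool.and_eq_true_iff.1 fxb
  obtain ⟨q, hq, h⟩ := exists_of_unionB hv (L := gp nets.perm us) (fun _ => mem_gp) (X := MulAction.orbit K' 1)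
    (by rintro g hg _ ⟨g', rfl⟩; exact ⟨⟨g, hc g hg⟩ * g', rfl⟩)
    (by rintro _ ⟨g, rfl⟩; exact (M.invb _ (hH g.2) 1).2 hx) h
  have h₁ : q.testBit 1 = true := by rw [← mem_ms, hq]; exact MulAction.mem_orbit_self 1
  have h₂ : Nat.beq (29160 % (MulAction.orbit K' 1).ncard) 0 = true := Nat.beq_eq ▸ Nat.mod_eq_zero_of_dvd
    (e ▸ MulAction.index_stabilizer K' 1 ▸ Subgroup.index_dvd_card _)
  simp only [h₁, h₂, Bool.not_true, Bool.false_or, Bool.or_false, Bool.or_eq_true, Nat.beq_eq] at h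
  rcases h with rfl | rfl
  · refine ⟨u 1, (M.invb u hu 1).2 hx, fun g hg => ?_⟩
    have : (u⁻¹ * g * u) 1 ∈ ms (pt 1) := hq ▸ ⟨⟨u⁻¹ * g * u, by simpa [K', mul_assoc] using hg⟩, rfl⟩
    simpa [ms_pt, Equiv.symm_apply_eq] using this
  · have hA := hH.trans (hle.trans ((e₃ R).trans (hA R)))
    refine absurd (e ▸ bd_of_exec_sep hv (hT R) h₀ ex2 K' hA fun r hr g hg i => ?_) (by decide +kernel)
    simp only [List.mem_cons, List.not_mem_nil, or_false] at hr
    rcases hr with rfl | rfl | rfl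
    · rw [hq]
      exact ⟨fun e => by simpa [Subgroup.smul_def] using MulAction.mem_orbit_of_mem_orbit (⟨g, hg⟩⁻¹ : K') e,
        MulAction.mem_orbit_of_mem_orbit (⟨g, hg⟩ : K')⟩
    · simpa [ms_pt] using g.injective.eq_iff' (M.fix0 g (hH hg))
    · rw [ms_ones]
      exact ⟨fun e => by simpa using lt_of_fix (hA (inv_mem hg)).1 e, lt_of_fix (hA hg).1⟩

/-- Recognition of the McLaughlin group as a rank 3 permutation group: a transitive permutation group on 275 points in which the stabiliser of a point is isomorphic to the unitary group U₄(3) and has two further orbits, of sizes 112 and 162, is isomorphic to the McLaughlin group. -/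
theorem result {Ω : Type*} [Fintype Ω] [DecidableEq Ω] (hΩ : Fintype.card Ω = 275) (G : Subgroup (Equiv.Perm Ω)) [MulAction.IsPretransitive G Ω] (a : Ω) (K : Type) [Field K] [Fintype K] (hK : Fintype.card K = 9) (e : MulAction.stabilizer G a ≃* Cfsg.PSU 4 K 3) (b c : Ω) (hb : (MulAction.orbit (MulAction.stabilizer G a) b).ncard = 112) (hc : (MulAction.orbit (MulAction.stabilizer G a) c).ncard = 162) : Cfsg.Spor.IsoMcL G := by
  obtain ⟨hc', ⟨e₁⟩⟩ := iso
  replace e := (e.trans (GF4.quotCenterCongr (GF4.suCongr (FiniteField.ringEquivOfCardEq (hK.trans card_K9.symm)) 4 3))).trans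
    e₁.symm
  have key : ∀ e : MulAction.stabilizer G a ≃* gp nets.perm hs,
      (∃ x ∈ ms (ivl (1 + 112) 162), ∀ g ∈ st e.toMonoidHom c, g x = x) → IsoMcL G := fun e fc => by
    have cb := card_st (m := 29160) e hb hc' (by norm_num)
    obtain ⟨G₁, ⟨e₂⟩, E⟩ := exists_ext' hΩ G hb hc e.surjective M (fix_of_cj (st_le _ b)
      (cj_of_isPGroup (st_le _ b) (gp_mono (by decide)) Nat.prime_three (isPGroup_pc (d := dB.tail) (fun r hr => hR r
        (by revert r; decide +kernel)) (by decide) (by decide)) (r := 112) (by rw [cb, hc']) (by norm_num)) cb) fc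
    exact (main E).map e₂.trans
  have cc := fun e : MulAction.stabilizer G a ≃* gp nets.perm hs => (card_st (m := 20160) e hc hc' (by norm_num))
  obtain ⟨K, hK, jc⟩ := pigeon hv (st_le _ c) hH (cc e) hc' Nat.prime_three (by norm_num) M.invc phc0
    (all_split _ 34 phc1_0 (all_split _ 74 phc1_1 (all_split _ 39 phc1_2 (all_split _ 20 phc1_3 (all_split _ 36 phc1_4 (all_split _ 20 phc1_5 phc1_6)))))) (all_split _ 1 phc2_0 (all_split _ 1 phc2_1 (all_split _ 1 phc2_2 phc2_3)))
  rcases List.mem_pair.1 hK with rfl | rfl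
  · exact key e (exists_fix hv (st_le _ c) M.invc jc (Nat.zero_le _) (cc e).dvd (by norm_num) fxc)
  · obtain ⟨θ, h⟩ := theta
    obtain ⟨u, hu, h⟩ := cj_trans _ θ.toMonoidHom h jc
    exact key (e.trans θ) (exists_fix hv (st_le _ c) M.invc ⟨u, hu, fun g hg => h g ((gp_le.2 fun w hw => by
      obtain ⟨v, h, rfl⟩ := List.mem_map.1 (show w ∈ L2.map (subst W) from hw)
      exact wval_subst nets.perm W v ▸ mem_gp h) hg)⟩ (Nat.zero_le _) (cc _).dvd (by norm_num) fxd)

end Cfsg.Agent.S1667
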