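import Cfsg.Statements.S1668
import Cfsg.Agent.S1679
import Cfsg.Agent.Lib.Rk3Main
import Cfsg.Agent.Lib.SuzRC0
import Cfsg.Agent.Lib.SuzSC0

set_option autoImplicit false
open Cfsg

namespace Cfsg.Agent.S1668

open Cfsg.Agent.Lib Cfsg.Agent.Lib.PermNet Cfsg.Agent.Lib.Words Cfsg.Agent.Lib.PermGroup Cfsg.Agent.Lib.Rk3Aut
  Cfsg.Agent.Lib.Rk3Emb Cfsg.Agent.Lib.Rk3PH Cfsg.Agent.Lib.Rk3Iso Cfsg.Agent.Lib.Rk3Main Cfsg.Agent.Lib.SuzR Equiv

set_option maxRecDepth 100000

theorem chev_congr (D : Lie.ChevalleyDatum) {F F' : Type*} [Field F] [Field F'] (φ : F ≃+* F') :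
    Nonempty (D.group F ≃* D.group F') := by
  let ψ : GL D.Idx F ≃* GL D.Idx F' := Units.mapEquiv φ.mapMatrix.toMulEquiv
  have h : ∀ r t, (D.xMat F r t).map φ = D.xMat F' r (φ t) := fun r t => by
    ext (_ | _) (_ | _) <;>
      simp [Lie.ChevalleyDatum.xMat, apply_ite φ, map_list_sum, Function.comp_def]
  refine ⟨(ψ.subgroupMap _).trans (MulEquiv.subgroupCongr ?_)⟩
  rw [Lie.ChevalleyDatum.group, MonoidHom.map_closure]
  congr 1
  ext g
  refine ⟨?_, fun ⟨r, t, e⟩ => ⟨ψ.symm g, ⟨r, φ.symm t, φ.mapMatrix.injective ?_⟩, ψ.apply_symm_apply g⟩⟩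
  · rintro ⟨g, ⟨r, t, e⟩, rfl⟩
    exact ⟨r, φ t, (congrArg (·.map φ) e).trans (h r t)⟩
  · exact (φ.mapMatrix.apply_symm_apply _).trans (e.trans ((h r _).trans (by simp)).symm)

theorem ea : ∀ i < 6, SuzA.nets.perm i = nets.perm i := fun i hi => by interval_cases i <;> rfl

theorem eg : SuzA.nets.perm 6 = nets.perm 33 := rfl

theorem map_hs : (gp SuzA.Y hs).map SuzA.phi = gp nets.perm hs :=
  (map_gp' SuzA.hphi _).trans (gp_congr ea (by decide))

theorem inj : Function.Injective SuzA.phi := (injective_iff_map_eq_one _).2 fun _ => SuzA.phi_eq_one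

theorem card_hs : Nat.card (gp nets.perm hs) = 251596800 := by
  rw [← map_hs, Subgroup.card_map_of_injective inj]; exact SuzA.card_hs

theorem hH : ∀ i < 33, nets.perm i ∈ gp nets.perm hs :=
  mem_of_defs (ds := defs) (derive [] (relW_one (wval_eq_of_relsOn hv (by norm_num) rels0_0)) _ (by decide +kernel))
    (by decide +kernel) (mem_gp_range (n := 6) (by decide))

theorem M : Model 416 1365 (gp nets.perm hs) := model_gp hv sb sc (by norm_num) mod

theorem M' : Model 416 1365 (gp SuzS.nets.perm hs) := model_gp SuzS.hv SuzS.sb SuzS.sc (by norm_num) SuzS.mod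

theorem ET : Ext 1782 (gp nets.perm hs) SuzA.phi.range := by
  refine ⟨?_, fun i hi => SuzA.htr i ((testBit_ones _ _).trans (decide_eq_true hi)), map_hs ▸ Subgroup.map_le_range _ _, ?_⟩
  · rw [MonoidHom.range_eq_map, ← SuzA.topY, map_gp' SuzA.hphi]
    exact fix_gp SuzA.hv _
  · rintro _ ⟨g, rfl⟩ h
    exact map_hs ▸ ⟨g, (SuzA.index_hs.2 g).2 h, rfl⟩

theorem hT : ∀ i < 34, nets.perm i ∈ SuzA.phi.range := fun i hi =>
  (Nat.lt_succ_iff_lt_or_eq.1 hi).elim (fun h => ET.le (hH i h)) fun h => h ▸ eg ▸ ⟨_, SuzA.hphi 6⟩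

theorem hK : ∀ w ∈ S1679.K1, wval nets.perm w = 1 := fun w hw =>
  (wval_congr ea fun l hl => of_decide_eq_true (List.all_eq_true.1
    (List.all_eq_true.1 (show S1679.K1.all (lt 6) = true by decide +kernel) w hw) l hl)).symm.trans
    (derive SuzBase.I SuzA.hrels _ (by decide +kernel) w hw)

theorem hK' : ∀ w ∈ S1679.K1, wval SuzS.nets.perm w = 1 :=
  derive S1679.I1 (relW_one (wval_eq_of_relsOn SuzS.hv (by norm_num) SuzS.rels0_0)) _ (by decide +kernel)

/-- Recognition of the sporadic Suzuki group as a rank 3 permutation group: a transitive permutation group on 1782 points in which the stabiliser of a point is isomorphic to the Chevalley group G₂(4) and has two further orbits, of sizes 416 and 1365, is isomorphic to the sporadic Suzuki group. -/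
theorem result {Ω : Type*} [Fintype Ω] [DecidableEq Ω] (hΩ : Fintype.card Ω = 1782) (G : Subgroup (Equiv.Perm Ω)) [MulAction.IsPretransitive G Ω] (a : Ω) (K : Type) [Field K] [Fintype K] (hK : Fintype.card K = 4) (e : MulAction.stabilizer G a ≃* Cfsg.Lie.chevG2.group K) (b c : Ω) (hb : (MulAction.orbit (MulAction.stabilizer G a) b).ncard = 416) (hc : (MulAction.orbit (MulAction.stabilizer G a) c).ncard = 1365) : Cfsg.Spor.IsoSuz G := by
  obtain ⟨φ⟩ := GF4.nonempty_equiv hK
  obtain ⟨e₁⟩ := chev_congr Lie.chevG2 φ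
  obtain ⟨e₂, -⟩ := PermModel.exists_hom_of_model S1679.hf S1668.hK (fun z hz => S1679.card_le z hz) S1679.card_ge
    card_hs.ge
  replace e : MulAction.stabilizer G a ≃* gp nets.perm hs :=
    (e.trans e₁).trans ((MulEquiv.subgroupCongr S1679.gp_eq.symm).trans e₂)
  have := finite_of_fix M.fix
  have cb := card_st (m := 604800) e hb card_hs (by norm_num)
  have cc := card_st (m := 184320) e hc card_hs (by norm_num)
  obtain ⟨L, hL, jb⟩ := pigeon hv (st_le _ b) hH cb card_hs Nat.prime_two (by norm_num) M.invb phb0 phb1_0 phb2_0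
  obtain rfl := List.mem_singleton.1 hL
  obtain ⟨L, hL, jc⟩ := pigeon hv (st_le _ c) hH cc card_hs Nat.prime_two Nat.prime_two M.invb phc0
    (all_split _ 549 phc1_0 (all_split _ 575 phc1_1 (all_split _ 664 phc1_2 phc1_3))) phc2_0
  rcases List.mem_pair.1 hL with rfl | rfl
  · obtain ⟨G₁, ⟨e₃⟩, E⟩ := exists_ext' hΩ G hb hc e.surjective M
      (exists_fix hv (st_le _ b) M.invb jb (Nat.zero_le _) cb.dvd (by norm_num) fxb)
      (exists_fix hv (st_le _ c) M.invc jc (Nat.zero_le _) cc.dvd (by norm_num) fxc)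
    obtain ⟨G₂, A, h₁, h₂, _, h₃, h₄, ⟨e₄⟩⟩ := exists_le hv rfl M ET E hH hT
      (fun t ht g hg => by simpa [List.mem_singleton.1 ht] using ET.le hg) rw
      fun h h' => bd_of_exec_sep hv h h' ex
    have e₅ := MonoidHom.ofInjective inj
    have h₅ : Nat.card G₂ = 448345497600 := h₄.trans ((Nat.card_congr e₅.toEquiv).symm.trans SuzA.card_eq)
    have := SuzA.simple
    have : Finite G₂ := Nat.finite_of_card_ne_zero (by simp [h₅])
    exact ⟨(e₃.trans e₄).trans ((MulEquiv.subgroupCongr (Subgroup.eq_of_le_of_card_ge (range_le_of_simple _ h₂ h₁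
      (h₃.trans (by rw [h₅]; decide +kernel)) (by rw [SuzA.card_eq]; norm_num)) h₄.le).symm).trans e₅.symm)⟩
  · obtain ⟨θ, h₁, h₂⟩ := exists_theta (n := 6) (S1679.card_le _ (rels_prod S1668.hK hK')) card_hs.ge (by decide)
    obtain ⟨G₁, -, E⟩ := exists_ext' hΩ G hb hc (e := θ.comp e.toMonoidHom) (h₁.comp e.surjective) M'
      (exists_fix SuzS.hv (st_le _ b) M'.invb (cj_trans _ θ (h₂ _ (by decide)) jb) (Nat.zero_le _)
        (cb ▸ card_st_dvd _ θ e.injective b) (by norm_num) SuzS.fxb)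
      (exists_fix SuzS.hv (st_le _ c) M'.invc (cj_trans _ θ (h₂ _ (by decide)) jc) (Nat.zero_le _)
        (cc ▸ card_st_dvd _ θ e.injective c) (by norm_num) SuzS.fxc)
    exact (not_ext SuzS.hv rfl M' E (mem_gp_range (n := 6) (by decide)) SuzS.rw).elim

end Cfsg.Agent.S1668
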