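import Cfsg.Statements.S1669
import Cfsg.Agent.Lib.Rk3Lab
import Cfsg.Agent.Lib.RuLat
import Cfsg.Agent.Lib.RuF4
import Cfsg.Agent.Lib.RuRC0
import Cfsg.Agent.Lib.RuRC1
import Cfsg.Agent.Lib.RuTC0
import Cfsg.Agent.Lib.RuTa
import Cfsg.Agent.Lib.RuTb
import Cfsg.Agent.Lib.RuTc

set_option autoImplicit false
open Cfsg

namespace Cfsg.Agent.S1669

open Cfsg.Agent.Lib Cfsg.Agent.Lib.PermNet Cfsg.Agent.Lib.Words Cfsg.Agent.Lib.PermGroup Cfsg.Agent.Lib.Rk3Aut
  Cfsg.Agent.Lib.Rk3Emb Cfsg.Agent.Lib.Rk3PH Cfsg.Agent.Lib.Rk3Iso Cfsg.Agent.Lib.Rk3Main Cfsg.Agent.Lib.Rk3Lab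
  Cfsg.Agent.Lib.Rk3Fast Cfsg.Agent.Lib.RuT Equiv Pointwise

set_option maxRecDepth 100000

theorem card_le {X : Type*} [Group X] (z : ℕ → X) (hz : ∀ w ∈ [8] :: K1, wval z w = 1) :
    Nat.card (gp z hs) ≠ 0 ∧ Nat.card (gp z hs) ≤ 1755 * (5 * pcN dU) := by
  have : gp z hs = gp z (hs.take 14) := le_antisymm (gp_le.2 fun w hw =>
    (show w ∈ hs.take 14 ∨ w = [8] by revert w; decide).elim mem_gp fun e => e ▸ hz _ List.mem_cons_self ▸ one_mem _)
    (gp_mono (by decide))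
  rw [this]
  refine card_le_of_relIndex (gp_mono (vs := pcG dU ++ [[6]]) (by decide))
    (tc_wrap (I1.erase 5) hz [[4], [5], [12], [0], [14], [15], [16], [17], [18], [19], [20], [21], [22], [24], [26], [28], [30], [2], [6]] RuTb.bound _ _ (by decide +kernel))
    (card_le_of_relIndex (gp_mono (by decide)) (tc_wrap (I1.erase 5) hz [[4], [5], [12], [0], [14], [15], [16], [17], [18], [19], [20], [21], [22], [24], [26], [28], [30], [6]] RuTa.bound _ _ (by decide +kernel))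
      (card_pc_le (fun r hr => ?_) (by decide +kernel)))
  have := derive (I1.erase 5) hz (relW (pcR dU)) (by decide +kernel) _ (List.mem_map_of_mem hr)
  rwa [wval_append, wval_invW, mul_inv_eq_one] at this

theorem index_le {X : Type*} [Group X] (z : ℕ → X) (hz : ∀ w ∈ K1 ++ K2, wval z w = 1) :
    (gp z hs).relIndex (gp z ls) ≠ 0 ∧ (gp z hs).relIndex (gp z ls) ≤ 4060 :=
  tc_wrap I1 hz [[4], [5], [12], [0], [14], [15], [16], [17], [18], [19], [20], [21], [22], [24], [26], [28], [30], [2], [6], [8], [9], [10]] RuTc.bound _ _ (by decide +kernel)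

theorem hrels : ∀ w ∈ [Words.rep 13 [6, 2, 4, 4]] ++ ([8] :: K1) ++ (K1 ++ K2), wval nets.perm w = 1 :=
  derive I1 (relW_one (wval_eq_of_relsOn hv (by norm_num) (rels0_0.trans rels0_6))) _ (by decide +kernel)

theorem M : Model 1755 2304 (gp nets.perm hs) := model_gp hv sb sc (by norm_num) mod

instance : Finite (gp nets.perm hs) := finite_of_fix M.fix

theorem ea : ∀ i < 4, RuR.nets.perm i = wval nets.perm [2 * i] := fun i hi => by
  rw [wval_single]; interval_cases i <;> rfl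

theorem eg : RuR.nets.perm 19 = wval nets.perm [10] := Eq.trans (by rfl) (wval_single _ 5).symm

theorem hH : ∀ i < 19, RuR.nets.perm i ∈ gp nets.perm hs :=
  mem_of_defs (ds := RuR.defs) (n := 4) (derive [] (relW_one (wval_eq_of_relsOn RuR.hv (by norm_num) RuR.rels0_0)) _
    (by decide +kernel)) (by decide +kernel) fun i hi => ea i hi ▸ mem_gp (by revert i; decide)

theorem chain {m : ℕ} (h : m ≤ Nat.card (fixer (gp nets.perm hs) [4, 30, 1])) :
    35942400 * m ≤ Nat.card (gp nets.perm hs) := by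
  have := fun {ws bs b seq lo len n} (h : (List.all ws (lt 19) && levelB RuR.nets ws bs b seq lo len n) = true) =>
    @le_card_fixer _ _ RuR.hv _ _ ws (mem_of_all_lt hH (Bool.and_eq_true_iff.1 h).1) bs b seq lo len n
      (Bool.and_eq_true_iff.1 h).2
  have := this RuR.ch0 (this RuR.ch1 (this RuR.ch2 h))
  rw [fixer_nil] at this
  omega

theorem iso : Nat.card (gp nets.perm hs) = 35942400 ∧ Nonempty (gp nets.perm hs ≃* Lie.twistedF4 (ZMod 2) 1) := by
  obtain ⟨hc, π, h₁, h₂⟩ := exists_hom (card_le _ (rels_prod (fun w hw => hrels w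
    (List.mem_append_left _ (List.mem_append_right _ hw))) RuF4.rels))
    fun _ => chain (one_le_card_fixer _)
  replace hc : Nat.card (gp nets.perm hs) = 35942400 := hc
  have hs : lettersIn hs [[6, 2, 4, 4]] = true := by decide
  refine ⟨hc, ⟨(MonoidHom.ofInjective (injective_of π (p := 13)
    (fun N h h' => fix_or_dvd RuR.hv h h' hH M.orbb M.invb (unionB'_eq ▸ RuR.prim))
    (fun g hg h => eq_one_of_chain (fun m h => hc ▸ chain h) hg fun b hb => h b ?_) (by norm_num) (by norm_num)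
    (by rw [hc]; norm_num) (s := ⟨_, mem_gp_of_lettersIn hs _ List.mem_cons_self⟩) (Subtype.ext ?_) ?_)).trans
      (MulEquiv.subgroupCongr (h₁.trans RuF4.gp_eq))⟩⟩
  · rw [ms_ivl]; revert b; decide
  · exact (wval_rep _ 13 _).symm.trans (hrels _ (by simp))
  · rw [h₂ _ _ (mem_gp_of_lettersIn hs _ List.mem_cons_self)]
    exact RuF4.ne

theorem htr : InOrb (gp nets.perm ls) 0 (ones 4060) := InOrb.step hv (fun _ => mem_gp) _ (inOrb_pt _ 0) tr

theorem rep : Ext (1 + 1755 + 2304) (gp nets.perm hs) (gp nets.perm ls) ∧ ∃ φ : Spor.fourRu →* Perm ℕ, gp nets.perm ls ≤ φ.range ∧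
    φ.range ≤ autG (Orb (gp nets.perm ls) 1755) (1 + 1755 + 2304) ∧ φ.ker = Subgroup.center _ := by
  obtain ⟨h₁, lab, hl⟩ := exists_lab (index_le _ (rels_prod RuLat.hz fun w hw => hrels w (List.mem_append_right _ hw)))
    RuLat.fix_hs (fun w hw => M.fix0 _ (mem_gp hw)) htr
  have E : Ext (1 + 1755 + 2304) (gp nets.perm hs) (gp nets.perm ls) :=
    ⟨fix_gp hv _, fun i hi => htr i ((testBit_ones _ _).trans (decide_eq_true hi)), gp_mono (by decide), h₁⟩
  have hD := map_gp (y := fun i => (RuLat.z i, nets.perm i)) (MonoidHom.snd _ _) ls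
  have hw : lettersIn ls [[10], RuLat.wc.map (2 * ·)] = true := by decide
  have e₁ := map_wval (MonoidHom.fst _ _) fun i => (RuLat.z i, nets.perm i)
  have e₂ := map_wval (MonoidHom.snd _ _) fun i => (RuLat.z i, nets.perm i)
  simp only [MonoidHom.coe_fst, MonoidHom.coe_snd] at e₁ e₂
  have hb := mem_gp_of_lettersIn (y := fun i => (RuLat.z i, nets.perm i)) hw
  have hb' : (wval (fun i => (RuLat.z i, nets.perm i)) [10]).2 0 ∈ ms (ivl 1 1755) :=
    e₂ _ ▸ (testBit_appW hv _ _ 0).symm.trans (by decide +kernel)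
  have hc' : (wval (fun i => (RuLat.z i, nets.perm i)) (RuLat.wc.map (2 * ·))).2 0 ∈ ms (ivl (1 + 1755) 2304) :=
    e₂ _ ▸ (testBit_appW hv _ _ 0).symm.trans (by decide +kernel)
  have hn := RuLat.F_ne
  rw [← e₁, ← e₁] at hn
  have cl := @RuLat.exists_lab_eq lab (fun x hx y hy => (lab_spec M E hD hl RuLat.F_smul (hb _ (by simp)) (hb _ (by simp))
    hb' hc' hn.1 hn.2.1 hn.2.2 hx hy).2) fun x hx => by
      obtain ⟨d, hd, rfl⟩ := exists_mem E hD hl hx
      exact ⟨_, hl d hd⟩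
  obtain ⟨φ, p₁, p₂, p₃, p₄⟩ := exists_rep M E hD hl RuLat.F_smul (hb _ (by simp)) (hb _ (by simp)) hb' hc' hn.1 hn.2.1
    hn.2.2 fun s x hx => by
      obtain ⟨d, hd, rfl⟩ := exists_mem E hD hl hx
      rw [hl d hd, ← mul_smul, RuLat.smul_ln]
      exact cl (((s * d.1).2.2.2 _).trans (RuLat.norm_bb 0))
  refine ⟨E, φ, p₁, p₂, le_antisymm (fun s hs => RuLat.mem_center fun j => ?_) p₃⟩
  obtain ⟨x, hx, e⟩ := cl (v := RuLat.bb j) (RuLat.norm_bb j)
  exact e ▸ p₄ s hs x hx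

/-- Recognition of the Rudvalis group as a rank 3 permutation group: a transitive permutation group on 4060 points in which the stabiliser of a point is isomorphic to the Ree group ²F₄(2) and has two further orbits, of sizes 1755 and 2304, is isomorphic to the Rudvalis group. -/
theorem result {Ω : Type*} [Fintype Ω] [DecidableEq Ω] (hΩ : Fintype.card Ω = 4060) (G : Subgroup (Equiv.Perm Ω)) [MulAction.IsPretransitive G Ω] (a : Ω)  (e : MulAction.stabilizer G a ≃* Cfsg.Lie.twistedF4 (ZMod 2) 1) (b c : Ω) (hb : (MulAction.orbit (MulAction.stabilizer G a) b).ncard = 1755) (hc : (MulAction.orbit (MulAction.stabilizer G a) c).ncard = 2304) : Cfsg.Spor.IsoRu G := by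
  obtain ⟨hc', ⟨e₁⟩⟩ := iso
  replace e := e.trans e₁.symm
  have cb := card_st (m := 20480) e hb hc' (by norm_num)
  have cc := card_st (m := 15600) e hc hc' (by norm_num)
  have h₀ := RuR.phc0
  simp only [Bool.and_eq_true] at h₀
  have jb := cj_of_isPGroup (st_le e.toMonoidHom b) (gp_le.2 (mem_of_all_lt hH h₀.1.1.1.1.1.1.2)) Nat.prime_two
    (isPGroup_pc (rels_of_B RuR.hv (by norm_num) h₀.2) h₀.1.1.1.1.2 h₀.1.1.2) (r := 1755) (by rw [cb, hc']) (by norm_num)
  obtain ⟨L, hL, jc⟩ := pigeon RuR.hv (st_le _ c) hH cc hc' Nat.prime_two (by norm_num) M.invb RuR.phc0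
    (all_split _ 406 RuR.phc1_0 (all_split _ 368 RuR.phc1_1 (all_split _ 276 RuR.phc1_2 (all_split _ 373 RuR.phc1_3 (all_split _ 401 RuR.phc1_4 (all_split _ 410 RuR.phc1_5 (all_split _ 425 RuR.phc1_6 (all_split _ 372 RuR.phc1_7 (all_split _ 392 RuR.phc1_8 (all_split _ 351 RuR.phc1_9 (all_split _ 312 RuR.phc1_10 RuR.phc1_11))))))))))) (all_split _ 8 RuR.phc2_0 RuR.phc2_1)
  obtain rfl := List.mem_singleton.1 hL
  obtain ⟨G₁, ⟨e₃⟩, E⟩ := exists_ext' hΩ G hb hc e.surjective M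
    (exists_fix RuR.hv (st_le _ b) M.invb jb (Nat.zero_le _) cb.dvd (by norm_num) (unionB'_eq ▸ RuR.fxb))
    (exists_fix RuR.hv (st_le _ c) M.invc jc (Nat.zero_le _) cc.dvd (by norm_num) (unionB'_eq ▸ RuR.fxc))
  obtain ⟨ET, φ, p₁, p₂, p₃⟩ := rep
  have hT : ∀ i < 20, RuR.nets.perm i ∈ gp nets.perm ls := fun i hi =>
    (Nat.lt_succ_iff_lt_or_eq.1 hi).elim (fun h => ET.le (hH i h)) fun h => h ▸ eg ▸ mem_gp (by decide)
  obtain ⟨G₂, h₁, ⟨e₄⟩⟩ := exists_le_autG M E (N := 1 + 1755 + 2304) RuR.hv rfl hH (fun i hi => le_autG ET (hT i hi)) (orb_zero M ET)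
    (fun _ _ h => (orb_lt ET h).1) (fun t ht g hg => by simpa [List.mem_singleton.1 ht] using le_autG ET (ET.le hg))
    (rowsB'_eq ▸ RuR.rw)
  have h₂ := (card_le_of_bd (bd_of_exec_sep (N := 1 + 1755 + 2304) RuR.hv (fun i hi => le_autG ET (hT i hi)) (orb_zero M ET) RuR.ex)).trans
    (show _ ≤ 4060 * 35942400 by decide +kernel)
  have h₃ : G₂ = autG _ _ := Subgroup.eq_of_le_of_card_ge h₁ (by rwa [← Nat.card_congr e₄.toEquiv, card_ext M E, hc'])
  have h₄ := Subgroup.eq_of_le_of_card_ge (p₁.trans p₂) (by rwa [card_ext M ET, hc'])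
  exact ⟨(e₃.trans e₄).trans ((MulEquiv.subgroupCongr (h₃.trans (le_antisymm (h₄ ▸ p₁) p₂))).trans
    ((QuotientGroup.quotientKerEquivRange φ).symm.trans (QuotientGroup.quotientMulEquivOfEq p₃)))⟩

end Cfsg.Agent.S1669
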