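import Cfsg.Statements.S1675
import Cfsg.Agent.Lib.Co2Top

set_option autoImplicit false
open Cfsg

namespace Cfsg.Agent.S1675

/-- The second Conway group from an involution centraliser: let G be a finite group with no non-trivial normal subgroup of odd order and trivial centre, and let t be an involution whose centraliser C is 2-constrained with O₂(C) extraspecial of order 2 ^ 9 and C / O₂(C) isomorphic to the symplectic group Sp(6, 2). Then G is isomorphic to the second Conway group (the stabiliser in the Leech lattice automorphism group of a minimal vector). -/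
theorem result {G : Type*} [Group G] [Finite G] (hO : Cfsg.oddCore G = ⊥) (hZ : Subgroup.center G = ⊥) (t : G) (ht : orderOf t = 2) (hcon : Cfsg.IsPConstrained 2 (Subgroup.centralizer ({t} : Set G))) (hQ : Cfsg.IsExtraspecial 2 (Cfsg.pCore 2 (Subgroup.centralizer ({t} : Set G)))) (hcard : Nat.card (Cfsg.pCore 2 (Subgroup.centralizer ({t} : Set G))) = 2 ^ 9) (e : (Subgroup.centralizer ({t} : Set G)) ⧸ Cfsg.pCore 2 (Subgroup.centralizer ({t} : Set G)) ≃* Matrix.symplecticGroup (Fin 3) (ZMod 2)) : Cfsg.Spor.IsoCo2 G := by
  obtain ⟨Q, φ, h⟩ := Cfsg.Agent.Lib.Co2Hyp.hyp t ht hcon hQ hcard e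
  exact Cfsg.Agent.Lib.Co2H.main hO hZ h

end Cfsg.Agent.S1675
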