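import Cfsg.Statements.S1678
import Cfsg.Agent.Lib.Co3S2
import Cfsg.Agent.Lib.Co3A

set_option autoImplicit false
open Cfsg

namespace Cfsg.Agent.S1678

/-- The third Conway group from an involution centraliser: let G be a finite group with no non-trivial normal subgroup of odd order and trivial centre, having an involution t whose centraliser is a non-split double cover of the symplectic group Sp(6, 2). Then G is isomorphic to the third Conway group (the stabiliser in the Leech lattice automorphism group of a vector of the second shortest length). -/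
theorem result {G : Type*} [Group G] [Finite G] (hO : Cfsg.oddCore G = ⊥) (hZ : Subgroup.center G = ⊥) (t : G) (ht : orderOf t = 2) (hC : Cfsg.IsNonsplitDoubleCover (Subgroup.centralizer ({t} : Set G)) (Matrix.symplecticGroup (Fin 3) (ZMod 2))) : Cfsg.Spor.IsoCo3 G := by
  obtain ⟨f, h1, h2, h3, h4⟩ := Lib.Co3A.exists_gens ht hC
  have hn : ¬ IsIsolated t := fun h => by
    have : t ∈ Subgroup.center G := Subgroup.mem_center_iff.2 fun g => by
      have := Lib.ZStar.zstar G t (ht ▸ pow_orderOf_eq_one t) h g
      rwa [show pPrimeCore 2 G = ⊥ from hO, Subgroup.mem_bot, mul_inv_eq_one,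
        mul_inv_eq_iff_eq_mul] at this
    rw [hZ, Subgroup.mem_bot] at this
    simp [this] at ht
  simp only [IsIsolated, not_forall] at hn
  obtain ⟨g, hg, hn⟩ := hn
  exact Lib.Co3S.main ⟨h1, h2, h3, h4⟩ (Subgroup.mem_centralizer_singleton_iff.2 hg.eq.symm) hn

end Cfsg.Agent.S1678
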