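import Cfsg.Statements.S1686
import Cfsg.Agent.Lib.Fi22A
import Cfsg.Agent.Lib.MatChk
import Cfsg.Agent.Lib.AutOrth2

set_option autoImplicit false
open Cfsg

namespace Cfsg.Agent.S1686

open Cfsg.Agent.Lib Cfsg.Agent.Lib.PermNet Cfsg.Agent.Lib.Words Cfsg.Agent.Lib.PermGroup
  Cfsg.Agent.Lib.MatChk Cfsg.Agent.Lib.FormDisc Matrix

set_option maxRecDepth 100000
set_option Elab.async false

/-- The relators of the subgroup. -/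
def K1 : List (List ℕ) :=
  [[2, 2], [4, 4], [6, 6], [8, 8], [10, 10], [12, 12], [14, 14], [16, 16], [2, 4, 2, 4, 2, 4],
  [2, 6, 2, 6], [2, 8, 2, 8], [2, 10, 2, 10], [2, 12, 2, 12], [2, 14, 2, 14], [2, 16, 2, 16], [4,
  6, 4, 6, 4, 6], [4, 8, 4, 8], [4, 10, 4, 10], [4, 12, 4, 12], [4, 14, 4, 14], [4, 16, 4, 16],
  [6, 8, 6, 8, 6, 8], [6, 10, 6, 10], [6, 12, 6, 12], [6, 14, 6, 14, 6, 14], [6, 16, 6, 16], [8,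
  10, 8, 10, 8, 10], [8, 12, 8, 12], [8, 14, 8, 14], [8, 16, 8, 16], [10, 12, 10, 12, 10, 12],
  [10, 14, 10, 14], [10, 16, 10, 16], [12, 14, 12, 14], [12, 16, 12, 16], [14, 16, 14, 16, 14,
  16], [6, 4, 2, 6, 8, 10, 6, 14, 16, 6, 4, 2, 6, 8, 10, 6, 14, 16, 6, 4, 2, 6, 8, 10, 6, 14, 16,
  6, 4, 2, 6, 8, 10, 6, 14, 16, 6, 4, 2, 6, 8, 10, 6, 14, 16, 6, 4, 2, 6, 8, 10, 6, 14, 16, 6, 4,
  2, 6, 8, 10, 6, 14, 16, 6, 4, 2, 6, 8, 10, 6, 14, 16, 6, 4, 2, 6, 8, 10, 6, 14, 16, 6, 4, 2, 6,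
  8, 10, 6, 14, 16], [2, 4, 6, 8, 10, 12, 14, 2, 4, 6, 8, 10, 12, 14, 2, 4, 6, 8, 10, 12, 14, 2,
  4, 6, 8, 10, 12, 14, 2, 4, 6, 8, 10, 12, 14, 2, 4, 6, 8, 10, 12, 14, 2, 4, 6, 8, 10, 12, 14, 2,
  4, 6, 8, 10, 12, 14, 2, 4, 6, 8, 10, 12, 14]]

/-- The generators. -/
def I1 : List ℕ := [1, 2, 3, 4, 5, 6, 7, 8]

theorem bB {X : Type*} [Group X] (z : ℕ → X) (hz : ∀ w ∈ K1, wval z w = 1) :
    (gp z [[2], [4], [6], [8], [10], [12], [14]]).relIndex (gp z [[2], [4], [6], [8], [10], [12], [14], [16]]) ≠ 0 ∧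
    (gp z [[2], [4], [6], [8], [10], [12], [14]]).relIndex (gp z [[2], [4], [6], [8], [10], [12], [14], [16]]) ≤ 3159 :=
  tc_wrap I1 hz [[2], [4], [6], [8], [10], [12], [14], [16]] TCFiB.bound _ _ (by decide +kernel)

theorem bS {X : Type*} [Group X] (z : ℕ → X) (hz : ∀ w ∈ K1, wval z w = 1) :
    (gp z [[2], [4], [6], [8], [10], [14]]).relIndex (gp z [[2], [4], [6], [8], [10], [12], [14]]) ≠ 0 ∧
    (gp z [[2], [4], [6], [8], [10], [14]]).relIndex (gp z [[2], [4], [6], [8], [10], [12], [14]]) ≤ 28 :=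
  tc_wrap I1 hz [[2], [4], [6], [8], [10], [12], [14]] TCFi22S.bound _ _ (by decide +kernel)

theorem bE6 {X : Type*} [Group X] (z : ℕ → X) (hz : ∀ w ∈ K1, wval z w = 1) :
    (gp z [[4], [6], [8], [10], [14]]).relIndex (gp z [[2], [4], [6], [8], [10], [14]]) ≠ 0 ∧
    (gp z [[4], [6], [8], [10], [14]]).relIndex (gp z [[2], [4], [6], [8], [10], [14]]) ≤ 27 :=
  tc_wrap I1 hz [[2], [4], [6], [8], [10], [14]] TCFiE6.bound _ _ (by decide +kernel)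

theorem bD5 {X : Type*} [Group X] (z : ℕ → X) (hz : ∀ w ∈ K1, wval z w = 1) :
    (gp z [[4], [6], [8], [10]]).relIndex (gp z [[4], [6], [8], [10], [14]]) ≠ 0 ∧
    (gp z [[4], [6], [8], [10]]).relIndex (gp z [[4], [6], [8], [10], [14]]) ≤ 16 :=
  tc_wrap I1 hz [[4], [6], [8], [10], [14]] TCFiD5.bound _ _ (by decide +kernel)

theorem bA4 {X : Type*} [Group X] (z : ℕ → X) (hz : ∀ w ∈ K1, wval z w = 1) :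
    (gp z []).relIndex (gp z [[4], [6], [8], [10]]) ≠ 0 ∧
    (gp z []).relIndex (gp z [[4], [6], [8], [10]]) ≤ 120 :=
  tc_wrap I1 hz [[4], [6], [8], [10]] TCFiA4.bound _ _ (by decide +kernel)

theorem card_le {X : Type*} [Group X] (z : ℕ → X) (hz : ∀ w ∈ K1, wval z w = 1) :
    Nat.card (gp z (I1.map fun l => [2 * l])) ≠ 0 ∧
    Nat.card (gp z (I1.map fun l => [2 * l])) ≤ 4585351680 :=
  (card_le_of_relIndex (gp_mono (by decide)) (bB z hz)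
    (card_le_of_relIndex (gp_mono (by decide)) (bS z hz)
    (card_le_of_relIndex (gp_mono (by decide)) (bE6 z hz)
    (card_le_of_relIndex (gp_mono (by decide)) (bD5 z hz)
    (card_le_of_relIndex (gp_mono (by decide)) (bA4 z hz)
    (card_gp_nil z))))))

/-- The matrices. -/
def ms : List Mat :=
  [[[1,0,0,0,0,0,0], [0,1,0,0,0,0,0], [0,0,1,0,0,0,0], [0,0,0,1,0,0,0], [0,0,0,0,1,0,0], [0,0,0,0,0,1,0], [0,0,0,0,0,0,1]],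
   [[0,0,0,1,0,1,1], [0,2,0,0,0,0,0], [2,0,2,2,0,2,2], [2,0,0,1,0,2,2], [0,0,0,0,2,0,0], [0,0,0,0,0,2,0], [2,0,0,2,0,2,1]],
   [[0,0,1,1,0,1,0], [0,2,0,0,0,0,0], [2,0,1,2,0,2,0], [0,0,0,2,0,0,0], [0,0,0,0,2,0,0], [2,0,2,2,0,1,0], [2,0,2,2,0,2,2]],
   [[0,0,0,2,2,0,2], [1,2,0,2,2,0,2], [0,0,2,0,0,0,0], [1,0,0,1,2,0,2], [0,0,0,0,2,0,0], [0,0,0,0,0,2,0], [1,0,0,2,2,0,1]],
   [[0,2,0,0,2,0,1], [1,1,0,0,2,0,1], [0,0,2,0,0,0,0], [2,1,0,2,1,0,2], [1,2,0,0,1,0,1], [0,0,0,0,0,2,0], [0,0,0,0,0,0,2]],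
   [[2,0,0,0,0,0,0], [0,2,0,1,2,1,2], [0,0,2,2,1,2,1], [0,0,0,0,2,1,2], [0,0,0,0,2,0,0], [0,0,0,0,0,2,0], [0,0,0,2,1,2,0]],
   [[2,0,0,0,0,0,0], [0,2,0,2,2,2,1], [0,0,2,2,2,2,1], [0,0,0,0,1,1,2], [0,0,0,0,2,0,0], [0,0,0,0,0,2,0], [0,0,0,2,2,2,0]],
   [[0,0,0,2,1,2,2], [2,2,0,1,2,1,1], [1,0,2,2,1,2,2], [1,0,0,1,1,2,2], [0,0,0,0,2,0,0], [0,0,0,0,0,2,0], [1,0,0,2,1,2,1]],
   [[0,0,2,2,1,2,0], [2,2,1,1,2,1,0], [1,0,1,2,1,2,0], [0,0,0,2,0,0,0], [0,0,0,0,2,0,0], [1,0,2,2,1,1,0], [1,0,2,2,1,2,2]],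
   [[1,0,1,0,0,0,2], [0,1,0,0,0,0,0], [0,0,0,0,0,0,1], [2,0,1,0,0,2,1], [0,0,0,0,1,0,0], [1,0,1,1,0,2,0], [0,0,2,0,0,0,2]],
   [[0,0,1,1,2,1,0], [1,1,2,0,2,0,2], [2,0,2,2,0,2,2], [0,0,0,0,2,2,1], [0,0,0,0,1,0,0], [2,0,1,1,2,2,0], [2,0,1,2,0,2,0]],
   [[0,0,1,2,1,1,0], [0,1,2,1,0,1,1], [1,0,0,2,1,1,1], [2,0,1,2,2,0,1], [0,0,0,0,1,0,0], [0,0,0,0,0,2,2], [2,0,2,1,1,2,1]],
   [[1,0,0,2,2,1,0], [2,1,1,0,1,1,1], [1,0,0,1,0,1,2], [0,0,0,0,2,1,0], [0,0,0,0,1,0,0], [0,0,0,2,2,2,0], [2,0,1,1,2,0,2]],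
   [[2,0,0,1,0,1,0], [2,1,2,0,1,2,2], [0,0,0,2,2,0,0], [0,0,0,0,2,2,0], [0,0,0,0,1,0,0], [1,0,0,1,0,0,2], [1,0,2,2,1,1,0]],
   [[0,0,2,0,1,2,0], [1,1,0,1,0,1,2], [2,0,1,2,0,2,0], [0,0,2,2,1,1,2], [0,0,0,0,1,0,0], [2,0,0,2,0,0,1], [2,0,1,1,2,2,0]],
   [[0,0,1,1,2,2,2], [2,1,0,2,0,2,1], [1,0,1,1,0,1,1], [1,0,1,1,2,2,0], [0,0,0,0,1,0,0], [1,0,0,1,0,2,2], [0,0,2,1,1,0,0]],
   [[1,0,0,0,0,0,1], [0,1,0,0,0,2,1], [1,0,1,1,0,2,0], [2,0,1,2,2,1,2], [0,0,0,0,1,0,0], [0,0,0,0,0,2,2], [0,0,0,0,0,2,1]],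
   [[1,0,2,1,1,2,2], [1,1,2,2,1,2,0], [2,0,2,1,2,1,0], [2,0,2,1,1,2,1], [0,0,0,0,1,0,0], [2,0,1,1,2,2,0], [1,0,0,1,0,0,2]],
   [[1,0,0,0,0,0,0], [0,1,0,0,0,2,2], [0,0,0,1,1,0,0], [0,0,2,2,1,0,0], [0,0,0,0,1,0,0], [0,0,0,0,0,2,1], [0,0,0,0,0,2,0]]]

theorem hw : wf (arZ 3 7) ms = true := by decide +kernel

theorem hrel : relsB (arZ 3 7) ms I1 K1 [1] = true := by decide +kernel

/-- The straight line program. -/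
def st : List (ℕ × List ℕ × List ℕ) :=
  [(9, [], [1, 2]), (10, [], [1, 6, 8, 1]), (11, [], [4, 3, 2, 1, 5, 4, 3, 6, 7, 3, 4, 6, 5, 3,
  5, 2, 3, 8, 6, 4, 6, 1, 1, 2, 3, 8, 8, 2, 7, 1, 3, 2, 5, 1, 8, 4, 4, 4, 3, 7]), (12, [], [11,
  11, 9, 11, 11]), (13, [], [11, 9, 10, 11, 9, 10, 11, 11, 10, 9, 11, 9, 11, 10, 11]), (14, [],
  [12, 12, 13, 13]), (15, [], [12, 12, 13, 12, 13]), (16, [], [13, 13, 12, 13, 12, 13, 12, 12,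
  13, 12]), (17, [], [16, 14, 16, 14, 15]), (18, [], [15, 16, 15])]

theorem hst : slp (arZ 3 7) ms st I1 = true := by decide +kernel

def t0 : T :=
  (.nd (.nd (.nd (.nd (.nd (.nd (.nd (.nd (.nd (.nd .lf 3 0 1 .lf) 6 1 1 .lf) 9 17 2 (.nd (.nd
  .lf 12 9 4 .lf) 15 14 4 .lf)) 18 18 2 (.nd (.nd (.nd .lf 21 15 4 .lf) 24 10 4 .lf) 27 12 8 (.nd
  (.nd .lf 30 12 8 .lf) 33 10 8 .lf))) 36 12 3 (.nd (.nd (.nd (.nd .lf 39 11 8 .lf) 42 11 8 .lf)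
  45 12 7 (.nd (.nd .lf 48 10 7 .lf) 51 12 7 .lf)) 54 11 8 (.nd (.nd (.nd .lf 57 9 8 .lf) 60 11 8
  .lf) 63 11 7 (.nd .lf 66 11 7 .lf)))) 69 9 7 (.nd (.nd (.nd (.nd (.nd .lf 72 11 3 .lf) 75 10 8
  .lf) 78 10 8 (.nd (.nd .lf 81 13 7 .lf) 88 11 1 .lf)) 89 11 3 (.nd (.nd (.nd .lf 90 4 5 .lf) 97
  9 8 .lf) 98 8 8 (.nd (.nd .lf 99 7 7 .lf) 106 8 7 .lf))) 107 9 8 (.nd (.nd (.nd (.nd .lf 108 12
  4 .lf) 115 9 8 .lf) 116 13 8 (.nd (.nd .lf 117 8 8 .lf) 124 11 7 .lf)) 125 6 7 (.nd (.nd (.nd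
  .lf 126 9 8 .lf) 133 10 8 .lf) 134 5 4 (.nd .lf 135 11 2 .lf))))) 142 2 4 (.nd (.nd (.nd (.nd
  (.nd (.nd .lf 143 11 8 .lf) 144 7 8 .lf) 151 9 3 (.nd (.nd .lf 152 9 7 .lf) 153 8 7 .lf)) 160
  13 3 (.nd (.nd (.nd .lf 161 6 8 .lf) 162 14 7 .lf) 166 10 3 (.nd (.nd .lf 167 12 1 .lf) 171 6 7
  .lf))) 175 8 8 (.nd (.nd (.nd (.nd .lf 176 9 7 .lf) 180 3 5 .lf) 184 7 8 (.nd (.nd .lf 185 10 8
  .lf) 189 12 2 .lf)) 193 12 8 (.nd (.nd (.nd .lf 194 1 4 .lf) 198 9 7 .lf) 202 7 8 (.nd .lf 203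
  14 3 .lf)))) 207 8 8 (.nd (.nd (.nd (.nd (.nd .lf 211 10 7 .lf) 212 8 3 .lf) 216 11 4 (.nd (.nd
  .lf 220 14 8 .lf) 221 8 8 .lf)) 225 8 8 (.nd (.nd (.nd .lf 229 4 4 .lf) 230 9 8 .lf) 234 7 8
  (.nd (.nd .lf 238 5 7 .lf) 239 10 7 .lf))) 243 11 5 (.nd (.nd (.nd (.nd .lf 246 11 4 .lf) 249
  10 4 .lf) 262 10 6 (.nd (.nd .lf 263 10 8 .lf) 265 10 5 .lf)) 266 11 5 (.nd (.nd (.nd .lf 268 8
  4 .lf) 269 11 3 .lf) 270 10 5 (.nd .lf 273 11 8 .lf)))))) 276 10 4 (.nd (.nd (.nd (.nd (.nd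
  (.nd (.nd .lf 289 12 7 .lf) 290 8 4 .lf) 292 11 7 (.nd (.nd .lf 293 8 5 .lf) 295 12 7 .lf)) 296
  10 6 (.nd (.nd (.nd .lf 297 13 3 .lf) 300 12 4 .lf) 303 21 3 (.nd (.nd .lf 316 10 7 .lf) 317 13
  4 .lf))) 319 16 3 (.nd (.nd (.nd (.nd .lf 320 10 4 .lf) 322 15 4 .lf) 323 18 7 (.nd (.nd .lf
  324 14 4 .lf) 331 11 8 .lf)) 332 11 6 (.nd (.nd (.nd .lf 337 6 6 .lf) 338 7 8 .lf) 339 7 2 (.nd
  .lf 343 14 2 .lf)))) 344 12 7 (.nd (.nd (.nd (.nd (.nd .lf 345 8 3 .lf) 351 11 8 .lf) 358 10 3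
  (.nd (.nd .lf 359 10 4 .lf) 364 9 4 .lf)) 365 4 2 (.nd (.nd (.nd .lf 366 6 7 .lf) 370 9 8 .lf)
  371 15 1 (.nd (.nd .lf 372 13 2 .lf) 378 11 7 .lf))) 385 9 2 (.nd (.nd (.nd (.nd .lf 386 13 2
  .lf) 391 6 7 .lf) 392 9 8 (.nd (.nd .lf 393 9 6 .lf) 397 15 1 .lf)) 398 8 3 (.nd (.nd (.nd .lf
  399 10 8 .lf) 405 10 3 .lf) 409 12 3 (.nd .lf 410 21 4 .lf))))) 417 8 5 (.nd (.nd (.nd (.nd
  (.nd (.nd .lf 421 10 7 .lf) 422 7 2 .lf) 424 10 5 (.nd (.nd .lf 425 5 8 .lf) 429 10 7 .lf)) 432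
  12 2 (.nd (.nd (.nd .lf 436 13 7 .lf) 437 8 3 .lf) 444 17 8 (.nd (.nd .lf 448 14 3 .lf) 449 6 7
  .lf))) 451 12 8 (.nd (.nd (.nd (.nd .lf 452 6 3 .lf) 456 10 6 .lf) 459 12 8 (.nd (.nd .lf 463
  12 1 .lf) 464 10 3 .lf)) 471 14 3 (.nd (.nd (.nd .lf 475 16 2 .lf) 476 8 6 .lf) 478 8 5 (.nd
  .lf 479 10 7 .lf)))) 483 12 7 (.nd (.nd (.nd (.nd (.nd .lf 486 10 5 .lf) 489 9 4 .lf) 492 10 4
  (.nd (.nd .lf 496 11 8 .lf) 497 11 6 .lf)) 499 12 3 (.nd (.nd (.nd .lf 500 9 4 .lf) 502 12 5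
  .lf) 503 11 5 (.nd .lf 513 12 3 .lf))) 516 20 3 (.nd (.nd (.nd (.nd .lf 519 11 4 .lf) 523 14 4
  .lf) 524 11 7 (.nd (.nd .lf 526 19 7 .lf) 527 16 4 .lf)) 529 11 4 (.nd (.nd (.nd .lf 530 17 3
  .lf) 540 11 5 .lf) 543 11 4 (.nd .lf 546 12 8 .lf))))))) 550 9 4 (.nd (.nd (.nd (.nd (.nd (.nd
  (.nd (.nd .lf 551 13 7 .lf) 553 11 6 .lf) 554 13 7 (.nd (.nd .lf 556 9 5 .lf) 557 12 7 .lf))
  567 9 3 (.nd (.nd (.nd .lf 574 22 4 .lf) 575 11 3 .lf) 577 4 8 (.nd (.nd .lf 578 9 5 .lf) 579 9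
  7 .lf))) 589 8 2 (.nd (.nd (.nd (.nd .lf 590 9 7 .lf) 591 7 5 .lf) 594 11 8 (.nd (.nd .lf 601 9
  3 .lf) 602 13 1 .lf)) 604 9 7 (.nd (.nd (.nd .lf 605 7 5 .lf) 606 11 7 .lf) 616 7 6 (.nd .lf
  617 15 2 .lf)))) 618 13 3 (.nd (.nd (.nd (.nd (.nd .lf 621 13 2 .lf) 628 9 3 .lf) 629 12 7 (.nd
  (.nd .lf 631 7 3 .lf) 632 11 8 .lf)) 633 9 6 (.nd (.nd (.nd .lf 643 7 7 .lf) 644 13 3 .lf) 645
  16 8 (.nd (.nd .lf 648 13 4 .lf) 652 12 6 .lf))) 653 10 8 (.nd (.nd (.nd (.nd .lf 658 11 7 .lf)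
  659 15 2 .lf) 663 7 3 (.nd (.nd .lf 669 8 2 .lf) 673 8 8 .lf)) 674 7 6 (.nd (.nd (.nd .lf 675
  12 7 .lf) 679 12 2 .lf) 680 10 2 (.nd .lf 685 7 3 .lf))))) 686 14 1 (.nd (.nd (.nd (.nd (.nd
  (.nd .lf 690 9 8 .lf) 696 10 6 .lf) 700 10 8 (.nd (.nd .lf 701 5 7 .lf) 702 12 8 .lf)) 706 11 4
  (.nd (.nd (.nd .lf 707 11 3 .lf) 712 14 1 .lf) 713 8 8 (.nd (.nd .lf 717 12 2 .lf) 723 5 7
  .lf))) 727 3 2 (.nd (.nd (.nd (.nd .lf 728 8 4 .lf) 729 10 7 .lf) 732 11 3 (.nd (.nd .lf 735 10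
  7 .lf) 738 10 8 .lf)) 741 10 8 (.nd (.nd (.nd .lf 744 11 4 .lf) 747 9 8 .lf) 750 11 8 (.nd .lf
  753 11 8 .lf)))) 784 8 8 (.nd (.nd (.nd (.nd (.nd .lf 785 11 3 .lf) 787 10 8 .lf) 788 10 7 (.nd
  (.nd .lf 790 10 8 .lf) 791 11 3 .lf)) 793 11 8 (.nd (.nd (.nd .lf 794 11 5 .lf) 796 10 4 .lf)
  797 11 4 (.nd .lf 799 11 8 .lf))) 800 10 8 (.nd (.nd (.nd (.nd .lf 802 11 7 .lf) 803 11 8 .lf)
  805 11 7 (.nd (.nd .lf 806 9 8 .lf) 808 10 3 .lf)) 809 9 8 (.nd (.nd (.nd .lf 810 11 8 .lf) 817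
  8 8 .lf) 818 7 5 (.nd .lf 819 11 3 .lf)))))) 826 11 8 (.nd (.nd (.nd (.nd (.nd (.nd (.nd .lf
  827 11 8 .lf) 828 6 8 .lf) 835 9 7 (.nd (.nd .lf 836 4 7 .lf) 841 15 3 .lf)) 842 8 8 (.nd (.nd
  (.nd .lf 843 10 7 .lf) 850 2 5 .lf) 851 11 8 (.nd (.nd .lf 852 11 2 .lf) 859 7 3 .lf))) 860 11
  7 (.nd (.nd (.nd (.nd .lf 861 9 8 .lf) 865 10 7 .lf) 866 7 8 (.nd (.nd .lf 867 5 7 .lf) 874 11
  1 .lf)) 875 11 3 (.nd (.nd (.nd .lf 876 14 8 .lf) 883 11 8 .lf) 884 8 8 (.nd .lf 885 4 6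
  .lf)))) 891 10 8 (.nd (.nd (.nd (.nd (.nd .lf 895 12 7 .lf) 896 6 3 .lf) 900 10 2 (.nd (.nd .lf
  904 10 8 .lf) 905 3 6 .lf)) 909 11 7 (.nd (.nd (.nd .lf 913 9 8 .lf) 914 15 8 .lf) 921 7 8 (.nd
  (.nd .lf 925 5 7 .lf) 926 10 7 .lf))) 930 12 3 (.nd (.nd (.nd (.nd .lf 934 12 8 .lf) 935 10 8
  .lf) 939 10 8 (.nd (.nd .lf 943 6 6 .lf) 944 9 8 .lf)) 946 7 8 (.nd (.nd (.nd .lf 947 8 8 .lf)
  951 3 3 .lf) 955 10 3 (.nd .lf 956 11 8 .lf))))) 960 12 7 (.nd (.nd (.nd (.nd (.nd (.nd .lf 964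
  10 8 .lf) 965 7 7 .lf) 969 8 7 (.nd (.nd .lf 972 12 7 .lf) 975 18 3 .lf)) 978 15 4 (.nd (.nd
  (.nd .lf 991 11 8 .lf) 992 17 3 .lf) 994 14 4 (.nd (.nd .lf 995 11 4 .lf) 997 19 2 .lf))) 998
  16 4 (.nd (.nd (.nd (.nd .lf 1009 10 5 .lf) 1010 11 8 .lf) 1012 8 4 (.nd (.nd .lf 1013 11 8
  .lf) 1015 10 6 .lf)) 1016 10 4 (.nd (.nd (.nd .lf 1017 11 4 .lf) 1020 12 8 .lf) 1023 11 5 (.nd
  .lf 1027 10 4 .lf)))) 1028 11 3 (.nd (.nd (.nd (.nd (.nd .lf 1030 10 5 .lf) 1031 12 8 .lf) 1033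
  12 6 (.nd (.nd .lf 1034 12 8 .lf) 1035 10 4 .lf)) 1038 10 5 (.nd (.nd (.nd .lf 1041 9 4 .lf)
  1053 13 2 .lf) 1060 7 8 (.nd .lf 1061 15 1 .lf))) 1066 12 3 (.nd (.nd (.nd (.nd .lf 1067 11 2
  .lf) 1068 11 8 .lf) 1072 9 5 (.nd (.nd .lf 1073 4 5 .lf) 1074 6 7 .lf)) 1084 14 3 (.nd (.nd
  (.nd .lf 1085 8 3 .lf) 1086 10 8 .lf) 1090 9 2 (.nd .lf 1091 12 4 .lf)))))))) 1092 13 7 (.nd
  (.nd (.nd (.nd (.nd (.nd (.nd (.nd (.nd .lf 1098 9 2 .lf) 1105 6 7 .lf) 1106 9 8 (.nd (.nd .lf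
  1108 13 2 .lf) 1109 10 7 .lf)) 1110 6 3 (.nd (.nd (.nd .lf 1116 13 1 .lf) 1123 12 4 .lf) 1124 9
  3 (.nd (.nd .lf 1129 4 1 .lf) 1130 9 8 .lf))) 1131 9 2 (.nd (.nd (.nd (.nd .lf 1134 8 5 .lf)
  1138 10 8 .lf) 1139 8 6 (.nd (.nd .lf 1146 12 2 .lf) 1150 12 7 .lf)) 1151 10 3 (.nd (.nd (.nd
  .lf 1153 12 3 .lf) 1154 8 7 .lf) 1158 16 1 (.nd .lf 1164 10 7 .lf)))) 1168 6 4 (.nd (.nd (.nd
  (.nd (.nd .lf 1169 10 7 .lf) 1171 12 1 .lf) 1172 10 3 (.nd (.nd .lf 1176 10 8 .lf) 1179 12 3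
  .lf)) 1183 14 2 (.nd (.nd (.nd .lf 1184 8 5 .lf) 1189 8 3 .lf) 1190 7 8 (.nd (.nd .lf 1194 8 7
  .lf) 1197 8 3 .lf))) 1201 10 3 (.nd (.nd (.nd (.nd .lf 1202 23 6 .lf) 1209 6 4 .lf) 1213 8 7
  (.nd (.nd .lf 1214 9 2 .lf) 1215 12 6 .lf)) 1218 12 5 (.nd (.nd (.nd .lf 1221 10 4 .lf) 1225 11
  4 .lf) 1226 9 5 (.nd .lf 1228 10 8 .lf))))) 1229 9 4 (.nd (.nd (.nd (.nd (.nd (.nd .lf 1231 11
  5 .lf) 1232 10 4 .lf) 1251 11 5 (.nd (.nd .lf 1254 11 6 .lf) 1257 9 4 .lf)) 1261 9 6 (.nd (.nd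
  (.nd .lf 1262 12 7 .lf) 1264 7 4 .lf) 1265 12 7 (.nd (.nd .lf 1267 9 5 .lf) 1268 11 7 .lf)))
  1270 13 4 (.nd (.nd (.nd (.nd .lf 1271 16 3 .lf) 1273 12 4 .lf) 1274 17 4 (.nd (.nd .lf 1276 20
  7 .lf) 1277 12 8 .lf)) 1287 14 4 (.nd (.nd (.nd .lf 1290 17 7 .lf) 1293 9 4 .lf) 1296 14 3 (.nd
  .lf 1303 7 4 .lf)))) 1304 16 8 (.nd (.nd (.nd (.nd (.nd .lf 1306 9 3 .lf) 1307 13 1 .lf) 1308
  12 4 (.nd (.nd .lf 1318 9 7 .lf) 1319 9 6 .lf)) 1320 13 7 (.nd (.nd (.nd .lf 1327 9 7 .lf) 1328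
  11 3 .lf) 1329 15 1 (.nd .lf 1332 11 2 .lf))) 1339 11 3 (.nd (.nd (.nd (.nd .lf 1340 11 7 .lf)
  1342 9 5 .lf) 1343 9 8 (.nd (.nd .lf 1344 7 4 .lf) 1351 8 2 .lf)) 1352 9 7 (.nd (.nd (.nd .lf
  1353 7 6 .lf) 1363 22 5 .lf) 1364 11 3 (.nd .lf 1365 9 3 .lf)))))) 1368 9 7 (.nd (.nd (.nd (.nd
  (.nd (.nd (.nd .lf 1375 6 8 .lf) 1376 9 6 .lf) 1377 10 5 (.nd (.nd .lf 1381 10 8 .lf) 1382 5 7
  .lf)) 1387 12 2 (.nd (.nd (.nd .lf 1388 10 2 .lf) 1392 10 7 .lf) 1398 9 8 (.nd (.nd .lf 1402 7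
  3 .lf) 1403 14 1 .lf))) 1407 7 7 (.nd (.nd (.nd (.nd .lf 1411 5 6 .lf) 1412 10 6 .lf) 1413 10 8
  (.nd (.nd .lf 1417 10 2 .lf) 1418 13 3 .lf)) 1423 15 1 (.nd (.nd (.nd .lf 1424 6 8 .lf) 1428 13
  3 .lf) 1432 8 8 (.nd .lf 1433 5 5 .lf)))) 1437 8 2 (.nd (.nd (.nd (.nd (.nd .lf 1443 14 1 .lf)
  1447 10 5 .lf) 1448 12 8 (.nd (.nd .lf 1449 7 3 .lf) 1453 11 7 .lf)) 1454 14 2 (.nd (.nd (.nd
  .lf 1458 11 7 .lf) 1461 11 7 .lf) 1464 12 3 (.nd (.nd .lf 1467 10 8 .lf) 1470 12 8 .lf))) 1473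
  12 8 (.nd (.nd (.nd (.nd .lf 1476 11 8 .lf) 1479 12 4 .lf) 1482 11 8 (.nd (.nd .lf 1486 12 3
  .lf) 1487 9 8 .lf)) 1489 12 3 (.nd (.nd (.nd .lf 1490 11 8 .lf) 1492 11 7 .lf) 1493 11 8 (.nd
  .lf 1495 12 8 .lf))))) 1496 12 7 (.nd (.nd (.nd (.nd (.nd (.nd .lf 1498 10 8 .lf) 1499 11 3
  .lf) 1501 10 8 (.nd (.nd .lf 1502 12 7 .lf) 1504 12 5 .lf)) 1505 12 8 (.nd (.nd (.nd .lf 1507
  11 8 .lf) 1508 12 8 .lf) 1510 12 4 (.nd (.nd .lf 1511 11 4 .lf) 1539 9 8 .lf))) 1546 7 3 (.nd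
  (.nd (.nd (.nd .lf 1547 11 7 .lf) 1548 10 7 .lf) 1555 14 8 (.nd (.nd .lf 1556 8 8 .lf) 1557 9 2
  .lf)) 1564 4 6 (.nd (.nd (.nd .lf 1565 9 8 .lf) 1567 9 8 .lf) 1568 6 8 (.nd .lf 1569 2 3
  .lf)))) 1576 8 7 (.nd (.nd (.nd (.nd (.nd .lf 1577 9 8 .lf) 1578 7 7 .lf) 1585 12 8 (.nd (.nd
  .lf 1586 9 3 .lf) 1587 13 7 .lf)) 1597 9 7 (.nd (.nd (.nd .lf 1598 4 7 .lf) 1599 6 8 .lf) 1606
  8 8 (.nd .lf 1607 5 6 .lf))) 1608 9 8 (.nd (.nd (.nd (.nd .lf 1615 9 8 .lf) 1616 13 8 .lf) 1617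
  11 3 (.nd (.nd .lf 1620 10 8 .lf) 1624 6 5 .lf)) 1625 7 8 (.nd (.nd (.nd .lf 1629 5 8 .lf) 1633
  3 7 .lf) 1634 8 7 (.nd .lf 1638 10 3 .lf))))))) 1642 12 8 (.nd (.nd (.nd (.nd (.nd (.nd (.nd
  (.nd .lf 1643 10 8 .lf) 1648 8 8 .lf) 1649 9 7 (.nd (.nd .lf 1653 6 7 .lf) 1657 9 8 .lf)) 1658
  10 8 (.nd (.nd (.nd .lf 1662 5 6 .lf) 1666 12 3 .lf) 1667 10 1 (.nd (.nd .lf 1671 13 8 .lf)
  1677 9 7 .lf))) 1681 7 8 (.nd (.nd (.nd (.nd .lf 1682 14 3 .lf) 1686 8 8 .lf) 1690 10 7 (.nd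
  (.nd .lf 1691 8 3 .lf) 1695 10 2 .lf)) 1699 10 8 (.nd (.nd (.nd .lf 1700 3 5 .lf) 1701 11 6
  .lf) 1704 9 4 (.nd .lf 1707 11 5 .lf)))) 1720 10 5 (.nd (.nd (.nd (.nd (.nd .lf 1721 12 4 .lf)
  1723 11 4 .lf) 1724 12 5 (.nd (.nd .lf 1726 10 4 .lf) 1727 11 8 .lf)) 1729 15 3 (.nd (.nd (.nd
  .lf 1730 12 4 .lf) 1732 11 8 .lf) 1733 19 7 (.nd (.nd .lf 1735 16 4 .lf) 1736 11 4 .lf))) 1737
  15 4 (.nd (.nd (.nd (.nd .lf 1740 10 4 .lf) 1743 18 7 .lf) 1765 13 7 (.nd (.nd .lf 1766 10 6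
  .lf) 1768 12 7 .lf)) 1769 10 5 (.nd (.nd (.nd .lf 1771 13 7 .lf) 1772 8 4 .lf) 1773 12 5 (.nd
  .lf 1776 10 4 .lf))))) 1779 12 6 (.nd (.nd (.nd (.nd (.nd (.nd .lf 1782 11 5 .lf) 1789 4 7 .lf)
  1790 11 8 (.nd (.nd .lf 1795 13 1 .lf) 1796 6 3 .lf)) 1797 8 8 (.nd (.nd (.nd .lf 1801 11 2
  .lf) 1802 11 2 .lf) 1803 11 7 (.nd (.nd .lf 1810 6 5 .lf) 1811 9 8 .lf))) 1812 9 2 (.nd (.nd
  (.nd (.nd .lf 1818 6 3 .lf) 1825 15 2 .lf) 1826 10 7 (.nd (.nd .lf 1831 11 8 .lf) 1832 11 5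
  .lf)) 1833 13 1 (.nd (.nd (.nd .lf 1840 11 6 .lf) 1841 6 6 .lf) 1842 8 7 (.nd .lf 1846 7 8
  .lf)))) 1847 16 1 (.nd (.nd (.nd (.nd (.nd .lf 1848 14 3 .lf) 1854 9 8 .lf) 1861 12 3 (.nd (.nd
  .lf 1862 9 2 .lf) 1863 13 3 .lf)) 1867 15 8 (.nd (.nd (.nd .lf 1868 6 4 .lf) 1875 12 7 .lf)
  1879 8 6 (.nd .lf 1880 8 7 .lf))) 1882 14 1 (.nd (.nd (.nd (.nd .lf 1883 8 3 .lf) 1887 11 4
  .lf) 1891 8 7 (.nd (.nd .lf 1892 9 2 .lf) 1896 6 6 .lf)) 1899 8 7 (.nd (.nd (.nd .lf 1903 8 6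
  .lf) 1904 5 8 .lf) 1911 8 3 (.nd .lf 1915 10 3 .lf)))))) 1916 23 5 (.nd (.nd (.nd (.nd (.nd
  (.nd (.nd .lf 1920 16 1 .lf) 1924 12 3 .lf) 1925 8 7 (.nd (.nd .lf 1927 10 8 .lf) 1928 8 5
  .lf)) 1932 8 4 (.nd (.nd (.nd .lf 1935 10 2 .lf) 1939 12 7 .lf) 1940 10 3 (.nd (.nd .lf 1944 11
  7 .lf) 1947 14 4 .lf))) 1950 17 3 (.nd (.nd (.nd (.nd .lf 1954 16 3 .lf) 1955 10 8 .lf) 1957 15
  4 (.nd (.nd .lf 1958 18 2 .lf) 1960 10 4 .lf)) 1961 13 4 (.nd (.nd (.nd .lf 1972 10 3 .lf) 1973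
  9 4 .lf) 1975 11 8 (.nd .lf 1976 11 6 .lf)))) 1978 11 8 (.nd (.nd (.nd (.nd (.nd .lf 1979 9 5
  .lf) 1989 11 4 .lf) 1992 10 4 (.nd (.nd .lf 1995 11 5 .lf) 2007 10 4 .lf)) 2010 10 5 (.nd (.nd
  (.nd .lf 2013 11 8 .lf) 2017 12 8 .lf) 2018 11 5 (.nd (.nd .lf 2020 11 4 .lf) 2021 11 6 .lf)))
  2023 12 8 (.nd (.nd (.nd (.nd .lf 2024 9 4 .lf) 2025 9 5 .lf) 2032 7 6 (.nd (.nd .lf 2033 11 8
  .lf) 2035 7 7 .lf)) 2036 13 3 (.nd (.nd (.nd .lf 2037 17 1 .lf) 2047 9 3 .lf) 2048 13 7 (.nd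
  .lf 2049 11 2 .lf))))) 2053 6 8 (.nd (.nd (.nd (.nd (.nd (.nd .lf 2054 7 3 .lf) 2055 7 7 .lf)
  2065 10 2 (.nd (.nd .lf 2066 7 7 .lf) 2067 5 4 .lf)) 2070 7 3 (.nd (.nd (.nd .lf 2077 24 6 .lf)
  2078 9 3 .lf) 2083 11 7 (.nd (.nd .lf 2084 7 4 .lf) 2085 11 7 .lf))) 2088 13 3 (.nd (.nd (.nd
  (.nd .lf 2095 9 5 .lf) 2096 15 2 .lf) 2098 11 3 (.nd (.nd .lf 2099 11 1 .lf) 2100 11 8 .lf))
  2106 14 2 (.nd (.nd (.nd .lf 2110 16 1 .lf) 2111 8 8 .lf) 2116 5 5 (.nd .lf 2117 10 5 .lf))))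
  2121 7 7 (.nd (.nd (.nd (.nd (.nd .lf 2127 10 8 .lf) 2131 10 2 .lf) 2132 11 3 (.nd (.nd .lf
  2134 9 7 .lf) 2135 14 2 .lf)) 2139 5 3 (.nd (.nd (.nd .lf 2145 10 2 .lf) 2149 10 8 .lf) 2150 5
  1 (.nd .lf 2151 12 1 .lf))) 2155 10 3 (.nd (.nd (.nd (.nd .lf 2156 11 4 .lf) 2163 11 8 .lf)
  2167 9 3 (.nd (.nd .lf 2168 15 3 .lf) 2169 8 2 .lf)) 2173 8 8 (.nd (.nd (.nd .lf 2174 7 7 .lf)
  2179 13 4 .lf) 2180 8 2 (.nd .lf 2184 12 7 .lf)))))))))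

theorem tl0 : level (arZ 3 7) ms [1, 2, 3, 4, 5, 6, 7, 8] [] 3 t0 728 = true := by decide +kernel

def t1 : T :=
  (.nd (.nd (.nd (.nd (.nd (.nd (.nd (.nd .lf 162 7 11 .lf) 166 3 10 (.nd .lf 167 8 11 .lf)) 171
  6 10 (.nd (.nd .lf 175 7 10 .lf) 176 7 11 (.nd .lf 180 7 10 .lf))) 184 8 10 (.nd (.nd (.nd .lf
  185 7 9 .lf) 189 8 11 (.nd .lf 193 9 11 .lf)) 194 0 9 (.nd (.nd .lf 198 8 9 .lf) 202 5 11 (.nd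
  .lf 203 6 10 .lf)))) 207 8 10 (.nd (.nd (.nd (.nd .lf 211 7 9 .lf) 212 8 11 (.nd .lf 216 7 11
  .lf)) 220 9 10 (.nd (.nd .lf 221 6 9 .lf) 225 4 11 (.nd .lf 229 6 11 .lf))) 230 7 10 (.nd (.nd
  (.nd .lf 234 5 10 .lf) 238 8 11 (.nd .lf 239 5 9 .lf)) 405 8 11 (.nd (.nd .lf 409 8 10 .lf) 410
  9 11 .lf)))) 417 9 9 (.nd (.nd (.nd (.nd (.nd .lf 421 8 10 .lf) 422 7 10 (.nd .lf 424 7 11
  .lf)) 425 5 11 (.nd (.nd .lf 429 9 11 .lf) 432 8 11 (.nd .lf 436 8 10 .lf))) 437 5 9 (.nd (.nd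
  (.nd .lf 444 6 9 .lf) 448 9 10 (.nd .lf 449 6 11 .lf)) 451 7 10 (.nd (.nd .lf 452 4 9 .lf) 456
  7 11 .lf))) 459 3 10 (.nd (.nd (.nd (.nd .lf 463 2 10 .lf) 464 9 9 (.nd .lf 471 5 10 .lf)) 475
  7 11 (.nd (.nd .lf 476 9 10 .lf) 478 8 9 (.nd .lf 479 8 10 .lf))) 483 4 10 (.nd (.nd (.nd .lf
  648 9 9 .lf) 652 2 11 (.nd .lf 653 4 11 .lf)) 658 7 10 (.nd (.nd .lf 659 8 10 .lf) 663 9 10
  .lf))))) 669 7 9 (.nd (.nd (.nd (.nd (.nd (.nd .lf 673 5 11 .lf) 674 8 9 (.nd .lf 675 8 11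
  .lf)) 679 4 10 (.nd (.nd .lf 680 8 11 .lf) 685 6 11 (.nd .lf 686 8 11 .lf))) 690 9 11 (.nd (.nd
  (.nd .lf 696 6 10 .lf) 700 8 10 (.nd .lf 701 4 9 .lf)) 702 9 9 (.nd (.nd .lf 706 9 10 .lf) 707
  8 11 (.nd .lf 712 4 11 .lf)))) 713 8 11 (.nd (.nd (.nd (.nd .lf 717 7 9 .lf) 723 8 11 (.nd .lf
  727 6 11 .lf)) 728 8 9 (.nd (.nd .lf 891 9 10 .lf) 895 4 9 (.nd .lf 896 6 11 .lf))) 900 6 9
  (.nd (.nd (.nd .lf 904 9 11 .lf) 905 7 11 (.nd .lf 909 8 10 .lf)) 913 8 11 (.nd (.nd .lf 914 4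
  11 .lf) 921 9 11 .lf)))) 925 3 11 (.nd (.nd (.nd (.nd (.nd .lf 926 6 10 .lf) 930 8 10 (.nd .lf
  934 7 11 .lf)) 935 6 10 (.nd (.nd .lf 939 7 11 .lf) 943 7 10 (.nd .lf 944 10 9 .lf))) 946 7 9
  (.nd (.nd (.nd .lf 947 8 9 .lf) 951 6 11 (.nd .lf 955 6 11 .lf)) 956 8 9 (.nd (.nd .lf 960 8 10
  .lf) 964 9 9 .lf))) 965 8 11 (.nd (.nd (.nd (.nd .lf 969 9 10 .lf) 1134 7 9 (.nd .lf 1138 6 11
  .lf)) 1139 5 10 (.nd (.nd .lf 1146 9 10 .lf) 1150 9 11 (.nd .lf 1151 6 11 .lf))) 1153 8 11 (.nd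
  (.nd (.nd .lf 1154 5 11 .lf) 1158 7 11 (.nd .lf 1164 6 11 .lf)) 1168 7 11 (.nd (.nd .lf 1169 9
  10 .lf) 1171 7 11 .lf)))))) 1172 9 9 (.nd (.nd (.nd (.nd (.nd (.nd (.nd .lf 1176 6 10 .lf) 1179
  5 9 (.nd .lf 1183 7 10 .lf)) 1184 7 11 (.nd (.nd .lf 1189 3 11 .lf) 1190 4 10 (.nd .lf 1194 7 9
  .lf))) 1197 5 11 (.nd (.nd (.nd .lf 1201 9 11 .lf) 1202 11 10 (.nd .lf 1209 7 9 .lf)) 1213 7 9
  (.nd (.nd .lf 1214 10 10 .lf) 1377 9 9 (.nd .lf 1381 9 9 .lf)))) 1382 7 10 (.nd (.nd (.nd (.nd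
  .lf 1387 7 9 .lf) 1388 7 11 (.nd .lf 1392 8 11 .lf)) 1398 6 9 (.nd (.nd .lf 1402 8 10 .lf) 1403
  5 11 (.nd .lf 1407 7 11 .lf))) 1411 7 9 (.nd (.nd (.nd .lf 1412 6 9 .lf) 1413 7 10 (.nd .lf
  1417 8 11 .lf)) 1418 8 10 (.nd (.nd .lf 1423 8 10 .lf) 1424 5 9 .lf)))) 1428 8 11 (.nd (.nd
  (.nd (.nd (.nd .lf 1432 7 10 .lf) 1433 9 10 (.nd .lf 1437 7 10 .lf)) 1443 8 11 (.nd (.nd .lf
  1447 7 11 .lf) 1448 6 11 (.nd .lf 1449 7 9 .lf))) 1453 6 11 (.nd (.nd (.nd .lf 1454 6 10 .lf)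
  1620 7 11 (.nd .lf 1624 8 9 .lf)) 1625 7 9 (.nd (.nd .lf 1629 6 9 .lf) 1633 6 10 .lf))) 1634 8
  11 (.nd (.nd (.nd (.nd .lf 1638 7 9 .lf) 1642 8 11 (.nd .lf 1643 9 10 .lf)) 1648 6 9 (.nd (.nd
  .lf 1649 8 11 .lf) 1653 7 11 (.nd .lf 1657 6 10 .lf))) 1658 8 10 (.nd (.nd (.nd .lf 1662 6 11
  .lf) 1666 2 9 (.nd .lf 1667 6 9 .lf)) 1671 9 11 (.nd (.nd .lf 1677 7 9 .lf) 1681 8 11 .lf)))))
  1682 6 11 (.nd (.nd (.nd (.nd (.nd (.nd .lf 1686 6 10 .lf) 1690 5 10 (.nd .lf 1691 6 10 .lf))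
  1695 5 10 (.nd (.nd .lf 1699 8 10 .lf) 1700 8 10 (.nd .lf 1863 7 10 .lf))) 1867 5 9 (.nd (.nd
  (.nd .lf 1868 8 9 .lf) 1875 3 11 (.nd .lf 1879 5 11 .lf)) 1880 6 9 (.nd (.nd .lf 1882 1 11 .lf)
  1883 7 9 (.nd .lf 1887 8 10 .lf)))) 1891 5 10 (.nd (.nd (.nd (.nd .lf 1892 8 11 .lf) 1896 8 10
  (.nd .lf 1899 7 11 .lf)) 1903 4 10 (.nd (.nd .lf 1904 9 10 .lf) 1911 7 10 (.nd .lf 1915 6 10
  .lf))) 1916 10 11 (.nd (.nd (.nd .lf 1920 5 10 .lf) 1924 6 9 (.nd .lf 1925 9 11 .lf)) 1927 7 11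
  (.nd (.nd .lf 1928 8 9 .lf) 1932 9 9 .lf)))) 1935 8 11 (.nd (.nd (.nd (.nd (.nd .lf 1939 7 11
  .lf) 1940 8 11 (.nd .lf 2106 8 11 .lf)) 2110 7 10 (.nd (.nd .lf 2111 8 10 .lf) 2116 8 10 (.nd
  .lf 2117 6 11 .lf))) 2121 5 9 (.nd (.nd (.nd .lf 2127 6 10 .lf) 2131 7 10 (.nd .lf 2132 7 11
  .lf)) 2134 7 11 (.nd (.nd .lf 2135 6 9 .lf) 2139 6 10 .lf))) 2145 8 11 (.nd (.nd (.nd (.nd .lf
  2149 8 11 .lf) 2150 7 9 (.nd .lf 2151 6 11 .lf)) 2155 5 11 (.nd (.nd .lf 2156 9 10 .lf) 2163 9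
  10 (.nd .lf 2167 9 11 .lf))) 2168 9 10 (.nd (.nd (.nd .lf 2169 5 9 .lf) 2173 7 11 (.nd .lf 2174
  9 9 .lf)) 2179 3 9 (.nd (.nd .lf 2180 5 11 .lf) 2184 8 10 .lf)))))))

theorem tl1 : level (arZ 3 7) ms [9, 10, 11] [3] 194 t1 243 = true := by decide +kernel

def t2 : T :=
  (.nd (.nd (.nd (.nd (.nd (.nd (.nd .lf 162 4 13 .lf) 166 6 12 .lf) 171 7 13 (.nd (.nd .lf 175 9
  13 .lf) 180 0 12 .lf)) 184 9 12 (.nd (.nd (.nd .lf 189 4 12 .lf) 193 5 13 .lf) 198 3 13 (.nd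
  (.nd .lf 202 6 12 .lf) 207 7 12 .lf))) 211 10 13 (.nd (.nd (.nd (.nd .lf 216 7 12 .lf) 220 5 12
  .lf) 225 7 13 (.nd (.nd .lf 229 10 12 .lf) 234 7 12 .lf)) 238 6 13 (.nd (.nd (.nd .lf 405 7 12
  .lf) 409 5 13 .lf) 422 3 13 (.nd .lf 432 9 12 .lf)))) 436 2 12 (.nd (.nd (.nd (.nd (.nd .lf 449
  5 13 .lf) 459 8 13 .lf) 463 6 12 (.nd (.nd .lf 476 9 13 .lf) 648 7 13 .lf)) 652 6 13 (.nd (.nd
  (.nd .lf 674 3 12 .lf) 675 9 12 .lf) 679 2 13 (.nd (.nd .lf 701 6 13 .lf) 702 9 13 .lf))) 706 7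
  12 (.nd (.nd (.nd (.nd .lf 728 5 12 .lf) 921 7 13 .lf) 925 6 13 (.nd (.nd .lf 930 6 13 .lf) 934
  10 13 .lf)) 939 5 12 (.nd (.nd (.nd .lf 943 7 12 .lf) 947 3 12 .lf) 956 6 13 (.nd .lf 965 5 12
  .lf))))) 1146 4 12 (.nd (.nd (.nd (.nd (.nd (.nd .lf 1150 8 12 .lf) 1154 4 13 .lf) 1164 9 12
  (.nd (.nd .lf 1168 6 13 .lf) 1172 8 13 .lf)) 1190 10 13 (.nd (.nd (.nd .lf 1209 7 13 .lf) 1213
  4 13 .lf) 1388 2 13 (.nd (.nd .lf 1398 7 13 .lf) 1402 11 13 .lf))) 1407 5 12 (.nd (.nd (.nd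
  (.nd .lf 1411 8 12 .lf) 1424 8 13 .lf) 1433 1 12 (.nd (.nd .lf 1443 5 13 .lf) 1447 8 12 .lf))
  1625 10 12 (.nd (.nd (.nd .lf 1634 7 13 .lf) 1643 6 12 .lf) 1648 9 13 (.nd .lf 1653 8 12
  .lf)))) 1657 6 12 (.nd (.nd (.nd (.nd (.nd .lf 1662 3 13 .lf) 1666 5 13 .lf) 1671 5 13 (.nd
  (.nd .lf 1868 8 13 .lf) 1882 8 12 .lf)) 1887 6 12 (.nd (.nd (.nd .lf 1891 7 12 .lf) 1896 5 13
  .lf) 1904 8 13 (.nd .lf 1927 5 12 .lf))) 1932 1 13 (.nd (.nd (.nd (.nd .lf 1940 11 12 .lf) 2111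
  4 12 .lf) 2116 9 13 (.nd (.nd .lf 2121 8 12 .lf) 2134 4 13 .lf)) 2139 4 12 (.nd (.nd (.nd .lf
  2156 6 12 .lf) 2174 6 13 .lf) 2179 8 13 (.nd .lf 2184 7 13 .lf))))))

theorem tl2 : level (arZ 3 7) ms [12, 13] [194, 3] 180 t2 90 = true := by decide +kernel

def t3 : T :=
  (.nd (.nd (.nd (.nd (.nd (.nd .lf 166 2 16 .lf) 175 1 14 .lf) 184 4 15 (.nd .lf 193 3 16 .lf))
  202 3 16 (.nd (.nd .lf 211 3 15 .lf) 220 4 15 (.nd .lf 238 2 14 .lf))) 405 4 16 (.nd (.nd (.nd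
  .lf 432 3 14 .lf) 459 2 15 (.nd .lf 674 3 15 .lf)) 701 2 16 (.nd (.nd .lf 728 4 15 .lf) 921 3
  16 (.nd .lf 930 4 15 .lf)))) 939 1 16 (.nd (.nd (.nd (.nd .lf 1154 4 16 .lf) 1172 3 16 (.nd .lf
  1190 1 15 .lf)) 1402 3 15 (.nd (.nd .lf 1411 0 14 .lf) 1447 2 15 (.nd .lf 1625 3 16 .lf))) 1634
  2 15 (.nd (.nd (.nd .lf 1643 4 14 .lf) 1882 2 14 (.nd .lf 1891 3 14 .lf)) 1927 4 16 (.nd (.nd
  .lf 2121 3 14 .lf) 2139 4 14 (.nd .lf 2184 3 15 .lf)))))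

theorem tl3 : level (arZ 3 7) ms [14, 15, 16] [180, 194, 3] 1411 t3 32 = true := by decide +kernel

def t4 : T :=
  (.nd (.nd (.nd (.nd .lf 425 1 17 .lf) 700 2 18 .lf) 914 2 18 (.nd .lf 1189 1 18 .lf)) 1633 0 17
  (.nd (.nd (.nd .lf 1863 3 18 .lf) 1899 4 18 .lf) 1935 2 17 (.nd .lf 2132 3 18 .lf)))

theorem tl4 : level (arZ 3 7) ms [17, 18] [1411, 180, 194, 3] 1633 t4 9 = true := by decide +kernel


/-- The coordinates. -/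
abbrev ι := Unit ⊕ (Fin 3 ⊕ Fin 3)

/-- The numbering of the coordinates. -/
def e7 : ι ≃ Fin 7 where
  toFun
    | .inl _ => 0
    | .inr (.inl i) => ⟨i + 1, by omega⟩
    | .inr (.inr i) => ⟨i + 4, by omega⟩
  invFun k := ![.inl (), .inr (.inl 0), .inr (.inl 1), .inr (.inl 2), .inr (.inr 0), .inr (.inr 1),
    .inr (.inr 2)] k
  left_inv := by decide
  right_inv := by decide

/-- The meaning of the codes. -/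
def sm : Sem (arZ 3 7) (ZMod 3) ι := semZ 3 7 (by norm_num) e7

/-- The orthogonal group. -/
abbrev X := isometryGroup (ZMod 3) (quadFormOdd 3 (ZMod 3))

/-- The matrix of an isometry. -/
def ρ : X →* Matrix ι ι (ZMod 3) := (Units.coeHom _).comp (Subgroup.subtype _)

theorem ρ_inj : Function.Injective ρ := fun _ _ h => Subtype.ext (Units.ext h)

/-- The polar form. -/
def pol (u v : ι → ZMod 3) : ZMod 3 := 2 * u (Sum.inl ()) * v (Sum.inl ()) +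
  ∑ i, (u (Sum.inr (Sum.inl i)) * v (Sum.inr (Sum.inr i)) +
    u (Sum.inr (Sum.inr i)) * v (Sum.inr (Sum.inl i)))

theorem iso_of {M : Matrix ι ι (ZMod 3)} (h : ∀ i j, pol (fun k => M k i) (fun k => M k j) =
    pol (Pi.single i 1) (Pi.single j 1)) (v : ι → ZMod 3) :
    quadFormOdd 3 (ZMod 3) (M *ᵥ v) = quadFormOdd 3 (ZMod 3) v := by
  have : (qOdd 3 (ZMod 3)).comp M.toLin' = qOdd 3 (ZMod 3) := by
    refine QuadraticMap.polarBilin_injective (IsUnit.mk0 _ (by decide)) ?_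
    refine (Pi.basisFun _ _).ext fun i => (Pi.basisFun _ _).ext fun j => ?_
    simp only [QuadraticMap.polarBilin_apply_apply, QuadraticMap.polar, QuadraticMap.comp_apply, map_add]
    have h1 : ∀ i, M.toLin' (Pi.basisFun (ZMod 3) ι i) = fun k => M k i := fun i => by
      ext k; simp
    rw [h1, h1, ← QuadraticMap.polar, ← QuadraticMap.polar, polar_qOdd, polar_qOdd,
      Pi.basisFun_apply, Pi.basisFun_apply]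
    exact h i j
  exact congrArg (fun Q : QuadraticForm (ZMod 3) (ι → ZMod 3) => Q v) this

theorem inv_ms : ∀ l ∈ I1, eqB (arZ 3 7) ms [l, l] [] 1 = true := by decide +kernel

theorem pol_ms : ∀ l ∈ I1, ∀ i j, pol (fun k => sm.mat (ms.getD l []) k i)
    (fun k => sm.mat (ms.getD l []) k j) = pol (Pi.single i 1) (Pi.single j 1) := by decide +kernel

theorem rep_top : ∀ l ∈ I1, sm.Rep ρ ms ⊤ l := fun l hl =>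
  ⟨⟨sm.unit hw (inv_ms l hl), fun u _ => iso_of (M := sm.mat (gm ms l))
    (by rw [gm_eq]; exact pol_ms l hl) u⟩, trivial, rfl⟩

/-- The generators as isometries. -/
noncomputable def f : ℕ → X := sm.el ρ ms ⊤

theorem hf : ∀ w ∈ K1, wval f w = 1 := sm.rels_one hw ρ ρ_inj (sm.rho_el ρ rep_top) hrel

theorem card_ge : 4585351680 ≤ Nat.card (gp f (I1.map fun l => [2 * l])) := by
  have h := sm.rep_of_slp hw ρ st (sm.rep_gp ρ (sm.rho_el ρ rep_top)) hst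
  rw [← sm.fx_nil ρ (gp _ _)]
  exact (sm.le_card ρ hw (Sem.Rep.sub _ _ h (by decide)) tl0
    (sm.le_card ρ hw (Sem.Rep.sub _ _ h (by decide)) tl1
    (sm.le_card ρ hw (Sem.Rep.sub _ _ h (by decide)) tl2
    (sm.le_card ρ hw (Sem.Rep.sub _ _ h (by decide)) tl3
    (sm.le_card ρ hw (Sem.Rep.sub _ _ h (by decide)) tl4
    (sm.one_le ρ _))))))

theorem le_comm : gp f (I1.map fun l => [2 * l]) ≤ commutator X := by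
  let g : ℕ → Abelianization X := fun i => Abelianization.of (f i)
  have hg : ∀ w ∈ K1, wval g w = 1 := fun w hw => by rw [← map_wval, hf w hw, map_one]
  have e2 := DoubleCover.eq_of_braid I1 hg 1 2 (by decide +kernel)
  have e3 := DoubleCover.eq_of_braid I1 hg 2 3 (by decide +kernel)
  have e4 := DoubleCover.eq_of_braid I1 hg 3 4 (by decide +kernel)
  have e5 := DoubleCover.eq_of_braid I1 hg 4 5 (by decide +kernel)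
  have e6 := DoubleCover.eq_of_braid I1 hg 5 6 (by decide +kernel)
  have e7 := DoubleCover.eq_of_braid I1 hg 3 7 (by decide +kernel)
  have e8 := DoubleCover.eq_of_braid I1 hg 7 8 (by decide +kernel)
  have h0 : g 1 ^ 2 = 1 := by
    simpa [wval, lval, sq] using derive_one I1 hg [2, 2] (by decide +kernel)
  have h1 := derive_one I1 hg (rep 9 [2, 4, 6, 8, 10, 12, 14]) (by decide +kernel)
  rw [wval_rep] at h1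
  have h2 : wval g [2, 4, 6, 8, 10, 12, 14] = (g 1 ^ 2) ^ 3 * g 1 := by
    simp [wval, lval, ← e7, ← e6, ← e5, ← e4, ← e3, ← e2, pow_succ, mul_assoc]
  rw [h2, h0, one_pow, one_mul, show 9 = 2 * 4 + 1 from rfl, pow_succ, pow_mul, h0, one_pow,
    one_mul] at h1
  rw [← Abelianization.ker_of]
  refine gp_le.2 fun w hw => ?_
  obtain ⟨l, hl, rfl⟩ := List.mem_map.1 hw
  rw [wval_single]
  change g l = 1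
  simp only [I1, List.mem_cons, List.not_mem_nil, or_false] at hl
  rcases hl with rfl | rfl | rfl | rfl | rfl | rfl | rfl | rfl <;>
    simp only [← e8, ← e7, ← e6, ← e5, ← e4, ← e3, ← e2, h1]

/-- The basis vectors. -/
def bv (k : Fin 7) : ι → ZMod 3 := Pi.single (e7.symm k) 1

/-- A digit. -/
def dg (v k : ℕ) : ℕ := Nat.mod (Nat.div v (Nat.pow 3 k)) 3

/-- The quadratic form on codes. -/
def qf (v : ℕ) : ℕ := Nat.mod (Nat.add (Nat.add (Nat.add (Nat.mul (dg v 0) (dg v 0))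
  (Nat.mul (dg v 1) (dg v 4))) (Nat.mul (dg v 2) (dg v 5))) (Nat.mul (dg v 3) (dg v 6))) 3

theorem qf_eq (v : ℕ) : (qf v : ZMod 3) = qOdd 3 (ZMod 3) (sm.vec v) := by
  change ((_ % 3 : ℕ) : ZMod 3) = quadFormOdd 3 (ZMod 3) (sm.vec v)
  rw [ZMod.natCast_mod, quadFormOdd, Fin.sum_univ_three, sq]
  simp only [Nat.add_eq, Nat.mul_eq, Nat.cast_add, Nat.cast_mul, add_assoc]
  rfl

/-- The dual index. -/
def du (k : Fin 7) : Fin 7 := ![0, 4, 5, 6, 1, 2, 3] k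

theorem pol_bv (k : Fin 7) (hk : k ≠ 0) (v : ι → ZMod 3) : pol (bv k) v = v (e7.symm (du k)) := by
  fin_cases k <;> simp [pol, bv, e7, du, Pi.single_apply, Fin.sum_univ_three] at hk ⊢ <;> rfl

theorem cast_inj {x y : ℕ} (h : ((x % 3 : ℕ) : ZMod 3) = (y % 3 : ℕ)) : Nat.beq (x % 3) (y % 3) = true :=
  Nat.beq_eq ▸ sm.c_inj _ (Nat.mod_lt _ sm.pos) _ (Nat.mod_lt _ sm.pos) h

theorem ub (bs : List (Fin 7)) (b : Fin 7) (hb : 0 ∉ bs) {n m : ℕ}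
    (h : ((List.range (3 ^ 7)).filter fun v => (bs.all fun c => Nat.beq (dg v (du c))
      (dg (3 ^ b.1) (du c))) && Nat.beq (qf v) (qf (3 ^ b.1)) && Nat.blt 0 v).length = n)
    (hm : letI := act ρ; Nat.card (fixer (⊤ : Subgroup X) ((b :: bs).map bv)) ≤ m) :
    letI := act ρ; Nat.card (fixer (⊤ : Subgroup X) (bs.map bv)) ≤ n * m := by
  letI := act ρ
  rw [card_fixer _ _ (bv b), ← h]
  refine Nat.mul_le_mul (sm.ncard_le (Nat.card_zmod 3) _ _ ?_) hm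
  rintro v ⟨⟨x, hx0, hx⟩, (e : ρ x *ᵥ bv b = _)⟩
  have h1 : ∀ v, qOdd 3 (ZMod 3) (ρ x *ᵥ v) = qOdd 3 (ZMod 3) v := fun v => x.2 v v
  have h2 : ∀ u v, pol (ρ x *ᵥ u) (ρ x *ᵥ v) = pol u v := fun u v => by
    rw [pol, pol, ← polar_qOdd, ← polar_qOdd, QuadraticMap.polar, QuadraticMap.polar, ← mulVec_add,
      h1, h1, h1]
  have h3 : sm.vec (3 ^ b.1) = bv b := by
    have := sm.vec_pow sm.one_lt (e7.symm b)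
    rwa [show sm.e (e7.symm b) = b from e7.apply_symm_apply b, one_mul, sm.c_one] at this
  have h4 : ∀ v (k : Fin 7), sm.vec v (e7.symm k) = (dg v k : ZMod 3) := fun v k => by
    change ((v / 3 ^ (e7 (e7.symm k) : ℕ) % 3 : ℕ) : ZMod 3) = _
    rw [e7.apply_symm_apply]; rfl
  simp only [Bool.and_eq_true, List.all_eq_true, Nat.blt_eq]
  refine ⟨⟨fun c hc => cast_inj ?_, cast_inj ?_⟩, Nat.pos_of_ne_zero ?_⟩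
  · change (dg v (du c) : ZMod 3) = dg (3 ^ b.1) (du c)
    have h5 : c ≠ 0 := fun h => hb (h ▸ hc)
    rw [← h4, ← h4, ← pol_bv c h5 (sm.vec v), ← pol_bv c h5 (sm.vec _), h3, ← e, ← h2 (bv c) (bv b),
      show ρ x *ᵥ bv c = bv c from hx _ (List.mem_map_of_mem hc)]
  · change (qf v : ZMod 3) = qf (3 ^ b.1)
    rw [qf_eq, qf_eq, h3, ← e, h1]
  · rintro rfl
    have h5 : bv b = 0 := (inv_smul_smul x (bv b)).symm.trans ((congrArg (x⁻¹ • ·)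
      (e.trans (funext fun i => by simp [Sem.vec, sm.c_zero]))).trans (mulVec_zero _))
    simpa [bv] using congrFun h5 (e7.symm b)

theorem card_X : Nat.card X ≤ 18341406720 := by
  letI := act ρ
  rw [← Subgroup.card_top, ← fixer_nil (V := ι → ZMod 3) ⊤]
  refine ub [] 1 (by decide) (n := 728) (by decide +kernel) (m := 25194240) ?_
  refine ub _ 4 (by decide) (n := 243) (by decide +kernel) (m := 103680) ?_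
  refine ub _ 2 (by decide) (n := 80) (by decide +kernel) (m := 1296) ?_
  refine ub _ 5 (by decide) (n := 27) (by decide +kernel) (m := 48) ?_
  refine ub _ 3 (by decide) (n := 8) (by decide +kernel) (m := 6) ?_
  refine ub _ 6 (by decide) (n := 3) (by decide +kernel) (m := 2) ?_
  refine ub _ 0 (by decide) (n := 2) (by decide +kernel) (m := 1) ?_
  refine (Subgroup.card_eq_one.2 (eq_bot_iff.2 fun x hx => ρ_inj ?_)).le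
  rw [map_one]
  ext i j
  have h1 : ∀ k : Fin 7, k ∈ [0, 6, 3, 5, 2, 4, 1] := by decide
  have h2 : ρ x *ᵥ bv (e7 j) = bv (e7 j) := hx.2 _ (List.mem_map_of_mem (h1 _))
  simpa [bv, Pi.single_apply, one_apply] using congrFun h2 i

theorem eq_comm : gp f (I1.map fun l => [2 * l]) = commutator X := by
  refine Subgroup.eq_of_le_of_card_ge le_comm (le_trans ?_ card_ge)
  have h1 := (commutator X).index_mul_card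
  have h2 : (commutator X).index = 4 := (FormMatrix.index_eq_of_equiv (FormMatrix.orthEquiv (qOdd 3 (ZMod 3)))
    (FormMatrix.mem_commutator_iff_of_equiv _)).trans
    (FormSpin.index_commutator_odd (qOdd_sep (by decide) 3) (by decide) (by simp))
  have h3 := card_X
  rw [h2] at h1
  exact Nat.le_of_mul_le_mul_left (h1.le.trans h3) (show 0 < 4 by norm_num)

theorem det_of_comm {F ι : Type} [Field F] [Fintype ι] [DecidableEq ι] (A : Subgroup (GL ι F))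
    {g : A} (hg : g ∈ commutator A) : det (g.1 : Matrix ι ι F) = 1 :=
  congrArg Units.val
    (Abelianization.commutator_subset_ker (GeneralLinearGroup.det.comp A.subtype) hg)

theorem center_eq {F : Type} [Field F] [Finite F] (h2 : (2 : F) ≠ 0) :
    Subgroup.center (Omega F (qOdd 3 F)) = ⊥ := by
  have h : AutOrth.OG (qOdd 3 F) _ := ⟨rfl, qOdd_sep h2 3, by simp⟩
  have h1 := AutOrth2.card_center_one h (Or.inr fun h3 => by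
    obtain ⟨g, hg, h3⟩ := (AutOrth2.neg_one_iff h).1 h3
    have h4 := det_of_comm _ hg
    rw [h3, det_neg, det_one, show Fintype.card (Unit ⊕ Fin 3 ⊕ Fin 3) = 7 from rfl] at h4
    exact h2 (by linear_combination -h4))
  rw [← AutLift.map_center (AutOrth2.omegaEquiv h),
    Subgroup.card_map_of_injective (AutOrth2.omegaEquiv h).injective] at h1
  exact Subgroup.card_eq_one.1 h1


/-- In the presented Fischer group Fi₂₂, the subgroup generated by the images of b, …, i is isomorphic to PΩ(7, 3), the commutator subgroup of the isometry group of the quadratic form x₀² + x₁y₁ + x₂y₂ + x₃y₃ over the integers mod 3, modulo its centre. -/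
theorem result : Nonempty ((((Subgroup.closure ({Cfsg.Spor.Fi22.b, Cfsg.Spor.Fi22.c, Cfsg.Spor.Fi22.d, Cfsg.Spor.Fi22.e, Cfsg.Spor.Fi22.f, Cfsg.Spor.Fi22.g, Cfsg.Spor.Fi22.h, Cfsg.Spor.Fi22.i} : Set (FreeGroup Cfsg.Spor.Fi22.Gen))).map (PresentedGroup.mk (Cfsg.Spor.coxRelators Cfsg.Spor.Fi22.edges ∪ {r | r ∈ Cfsg.Spor.Fi22.extra})))) ≃* Cfsg.POmega (ZMod 3) (Cfsg.quadFormOdd 3 (ZMod 3))) := by
  rw [Fi22Base.map_closure [.g 1, .g 2, .g 3, .g 4, .g 5, .g 6, .g 7, .g 8] _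
    (by ext; simp only [E.eval, Fi22Base.gen, List.map_cons, List.map_nil, List.mem_cons,
      List.not_mem_nil, or_false, Set.mem_insert_iff, Set.mem_singleton_iff, Set.mem_ofPred_eq])]
  obtain ⟨e, -⟩ := PermModel.exists_hom_of_model (y := Fi22Base.y)
    (derive Fi22Base.I Fi22Base.hK K1 (by decide +kernel)) hf (fun z hz => card_le z hz) (by
      have h1 := (gp Fi22Base.y (I1.map fun l => [2 * l])).index_mul_card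
      have h2 : (gp Fi22Base.y (I1.map fun l => [2 * l])).index ≤ 14080 := Fi22TC.indexA.2
      rw [Fi22A.card_eq] at h1
      by_contra h3
      have := Nat.mul_le_mul h2 (not_le.1 h3).le
      have := Nat.mul_lt_mul_of_le_of_lt h2 (not_le.1 h3) (by norm_num)
      omega) card_ge
  exact ⟨e.trans ((MulEquiv.subgroupCongr eq_comm).trans (QuotientGroup.quotientBot.symm.trans
    (QuotientGroup.quotientMulEquivOfEq (center_eq (by decide)).symm)))⟩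

end Cfsg.Agent.S1686
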