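import Cfsg.Statements.S1688
import Cfsg.Agent.Lib.Fi23A
import Cfsg.Agent.Lib.DoubleCover

set_option autoImplicit false
open Cfsg

namespace Cfsg.Agent.S1688

open Cfsg.Agent.Lib Cfsg.Agent.Lib.Words

/-- In the presented Fischer group Fi₂₃, the subgroup generated by the images of a, …, i is a non-split double cover of the presented Fischer group Fi₂₂. -/
theorem result : Cfsg.IsNonsplitDoubleCover (((Subgroup.closure ({Cfsg.Spor.Fi23.a, Cfsg.Spor.Fi23.b, Cfsg.Spor.Fi23.c, Cfsg.Spor.Fi23.d, Cfsg.Spor.Fi23.e, Cfsg.Spor.Fi23.f, Cfsg.Spor.Fi23.g, Cfsg.Spor.Fi23.h, Cfsg.Spor.Fi23.i} : Set (FreeGroup Cfsg.Spor.Fi23.Gen))).map (PresentedGroup.mk (Cfsg.Spor.coxRelators Cfsg.Spor.Fi23.edges ∪ {r | r ∈ Cfsg.Spor.Fi23.extra})))) Cfsg.Spor.Fi22 := by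
  rw [Fi23Base.map_closure [.g 0, .g 1, .g 2, .g 3, .g 4, .g 5, .g 6, .g 7, .g 8] _
    (by ext; simp only [E.eval, Fi23Base.gen, List.map_cons, List.map_nil, List.mem_cons,
      List.not_mem_nil, or_false, Set.mem_insert_iff, Set.mem_singleton_iff, Set.mem_ofPred_eq])]
  have e : gp Fi23Base.y (List.map E.toW [.g 0, .g 1, .g 2, .g 3, .g 4, .g 5, .g 6, .g 7, .g 8]) =
      Fi23A.beta.range := (Fi23A.gpY Fi23A.hs (by decide)).symm.trans Fi23A.beta_range.symm
  rw [e]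
  have := Fi22A.simple
  refine DoubleCover.nonsplit_of_equiv (MonoidHom.ofInjective Fi23A.beta_injective)
    Fi22Cover.alpha Fi22Cover.alpha_surjective Fi23A.cover.2.2 (fun h => ?_)
    (DoubleCover.not_comm_of_card (by rw [Fi22A.card_eq]; norm_num)) Fi22Cover.perfect
  have := congrArg (Fi23A.phi.comp Fi23A.beta) h
  rw [MonoidHom.comp_apply, Fi23A.beta_wval _ (by decide +kernel), PermGroup.map_wval' Fi23A.hphi,
    map_one] at this
  exact PermGroup.ne_one_of_move Fi23A.hv _ _ Fi23A.movez this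

end Cfsg.Agent.S1688
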