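import Cfsg.Statements.S1690
import Cfsg.Agent.Lib.Fi24A

set_option autoImplicit false
open Cfsg

namespace Cfsg.Agent.S1690

open Cfsg.Agent.Lib Cfsg.Agent.Lib.Words

/-- In the presented group Fi₂₄ = Fi₂₄′:2, the subgroup generated by the images of a, b, c, d, e, f, g, h, i, j and l (every generator but k) has index 306936. -/
theorem result : (((Subgroup.closure ({Cfsg.Spor.Fi24.a, Cfsg.Spor.Fi24.b, Cfsg.Spor.Fi24.c, Cfsg.Spor.Fi24.d, Cfsg.Spor.Fi24.e, Cfsg.Spor.Fi24.f, Cfsg.Spor.Fi24.g, Cfsg.Spor.Fi24.h, Cfsg.Spor.Fi24.i, Cfsg.Spor.Fi24.j, Cfsg.Spor.Fi24.l} : Set (FreeGroup Cfsg.Spor.Fi24.Gen))).map (PresentedGroup.mk (Cfsg.Spor.coxRelators Cfsg.Spor.Fi24.edges ∪ {r | r ∈ Cfsg.Spor.Fi24.extra})))).index = 306936 := by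
  rw [Fi24Base.map_closure [.g 0, .g 1, .g 2, .g 3, .g 4, .g 5, .g 6, .g 7, .g 8, .g 9, .g 11] _
    (by ext; simp only [E.eval, Fi24Base.gen, List.map_cons, List.map_nil, List.mem_cons,
      List.not_mem_nil, or_false, Set.mem_insert_iff, Set.mem_singleton_iff, Set.mem_ofPred_eq])]
  exact Fi24A.index_eq

end Cfsg.Agent.S1690
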