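import Cfsg.Statements.S1694
import Cfsg.Agent.Lib.SuzA

set_option autoImplicit false
open Cfsg

namespace Cfsg.Agent.S1694

open Cfsg.Agent.Lib Cfsg.Agent.Lib.Words

/-- The presented sporadic Suzuki group is simple of the expected order (that is, it is a simple group of the order of the sporadic Suzuki group). -/
theorem result : Cfsg.IsSuz Cfsg.Spor.Suz := by
  exact ⟨SuzA.simple, SuzA.card_eq⟩

end Cfsg.Agent.S1694
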