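import Cfsg.Statements.S1712
import Cfsg.Agent.Lib.J4A

set_option autoImplicit false
open Cfsg

namespace Cfsg.Agent.S1712

open Cfsg.Agent.Lib Cfsg.Agent.Lib.Words

/-- In the presented fourth Janko group (generators x, y, t), the subgroup generated by the images of x, y and (y * w⁻¹ * t * w) ^ 3 with w = (y * x) ^ 4 * y⁻¹ * x has index 173067389. -/
theorem result : (((Subgroup.closure ({Cfsg.Spor.J4.x, Cfsg.Spor.J4.y, (Cfsg.Spor.J4.y * ((Cfsg.Spor.J4.y * Cfsg.Spor.J4.x) ^ 4 * Cfsg.Spor.J4.y⁻¹ * Cfsg.Spor.J4.x)⁻¹ * Cfsg.Spor.J4.t * ((Cfsg.Spor.J4.y * Cfsg.Spor.J4.x) ^ 4 * Cfsg.Spor.J4.y⁻¹ * Cfsg.Spor.J4.x)) ^ 3} : Set (FreeGroup Cfsg.Spor.J4.Gen))).map (PresentedGroup.mk (Cfsg.Spor.coxRelators Cfsg.Spor.J4.edges ∪ {r | r ∈ Cfsg.Spor.J4.extra})))).index = 173067389 := by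
  rw [J4Base.map_closure [.g 0, .g 1, .pow (.mul (.mul (.mul (.g 1) (.inv (.mul (.mul (.pow (.mul (.g 1) (.g 0)) 4) (.inv (.g 1))) (.g 0)))) (.g 2)) (.mul (.mul (.pow (.mul (.g 1) (.g 0)) 4) (.inv (.g 1))) (.g 0))) 3] _
    (by ext; simp only [E.eval, J4Base.gen, List.map_cons, List.map_nil, List.mem_cons,
      List.not_mem_nil, or_false, Set.mem_insert_iff, Set.mem_singleton_iff, Set.mem_ofPred_eq])]
  exact (congrArg Subgroup.index J4A.gp_eq).symm.trans J4A.main.1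

end Cfsg.Agent.S1712
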