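import Cfsg.Statements.S1714
import Cfsg.Agent.Lib.Fis23L

set_option autoImplicit false
open Cfsg

namespace Cfsg.Agent.S1714

open Cfsg.Agent.Lib Cfsg.Agent.Lib.FisLift Cfsg.Agent.Lib.FisCore

/-- The Fischer group Fi₂₃ from a transposition centraliser: let G be a finite group with an involution d such that the centraliser C of d is quasisimple, C modulo the subgroup generated by d is isomorphic to the presented Fischer group Fi₂₂, and some conjugate of d different from d commutes with d. Then G is isomorphic to the presented Fischer group Fi₂₃. -/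
theorem result {G : Type*} [Group G] [Finite G] (d : G) (hd : orderOf d = 2) (hq : Cfsg.IsQuasisimple (Subgroup.centralizer ({d} : Set G))) [((Subgroup.zpowers d).subgroupOf (Subgroup.centralizer ({d} : Set G))).Normal] (e : Cfsg.Spor.IsoFi22 ((Subgroup.centralizer ({d} : Set G)) ⧸ (Subgroup.zpowers d).subgroupOf (Subgroup.centralizer ({d} : Set G)))) (hnwc : ∃ g : G, g * d * g⁻¹ ∈ Subgroup.centralizer ({d} : Set G) ∧ g * d * g⁻¹ ≠ d) : Cfsg.Spor.IsoFi23 G := by
  obtain ⟨e⟩ := e
  obtain ⟨ψ, hb, hz⟩ := Fis22.exists_psi (dc_of_quot hd e) hq.1.commutator_eq_top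
  have hψ : ((Subgroup.subtype _).comp ψ) Fis23.z = d := congrArg Subtype.val hz
  obtain ⟨f, hf, h⟩ := loc0_of Fi23A.beta ((Subgroup.subtype _).comp ψ) Fis23.z (fun g => by
    rw [MonoidHom.comp_apply, map_eq_one_iff _ Fi23A.beta_injective,
      map_eq_one_iff _ (Subgroup.subtype_injective _), map_eq_one_iff _ hb.1]) Fis23.comm_iff
    (fun g hg => by
      obtain ⟨x, hx⟩ := hb.2 ⟨g, Subgroup.mem_centralizer_singleton_iff.2 (hψ ▸ hg)⟩
      exact ⟨x, congrArg Subtype.val hx⟩)
  have := Fi23A.simple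
  obtain ⟨g, h1, h2⟩ := hnwc
  exact Fis23.prim.recog (Fis23.beta_z ▸ hf) (by rw [← Fis23.beta_z, h, hψ])
    ⟨g, Subgroup.mem_centralizer_singleton_iff.1 h1, h2⟩

end Cfsg.Agent.S1714
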