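import Cfsg.Statements.S1717
import Cfsg.Agent.Lib.PCoreResidual

set_option autoImplicit false
open Cfsg

namespace Cfsg.Agent.S1717

open Subgroup Cfsg.Agent.Lib Cfsg.Agent.Lib.PCoreConj Cfsg.Agent.Lib.PCore Matrix
open scoped MatrixGroups

/-- height of an index -/
def ht : Fin 5 → ℕ := ![0, 4, 1, 2, 3]

theorem ht_le (i : Fin 5) : ht i ≤ 4 := by revert i; decide

/-- strictly triangular -/
def Str (k : ℕ) (N : Matrix (Fin 5) (Fin 5) (ZMod 2)) : Prop := ∀ i j, N i j ≠ 0 → ht i + k ≤ ht j

theorem Str.mul {k l : ℕ} {N M : Matrix (Fin 5) (Fin 5) (ZMod 2)} (h1 : Str k N) (h2 : Str l M) :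
    Str (k + l) (N * M) := by
  intro i j h
  rw [Matrix.mul_apply] at h
  obtain ⟨m, -, hm⟩ := Finset.exists_ne_zero_of_sum_ne_zero h
  have := h1 i m (left_ne_zero_of_mul hm)
  have := h2 m j (right_ne_zero_of_mul hm)
  omega

theorem Str.add {N M : Matrix (Fin 5) (Fin 5) (ZMod 2)} (h1 : Str 1 N) (h2 : Str 1 M) :
    Str 1 (N + M) := by
  intro i j h
  by_cases e : N i j = 0
  · exact h2 i j (by simpa [e] using h)
  · exact h1 i j e

theorem pow_eight {g : SL(5, ZMod 2)} (h : Str 1 (g.1 - 1)) : g ^ 2 ^ 3 = 1 := by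
  have h2 := h.mul h
  have h4 := h2.mul h2
  have h8 : (g.1 - 1) ^ 2 ^ 3 = 0 := by
    ext i j
    by_contra hc
    have := h4.mul h4 i j (by simpa [pow_succ, mul_assoc] using hc)
    have := ht_le j
    omega
  rw [sub_pow_char_pow_of_commute 2 3 (Commute.one_right _), one_pow, sub_eq_zero] at h8
  exact Subtype.ext h8

/-- unitriangular group -/
def U : Subgroup SL(5, ZMod 2) where
  carrier := {g | Str 1 (g.1 - 1)}
  one_mem' := fun i j h => by simp at h
  mul_mem' := by
    intro g h hg hh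
    have e : (g * h).1 - 1 = (g.1 - 1) * (h.1 - 1) + (g.1 - 1) + (h.1 - 1) := by
      change g.1 * h.1 - 1 = _; noncomm_ring
    show Str 1 _
    rw [e]
    exact (Str.add (fun i j h => by have := hg.mul hh i j h; omega) hg).add hh
  inv_mem' := by
    intro g hg
    have key : ∀ k : ℕ, Str 1 ((g ^ k).1 - 1) := by
      intro k
      induction k with
      | zero => intro i j h; simp at h
      | succ k ih =>
        have e : (g ^ (k + 1)).1 - 1 = ((g ^ k).1 - 1) * (g.1 - 1) + ((g ^ k).1 - 1) + (g.1 - 1) := by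
          rw [pow_succ]; change (g ^ k).1 * g.1 - 1 = _; noncomm_ring
        rw [e]
        exact (Str.add (fun i j h => by have := ih.mul hg i j h; omega) ih).add hg
    have : g⁻¹ = g ^ 7 := inv_eq_of_mul_eq_one_right (by rw [← pow_succ']; exact pow_eight hg)
    show Str 1 _
    rw [this]; exact key 7

/-- transvections -/
def tv (i j : Fin 5) (h : i ≠ j) : SL(5, ZMod 2) :=
  ⟨transvection i j 1, det_transvection_of_ne i j h 1⟩

theorem tv_mem (i j : Fin 5) (h : i ≠ j) (h' : ht i < ht j) : tv i j h ∈ U := by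
  intro a b hab
  simp only [tv, transvection, add_sub_cancel_left, ne_eq] at hab
  by_cases e : i = a ∧ j = b
  · rw [← e.1, ← e.2]; exact h'
  · exact absurd (single_apply_of_ne i j 1 a b e) hab

theorem comm_tv {i j : Fin 5} {h : i ≠ j} {g : SL(5, ZMod 2)} (hc : tv i j h * g = g * tv i j h) :
    (∀ b, b ≠ j → g j b = 0) ∧ (∀ a, a ≠ i → g a i = 0) ∧ g j j = g i i := by
  have h1 : single i j (1 : ZMod 2) * g.1 = g.1 * single i j (1 : ZMod 2) := by
    have : transvection i j 1 * g.1 = g.1 * transvection i j 1 := congrArg Subtype.val hc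
    simpa [tv, transvection, add_mul, mul_add] using this
  refine ⟨fun b hb => ?_, fun a ha => ?_, ?_⟩
  · simpa [hb] using congrFun (congrFun h1 i) b
  · simpa [ha] using (congrFun (congrFun h1 a) j).symm
  · simpa using congrFun (congrFun h1 i) j

theorem U_le {s : SL(5, ZMod 2)} (hs : s.1 = transvection 0 1 1) : U ≤ centralizer {s} := by
  intro g hg
  rw [mem_centralizer_singleton_iff]
  apply Subtype.ext
  have h0 : ∀ a, (g.1 - 1) a 0 = 0 := fun a => by
    by_contra h; have := hg a 0 h; simp [ht] at this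
  have h1 : ∀ b, (g.1 - 1) 1 b = 0 := fun b => by
    by_contra h; have := hg 1 b h; have := ht_le b; simp [ht] at *; omega
  have e1 : (g.1 - 1) * single 0 1 (1 : ZMod 2) = 0 := by
    ext a b; by_cases hb : b = 1
    · subst hb; simp [h0]
    · simp [hb]
  have e2 : single 0 1 (1 : ZMod 2) * (g.1 - 1) = 0 := by
    ext a b; by_cases ha : a = 0
    · subst ha; simp [h1]
    · simp [ha]
  rw [sub_mul, one_mul, sub_eq_zero] at e1
  rw [mul_sub, mul_one, sub_eq_zero] at e2
  change g.1 * s.1 = s.1 * g.1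
  rw [hs, transvection, mul_add, add_mul, e1, e2, mul_one, one_mul]

theorem eq_of_centralizer {s : SL(5, ZMod 2)} (hs : s.1 = transvection 0 1 1) {g : SL(5, ZMod 2)}
    (hg : g ∈ centralizer (U : Set SL(5, ZMod 2))) : g = 1 ∨ g = s := by
  obtain ⟨a1, a2, a3⟩ := comm_tv (hg _ (tv_mem 0 2 (by decide) (by decide)))
  obtain ⟨b1, b2, b3⟩ := comm_tv (hg _ (tv_mem 2 3 (by decide) (by decide)))
  obtain ⟨c1, c2, c3⟩ := comm_tv (hg _ (tv_mem 3 4 (by decide) (by decide)))
  obtain ⟨d1, d2, d3⟩ := comm_tv (hg _ (tv_mem 4 1 (by decide) (by decide)))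
  have h00 : g 0 0 = 1 := by
    by_contra h
    have h' : g 0 0 = 0 := by revert h; generalize g 0 0 = x; revert x; decide
    have : g.1.det = 0 := det_eq_zero_of_column_eq_zero 0 fun a => by
      by_cases e : a = 0
      · rw [e]; exact h'
      · exact a2 a e
    rw [g.2] at this
    exact one_ne_zero this
  have key : ∀ t : ZMod 2, g 0 1 = t → g.1 = transvection 0 1 t := fun t ht => by
    ext a b
    fin_cases a <;> fin_cases b <;> simp_all [transvection]
  rcases (by decide : ∀ x : ZMod 2, x = 0 ∨ x = 1) (g 0 1) with h | h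
  · left; exact Subtype.ext (by rw [key 0 h, transvection_zero]; rfl)
  · right; exact Subtype.ext (by rw [key 1 h, hs])

theorem conj_comm {H : Type*} [Group H] {c u x : H} (h : c * u * c⁻¹ * x = x * (c * u * c⁻¹)) :
    u * (c⁻¹ * x * c) = (c⁻¹ * x * c) * u := by
  calc _ = c⁻¹ * (c * u * c⁻¹ * x) * c := by group
    _ = _ := by rw [h]; group

theorem center_sylow {s : SL(5, ZMod 2)} (hs : s.1 = transvection 0 1 1)
    {P : Subgroup (centralizer ({s} : Set SL(5, ZMod 2)))} (hP : IsSylowIn 2 P ⊤)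
    {x : centralizer ({s} : Set SL(5, ZMod 2))}
    (hx : x ∈ centralizer (P : Set (centralizer ({s} : Set SL(5, ZMod 2))))) :
    x = 1 ∨ x.1 = s := by
  have hU : IsPGroup 2 (U.subgroupOf (centralizer ({s} : Set SL(5, ZMod 2)))) :=
    isPGroup_subgroupOf (isPGroup_iff_forall_mem.2 fun g hg => ⟨3, pow_eight hg⟩) _
  obtain ⟨c, -, hc⟩ := hP.exists_conj_le le_top hU
  have h1 : (c⁻¹ * x * c).1 ∈ centralizer (U : Set SL(5, ZMod 2)) := by
    intro u hu
    have h0 : (⟨u, U_le hs hu⟩ : centralizer ({s} : Set SL(5, ZMod 2))) ∈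
      U.subgroupOf (centralizer ({s} : Set SL(5, ZMod 2))) := mem_subgroupOf.2 hu
    have := hx _ (hc (conj_mem_conj c h0))
    have h2 := congrArg (centralizer ({s} : Set SL(5, ZMod 2))).subtype (conj_comm this)
    rw [map_mul, map_mul _ (c⁻¹ * x * c)] at h2
    exact h2
  rcases eq_of_centralizer hs h1 with h | h
  · left
    have : c⁻¹ * x * c = 1 := Subtype.ext h
    calc x = c * (c⁻¹ * x * c) * c⁻¹ := by group
      _ = 1 := by rw [this]; group
  · right
    have h2 : x.1 = c.1 * (c⁻¹ * x * c).1 * c.1⁻¹ := by simp [mul_assoc]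
    rw [h2, h, mem_centralizer_singleton_iff.1 c.2, mul_inv_cancel_right]

/-- Let G be a finite group with an involution z whose centraliser C is isomorphic to the centraliser of a transvection of SL(5, 2). Then a Sylow 2-subgroup of C, viewed in G, is a Sylow 2-subgroup of G (its index in G is odd). -/
theorem result {G : Type*} [Group G] [Finite G] (s : Matrix.SpecialLinearGroup (Fin 5) (ZMod 2)) (hs : (s : Matrix (Fin 5) (Fin 5) (ZMod 2)) = Matrix.transvection 0 1 1) (z : G) (hz : orderOf z = 2) (e : (Subgroup.centralizer ({z} : Set G)) ≃* Subgroup.centralizer ({s} : Set (Matrix.SpecialLinearGroup (Fin 5) (ZMod 2)))) (T : Sylow 2 (Subgroup.centralizer ({z} : Set G))) : ¬ 2 ∣ ((T : Subgroup (Subgroup.centralizer ({z} : Set G))).map (Subgroup.subtype (Subgroup.centralizer ({z} : Set G)))).index := by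
  let C := Subgroup.centralizer ({z} : Set G)
  have hT := isSylowIn_map_subtype T
  set S := (T : Subgroup C).map C.subtype with hS
  have hP : IsSylowIn 2 ((T : Subgroup C).map e.toMonoidHom) ⊤ := by
    have := (isSylowIn_top T).map e.toMonoidHom
    rwa [map_top_of_surjective _ e.surjective] at this
  have hz1 : z ≠ 1 := fun h => by rw [h, orderOf_one] at hz; omega
  have key : ∀ x ∈ S, x ∈ centralizer (S : Set G) → x ≠ 1 → ∀ hx : x ∈ C, (e ⟨x, hx⟩).1 = s := by
    intro x _ hc h1 hx
    refine (center_sylow hs hP (x := e ⟨x, hx⟩) ?_).resolve_left fun h => h1 ?_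
    · rintro _ ⟨t, ht, rfl⟩
      have : t * ⟨x, hx⟩ = ⟨x, hx⟩ * t := Subtype.ext (hc _ (mem_map_of_mem _ ht))
      simpa using congrArg e this
    · exact congrArg Subtype.val ((map_eq_one_iff e e.injective).1 h)
  have hzC : z ∈ C := mem_centralizer_singleton_iff.2 rfl
  have hzc : z ∈ centralizer (S : Set G) := fun t ht => mem_centralizer_singleton_iff.1 (hT.le ht)
  have hzS : z ∈ S := by
    refine hT.le_of_le_normalizer' (Q := zpowers z) (zpowers_le.2 hzC)
      (isPGroup_zpowers_of_orderOf (k := 1) hz) ?_ (mem_zpowers z)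
    refine le_normalizer_of_le_centralizer ?_
    exact le_centralizer_iff.1 (zpowers_le.2 hzc)
  have hN : normalizer (S : Set G) ≤ C := by
    intro g hg
    have h1 : g * z * g⁻¹ ∈ S := (mem_normalizer_iff.1 hg z).1 hzS
    have h2 : g * z * g⁻¹ ∈ centralizer (S : Set G) :=
      (mem_normalizer_iff.1 (normalizer_le_normalizer_centralizer S hg) z).1 hzc
    have h3 := key _ h1 h2 (fun h => hz1 (by simpa using h)) (hT.le h1)
    have h4 := key _ hzS hzc hz1 hzC
    have h5 := congrArg Subtype.val (e.injective (Subtype.ext (h3.trans h4.symm)))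
    exact mem_centralizer_singleton_iff.2 (mul_inv_eq_iff_eq_mul.1 h5)
  have h1 : IsSylowIn 2 S ⊤ := IsSylowIn.of_inf_normalizer
    (hT.of_le (le_inf le_top le_normalizer) (inf_le_right.trans hN))
  have h2 := h1.not_dvd_relIndex
  rwa [relIndex_top_right] at h2

end Cfsg.Agent.S1717
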