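import Cfsg.Statements.S1822
import Cfsg.Agent.Lib.XiL
import Cfsg.Agent.Lib.XiA
import Cfsg.Agent.Lib.XiB
import Cfsg.Agent.Lib.XiD
import Cfsg.Agent.Lib.XiE
import Cfsg.Agent.Lib.XiF

set_option autoImplicit false
open Cfsg

namespace Cfsg.Agent.S1822

/-- Solvable uniqueness groups in a simple QTKE-group. Let G be a non-abelian finite simple QTKE-group, T a Sylow 2-subgroup of G, and X a member of Ξ*(G, T): X = O²(X) is T-invariant with O₂(XT) ≠ 1, X/O₂(X) is elementary abelian of order p² or extraspecial of order p³ for an odd prime p, T is irreducible on the Frattini quotient of X/O₂(X), and XT lies in no ⟨L, T⟩ with L ∈ ℒ(G, T) and L/O₂(L) quasisimple. Then N_G(X) is the unique maximal 2-local subgroup of G containing XT, so that XT is a uniqueness subgroup. -/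
theorem result {G : Type*} [Group G] [Finite G] [IsSimpleGroup G]
    (hG : ¬ IsMulCommutative G) (hQ : Cfsg.IsQTKE G) (T : Sylow 2 G) (X : Subgroup G)
    (hX : X ∈ Cfsg.XiStar (T : Subgroup G)) :
    Cfsg.maxTwoLocalsContaining (X ⊔ (T : Subgroup G)) = {Subgroup.normalizer (X : Set G)} := by
  exact Lib.XiS.xf_main hQ T X hX

end Cfsg.Agent.S1822
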