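import Cfsg.Statements.S1829
import Cfsg.Agent.Lib.SW0
import Cfsg.Agent.Lib.SW5
import Cfsg.Agent.Lib.SWB
import Cfsg.Agent.Lib.SWC
import Cfsg.Agent.Lib.SWF

set_option autoImplicit false
open Cfsg

namespace Cfsg.Agent.S1829

/-- There is no non-abelian finite simple QTKE-group G with a Sylow 2-subgroup T and a maximal 2-local subgroup M containing T such that M is isomorphic to the wreath product S₄ ≀ Z₂ (the subgroup of the symmetric group of degree 8 preserving a partition into two blocks of size 4; order 1152). -/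
theorem result {G : Type*} [Group G] [Finite G] [IsSimpleGroup G]
    (hG : ¬ IsMulCommutative G) (hQ : Cfsg.IsQTKE G) (T : Sylow 2 G) (M : Subgroup G)
    (hM : M ∈ Cfsg.maxTwoLocalsContaining (T : Subgroup G))
    (hW : Nonempty (↥M ≃* ↥Cfsg.blockStabilizerS4wr2)) : False := by
  obtain ⟨d⟩ := SW.exists_D hG hQ T M hM hW
  obtain ⟨g, hE, hB, h1, h32⟩ := d.exists_g
  have hC := d.cW g h1 h32
  obtain ⟨y, y3, y1, y4, y16, y32, y8 | y8, yx⟩ := d.exists_y hC hE hB h1 h32
  · exact d.case_1 hC d.naz d.four' d.emb y y1 y8 y32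
  · exact d.case_s hC d.naz y y3 y1 y4 y16 y32 y8 yx

end Cfsg.Agent.S1829
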