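import Cfsg.Statements.S1850
import Cfsg.Agent.Lib.FStarCharP
import Cfsg.Agent.Lib.PCore

set_option autoImplicit false
open Cfsg

namespace Cfsg.Agent.S1850

open Cfsg.Agent.Lib.FStarCharP Cfsg.Agent.Lib.FStar Subgroup

theorem charP_normalizer_of_le {G : Type*} [Group G] [Finite G] {p : ℕ} [Fact p.Prime]
    {B : Subgroup G} (hB : IsPGroup p B) (C : Subgroup G) :
    C ≤ B → IsCharP p (normalizer (C : Set G)) → IsCharP p (normalizer (B : Set G)) := by
  induction C using WellFoundedGT.induction with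
  | ind C ih =>
    intro hCB h
    rcases hCB.eq_or_lt with rfl | hlt
    · exact h
    · have h1 := Cfsg.Agent.Lib.PCore.lt_inf_normalizer hB hlt
      refine ih _ h1 inf_le_left ?_
      have hp : IsPGroup p (B ⊓ normalizer (C : Set G) : Subgroup G) := hB.to_le inf_le_left
      exact (isCharP_normalizer_iff_centralizer hp).2
        (isCharP_centralizer_of_normalizer hp h1.le inf_le_right h)

/-- Let G be a non-abelian finite simple QTKE-group and T a Sylow 2-subgroup of G. If U is a nontrivial 2-subgroup of G with U ∩ Z(T) ≠ 1, then F*(N_G(U)) = O₂(N_G(U)). -/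
theorem result {G : Type*} [Group G] [Finite G] [IsSimpleGroup G]
    (hG : ¬ IsMulCommutative G) (hQ : Cfsg.IsQTKE G) (T : Sylow 2 G) (U : Subgroup G)
    (hU : IsPGroup 2 ↥U) (hZ : U ⊓ ((T : Subgroup G) ⊓ Subgroup.centralizer ((T : Subgroup G) : Set G)) ≠ ⊥) :
    Subgroup.normalizer (U : Set G) ∈ Cfsg.calHe G := by
  set Z := U ⊓ ((T : Subgroup G) ⊓ Subgroup.centralizer ((T : Subgroup G) : Set G)) with hZdef
  have hZp : IsPGroup 2 Z := hU.to_le inf_le_left
  have hT : (T : Subgroup G) ≤ normalizer (Z : Set G) := by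
    refine le_trans ?_ (centralizer_le_normalizer _)
    exact le_centralizer_iff.1 (inf_le_right.trans inf_le_right)
  have h1 : IsCharP 2 (normalizer (Z : Set G)) := hQ.2.2 _ ⟨Z, hZp, hZ, rfl⟩ ⟨T, hT⟩
  exact charP_iff_fstar_eq.1 (charP_normalizer_of_le hU Z inf_le_left h1)

end Cfsg.Agent.S1850
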