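import Cfsg.Statements.S1851
import Cfsg.Agent.Lib.SQTLemma
import Cfsg.Agent.Lib.LocRank

set_option autoImplicit false
open Cfsg

namespace Cfsg.Agent.S1851

open Subgroup Cfsg.Agent.Lib Cfsg.Agent.Lib.PCoreConj Cfsg.Agent.Lib.PCore
  Cfsg.Agent.Lib.PCoreResidual Cfsg.Agent.Lib.PCoreMod Cfsg.Agent.Lib.PReduced
  Cfsg.Agent.Lib.SQTLemma

section
variable {G : Type*} [Group G] [Finite G]

theorem perfect_of_calL {T L : Subgroup G} (h : L ∈ calL T) : ⁅L, L⁆ = L := by
  have := congrArg (Subgroup.map (L ⊔ T).subtype) h.1.2.1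
  rwa [map_commutator, subgroupOf_map_subtype_of_le le_sup_left] at this

theorem subnormalIn_of_calL {T L : Subgroup G} (h : L ∈ calL T) : SubnormalIn (L ⊔ T) L :=
  subnormalIn_iff.2 ⟨le_sup_left, h.1.2.2.1⟩

theorem local_of_calL {T L : Subgroup G} (h : L ∈ calL T) :
    IsTwoLocal (normalizer (pCoreOf 2 (L ⊔ T) : Set G)) :=
  ⟨_, pCoreOf_isPGroup 2 _, fun e => h.2.2 (pCoreOf_eq_bot_iff.1 e), rfl⟩

theorem charP_of_calL (hQ : IsQTKE G) (T : Sylow 2 G) {L : Subgroup G}
    (h : L ∈ calL (T : Subgroup G)) : CharPIn 2 (L ⊔ T) := by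
  have hle := le_normalizer_pCoreOf 2 (L ⊔ (T : Subgroup G))
  have h1 : CharPIn 2 (normalizer (pCoreOf 2 (L ⊔ T) : Set G)) :=
    charPIn_iff.1 (hQ.2.2 _ (local_of_calL h) ⟨T, le_sup_right.trans hle⟩)
  exact h1.of_isSylowIn_le (isSylowIn_of_sylow_le T (le_sup_right.trans hle)) le_sup_right hle

theorem oddGenerated_eq (K : Subgroup G) : oddGenerated K = pResidualOf 2 K := by
  rw [pResidualOf_eq_closure, oddGenerated]
  simp only [Nat.coprime_two_right]

theorem solvable_of_calL {T L : Subgroup G} (hL : L ∈ calL T) :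
    ∀ D < L, L ≤ normalizer (D : Set G) → Group.IsSolvable D := by
  intro D hD hn
  have hDle : D ≤ L ⊔ T := hD.le.trans le_sup_left
  have h1 : D.subgroupOf (L ⊔ T) < L.subgroupOf (L ⊔ T) := by
    refine lt_of_le_of_ne (comap_mono hD.le) fun e => hD.ne ?_
    have := congrArg (Subgroup.map (L ⊔ T).subtype) e
    rwa [subgroupOf_map_subtype_of_le hDle, subgroupOf_map_subtype_of_le le_sup_left] at this
  have h2 : (D.subgroupOf (L ⊔ T)).IsSubnormal :=
    (subnormalIn_iff.1 ((SubnormalIn.of_normal hD.le hn).trans (subnormalIn_of_calL hL))).2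
  have := isSolvable_of_lt hL.1.2.2.2 (D.subgroupOf (L ⊔ T)) h2 h1
  exact Group.isSolvable_of_isSolvable_injective
    (f := (subgroupOfEquivOfLe hDle).symm.toMonoidHom) (subgroupOfEquivOfLe hDle).symm.injective

theorem not_le_centralizer (hQ : IsQTKE G) {T L : Subgroup G} (hL : L ∈ calL T)
    (hV : ⁅omegaOneCenter 2 (pCoreOf 2 L), L⁆ ≠ ⊥) :
    ¬ L ≤ centralizer (largestPReducedOf 2 (L ⊔ T) : Set G) := by
  have hLp := perfect_of_calL hL
  have hr : ∀ p : ℕ, p.Prime → p ≠ 2 → PRankLE p 2 L := fun p hp hp2 =>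
    LocRank.pRankLE_of_le (hQ.1 p hp hp2 _ (local_of_calL hL))
      (le_sup_left.trans (le_normalizer_pCoreOf 2 _))
  obtain ⟨W, hW, hnW⟩ := exists_isPRed hLp hr (solvable_of_calL hL)
    (omegaOneCenter 2 (pCoreOf 2 L)) le_rfl
    (le_normalizer_omegaOneCenter (le_normalizer_pCoreOf 2 L))
    (fun hc => hV (commutator_eq_bot_iff_le_centralizer'.2 hc))
  intro hc
  apply hnW
  have := inf_centralizer_largest_of_subnormalIn (p := 2) (subnormalIn_of_calL hL)
  rw [inf_eq_left.2 hc] at this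
  exact (inf_eq_left.1 this).trans (centralizer_anti hW.le_largest)

theorem module_ne_bot (hQ : IsQTKE G) (T : Sylow 2 G) {L K : Subgroup G}
    (hL : L ∈ calL (T : Subgroup G)) (hV : ⁅omegaOneCenter 2 (pCoreOf 2 L), L⁆ ≠ ⊥)
    (hK : K ∈ calL (T : Subgroup G)) (hLK : L ≤ K) :
    ⁅omegaOneCenter 2 (pCoreOf 2 K), K⁆ ≠ ⊥ := by
  have hO : pResidualOf 2 K = K := FStarAct.pResidualOf_eq_of_perfect 2 (perfect_of_calL hK)
  have hH := charP_of_calL hQ T hK
  have h2 : largestPReducedOf 2 (L ⊔ (T : Subgroup G)) ≤ largestPReducedOf 2 (K ⊔ (T : Subgroup G)) :=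
    largestPReducedOf_mono hH (isSylowIn_of_sylow_le T le_sup_right)
      (le_sup_right : (T : Subgroup G) ≤ L ⊔ T) (sup_le_sup_right hLK _)
  have h3 := (isPRed_largest 2 (K ⊔ (T : Subgroup G))).commutator_subnormalIn (subnormalIn_of_calL hK)
  intro hb
  apply not_le_centralizer hQ hL hV
  refine hLK.trans (le_trans hO.ge (le_trans ?_ (centralizer_anti h2)))
  refine pResidualOf_le_centralizer_of_commutator (largest_isPGroup 2 _)
    (((pResidualOf_le 2 K).trans le_sup_left).trans (le_normalizer_largest 2 _)) ?_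
  exact (pResidualOf_le 2 K).trans ((commutator_eq_bot_iff_le_centralizer'.1 hb).trans
    (centralizer_anti h3.le_omegaOneCenter))

theorem part_one (hQ : IsQTKE G) (T : Sylow 2 G) {L K : Subgroup G}
    (hL : L ∈ calLf (T : Subgroup G)) (hK : K ∈ calL (T : Subgroup G)) (hLK : L ≤ K) :
    K ∈ calLf (T : Subgroup G) := by
  have hO : pResidualOf 2 K = K := FStarAct.pResidualOf_eq_of_perfect 2 (perfect_of_calL hK)
  have hH := charP_of_calL hQ T hK
  have h1 : K ≠ ⊥ := fun e => hL.2.1.1 (eq_bot_iff.2 (hLK.trans e.le))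
  have h2 : oddGenerated K = K := by rw [oddGenerated_eq, hO]
  have h3 : K ∈ calHe G :=
    FStar.charP_iff_fstar_eq.1 (charPIn_iff.2 (hH.subnormalIn (subnormalIn_of_calL hK)))
  have h4 : moduleV K ≠ ⊥ := module_ne_bot hQ T hL.1 hL.2.2 hK hLK
  exact ⟨hK, ⟨h1, h2, h3⟩, h4⟩

end

/-- Let G be a non-abelian finite simple QTKE-group and T a Sylow 2-subgroup of G, and let L be a member of ℒ_f(G, T) (a member of ℒ(G, T) that lies in 𝒳 — L ≠ 1, L = O²(L), F*(L) = O₂(L) — and acts nontrivially on Ω₁(Z(O₂(L)))). Then (1) every member K of ℒ(G, T) containing L is again in ℒ_f(G, T) (a sharper form of (1) also compares the modules [Ω₁(Z(R)), L] and [Ω₁(Z(R')), K] for suitable 2-subgroups R, R'; that comparison is not included); and (2) if L is maximal under inclusion among the members of ℒ_f(G, T), then L is a maximal member of ℒ(G, T), hence a member of ℒ_f*(G, T). -/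
theorem result {G : Type*} [Group G] [Finite G] [IsSimpleGroup G]
    (hG : ¬ IsMulCommutative G) (hQ : Cfsg.IsQTKE G) (T : Sylow 2 G) (L : Subgroup G)
    (hL : L ∈ Cfsg.calLf (T : Subgroup G)) :
    (∀ K ∈ Cfsg.calL (T : Subgroup G), L ≤ K → K ∈ Cfsg.calLf (T : Subgroup G)) ∧
    ((∀ K ∈ Cfsg.calLf (T : Subgroup G), L ≤ K → K = L) → L ∈ Cfsg.calLfMax (T : Subgroup G)) := by
  exact ⟨fun K hK hLK => part_one hQ T hL hK hLK,
    fun h => ⟨⟨hL.1, fun K hK hLK => h K (part_one hQ T hL hK hLK) hLK⟩, hL.2⟩⟩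

end Cfsg.Agent.S1851
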