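import Cfsg.Statements.S2752
import Cfsg.Agent.Lib.SFreeOB

set_option autoImplicit false
universe u
open Cfsg

namespace Cfsg.Agent.S2752

open Subgroup Cfsg.Agent.Lib Lib.PCoreConj Lib.PCore Lib.SFreeClass Lib.SFreeOB

/-- Let M be an elementary abelian 2-subgroup of a finite group L and G a subgroup of L acting faithfully on M by conjugation (G normalizes M and meets C(M) trivially). Assume O₂(G) = 1, the symmetric group of degree 3 is not involved in G, and every non-abelian composition factor of G is a Suzuki group Sz(2^(2n+1)) or a group PSL₂(3^(2n+1)). Then every elementary abelian 2-subgroup A of G satisfies |M / C_M(A)| ≥ |A|² and |[M, A]| ≥ |A|². -/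
theorem result {L : Type u} [Group L] [Finite L] (M G : Subgroup L) (hM : Cfsg.IsElementaryAbelian 2 M) (hGM : G ≤ Subgroup.normalizer (M : Set L)) (hf : G ⊓ Subgroup.centralizer (M : Set L) = ⊥) (ha : Cfsg.pCore 2 ↥G = ⊥) (hb : ¬ Cfsg.Involves (Equiv.Perm (Fin 3)) ↥G) (hc : Cfsg.IsCompositionKGroupWith Cfsg.IsSuzukiOrPSL2OddPowerThree ↥G) (A : Subgroup L) (hA : A ≤ G) (hAe : Cfsg.IsElementaryAbelian 2 A) : Nat.card A ^ 2 * Nat.card ↥(M ⊓ Subgroup.centralizer (A : Set L)) ≤ Nat.card M ∧ Nat.card A ^ 2 ≤ Nat.card ↥⁅M, A⁆ := by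
  have h := bound hM.2 (redOn_of_faith hGM (hf ▸ IsPGroup.of_bot)
    (pCoreOf_eq_bot_iff.2 ha ▸ bot_le)) (sf_iff.2 hb) (cf_iff.2 hc) hA
    fun a h => by rw [hAe.2 a h]; exact one_mem _
  have e : (centralizer (M : Set L)).relIndex A = Nat.card A := by
    rw [← inf_relIndex_left, le_bot_iff.1 ((inf_le_inf_right _ hA).trans hf.le), relIndex_bot_left]
  rw [e] at h
  refine ⟨?_, h.2⟩
  rw [← card_inf_mul_relIndex (centralizer (A : Set L)) M, inf_comm, mul_comm]
  exact Nat.mul_le_mul_left _ h.1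

end Cfsg.Agent.S2752
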