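import Cfsg.Statements.S2755
import Cfsg.Agent.Lib.GoldS4

set_option autoImplicit false
open Cfsg

namespace Cfsg.Agent.S2755
open Cfsg.Agent.Lib Cfsg.Agent.Lib.GoldS4 Cfsg.Agent.Lib.Involves in

/-- Every finite Goldschmidt group is S₄-free (the symmetric group of degree 4 is not involved in it); and for a finite Goldschmidt group G, the symmetric group of degree 3 is not involved in G exactly when G is a Suzuki group or PSL₂ over a field with 3^(2n+1) elements. -/
theorem result {G : Type*} [Group G] [Finite G] (hG : Cfsg.IsGoldschmidtGroup G) : ¬ Cfsg.Involves (Equiv.Perm (Fin 4)) G ∧ (¬ Cfsg.Involves (Equiv.Perm (Fin 3)) G ↔ Cfsg.IsSuzukiOrPSL2OddPowerThree G) := by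
  classical
  have c3 : 3 ∣ Nat.card (Equiv.Perm (Fin 3)) := by simp [Fintype.card_perm, Nat.factorial]
  have c4 : 3 ∣ Nat.card (Equiv.Perm (Fin 4)) := by simp [Fintype.card_perm, Nat.factorial]
  have back : IsSuzukiOrPSL2OddPowerThree G → ¬ Involves (Equiv.Perm (Fin 3)) G := by
    rintro (h | ⟨F, _, _, n, hF, ⟨e⟩⟩) h3
    · exact sz_three h (c3.trans (card_dvd_of_involves h3))
    · have : CharP F 3 := haveI := Fact.mk Nat.prime_three; charP_of_card_eq_prime_pow hF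
      have h8 : 3 ^ (2 * n + 1) % 8 = 3 := by
        rw [pow_succ, pow_mul, Nat.mul_mod, Nat.pow_mod]; simp
      exact not_S3 (fun x y k l => ReePSL.eq_one_of_inverts (m := 3 ^ (2 * n + 1) / 4) (by omega))
        (involves_congr_right e h3)
  suffices ¬ Involves (Equiv.Perm (Fin 4)) G ∧
      (Involves (Equiv.Perm (Fin 3)) G ∨ IsSuzukiOrPSL2OddPowerThree G) from
    ⟨this.1, this.2.resolve_left, back⟩
  have tr : ∀ {X : Type} [Group X] (_ : G ≃* X), ¬ Involves (Equiv.Perm (Fin 4)) X ∧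
      Involves (Equiv.Perm (Fin 3)) X → ¬ Involves (Equiv.Perm (Fin 4)) G ∧
      (Involves (Equiv.Perm (Fin 3)) G ∨ IsSuzukiOrPSL2OddPowerThree G) := fun e h =>
    ⟨fun h4 => h.1 (involves_congr_right e h4), Or.inl (involves_congr_right e.symm h.2)⟩
  rcases hG with h | ⟨F, _, _, n, hn, hF, ⟨e⟩⟩ | h | ⟨F, _, _, n, hn, hF, ⟨e⟩⟩ |
    ⟨F, _, _, q, hF, h5, h8, ⟨e⟩⟩ | ⟨⟨e⟩⟩
  · exact ⟨(ree h).1, Or.inl (ree h).2⟩
  · have : CharP F 2 := charP_of_card_eq_prime_pow hF
    refine tr e ⟨not_S4 fun P hP a ha b hb => ?_, S3_psl hF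
      (Nat.pow_le_pow_right (n := 2) (i := 2) (by omega) (by omega)) fun h => ?_⟩
    · obtain ⟨x, hx⟩ := PSL2Basic.exists_fixed_of_isPGroup 2 hP
      exact ReePSL.unip_comm 2 x (hx ha) (hx hb)
    · exact absurd (Nat.prime_three.dvd_of_dvd_pow h) (by decide)
  · exact ⟨fun h4 => sz_three h (c4.trans (card_dvd_of_involves h4)), Or.inr (Or.inl h)⟩
  · exact tr e (psu hF)
  · have h4 := not_S4 (comm_of_not_eight (not_eight hF h8))
    by_cases h3 : 3 ∣ q
    · refine ⟨fun h => h4 (involves_congr_right e h), Or.inr (Or.inr ?_)⟩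
      obtain ⟨p, _, k, hp, hk⟩ := FiniteField.card' F
      obtain rfl := (Nat.prime_dvd_prime_iff_eq Nat.prime_three hp).1
        (Nat.prime_three.dvd_of_dvd_pow (hk ▸ hF ▸ h3))
      obtain ⟨n, hn | hn⟩ := Nat.even_or_odd' (k : ℕ)
      · rw [← hF, hk, hn, pow_mul, Nat.pow_mod] at h8
        simp at h8
      · exact ⟨F, _, _, n, hn ▸ hk, ⟨e⟩⟩
    · exact tr e ⟨h4, S3_psl hF (by omega) h3⟩
  · exact tr e j1
end Cfsg.Agent.S2755
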