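import Cfsg.Statements.S2756
import Cfsg.Agent.Lib.ZJFail
import Cfsg.Agent.Lib.CoprimeBaerSuzuki

set_option autoImplicit false
open Cfsg

namespace Cfsg.Agent.S2756

open Subgroup Cfsg.Agent.Lib Cfsg.Agent.Lib.PCoreConj Cfsg.Agent.Lib.PCore Cfsg.Agent.Lib.ThompsonJ

theorem lemA {K : Type*} [Group K] [Finite K] (h : ∀ P : Sylow 2 K, (P : Subgroup K).Normal) {q k : ℕ}
    (hq : q.Prime) (hq2 : q ≠ 2) {x g : K} (hx : x ^ q ^ k = 1) (e : g * x * g⁻¹ = x⁻¹) : x = 1 := by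
  obtain ⟨P⟩ : Nonempty (Sylow 2 K) := inferInstance
  have hn := h P
  have hodd : Odd (P : Subgroup K).index := by
    rw [← Nat.not_even_iff_odd, even_iff_two_dvd]; exact P.not_dvd_index
  have e2 : ∀ m : ℕ, g ^ (2 * m + 1) * x * (g ^ (2 * m + 1))⁻¹ = x⁻¹ := fun m => by
    induction m with
    | zero => simpa using e
    | succ m ih =>
      rw [show 2 * (m + 1) + 1 = (2 * m + 1) + 1 + 1 by ring, pow_succ' g, pow_succ' g]
      rw [show g * (g * g ^ (2 * m + 1)) * x * (g * (g * g ^ (2 * m + 1)))⁻¹ =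
        g * (g * (g ^ (2 * m + 1) * x * (g ^ (2 * m + 1))⁻¹) * g⁻¹) * g⁻¹ by group, ih, ← conj_inv, e, inv_inv, e]
  obtain ⟨m, hm⟩ := hodd
  have h1 : g ^ (2 * m + 1) ∈ (P : Subgroup K) := hm ▸ (P : Subgroup K).pow_index_mem g
  have h2 : x ^ 2 ∈ (P : Subgroup K) := by
    have := mul_mem (hn.conj_mem _ h1 x) (inv_mem h1)
    have h3 : x * g ^ (2 * m + 1) * x⁻¹ * (g ^ (2 * m + 1))⁻¹ = x ^ 2 := by
      rw [show x * g ^ (2 * m + 1) * x⁻¹ * (g ^ (2 * m + 1))⁻¹ =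
        x * (g ^ (2 * m + 1) * x * (g ^ (2 * m + 1))⁻¹)⁻¹ by group, e2, inv_inv, sq]
    rwa [h3] at this
  have hc : (orderOf x).Coprime 2 := by
    refine Nat.Coprime.coprime_dvd_left (orderOf_dvd_of_pow_eq_one hx) (Nat.Coprime.pow_left _ ?_)
    exact (Nat.coprime_primes hq Nat.prime_two).2 hq2
  obtain ⟨j, hj⟩ := isPGroup_iff_forall_mem.1 P.isPGroup' x (mem_of_pow_mem_of_coprime hc h2)
  exact eq_one_of_coprime_of_pow_eq_one hc hj

theorem sub {G : Type*} [Group G] [Finite G] (h : ∀ P : Sylow 2 G, (P : Subgroup G).Normal) (N : Subgroup G)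
    (P : Sylow 2 N) : (P : Subgroup N).Normal := by
  obtain ⟨S, hS⟩ := (P.isPGroup'.map N.subtype).exists_le_sylow
  have hn := h S
  have : (S : Subgroup G).comap N.subtype = P :=
    P.is_maximal' (S.isPGroup'.comap_subtype) (map_le_iff_le_comap.1 hS)
  rw [← this]
  infer_instance

theorem exists_inv {G : Type*} [Group G] [Finite G] (P : Sylow 2 G) (h : ¬ (P : Subgroup G).Normal) :
    ∃ q : ℕ, q.Prime ∧ q ≠ 2 ∧ ∃ y g : G, y ≠ 1 ∧ IsPGroup q (zpowers y) ∧ g * y * g⁻¹ = y⁻¹ := by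
  set O := pCore 2 G
  set f := QuotientGroup.mk' O
  have hP : (P : Subgroup G).map f ≠ ⊥ := fun h0 => h (by
    rw [Subgroup.map_eq_bot_iff, QuotientGroup.ker_mk'] at h0
    rw [le_antisymm h0 (pCore_le_sylow P)]
    infer_instance)
  obtain ⟨t, -, t1, t2⟩ := exists_mem_pow_eq_one (P.isPGroup'.map f) hP
  obtain ⟨y, -, q, hq, hq2, ho, e, -⟩ := CoprimeBaerSuzuki.exists_inverted_odd_prime (H := ⊤) (mem_top t) t2
    (by rw [pCoreOf_top, pCore_quotient_pCore]; simpa using t1)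
  haveI : Fact q.Prime := ⟨hq⟩
  obtain ⟨t, rfl⟩ := QuotientGroup.mk'_surjective O t
  set K := (zpowers y).comap f
  have hKm : K.map f = zpowers y := map_comap_eq_self_of_surjective (QuotientGroup.mk'_surjective O) _
  obtain ⟨Q, hQ⟩ := exists_isSylowIn q K
  have hyq : IsPGroup q (zpowers y) := isPGroup_zpowers_of_orderOf (k := 1) (by rw [ho, pow_one])
  have hQm : Q.map f = zpowers y := by
    have := hQ.map f
    rw [hKm] at this
    exact this.eq_of_isPGroup hyq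
  have htN : t ∈ normalizer (K : Set G) := by
    refine mem_normalizer_of_conj_le ?_
    rintro _ ⟨a, ⟨i, hi⟩, rfl⟩
    show f (t * a * t⁻¹) ∈ zpowers y
    simp only at hi
    rw [map_mul, map_mul, map_inv, ← hi, ← conj_zpow, e]
    exact zpow_mem (inv_mem (mem_zpowers y)) i
  obtain ⟨n, ⟨i, hi⟩, x, hx, rfl⟩ := hQ.frattini htN
  obtain ⟨z, hz, rfl⟩ : y ∈ Q.map f := hQm ▸ mem_zpowers y
  refine ⟨q, hq, hq2, z, x, fun h0 => ?_, hQ.isPGroup.to_le (zpowers_le.2 hz), ?_⟩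
  · rw [h0, map_one, orderOf_one] at ho
    exact hq.one_lt.ne ho
  · have h1 : x * z * x⁻¹ * z ∈ Q := mul_mem ((mem_normalizer_iff.1 hx z).1 hz) hz
    have h2 : x * z * x⁻¹ * z ∈ O := by
      rw [← QuotientGroup.ker_mk' O, MonoidHom.mem_ker]
      simp only at hi
      have : f (x * z * x⁻¹) = (f n)⁻¹ * (f (n * x) * f z * (f (n * x))⁻¹) * f n := by
        simp only [map_mul, map_inv]; group
      show f _ = 1
      rw [map_mul, this, e, ← hi]
      group
    have h3 : O ⊓ Q = ⊥ := inf_eq_bot_of_isPGroup_of_coprime (pCore_isPGroup 2 G)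
      (coprime_card_of_isPGroup hQ.isPGroup ((Nat.coprime_primes Nat.prime_two hq).2 hq2.symm))
    have : x * z * x⁻¹ * z = 1 := by
      rw [← mem_bot, ← h3]; exact ⟨h2, h1⟩
    exact eq_inv_of_mul_eq_one_left this

theorem c_a {G : Type*} [Group G] [Finite G] (h : ∀ (q : ℕ) [Fact q.Prime], q ≠ 2 → ∀ T : Sylow q G,
    ∀ x ∈ (T : Subgroup G), x ≠ 1 → ∀ g ∈ normalizer (centerThompsonAOf (T : Subgroup G) : Set G),
      g * x * g⁻¹ ≠ x⁻¹) (P : Sylow 2 G) : (P : Subgroup G).Normal := by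
  by_contra hP
  obtain ⟨p, hpp, hp, y, g, y1, hy, e⟩ := exists_inv P hP
  haveI : Fact p.Prime := ⟨hpp⟩
  obtain ⟨S, hS⟩ := hy.exists_le_sylow
  have h := h p hp S
  rw [centerThompsonAOf_eq] at h
  by_cases hc : FusionControl.Ctrl ⊤ (normalizer ((ZJ 0 (S : Subgroup G) : Subgroup G) : Set G)) S
  · obtain ⟨x, hx, hx'⟩ := hc (zpowers y) g (mem_top g) hS (by
      rw [conj_zpowers, e]; exact zpowers_le.2 (inv_mem (hS (mem_zpowers y))))
    exact h y (hS (mem_zpowers y)) y1 x hx ((hx' y (mem_zpowers y)).symm.trans e)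
  obtain ⟨r, hr⟩ := IsCyclic.exists_monoid_generator (α := (ZMod p)ˣ)
  have hm : ∀ μ : ZMod p, μ ≠ 0 → ∃ k, (((r : ZMod p).val : ℕ) : ZMod p) ^ k = μ := fun μ hμ => by
    obtain ⟨k, hk⟩ := hr (Units.mk0 μ hμ)
    exact ⟨k, by simpa using congrArg Units.val hk⟩
  obtain ⟨⟨c, hc, c1, t, ht, e⟩, -⟩ := ZJFail.main hp hm (by simp) G S (isSylowIn_top S) hc
  set m := (r : ZMod p).val
  obtain ⟨x, hx, x1, xp⟩ := exists_mem_pow_eq_one (S.isPGroup'.to_le ((zpowers_le.mpr hc).trans (ZJ_le _ _)))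
    (by simpa using c1)
  have e' : t * x * t⁻¹ = x ^ m := by
    obtain ⟨j, rfl⟩ := hx
    simp only
    rw [← conj_zpow, e, ← zpow_natCast, ← zpow_natCast, ← zpow_mul, ← zpow_mul, mul_comm]
  have ho : orderOf x = p := orderOf_eq_prime xp x1
  have e2 : ∀ k : ℕ, t ^ k * x * (t ^ k)⁻¹ = x ^ m ^ k := fun k => by
    induction k with
    | zero => simp
    | succ k ih => rw [pow_succ' t, show t * t ^ k * x * (t * t ^ k)⁻¹ = t * (t ^ k * x * (t ^ k)⁻¹) * t⁻¹ by group,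
        ih, ← conj_pow, e', ← pow_mul, pow_succ']
  obtain ⟨k, hk⟩ := hm (-1) (by simp)
  refine h x (ZJ_le _ _ (zpowers_le.mpr hc hx)) x1 (t ^ k) (pow_mem ht k) ?_
  rw [e2]
  refine eq_inv_of_mul_eq_one_left ?_
  rw [← pow_succ, ← orderOf_dvd_iff_pow_eq_one, ho, ← ZMod.natCast_eq_zero_iff]
  push_cast
  rw [hk]; ring

/-- For a finite group G the following are equivalent: (a) G has a normal Sylow 2-subgroup; (b) for every odd prime q dividing the order of G and every Sylow q-subgroup T, the normalizer of Z(J(T)) has a normal Sylow 2-subgroup; (c) for every odd prime q and every Sylow q-subgroup T, no nonidentity element of T is inverted by an element of the normalizer of Z(J(T)). Here J(T) is the Thompson subgroup generated by the abelian subgroups of T of largest order. Stated as the two equivalences (a) ⇔ (b) and (a) ⇔ (c). -/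
theorem result {G : Type*} [Group G] [Finite G] : ((∀ P : Sylow 2 G, (P : Subgroup G).Normal) ↔ ∀ (q : ℕ) [Fact q.Prime], q ≠ 2 → q ∣ Nat.card G → ∀ T : Sylow q G, ∀ P : Sylow 2 ↥(Subgroup.normalizer (Cfsg.centerThompsonAOf (T : Subgroup G) : Set G)), (P : Subgroup ↥(Subgroup.normalizer (Cfsg.centerThompsonAOf (T : Subgroup G) : Set G))).Normal) ∧ ((∀ P : Sylow 2 G, (P : Subgroup G).Normal) ↔ ∀ (q : ℕ) [Fact q.Prime], q ≠ 2 → ∀ T : Sylow q G, ∀ x ∈ (T : Subgroup G), x ≠ 1 → ∀ g ∈ Subgroup.normalizer (Cfsg.centerThompsonAOf (T : Subgroup G) : Set G), g * x * g⁻¹ ≠ x⁻¹) := by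

  have ac : (∀ P : Sylow 2 G, (P : Subgroup G).Normal) → ∀ (q : ℕ) [Fact q.Prime], q ≠ 2 → ∀ T : Sylow q G,
      ∀ x ∈ (T : Subgroup G), x ≠ 1 → ∀ g ∈ normalizer (centerThompsonAOf (T : Subgroup G) : Set G),
      g * x * g⁻¹ ≠ x⁻¹ := fun h q _ hq T x hx x1 g _ e => by
    obtain ⟨k, hk⟩ := isPGroup_iff_forall_mem.1 T.isPGroup' x hx
    exact x1 (lemA h Fact.out hq hk e)
  refine ⟨⟨fun h q _ _ _ T P => sub h _ P, fun h => c_a fun q _ hq T x hx x1 g hg e => ?_⟩, ⟨ac, c_a⟩⟩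
  obtain ⟨k, hk⟩ := isPGroup_iff_forall_mem.1 T.isPGroup' x hx
  have hd : q ∣ Nat.card G := (dvd_card_of_isPGroup_of_ne_bot T.isPGroup' (fun h0 => x1 (by
    rwa [h0, mem_bot] at hx))).trans (card_subgroup_dvd_card _)
  have hxN : x ∈ normalizer (centerThompsonAOf (T : Subgroup G) : Set G) := by
    rw [centerThompsonAOf_eq]
    exact normalizer_le_normalizer_ZJ 0 _ (le_normalizer hx)
  have := lemA (h q hq hd T) (x := ⟨x, hxN⟩) (g := ⟨g, hg⟩) (k := k) Fact.out hq (Subtype.ext hk) (Subtype.ext e)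
  exact x1 (congrArg Subtype.val this)

end Cfsg.Agent.S2756
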