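import Cfsg.Statements.S2761
import Cfsg.Agent.Lib.Qd

set_option autoImplicit false
open Cfsg

namespace Cfsg.Agent.S2761

open Subgroup Cfsg.Agent.Lib.SL2Nat Cfsg.Agent.Lib.Qd Matrix

/-- The affine action. -/
@[reducible] def act (F : Type*) [Field F] : MulAction (qdOver F) (Fin 2 → F) where
  smul M a := (lin M).1 *ᵥ a + tr M
  one_smul a := show (lin 1).1 *ᵥ a + tr 1 = a by rw [map_one, one_val, one_mulVec, tr_one, add_zero]
  mul_smul M N a := show (lin (M * N)).1 *ᵥ a + tr (M * N) =
      (lin M).1 *ᵥ ((lin N).1 *ᵥ a + tr N) + tr M by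
    rw [map_mul, mul_val, tr_mul, mulVec_add, mulVec_mulVec, add_assoc]

/-- The group Qd(2), the natural semidirect product of an elementary abelian group of order 4 by SL₂(2) (realised as the affine subgroup of SL₃(2)), is isomorphic to the symmetric group of degree 4. -/
theorem result : Nonempty (↥(Cfsg.qd 2) ≃* Equiv.Perm (Fin 4)) := by
  let _ := act (ZMod 2)
  let f := MulAction.toPermHom (qdOver (ZMod 2)) (Fin 2 → ZMod 2)
  have hf : Function.Injective f := (injective_iff_map_eq_one _).mpr fun M hM => by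
    have h : ∀ a, (lin M).1 *ᵥ a + tr M = a := fun a => congrArg (· a) hM
    have h0 : tr M = 0 := by simpa using h 0
    simp only [h0, add_zero, mulVec_eq] at h
    refine qd_ext ?_ (h0.trans tr_one.symm)
    rw [map_one]
    apply sl_ext
    · simpa using congrFun (h ![1, 0]) 0
    · simpa using congrFun (h ![0, 1]) 0
    · simpa using congrFun (h ![1, 0]) 1
    · simpa using congrFun (h ![0, 1]) 1
  have h4 : Fintype.card (Fin 2 → ZMod 2) = 4 := by simp
  have hc : Nat.card (qdOver (ZMod 2)) = Nat.card (Equiv.Perm (Fin 2 → ZMod 2)) := by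
    rw [← Nat.card_congr affEquiv, Nat.card_prod, Lib.LinearOrders.card_SL2 rfl, Nat.card_perm,
      Nat.card_eq_fintype_card, h4, ZMod.card]
    rfl
  exact ⟨(MulEquiv.ofBijective f ((Nat.bijective_iff_injective_and_card f).mpr ⟨hf, hc⟩)).trans
    (Fintype.equivFinOfCardEq h4).permCongrHom⟩

end Cfsg.Agent.S2761
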