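import Cfsg.Statements.S2762
import Cfsg.Agent.Lib.Qd

set_option autoImplicit false
open Cfsg

namespace Cfsg.Agent.S2762

open Subgroup Cfsg.Agent.Lib.SL2Nat Cfsg.Agent.Lib.Qd Matrix

/-- Structure of Qd over a finite field F of characteristic p (the affine subgroup of SL₃(F)): its largest normal p-subgroup is the group of translations (matrices with upper-left block the identity), the block-diagonal matrices form a complement isomorphic to SL₂(F), and the translation subgroup is a natural SL₂(F)-module for that complement. -/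
theorem result {F : Type*} [Field F] [Fintype F] {p : ℕ} [Fact p.Prime] [CharP F p] : (∀ M : ↥(Cfsg.qdOver F), M ∈ Cfsg.pCore p ↥(Cfsg.qdOver F) ↔ ((M : Matrix.SpecialLinearGroup (Fin 3) F) : Matrix (Fin 3) (Fin 3) F) 0 0 = 1 ∧ ((M : Matrix.SpecialLinearGroup (Fin 3) F) : Matrix (Fin 3) (Fin 3) F) 0 1 = 0 ∧ ((M : Matrix.SpecialLinearGroup (Fin 3) F) : Matrix (Fin 3) (Fin 3) F) 1 0 = 0 ∧ ((M : Matrix.SpecialLinearGroup (Fin 3) F) : Matrix (Fin 3) (Fin 3) F) 1 1 = 1) ∧ ∃ K : Subgroup ↥(Cfsg.qdOver F), (∀ M : ↥(Cfsg.qdOver F), M ∈ K ↔ ((M : Matrix.SpecialLinearGroup (Fin 3) F) : Matrix (Fin 3) (Fin 3) F) 0 2 = 0 ∧ ((M : Matrix.SpecialLinearGroup (Fin 3) F) : Matrix (Fin 3) (Fin 3) F) 1 2 = 0) ∧ K ⊓ Cfsg.pCore p ↥(Cfsg.qdOver F) = ⊥ ∧ K ⊔ Cfsg.pCore p ↥(Cfsg.qdOver F) = ⊤ ∧ Nonempty (↥K ≃* Matrix.SpecialLinearGroup (Fin 2) F) ∧ Cfsg.IsNaturalSL2Module F (Cfsg.pCore p ↥(Cfsg.qdOver F)) K := by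
  rw [pCore_qd p]
  have hs : (blk.range : Subgroup (qdOver F)).map lin = ⊤ :=
    eq_top_iff.mpr fun g _ => ⟨blk g, ⟨g, rfl⟩, lin_aff g 0⟩
  refine ⟨fun M => ⟨fun h => ?_, fun h => ?_⟩, blk.range, fun M => mem_range_blk.trans
    ⟨fun h => ⟨congrFun h 0, congrFun h 1⟩, fun h => ?_⟩, ?_, ?_,
    ⟨(MonoidHom.ofInjective blk_injective).symm⟩, isNaturalSL2Module_iff.mpr ⟨natData _ hs⟩⟩
  · have h1 : (lin M).1 = 1 := by rw [MonoidHom.mem_ker.mp h]; rfl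
    exact ⟨congrFun (congrFun h1 0) 0, congrFun (congrFun h1 0) 1, congrFun (congrFun h1 1) 0,
      congrFun (congrFun h1 1) 1⟩
  · exact sl_ext h.1 h.2.1 h.2.2.1 h.2.2.2
  · ext i
    fin_cases i
    · exact h.1
    · exact h.2
  · rw [eq_bot_iff]
    rintro _ ⟨⟨g, rfl⟩, h⟩
    have h1 : g = 1 := (lin_aff g 0).symm.trans h
    rw [h1, map_one]
    exact one_mem _
  · rw [← comap_map_eq, hs, comap_top]

end Cfsg.Agent.S2762
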