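import Cfsg.Statements.S2763
import Cfsg.Agent.Lib.Qd

set_option autoImplicit false
open Cfsg

namespace Cfsg.Agent.S2763

open Subgroup Cfsg.Agent.Lib.PCoreConj Cfsg.Agent.Lib.PCore Cfsg.Agent.Lib.SL2Nat Cfsg.Agent.Lib.Qd
open Matrix

section

variable {F : Type*} [Field F]

/-- The unitriangular matrix with entries `t, a, b`. -/
def heis (t a b : F) : (U F).comap lin := ⟨aff (xu t) ![a, b], ⟨t, (lin_aff _ _).symm⟩⟩

theorem heis_mul (t a b s c d : F) :
    heis t a b * heis s c d = heis (t + s) (a + c + t * d) (b + d) := by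
  apply Subtype.ext
  change aff _ _ * aff _ _ = aff _ _
  rw [aff_mul, xu_add, mulVec_eq]
  congr 1
  ext i
  fin_cases i <;> simp <;> ring

theorem exists_heis (M : (U F).comap lin) : ∃ t a b, heis t a b = M := by
  obtain ⟨M, t, ht⟩ := M
  refine ⟨t, tr M 0, tr M 1, Subtype.ext (qd_ext ((lin_aff _ _).trans ht) ((tr_aff _ _).trans ?_))⟩
  ext i
  fin_cases i <;> rfl

/-- The graph automorphism. -/
def gr (M : (U F).comap lin) : (U F).comap lin :=
  heis (-M.1.1.1 1 2) (M.1.1.1 0 1 * M.1.1.1 1 2 - M.1.1.1 0 2) (-M.1.1.1 0 1)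

theorem gr_heis (t a b : F) : gr (heis t a b) = heis (-b) (t * b - a) (-t) := rfl

/-- The graph automorphism. -/
def grEquiv : (U F).comap lin ≃* (U F).comap lin where
  toFun := gr
  invFun := gr
  left_inv M := by
    obtain ⟨t, a, b, rfl⟩ := exists_heis M
    rw [gr_heis, gr_heis]
    congr 1 <;> ring
  right_inv M := by
    obtain ⟨t, a, b, rfl⟩ := exists_heis M
    rw [gr_heis, gr_heis]
    congr 1 <;> ring
  map_mul' M N := by
    obtain ⟨t, a, b, rfl⟩ := exists_heis M
    obtain ⟨s, c, d, rfl⟩ := exists_heis N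
    rw [heis_mul, gr_heis, gr_heis, gr_heis, heis_mul]
    congr 1 <;> ring

theorem main [Finite F] {p : ℕ} [Fact p.Prime] [CharP F p] (S : Subgroup (qdOver F))
    (hS : IsSylowIn p S ⊤) (T : Subgroup S) (hT : T ≠ ⊥) (hTc : T.Characteristic) :
    normalizer ((T.map S.subtype : Subgroup (qdOver F)) : Set (qdOver F)) =
      normalizer (S : Set (qdOver F)) ∧ normalizer (S : Set (qdOver F)) ≠ ⊤ := by
  obtain ⟨g, -, rfl⟩ := (isSylowIn_comap_U (F := F) p).exists_conj_eq hS
  have h1 : IsCoatom (normalizer (((U F).comap lin ^ᶜ g : Subgroup (qdOver F)) : Set (qdOver F))) := by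
    rw [← conj_normalizer, ← comap_normalizer_eq_of_surjective _ lin_surjective, normalizer_U]
    exact isCoatom_conj (isCoatom_comap_of_surjective lin_surjective B_isCoatom) g
  refine ⟨(h1.le_iff_eq fun h => ?_).mp (normalizer_le_normalizer_map_subtype T), h1.1⟩
  have h2 := normalizer_eq_top_iff.mp h
  have h3 := le_pCore h2 ((hS.isPGroup.to_subgroup T).map _)
  rw [pCore_qd p] at h3
  have h4 := eq_of_natData (natData ⊤ (map_top_of_surjective _ lin_surjective)) h3 h.ge
    (mt (map_eq_bot_iff_of_injective _ (subtype_injective _)).mp hT)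
  let e := conjEquiv ((U F).comap lin) g
  have h5 : ∀ x, e x ∈ T ↔ lin (x : qdOver F) = 1 := fun x => by
    rw [← mem_map_iff_mem (subtype_injective _), h4, MonoidHom.mem_ker]
    change lin (g * x.1 * g⁻¹) = 1 ↔ _
    rw [map_mul, map_mul, map_inv, conj_eq_one_iff]
  have h6 := characteristic_iff_le_comap.mp hTc (e.symm.trans (grEquiv.trans e))
    ((h5 (heis 0 0 1)).mpr ((lin_aff _ _).trans xu_zero))
  rw [mem_comap, MulEquiv.coe_toMonoidHom, MulEquiv.trans_apply, MulEquiv.trans_apply,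
    e.symm_apply_apply, h5] at h6
  have h7 : lin (aff (xu (-1 : F)) ![0 * 1 - 0, -0]) = 1 := h6
  rw [lin_aff, xu_eq_one_iff] at h7
  exact one_ne_zero (neg_eq_zero.mp h7)

end

/-- In the group Qd(p) (p prime; the natural semidirect product of an elementary abelian group of order p² by SL₂(p)), the normalizer of every nontrivial characteristic subgroup of a Sylow p-subgroup S equals the normalizer of S, which is a proper subgroup; in particular no such characteristic subgroup is normal. -/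
theorem result {p : ℕ} [Fact p.Prime] (S : Sylow p ↥(Cfsg.qd p)) (T : Subgroup ↥(S : Subgroup ↥(Cfsg.qd p))) (hT : T ≠ ⊥) (hTc : T.Characteristic) : Subgroup.normalizer ((T.map (S : Subgroup ↥(Cfsg.qd p)).subtype : Subgroup ↥(Cfsg.qd p)) : Set ↥(Cfsg.qd p)) = Subgroup.normalizer ((S : Subgroup ↥(Cfsg.qd p)) : Set ↥(Cfsg.qd p)) ∧ Subgroup.normalizer ((S : Subgroup ↥(Cfsg.qd p)) : Set ↥(Cfsg.qd p)) ≠ ⊤ := by
  exact main (F := ZMod p) (S : Subgroup (qd p)) (isSylowIn_top S) T hT hTc

end Cfsg.Agent.S2763
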