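import Cfsg.Statements.S2765
import Cfsg.Agent.Lib.PushNat

set_option autoImplicit false
open Cfsg

namespace Cfsg.Agent.S2765

open Subgroup Cfsg.Agent.Lib.PCoreConj Cfsg.Agent.Lib.PCore Cfsg.Agent.Lib.PCoreResidual Cfsg.Agent.Lib.PCoreMod
open Cfsg.Agent.Lib.PushBase Cfsg.Agent.Lib.ThompsonJ
open scoped Pointwise commutatorElement

theorem exponent_eq {P : Type*} [Group P] {q : ℕ} (hq : q.Prime) (h₁ : ∀ x : P, x ^ q ^ 2 = 1)
    (h₂ : ¬ ∀ x : P, x ^ q = 1) : Monoid.exponent P = q ^ 2 := by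
  obtain ⟨i, hi, e⟩ := (Nat.dvd_prime_pow hq).1 (Monoid.exponent_dvd_of_forall_pow_eq_one h₁)
  by_contra hn
  refine h₂ (Monoid.exponent_dvd_iff_forall_pow_eq_one.1 ?_)
  have : i ≤ 1 := by_contra fun k => hn (by rw [e, show i = 2 by omega])
  rw [e]
  exact (pow_dvd_pow q this).trans (pow_one q).dvd

theorem pow_sq_eq_one {P : Type*} [Group P] [Finite P] {p : ℕ} [Fact p.Prime] (hP : IsPGroup p P)
    (h : Phi (Phi ⊤[P]) = ⊥) (x : P) : x ^ p ^ 2 = 1 := by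
  rw [sq, pow_mul]
  exact mem_bot.1 (h.le (pow_mem_Phi (hP.to_subgroup _) (pow_mem_Phi (hP.to_subgroup ⊤) (mem_top x))))

theorem eq_bot_of {G : Type*} [Group G] [Finite G] {p : ℕ} [Fact p.Prime] {S T M : Subgroup G}
    (h : RO p ⊤ S T M) (hd : ∀ A : Subgroup S, A ≠ ⊥ → A.Characteristic → ¬ (A.map S.subtype).Normal)
    (A : Subgroup S) [A.Characteristic] (hA : A.map S.subtype ≤ C(pResidualOf p ⊤[G])) : A = ⊥ := by
  by_contra hn
  refine hd (A ⊓ C(⊤[S])) (inf_centralizer_ne_bot (h.pS.to_subgroup ⊤) (h.pS.to_subgroup A)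
    le_norm_of_normal hn) inferInstance (normal_iff_top_le.2 (le_normalizer_of_le_centralizer
      (le_centralizer_iff.1 (le_trans ?_ h.C_inf))))
  rw [map_centralizer_inf S.subtype_injective, map_top_subtype]
  exact inf_le_inf_right _ hA

/-- In the same pushing-up situation (G finite, C_G(O_p(G)) ≤ O_p(G), G/K ≅ PSL₂(p^n) with n ≥ 1, a Sylow p-subgroup S in exactly one maximal subgroup, no nontrivial characteristic subgroup of S normal in G), one of the following holds: (I) S has nilpotency class 2, exponent 4 if p = 2 and exponent p otherwise, and G has exactly one noncentral chief factor inside O_p(G); or (II) p = 3, S has class 3 and exponent 9, and G has exactly two noncentral chief factors inside O_p(G). 'Exactly one' is phrased as: some noncentral chief factor U/W inside O_p(G) with G acting hypercentrally on W and on O_p(G)/U; 'exactly two' analogously with a chain. -/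
theorem result {G : Type*} [Group G] [Finite G] {p : ℕ} [Fact p.Prime] (S : Sylow p G) (hE₁ : Subgroup.centralizer (Cfsg.pCore p G : Set G) ≤ Cfsg.pCore p G) (hE₂ : ∃! M : Subgroup G, IsCoatom M ∧ (S : Subgroup G) ≤ M) (K : Subgroup G) [K.Normal] (F : Type) [Field F] [Fintype F] (n : ℕ) (hn : 1 ≤ n) (hF : Fintype.card F = p ^ n) (hE₃ : Nonempty (G ⧸ K ≃* Matrix.ProjectiveSpecialLinearGroup (Fin 2) F)) (hd : ∀ T : Subgroup ↥(S : Subgroup G), T ≠ ⊥ → T.Characteristic → ¬ (T.map (S : Subgroup G).subtype).Normal) : ((S : Subgroup G).lowerCentralSeries 2 = ⊥ ∧ (S : Subgroup G).lowerCentralSeries 1 ≠ ⊥ ∧ (p = 2 → Monoid.exponent ↥(S : Subgroup G) = 4) ∧ (p ≠ 2 → Monoid.exponent ↥(S : Subgroup G) = p) ∧ (∃ U W : Subgroup G, W ≤ U ∧ U ≤ (Cfsg.pCore p G) ∧ Cfsg.IsChiefFactor U W ∧ ¬ ⁅U, (⊤ : Subgroup G)⁆ ≤ W ∧ (∃ k : ℕ, Cfsg.iterCommutator W ⊤ k = ⊥) ∧ (∃ k : ℕ, Cfsg.iterCommutator (Cfsg.pCore p G) ⊤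 k ≤ U))) ∨ (p = 3 ∧ (S : Subgroup G).lowerCentralSeries 3 = ⊥ ∧ (S : Subgroup G).lowerCentralSeries 2 ≠ ⊥ ∧ Monoid.exponent ↥(S : Subgroup G) = 9 ∧ (∃ U₁ W₁ U₂ W₂ : Subgroup G, W₁ ≤ U₁ ∧ U₁ ≤ W₂ ∧ W₂ ≤ U₂ ∧ U₂ ≤ (Cfsg.pCore p G) ∧ Cfsg.IsChiefFactor U₁ W₁ ∧ Cfsg.IsChiefFactor U₂ W₂ ∧ ¬ ⁅U₁, (⊤ : Subgroup G)⁆ ≤ W₁ ∧ ¬ ⁅U₂, (⊤ : Subgroup G)⁆ ≤ W₂ ∧ (∃ k : ℕ, Cfsg.iterCommutator W₁ ⊤ k = ⊥) ∧ (∃ k : ℕ, Cfsg.iterCommutator W₂ ⊤ k ≤ U₁) ∧ (∃ k : ℕ, Cfsg.iterCommutator (Cfsg.pCore p G) ⊤ k ≤ U₂))) := by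
  obtain ⟨M, h⟩ := pu_of_E (isSylowIn_top_iff.2 ⟨S, rfl⟩) hE₁ hE₂ K F hF hE₃
  have e := h.idx_of_E K F hF hE₃
  generalize (S : Subgroup G) = P at *
  have hτ := P.subtype_injective
  have hcomm := comm_le_Phi h.pS
  have hm : ∀ {A : Subgroup P}, A = ⊥ → A.map P.subtype = ⊥ := fun e => e ▸ Subgroup.map_bot _
  haveI : (Phi ⊤[P]).Characteristic := char_of_funct Phi fun f hf => map_Phi hf _
  obtain ⟨sm, V, c⟩ := h.one_or_tw hd
  have k : PK p ⊤ P (pCore p G) M V := c.elim (·.toPK) fun ⟨_, c⟩ => c.toPK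
  obtain ⟨s⟩ := k.rm.sec F e
  haveI hZ := normal_iff_top_le.2 k.W_norm
  haveI := s.normal
  have hZ' : ∃ k, iterCommutator Z(⊤[G]) ⊤ k = ⊥ :=
    ⟨1, show ⁅Z(⊤[G]), ⊤[G]⁆ = ⊥ from commutator_eq_bot_iff_le_centralizer'.2 k.W_cent⟩
  have nab : ¬ ∀ x y : P, x * y = y * x := fun e => sm.nab fun x _ y _ => e y x
  rcases c with c | ⟨X, c⟩
  · have hJ : P ≤ J 0 P := by
      have := (map_mono (f := P.subtype) sm.J_eq.ge).trans (map_J (inf_ker_of_injective hτ _)).le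
      rwa [map_top_subtype] at this
    have h₁ : ⁅Phi P, P⁆ = ⊥ := by
      have := hm (eq_bot_of h.toRO hd ⁅Phi ⊤[P], ⊤[P]⁆ (by
        rw [map_commutator, map_Phi hτ, map_top_subtype]; exact c.comm_Phi' hJ))
      rwa [map_commutator, map_Phi hτ, map_top_subtype] at this
    have h₂ : ⁅⁅P, P⁆, P⁆ = ⊥ := le_bot_iff.1 ((commutator_mono hcomm le_rfl).trans h₁.le)
    have h₃ : ⁅P, P⁆ ≠ ⊥ := fun e => nab fun x y =>
      Subtype.ext (commutator_eq_bot_iff_le_centralizer'.1 e y.2 x x.2)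
    refine .inl ⟨h₂, h₃, fun e => ?_, fun e => ?_,
      V, Z(⊤[G]), k.W_le_V, k.V_le, s.isChiefFactor k.W_le_V hZ, s.not_comm_le, hZ',
      h.exists_iter le_rfl c.one⟩
    · subst e
      exact exponent_eq Nat.prime_two (pow_sq_eq_one h.pS (sm.two rfl).2) fun e => nab fun x y =>
        (Commute.of_orderOf_dvd_two (fun g => orderOf_dvd_of_pow_eq_one (e g)) x y).eq
    · haveI := char_of_funct (P := P) (powerClosure p 1) fun f _ => map_powerClosure f 1 _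
      have := eq_bot_of h.toRO hd (powerClosure p 1 ⊤[P]) (by
        rw [map_powerClosure, map_top_subtype]
        exact powerClosure_le_iff.2 fun x hx => (c.pow_mem_C e hx).2)
      refine ((Nat.dvd_prime Fact.out).1 (Monoid.exponent_dvd_of_forall_pow_eq_one fun x =>
        mem_bot.1 (powerClosure_le_iff.1 this.le x trivial))).resolve_left fun e => nab fun x y => ?_
      haveI := Monoid.exp_eq_one_iff.1 e
      exact Subsingleton.elim _ _
  · obtain ⟨s'⟩ := c.rm.sec F e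
    haveI := s'.normal
    have h₁ := hm (sm.three c.three).1
    rw [map_commutator, map_commutator, map_Phi hτ, map_top_subtype] at h₁
    have hV := c.rm.W_le.trans c.rm.Y_le
    have h₂ : ⁅⁅⁅P, P⁆, P⁆, P⁆ = ⊥ :=
      le_bot_iff.1 ((commutator_mono (commutator_mono hcomm le_rfl) le_rfl).trans h₁.le)
    have h₃ : ⁅⁅P, P⁆, P⁆ ≠ ⊥ := fun e =>
      c.cubic (le_centralizer_iff.1 (commutator_eq_bot_iff_le_centralizer'.1 e))
    refine .inr ⟨c.three, h₂, h₃, ?_,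
      V, Z(⊤[G]), nclIn X ⊤, V, k.W_le_V, le_rfl, hV, c.rm.V_le, s.isChiefFactor k.W_le_V hZ,
      s'.isChiefFactor hV s.normal, s.not_comm_le, s'.not_comm_le, hZ', ⟨0, le_rfl⟩,
      h.exists_iter le_rfl c.comm_TE⟩
    obtain rfl := c.three
    obtain ⟨x, hx, hx'⟩ := c.cube
    exact exponent_eq Nat.prime_three (pow_sq_eq_one h.pS (sm.three rfl).2) fun e =>
      hx' (congrArg Subtype.val (e ⟨x, hx⟩))

end Cfsg.Agent.S2765
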