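import Cfsg.Statements.S2766
import Cfsg.Agent.Lib.PushLoc

set_option autoImplicit false
open Cfsg

namespace Cfsg.Agent.S2766

open Subgroup Cfsg.Agent.Lib.PCoreConj Cfsg.Agent.Lib.PCore Cfsg.Agent.Lib.PCoreResidual Cfsg.Agent.Lib.PCoreMod
open Cfsg.Agent.Lib.PushBase Cfsg.Agent.Lib.ThompsonJ
open scoped Pointwise commutatorElement

/-- Let p ≥ 5 be prime and G a maximal p-local subgroup of a finite group H (G is the normalizer of a nontrivial p-subgroup and lies in no other such normalizer). Suppose C_G(O_p(G)) ≤ O_p(G), G/K ≅ PSL₂(p^n) for some normal K and n ≥ 1, a Sylow p-subgroup S of G lies in exactly one maximal subgroup of G, and N_H(S) is not contained in G. Then G = G₀ × E for subgroups G₀ ≅ Qd(p^n) (the natural semidirect product of the plane over the field with p^n elements by SL₂) and E an elementary abelian p-group. -/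
theorem result {H : Type*} [Group H] [Finite H] {p : ℕ} [Fact p.Prime] (hp : 5 ≤ p) (G : Subgroup H) (hloc : ∃ R : Subgroup H, IsPGroup p ↥R ∧ R ≠ ⊥ ∧ G = Subgroup.normalizer (R : Set H)) (hmax : ∀ R : Subgroup H, IsPGroup p ↥R → R ≠ ⊥ → G ≤ Subgroup.normalizer (R : Set H) → Subgroup.normalizer (R : Set H) = G) (S : Sylow p ↥G) (hE₁ : Subgroup.centralizer (Cfsg.pCore p ↥G : Set ↥G) ≤ Cfsg.pCore p ↥G) (hE₂ : ∃! M : Subgroup ↥G, IsCoatom M ∧ (S : Subgroup ↥G) ≤ M) (K : Subgroup ↥G) [K.Normal] (F : Type) [Field F] [Fintype F] (n : ℕ) (hn : 1 ≤ n) (hF : Fintype.card F = p ^ n) (hE₃ : Nonempty (↥G ⧸ K ≃* Matrix.ProjectiveSpecialLinearGroup (Fin 2) F)) (hN : ¬ Subgroup.normalizer (((S : Subgroup ↥G).map G.subtype : Subgroup H) : Set H) ≤ G) : ∃ G₀ E : Subgroup H, Cfsg.IsInternalDirectProduct G₀ E G ∧ Cfsg.IsElementaryAbelian p E ∧ Nonempty (↥G₀ ≃* ↥(Cfsg.qdOver F)) := by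
  haveI : CharP F p := Cfsg.Agent.Lib.SL2Nat.charP_of_card p hF
  obtain ⟨M, h⟩ := pu_of_E (isSylowIn_top_iff.2 ⟨S, rfl⟩) hE₁ hE₂ K F hF hE₃
  have e := h.idx_of_E K F hF hE₃
  have hτ := G.subtype_injective
  obtain ⟨x, hx, hxG⟩ := SetLike.not_le_iff_exists.1 hN
  have h' := h.map hτ
  obtain ⟨o, h₁, h₂, h₃⟩ := h'.local (by omega) (fun R k₁ k₂ k₃ => by
    rw [map_top_subtype] at k₃ ⊢
    exact (hmax R (h'.pS.to_le k₁) k₂ k₃).le) hx (by rwa [map_top_subtype])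
  obtain ⟨B, hB₁, hB₂⟩ := exists_compl (isElementaryAbelian_map h₁ (MulAut.conj x : H →* H))
    (h₃.ge.trans (inf_le_right.trans (map_coe_conj _ _).ge))
  rw [map_coe_conj] at hB₂
  have hB := le_sup_right.trans hB₂.le
  obtain ⟨B, -, rfl⟩ := exists_map_eq (hB.trans (le_sup_left.trans h₂.le))
  have o' : One p ⊤ S (pCore p G) M (pCore p G) := .of_map (.of_map h hτ o.toPK) hτ o.one
  obtain ⟨G₀, k₁, k₂, ⟨k₃⟩⟩ := o'.qd_split (B := B) (by omega) (map_injective hτ (by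
    rw [map_inf_eq _ _ _ hτ, Subgroup.map_bot]
    exact le_bot_iff.1 ((le_inf ((inf_le_inf_left _ hB).trans h₃.le) inf_le_right).trans hB₁.le)))
    (map_injective hτ (by
      rw [Subgroup.map_sup]
      refine le_antisymm (sup_le h'.T_le (hB.trans (le_sup_left.trans h₂.le))) (h₂.ge.trans
        (sup_le (hB₂.ge.trans (sup_le_sup_right o.Y_le _)) le_sup_left)))) F e
  refine ⟨G₀.map G.subtype, (Z(⊤[G])).map G.subtype, ⟨map_subtype_le _, map_subtype_le _, ?_, ?_, ?_⟩,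
    isElementaryAbelian_of_le h₁ (map_mono o'.W_le_V), ⟨(G₀.equivMapOfInjective _ hτ).symm.trans k₃⟩⟩
  · rintro _ ⟨a, -, rfl⟩ _ ⟨b, hb, rfl⟩
    rw [← map_mul, ← map_mul, hb.2 a trivial]
  · rw [← map_inf_eq _ _ _ hτ, k₁, Subgroup.map_bot]
  · rw [← Subgroup.map_sup, k₂, map_top_subtype]

end Cfsg.Agent.S2766
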