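import Cfsg.Statements.S2772
import Cfsg.Agent.Lib.PushLoc
import Cfsg.Agent.Lib.AmalgS3
import Cfsg.Agent.Lib.LinearOrders

set_option autoImplicit false
open Cfsg

namespace Cfsg.Agent.S2772

open Subgroup Cfsg.Agent.Lib.PCoreConj Cfsg.Agent.Lib.PCore Cfsg.Agent.Lib.PCoreResidual Cfsg.Agent.Lib.PCoreMod
open Cfsg.Agent.Lib.PushBase Cfsg.Agent.Lib.ThompsonJ Cfsg.Agent.Lib.PReduced
open scoped Pointwise commutatorElement

/-- Sims' Theorem in local form: let H be a finite non-abelian simple group and G a maximal subgroup of H with C_G(O₂(G)) ≤ O₂(G), such that N_H(S) is not contained in G for a Sylow 2-subgroup S of G and G/O₂(G) is dihedral of order 2q for a prime q. Then G is isomorphic to the symmetric group of degree 4 or to its direct product with a group of order 2. -/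
theorem result {H : Type*} [Group H] [Finite H] [IsSimpleGroup H] (hna : ¬ IsMulCommutative H) (G : Subgroup H) (hG : IsCoatom G) (hchar : Subgroup.centralizer (Cfsg.pCore 2 ↥G : Set ↥G) ≤ Cfsg.pCore 2 ↥G) (S : Sylow 2 ↥G) (hN : ¬ Subgroup.normalizer (((S : Subgroup ↥G).map G.subtype : Subgroup H) : Set H) ≤ G) (q : ℕ) (hq : q.Prime) (hD : Nonempty (↥G ⧸ Cfsg.pCore 2 ↥G ≃* DihedralGroup q)) : Nonempty (↥G ≃* Equiv.Perm (Fin 4)) ∨ Nonempty (↥G ≃* Equiv.Perm (Fin 4) × Multiplicative (ZMod 2)) := by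
  obtain ⟨e⟩ := hD
  have hS := isSylowIn_top S
  have hi : (pCore 2 G).relIndex S * (S : Subgroup G).index = 2 * q := by
    rw [relIndex_mul_index hS.pCore_le, index_eq_card, Nat.card_congr e.toEquiv, DihedralGroup.nat_card]
  have ho : ¬ 2 ∣ (S : Subgroup G).index := S.not_dvd_index
  have hq2 : q ≠ 2 := by
    rintro rfl
    have h₁ : IsPGroup 2 (G ⧸ pCore 2 G) := IsPGroup.of_card (n := 2)
      (by rw [Nat.card_congr e.toEquiv, DihedralGroup.nat_card]; rfl)
    have h₂ : (⊤ : Subgroup (G ⧸ pCore 2 G)) ≤ ⊥ :=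
      pCore_quotient_pCore 2 G ▸ le_pCore inferInstance (h₁.to_subgroup ⊤)
    have h₃ := card_le_of_le h₂
    rw [card_top, card_bot, Nat.card_congr e.toEquiv, DihedralGroup.nat_card] at h₃
    omega
  have h₁ : (pCore 2 G).relIndex S = 2 := by
    obtain ⟨k, hk⟩ := IsPGroup.iff_card.1 S.isPGroup'
    have c : ((pCore 2 G).relIndex S).Coprime q := Nat.Coprime.coprime_dvd_left
      (hk ▸ relIndex_dvd_card _ _) (((Nat.coprime_primes Nat.prime_two hq).2 hq2.symm).pow_left k)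
    exact Nat.dvd_antisymm (c.dvd_of_dvd_mul_right ⟨_, hi.symm⟩)
      ((Nat.prime_two.dvd_mul.1 ⟨q, hi⟩).resolve_right ho)
  have h₂ : (S : Subgroup G).index = q := by rw [h₁] at hi; omega
  have h : PU 2 ⊤ S (pCore 2 G) S := ⟨ro_of_prime hS (pCoreOf_top 2 G) (by rw [h₁]; exact Nat.prime_two)
    (by rwa [relIndex_top_right, h₂]), inf_le_right.trans hchar⟩
  have hτ := G.subtype_injective
  obtain ⟨x, hx, hxG⟩ := SetLike.not_le_iff_exists.1 hN
  have h' := h.map hτ
  have hmax : ∀ R, R ≤ (S : Subgroup G).map G.subtype → R ≠ ⊥ → G ≤ N(R) → N(R) ≤ G := fun R k₁ k₂ k₃ => by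
    refine ((hG.le_iff.1 k₃).resolve_left fun k => ?_).le
    exact hG.1 (top_le_iff.1 (((normalizer_eq_top_iff.1 k).eq_bot_or_eq_top.resolve_left k₂).ge.trans
      (k₁.trans (map_subtype_le _))))
  obtain ⟨o, -⟩ := h'.local (by decide) (by rwa [map_top_subtype]) hx (by rwa [map_top_subtype])
  have o' : One 2 ⊤ S (pCore 2 G) S (pCore 2 G) := .of_map (.of_map h hτ o.toPK) hτ o.one
  obtain ⟨f⟩ := o'.quot_equiv (ZMod 2) ((ZMod.card 2).trans h₁.symm)
  have h₃ : q = 3 := by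
    have := (Nat.card_congr e.toEquiv).symm.trans (Nat.card_congr f.toEquiv)
    rw [DihedralGroup.nat_card, Cfsg.Agent.Lib.LinearOrders.card_SL2 (ZMod.card 2)] at this
    omega
  rw [map_top_subtype] at h'
  have l : Cfsg.Agent.Lib.AmalgS3.Loc G ((S : Subgroup G).map G.subtype) := ⟨inferInstance, h'.syl,
    charPIn_iff.1 hchar, by rw [h'.core, relIndex_map_map_of_injective _ _ hτ, h₁], by
      have := relIndex_map_map_of_injective (S : Subgroup G) ⊤ hτ
      rwa [map_top_subtype, relIndex_top_right, h₂, h₃] at this, fun k => hxG (hmax _ (omegaOneCenter_le _ _) (omegaOneCenter_ne_bot h'.pS fun e =>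
        h'.not_le (e.le.trans bot_le)) (le_normalizer_of_le_centralizer k)
        (normalizer_le_normalizer_omegaOneCenter 2 _ hx))⟩
  have l₂ := l.conj x
  rw [conj_eq_of_mem_normalizer hx] at l₂
  exact (Cfsg.Agent.Lib.AmalgS3.Pair.equiv ⟨l, l₂, fun N k₁ k₂ k₃ => h'.conj_le hmax hxG k₁ k₂ k₃⟩).imp
    (·.1) fun ⟨⟨f⟩, _⟩ => ⟨f.trans MulEquiv.prodComm⟩

end Cfsg.Agent.S2772
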