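import Cfsg.Statements.S2779
import Cfsg.Agent.Lib.SL2Nat

set_option autoImplicit false
open Cfsg

namespace Cfsg.Agent.S2779

open Subgroup Cfsg.Agent.Lib.PCoreConj Cfsg.Agent.Lib.PCore Cfsg.Agent.Lib.SL2Nat Matrix

/-- Let L act on the elementary abelian p-group V (inside a finite group, by conjugation, faithfully) as SL₂(F) on its natural module, F a field with p^n elements, and let S be a Sylow p-subgroup of L. Then [V, S, S] = 1; |V| = p^(2n) and |C_V(S)| = p^n; and for every nonidentity s ∈ S and every v ∈ V outside C_V(S): C_V(s) = C_V(S) = [V, S] = [V, s] = the subgroup generated by the commutators [v, t], t ∈ S. -/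
theorem result {G : Type*} [Group G] [Finite G] {p : ℕ} [Fact p.Prime] {F : Type*} [Field F] [Fintype F] (n : ℕ) (hF : Fintype.card F = p ^ n) (V L : Subgroup G) (hnat : Cfsg.IsNaturalSL2Module F V L) (hf : L ⊓ Subgroup.centralizer (V : Set G) = ⊥) (S : Sylow p ↥L) (T : Subgroup G) (hT : T = ((S : Subgroup ↥L).map L.subtype)) : ⁅⁅V, T⁆, T⁆ = ⊥ ∧ Nat.card V = p ^ (2 * n) ∧ Nat.card ↥(V ⊓ Subgroup.centralizer ((T : Subgroup G) : Set G)) = p ^ n ∧ ∀ s ∈ T, s ≠ 1 → (V ⊓ Subgroup.centralizer ({s} : Set G)) = (V ⊓ Subgroup.centralizer ((T : Subgroup G) : Set G)) ∧ ⁅V, T⁆ = (V ⊓ Subgroup.centralizer ((T : Subgroup G) : Set G)) ∧ ⁅V, Subgroup.zpowers s⁆ = (V ⊓ Subgroup.centralizer ((T : Subgroup G) : Set G)) ∧ ∀ v ∈ V, v ∉ Subgroup.centralizer (T : Set G) → Subgroup.closure {x : G | ∃ t ∈ T, x = v * t * v⁻¹ * t⁻¹} = (V ⊓ Subgroup.centralizer ((T : Subgroup G) : Set G)) := by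
  have := charP_of_card p hF
  have hS : IsSylowIn p T L := hT ▸ isSylowIn_map_subtype S
  obtain ⟨D, hU⟩ := exists_natData hnat hS
  have hTL := hS.le
  have hC := D.inf_centralizer hTL hU
  have hq : Nat.card F = p ^ n := by rw [Nat.card_eq_fintype_card, hF]
  rw [hC]
  refine ⟨?_, by rw [D.card_eq, hq, ← pow_mul, mul_comm], by rw [D.card_Z, hq], fun s hs hs1 => ?_⟩
  · rw [D.commutator_eq_Z hTL hU, commutator_eq_bot_iff_le_centralizer, ← hC]
    exact inf_le_right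
  obtain ⟨t, ht⟩ := D.exists_eq_xu hU (l := ⟨s, hTL hs⟩) hs
  have ht0 : t ≠ 0 := by
    rintro rfl
    rw [xu_zero, D.rho_eq_one_iff] at ht
    exact hs1 (mem_bot.mp (hf ▸ mem_inf.mpr ⟨hTL hs, ht⟩))
  refine ⟨D.inf_centralizer_singleton ht ht0, D.commutator_eq_Z hTL hU,
    le_antisymm ((commutator_mono le_rfl (zpowers_le.mpr hs)).trans (D.commutator_le_Z hTL hU))
      (D.Z_le_commutator ht ht0 (mem_zpowers s)), fun v hv hvC => ?_⟩
  obtain ⟨a, rfl⟩ := (D.mem_iff v).mp hv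
  have ha : a 1 ≠ 0 := fun h => hvC (mem_inf.mp (hC ▸ D.v_mem_Z.mpr h)).2
  apply le_antisymm
  · rw [closure_le]
    rintro _ ⟨y, hy, rfl⟩
    exact D.commutator_le_Z hTL hU (commutator_mem_commutator hv hy)
  · rintro _ ⟨c, rfl⟩
    obtain ⟨l, hl, h⟩ := D.exists_mem_eq_xu hU (-(c / a 1))
    refine subset_closure ⟨l, hl, ?_⟩
    rw [D.comm_elt_xu h]
    simp [ha]

end Cfsg.Agent.S2779
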