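import Cfsg.Statements.S2780
import Cfsg.Agent.Lib.SL2Nat

set_option autoImplicit false
open Cfsg

namespace Cfsg.Agent.S2780

open Subgroup Cfsg.Agent.Lib.PCoreConj Cfsg.Agent.Lib.PCore Cfsg.Agent.Lib.SL2Nat Matrix

/-- Let L act on the elementary abelian p-group V (inside a finite group, faithfully) as SL₂(F) on its natural module, F a field with p^n elements, S a Sylow p-subgroup of L. Then: for every g ∈ L not normalizing S, V is the internal direct product of C_V(S) and C_V(gSg⁻¹); every nonidentity element of L of order prime to p acts on V without nonidentity fixed points; and C_V(S) and V/C_V(S) are irreducible for N_L(S): the only N_L(S)-invariant subgroups of C_V(S) are 1 and C_V(S), and the only N_L(S)-invariant subgroups between C_V(S) and V are those two. -/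
theorem result {G : Type*} [Group G] [Finite G] {p : ℕ} [Fact p.Prime] {F : Type*} [Field F] [Fintype F] (n : ℕ) (hF : Fintype.card F = p ^ n) (V L : Subgroup G) (hnat : Cfsg.IsNaturalSL2Module F V L) (hf : L ⊓ Subgroup.centralizer (V : Set G) = ⊥) (S : Sylow p ↥L) (T : Subgroup G) (hT : T = ((S : Subgroup ↥L).map L.subtype)) : (∀ g ∈ L, g ∉ Subgroup.normalizer (T : Set G) → Cfsg.IsInternalDirectProduct (V ⊓ Subgroup.centralizer ((T : Subgroup G) : Set G)) (V ⊓ Subgroup.centralizer ((T.map (MulAut.conj g).toMonoidHom : Subgroup G) : Set G)) V) ∧ (∀ x ∈ L, x ≠ 1 → (orderOf x).Coprime p → (V ⊓ Subgroup.centralizer ({x} : Set G)) = ⊥) ∧ (∀ U : Subgroup G, U ≤ (V ⊓ Subgroup.centralizer ((T : Subgroup G) : Set G)) → L ⊓ Subgroup.normalizer (T : Set G) ≤ Subgroup.normalizer (U : Set G) → U = ⊥ ∨ U = (V ⊓ Subgroup.centralizer ((T : Subgroup G) : Set G))) ∧ (∀ U : Subgroup G, (V ⊓ Subgroup.centralizer ((T : Subgroup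 G) : Set G)) ≤ U → U ≤ V → L ⊓ Subgroup.normalizer (T : Set G) ≤ Subgroup.normalizer (U : Set G) → U = (V ⊓ Subgroup.centralizer ((T : Subgroup G) : Set G)) ∨ U = V) := by
  have := charP_of_card p hF
  have hS : IsSylowIn p T L := hT ▸ isSylowIn_map_subtype S
  obtain ⟨D, hU⟩ := exists_natData hnat hS
  have hTL := hS.le
  have hC := D.inf_centralizer hTL hU
  have hinj : Function.Injective D.ρ := (injective_iff_map_eq_one _).mpr fun l hl =>
    Subtype.ext (mem_bot.mp (hf ▸ mem_inf.mpr ⟨l.2, (D.rho_eq_one_iff l).mp hl⟩))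
  have hmem : ∀ l : L, (l : G) ∈ T ↔ D.ρ l ∈ U F := fun l => by
    rw [← hU, mem_map_iff_mem hinj, mem_subgroupOf]
  have hN : ∀ l : L, D.ρ l ∈ B F → (l : G) ∈ normalizer (T : Set G) := fun l hl =>
    mem_normalizer_of_conj_le (conj_le_iff.mpr fun x hx => by
      obtain ⟨t, ht⟩ := D.exists_eq_xu hU (l := ⟨x, hTL hx⟩) hx
      refine (hmem (l * ⟨x, hTL hx⟩ * l⁻¹)).mpr ?_
      rw [map_mul, map_mul, map_inv, ht, conj_xu hl]
      exact xu_mem _)
  have hdg : ∀ (c : F) (hc : c ≠ 0), ∃ l : L, (l : G) ∈ normalizer (T : Set G) ∧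
      ∀ a : Fin 2 → F, (l : G) * D.v a * (l : G)⁻¹ = D.v ![c * a 0, c⁻¹ * a 1] := fun c hc => by
    obtain ⟨l, hl⟩ := D.surj (dg c hc)
    refine ⟨l, hN l (hl ▸ dg_mem_B c hc), fun a => ?_⟩
    rw [D.act, hl, mulVec_eq]
    simp
  rw [hC]
  refine ⟨fun g hg hgN => ?_, fun x hx hx1 hxp => ?_, fun W hW hWN => ?_, fun W hW hWV hWN => ?_⟩
  · have hB : (D.ρ ⟨g, hg⟩).1 1 0 ≠ 0 := fun h => hgN (hN ⟨g, hg⟩ h)
    have h1 : V ⊓ centralizer ((T ^ᶜ g : Subgroup G) : Set G) = D.Z ^ᶜ g := by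
      rw [← hC, conj_inf, conj_centralizer, conj_eq_of_mem_normalizer (D.le_normalizer hg)]
    rw [h1]
    have h2 : ∀ c : F, D.v ![(D.ρ ⟨g, hg⟩).1 0 0 * c, (D.ρ ⟨g, hg⟩).1 1 0 * c] ∈ D.Z ^ᶜ g := fun c =>
      ⟨_, ⟨c, rfl⟩, (D.act ⟨g, hg⟩ _).trans (by rw [mulVec_eq]; simp)⟩
    have h3 : D.Z ^ᶜ g ≤ V := h1 ▸ inf_le_left
    refine ⟨D.Z_le, h3, fun a ha b hb =>
      Lib.PCoreResidual.isMulCommutative_iff_forall.mp D.isMulCommutative a (D.Z_le ha) b (h3 hb), ?_,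
      le_antisymm (sup_le D.Z_le h3) fun x hx => ?_⟩
    · rw [eq_bot_iff]
      rintro _ ⟨h, _, ⟨c, rfl⟩, rfl⟩
      have h4 : g * D.v ![c, 0] * g⁻¹ ∈ D.Z := h
      have h5 := D.act ⟨g, hg⟩ ![c, 0]
      simp only at h5
      rw [h5, D.v_mem_Z, mulVec_eq] at h4
      have h6 : c = 0 := by simpa [hB] using h4
      have h7 : (![c, 0] : Fin 2 → F) = 0 := by simp [h6]
      simp [h7, D.v_zero]
    · obtain ⟨a, rfl⟩ := (D.mem_iff x).mp hx
      set c := a 1 / (D.ρ ⟨g, hg⟩).1 1 0 with hc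
      have h4 : a = ![a 0 - (D.ρ ⟨g, hg⟩).1 0 0 * c, 0] +
          ![(D.ρ ⟨g, hg⟩).1 0 0 * c, (D.ρ ⟨g, hg⟩).1 1 0 * c] := by
        ext i
        fin_cases i
        · simp
        · simp [hc, mul_div_cancel₀ _ hB]
      rw [h4, D.v_add]
      exact mul_mem_sup ⟨_, rfl⟩ (h2 c)
  · rw [eq_bot_iff]
    rintro y ⟨hy, h⟩
    obtain ⟨a, rfl⟩ := (D.mem_iff y).mp hy
    by_contra hne
    have ha : a ≠ 0 := fun h => hne (mem_bot.mpr (D.v_eq_one.mpr h))
    have h1 := pow_char_of_fixed p ha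
      ((D.comm_iff ⟨x, hx⟩ a).mp (mem_centralizer_singleton_iff.mp h).symm)
    rw [← map_pow, map_eq_one_iff _ hinj] at h1
    exact hx1 (eq_one_of_coprime_of_pow_eq_one (k := 1) hxp
      (by rw [pow_one]; exact congrArg Subtype.val h1))
  · rw [or_iff_not_imp_left]
    intro hne
    obtain ⟨⟨x, hx⟩, hx1⟩ := ne_bot_iff_exists_ne_one.mp hne
    obtain ⟨c, rfl⟩ := hW hx
    have hc : c ≠ 0 := by
      rintro rfl
      exact hx1 (Subtype.ext (D.v_eq_one.mpr (by simp)))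
    refine le_antisymm hW ?_
    rintro _ ⟨d, rfl⟩
    by_cases hd : d = 0
    · simp only [hd, show (![0, 0] : Fin 2 → F) = 0 by simp, D.v_zero]
      exact one_mem _
    obtain ⟨l, hl, h⟩ := hdg (d / c) (div_ne_zero hd hc)
    have := (mem_normalizer_iff.mp (hWN ⟨l.2, hl⟩) _).mp hx
    simp only [h] at this
    simpa [div_mul_cancel₀ _ hc] using this
  · rw [or_iff_not_imp_left]
    intro hne
    obtain ⟨x, hx, hx1⟩ := SetLike.exists_of_lt (lt_of_le_of_ne hW (Ne.symm hne))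
    obtain ⟨a, rfl⟩ := (D.mem_iff x).mp (hWV hx)
    rw [D.v_mem_Z] at hx1
    refine le_antisymm hWV fun y hy => ?_
    obtain ⟨b, rfl⟩ := (D.mem_iff y).mp hy
    by_cases hb : b 1 = 0
    · exact hW (D.v_mem_Z.mpr hb)
    obtain ⟨l, hl, h⟩ := hdg (a 1 / b 1) (div_ne_zero hx1 hb)
    have h1 := (mem_normalizer_iff.mp (hWN ⟨l.2, hl⟩) _).mp hx
    rw [h] at h1
    have h2 : b = ![b 0 - a 1 / b 1 * a 0, 0] + ![a 1 / b 1 * a 0, (a 1 / b 1)⁻¹ * a 1] := by
      ext i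
      fin_cases i
      · simp
      · simp [div_mul_cancel₀ _ hx1]
    rw [h2, D.v_add]
    exact mul_mem (hW ⟨_, rfl⟩) h1

end Cfsg.Agent.S2780
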