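import Cfsg.Statements.S2787
import Cfsg.Agent.Lib.ReeQ
import Cfsg.Agent.Lib.QuadPair
import Cfsg.Agent.Lib.PReduced

set_option autoImplicit false
open Cfsg

namespace Cfsg.Agent.S2787

open Subgroup Matrix Lib.ReeQ Lib.QuadPair Lib.Sections Lib.PCoreMod SemidirectProduct
open scoped MatrixGroups commutatorElement

theorem not_involves {X Γ : Type*} [Group X] [Finite X] [Group Γ] {p : ℕ} [hp : Fact p.Prime] (hp2 : p ≠ 2)
    (h : Nq Γ) (π : X →* Γ) (hπ : IsPGroup p π.ker) : ¬ Involves SL(2, ZMod p) X := fun hi => by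
  obtain ⟨K, f, hf⟩ := exists_surjective hi
  obtain ⟨a, b, e⟩ := ZMod.sq_add_sq p (-1)
  let i : SL(2, ZMod p) := ⟨!![0, 1; -1, 0], by simp⟩
  let j : SL(2, ZMod p) := ⟨!![a, b; b, -a], by rw [det_fin_two_of]; linear_combination -e⟩
  have hi : i ^ 2 = -1 := Lib.PSL2Small.pow_two_of_trace (by simp [i])
  have hj : j ^ 2 = -1 := Lib.PSL2Small.pow_two_of_trace (by simp [j])
  have hk : (i * j) ^ 2 = -1 := Lib.PSL2Small.pow_two_of_trace
    (show trace (!![0, 1; -1, 0] * !![a, b; b, -a]) = 0 by simp)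
  have h1 : (-1 : SL(2, ZMod p)) ≠ 1 := fun h => hp2 ((Nat.prime_dvd_prime_iff_eq hp.1 Nat.prime_two).1
    ((ZMod.natCast_eq_zero_iff 2 p).1 (by
      have : (-1 : ZMod p) = 1 := by simpa using congrArg (fun g : SL(2, ZMod p) => g.1 0 0) h
      linear_combination -this)))
  have h2 : ∀ g : SL(2, ZMod p), g ^ 2 = -1 → IsPGroup 2 (zpowers g) := fun g hg =>
    .of_card_dvd_pow (n := 2) (by
      rw [Nat.card_zpowers]; exact orderOf_dvd_of_pow_eq_one (by rw [sq 2, pow_mul, hg]; simp))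
  have h3 : i * j * i⁻¹ = j⁻¹ := by
    rw [eq_inv_iff_mul_eq_one, show i⁻¹ = -i from inv_eq_of_mul_eq_one_right (by rw [mul_neg, ← sq, hi, neg_neg]),
      mul_neg, neg_mul, mul_assoc, ← sq, hk, neg_neg]
  obtain ⟨S, hS⟩ := ((h2 i hi).to_sup_of_normal_right' (h2 j hj) (zpowers_le.2 (mem_normalizer_fintype
    (fun _ ⟨n, e⟩ => ⟨-n, by simp only at e ⊢; rw [← e, ← conj_zpow, h3]; simp⟩)))).exists_le_sylow
  obtain ⟨T, rfl⟩ := Sylow.mapSurjective_surjective hf 2 S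
  obtain ⟨x, hx, e1⟩ := hS (mem_sup_left (mem_zpowers i))
  obtain ⟨y, hy, e2⟩ := hS (mem_sup_right (mem_zpowers j))
  have h4 : ∀ w ∈ T.1, π w = 1 → w = 1 := fun w hw e => by
    obtain ⟨m, hm⟩ := T.2 ⟨w, hw⟩
    obtain ⟨n, hn⟩ := hπ ⟨w, e⟩
    have := pow_gcd_eq_one.2 ⟨congrArg Subtype.val hm, show w ^ p ^ n = 1 from Subtype.ext (congrArg (·.1) hn)⟩
    rwa [((Nat.coprime_primes Nat.prime_two hp.1).2 hp2.symm).pow, pow_one] at this
  have h5 : ∀ w ∈ T.1, f w ^ 2 = -1 → π w * π w ≠ 1 := fun w hw e e' => h1 (by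
    rw [← e, sq, ← map_mul, h4 _ (mul_mem hw hw) (by simpa using e'), map_one])
  have := h _ (T.2.map (π.comp K.subtype)) _ (mem_map_of_mem _ hx) _ (mem_map_of_mem _ hy) (h5 x hx (e1 ▸ hi))
    (h5 y hy (e2 ▸ hj)) (by simpa using h5 _ (mul_mem hx hy) (by rwa [map_mul, e1, e2]))
  have := congrArg f (h4 (x * y * x⁻¹ * y⁻¹) (mul_mem (mul_mem (mul_mem hx hy) (inv_mem hx)) (inv_mem hy))
    (by simpa [mul_inv_eq_iff_eq_mul] using this))
  rw [map_mul, map_mul, map_mul, map_inv, map_inv, e1, e2, h3, ← _root_.mul_inv_rev, ← sq, hj, map_one, inv_eq_one] at this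
  exact h1 this

/-- Let p be a prime and let H act by conjugation on the elementary abelian p-subgroup V of a finite group, irreducibly (no H-invariant subgroups of V other than 1 and V) and nontrivially, and suppose H/C_H(V) is isomorphic to PSL₂(F) for a field F with p^n elements, p^n odd, or p = 3 and H/C_H(V) is isomorphic to a Ree group ²G₂(3^(2m+1)), m ≥ 1. Then no subgroup A of H acting nontrivially on V acts quadratically: [V, A, A] = 1 forces [V, A] = 1. -/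
theorem result {G : Type*} [Group G] [Finite G] {p : ℕ} [Fact p.Prime] (V H : Subgroup G) (hV : Cfsg.IsElementaryAbelian p V) (hHV : H ≤ Subgroup.normalizer (V : Set G)) (hirr : ∀ U : Subgroup G, U ≤ V → H ≤ Subgroup.normalizer (U : Set G) → U = ⊥ ∨ U = V) (hnt : ¬ H ≤ Subgroup.centralizer (V : Set G)) [hn : ((Subgroup.centralizer (V : Set G)).subgroupOf H).Normal] (hq : (∃ (F : Type) (_ : Field F) (_ : Fintype F) (n : ℕ), Fintype.card F = p ^ n ∧ Odd (Fintype.card F) ∧ Nonempty (↥H ⧸ (Subgroup.centralizer (V : Set G)).subgroupOf H ≃* Matrix.ProjectiveSpecialLinearGroup (Fin 2) F)) ∨ (p = 3 ∧ Cfsg.Lie.IsoRee (↥H ⧸ (Subgroup.centralizer (V : Set G)).subgroupOf H))) (A : Subgroup G) (hA : A ≤ H) (hquad : ⁅⁅V, A⁆, A⁆ = ⊥) : ⁅V, A⁆ = ⊥ := by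
  have hp := Fact.out (p := p.Prime)
  obtain ⟨hp2, hN⟩ : p ≠ 2 ∧ Nq (H ⧸ (centralizer (V : Set G)).subgroupOf H) := by
    rcases hq with ⟨F, _, _, n, h1, h2, ⟨e⟩⟩ | ⟨rfl, h⟩
    · have : CharP F p := charP_of_card_eq_prime_pow h1
      have h3 : p ≠ 2 := by
        rintro rfl
        obtain ⟨k, -, hk⟩ := FiniteField.card F 2
        exact Nat.not_odd_iff_even.2 (hk ▸ even_two.pow_of_ne_zero k.ne_zero) h2
      exact ⟨h3, (nq_L2 fun h => h3 ((Nat.prime_dvd_prime_iff_eq hp Nat.prime_two).1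
        ((CharP.cast_eq_zero_iff F p 2).1 h))).of_inj e.toMonoidHom e.injective⟩
    · exact ⟨by decide, nq_ree h⟩
  have hVp : IsPGroup p V := fun v => ⟨1, Subtype.ext (by simpa using hV.2 v v.2)⟩
  let φ := QuotientGroup.lift ((centralizer (V : Set G)).subgroupOf H) (V.normalizerMonoidHom.comp (inclusion hHV))
    fun h hh => show inclusion hHV h ∈ V.normalizerMonoidHom.ker from V.normalizerMonoidHom_ker ▸ hh
  have : Finite (V ⋊[φ] _) := .of_equiv _ equivProd.symm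
  let ψ : H →* V ⋊[φ] _ := inr.comp (QuotientGroup.mk' _)
  have hψ : ∀ (h : H) (v : V), ψ h * inl v * (ψ h)⁻¹ = inl ⟨h * v * h⁻¹, (mem_normalizer_iff.1 (hHV h.2) v).1 v.2⟩ :=
    fun h v => (map_inv ψ h ▸ inl_aut (φ := φ) h v).symm
  have hB : IsPGroup p (inl (φ := φ)).range := hVp.of_surjective _ (MonoidHom.rangeRestrict_surjective _)
  have hBn : normalizer ((inl (φ := φ)).range : Set (V ⋊[φ] _)) = ⊤ := by
    rw [range_inl_eq_ker_rightHom]; exact normalizer_eq_top _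
  let D := ((pCoreMod p ⊤ (centralizer ((inl (φ := φ)).range : Set (V ⋊[φ] _)))).comap ψ).map H.subtype
  have := normalizer_eq_top_iff.1 (top_le_iff.1 (le_normalizer_pCoreMod p ⊤
    (centralizer ((inl (φ := φ)).range : Set (V ⋊[φ] _)))))
  have hD : H ≤ normalizer (D : Set G) := Lib.PCoreConj.le_normalizer_map_subtype _
  have h1 := Lib.PReduced.inf_centralizer_ne_bot_mod hVp ((map_subtype_le _).trans hHV) (D := D) (by
    rintro _ ⟨x, hx, rfl⟩
    obtain ⟨k, hk⟩ := exists_pow_mem_of_mem_pCoreMod (hBn ▸ Lib.PCoreConj.le_normalizer_centralizer le_rfl) hx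
    refine ⟨k, fun v hv => ?_⟩
    have := hψ (x ^ p ^ k) ⟨v, hv⟩
    rw [map_pow, ← hk _ ⟨_, rfl⟩, mul_inv_cancel_right, inl_inj, Subtype.ext_iff] at this
    exact mul_inv_eq_iff_eq_mul.1 this.symm |>.symm) (by rintro rfl; exact hnt fun _ _ _ h => by simp [mem_bot.1 h])
  have h2 := (hirr _ inf_le_left (Lib.PCoreConj.le_normalizer_inf hHV (Lib.PCoreConj.le_normalizer_centralizer hD))).resolve_left h1
  rw [commutator_eq_bot_iff_le_centralizer, le_centralizer_iff]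
  refine fun a ha => le_centralizer_iff.1 (h2.ge.trans inf_le_right) ⟨⟨a, hA ha⟩, ?_, rfl⟩
  have := nstable_of_not_involves_SL2 hp2 (not_involves hp2 hN rightHom (range_inl_eq_ker_rightHom (φ := φ) ▸ hB)) _ hB
    (ψ ⟨a, hA ha⟩) (hBn ▸ trivial) ?_
  · rwa [hBn] at this
  have h3 : ∀ g ∈ zpowers (ψ ⟨a, hA ha⟩), ∃ b : H, b.1 ∈ A ∧ ψ b = g := fun _ ⟨n, e⟩ =>
    ⟨⟨a, hA ha⟩ ^ n, zpow_mem ha n, (map_zpow ..).trans e⟩
  refine le_bot_iff.1 ((commutator_mono (K₁ := (⁅V, A⁆.subgroupOf V).map inl) (commutator_le.2 ?_) le_rfl).trans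
    (commutator_le.2 ?_))
  · rintro _ ⟨v, rfl⟩ g hg
    obtain ⟨b, hb, rfl⟩ := h3 g hg
    rw [commutatorElement_def, mul_assoc, mul_assoc, ← mul_assoc (ψ b), ← map_inv, hψ, ← map_mul]
    exact mem_map_of_mem _ (by simpa [mem_subgroupOf, commutatorElement_def, mul_assoc] using
      commutator_mem_commutator v.2 hb)
  · rintro _ ⟨v, hv, rfl⟩ g hg
    obtain ⟨b, hb, rfl⟩ := h3 g hg
    rw [commutatorElement_def, mul_assoc, mul_assoc, ← mul_assoc (ψ b), ← map_inv, hψ, ← map_mul, mem_bot,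
      map_eq_one_iff _ inl_injective, Subtype.ext_iff]
    simpa [commutatorElement_def, mul_assoc] using hquad.le (commutator_mem_commutator hv hb)

end Cfsg.Agent.S2787
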