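import Cfsg.Statements.S2788
import Cfsg.Agent.Lib.FixL2

set_option autoImplicit false
open Cfsg

namespace Cfsg.Agent.S2788

open Subgroup Cfsg.Agent.Lib.PCore Cfsg.Agent.Lib.PCoreResidual Cfsg.Agent.Lib.FixIndex
  Cfsg.Agent.Lib.FixL2

/-- Let H act faithfully by conjugation on the elementary abelian p-subgroup V of a finite group with H ≅ SL₂(F), F a field with p^n elements, S a Sylow p-subgroup of H, and A ≤ S a subgroup of order at least 3 acting quadratically on V ([V, A, A] = 1). Then |V/C_V(a)| ≥ p^n for every nonidentity a ∈ A. -/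
theorem result {G : Type*} [Group G] [Finite G] {p : ℕ} [Fact p.Prime] (V H : Subgroup G) (hV : Cfsg.IsElementaryAbelian p V) (hHV : H ≤ Subgroup.normalizer (V : Set G)) (hf : H ⊓ Subgroup.centralizer (V : Set G) = ⊥) {F : Type*} [Field F] [Fintype F] (n : ℕ) (hF : Fintype.card F = p ^ n) (hiso : Nonempty (↥H ≃* Matrix.SpecialLinearGroup (Fin 2) F)) (S : Sylow p ↥H) (T : Subgroup G) (hT : T = ((S : Subgroup ↥H).map H.subtype)) (A : Subgroup G) (hA : A ≤ T) (hA3 : 3 ≤ Nat.card A) (hquad : ⁅⁅V, A⁆, A⁆ = ⊥) : ∀ a ∈ A, a ≠ 1 → p ^ n ≤ ((V ⊓ Subgroup.centralizer ({a} : Set G))).relIndex V := by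
  intro a ha ha1
  have hS : IsSylowIn p T H := hT ▸ isSylowIn_map_subtype S
  have hVp := isPGroup_of_isElementaryAbelian hV
  have haH := hS.le (hA ha)
  by_cases hn : 2 ≤ n
  · have := Lib.SL2Nat.charP_of_card p hF
    obtain ⟨e⟩ := hiso
    obtain ⟨k, hk⟩ := isPGroup_iff_forall_mem.mp hS.isPGroup a (hA ha)
    obtain ⟨N, h1, h2, h3, h4⟩ := exists_prim_add_one p n (by omega) (Or.inr hn)
    have hk' : (⟨a, haH⟩ : H) ^ p ^ k = 1 := Subtype.ext hk
    obtain ⟨b, c, hbc⟩ := exists_pair_sl (p := p) (hF ▸ h2) h3 h4 (s := e ⟨a, haH⟩) (k := k)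
      (by rw [← map_pow, hk', map_one])
      fun h => ha1 (congrArg Subtype.val (e.map_eq_one_iff.mp h))
    have h5 := (h1.bound₂ hVp hHV hf e.toMonoidHom e.surjective _ hbc).2
    rw [mul_comm, pow_mul] at h5
    exact (Nat.pow_le_pow_iff_left two_ne_zero).mp h5
  · obtain ⟨k, hk, e⟩ := exists_fx_eq hVp (a := a) fun h => ha1 (mem_bot.mp (hf ▸ ⟨haH, h⟩))
    exact (Nat.pow_le_pow_right (Fact.out : p.Prime).pos (by omega)).trans e.ge

end Cfsg.Agent.S2788
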