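import Cfsg.Statements.S2791
import Cfsg.Agent.Lib.FusionControl

set_option autoImplicit false
open Cfsg

namespace Cfsg.Agent.S2791

open Subgroup Cfsg.Agent.Lib Cfsg.Agent.Lib.PCoreConj Cfsg.Agent.Lib.PCore Cfsg.Agent.Lib.PCoreResidual Cfsg.Agent.Lib.FusionControl



/-- Let S be a Sylow p-subgroup of the finite group G and A an abelian subgroup of S that is strongly closed in S with respect to G. Then A controls strong fusion in G: for some Sylow p-subgroup T containing A, whenever a subset of T is conjugated into T by an element of G, the same elementwise conjugation is induced by an element of N_G(A). -/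
theorem result {G : Type*} [Group G] [Finite G] {p : ℕ} [Fact p.Prime] (S : Sylow p G) (A : Subgroup G) (hA : IsMulCommutative ↥A) (hsc : Cfsg.IsStronglyClosed A (S : Subgroup G)) : Cfsg.ControlsStrongFusion p A := by
  refine controlsStrongFusion_iff.mpr ⟨S, hsc.1, fun B g _ => ?_⟩
  refine TransferAlperin.inducedBy_of_local S _ (fun n hn => .of_mem (sc_normalizer hsc hn)) ?_ B g
  intro H hH hHe hHc n hn
  have hN := sc_normalizer_inf hsc hH.le
  have hSA := sc_le_normalizer hsc
  have hAH : A ≤ H := le_of_inf_normalizer_le S.2 hH.le hsc.1 (hH.le.trans hSA) fun a ha =>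
    mem_of_centricRadical S.2 hHe hHc hN (hsc.1 ha.1) ha.2
      (fun b hb => isMulCommutative_iff_forall.mp hA b hb.1 a ha.1) fun r hr =>
      ⟨commutator_le_right_of_le_normalizer (hH.le.trans hSA) (commutator_mem_commutator hr ha.1),
        commutator_le_left_of_le_normalizer inf_le_right (commutator_mem_commutator hr ha)⟩
  rw [inf_eq_left.mpr hAH] at hN
  exact .of_mem (hN hn)

end Cfsg.Agent.S2791
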