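import Cfsg.Statements.S2792
import Cfsg.Agent.Lib.Yoshida

set_option autoImplicit false
open Cfsg

namespace Cfsg.Agent.S2792

open Subgroup Cfsg.Agent.Lib.PCore Cfsg.Agent.Lib.PCoreConj

open scoped Pointwise

/-- Let S be a Sylow p-subgroup of the finite group G and W a subgroup of S weakly closed in S with respect to G. If S ∩ G' ≠ S ∩ (N_G(W))', then there are x ∈ S, z ∈ W and a maximal subgroup W₀ of W such that the iterated commutator [x, z; p−1] (with [x, z] = x⁻¹z⁻¹xz and [x, z; i+1] = [[x, z; i], z]) lies in W₀ but not in the Frattini subgroup of W₀; in particular [x, z; p−1] ≠ 1. -/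
theorem result {G : Type*} [Group G] [Finite G] {p : ℕ} [Fact p.Prime] (S : Sylow p G) (W : Subgroup G) (hW : Cfsg.IsWeaklyClosed W (S : Subgroup G)) (h : (S : Subgroup G) ⊓ commutator G ≠ (S : Subgroup G) ⊓ ⁅Subgroup.normalizer (W : Set G), Subgroup.normalizer (W : Set G)⁆) : ∃ x ∈ (S : Subgroup G), ∃ z ∈ W, ∃ W₀ : Subgroup ↥W, IsCoatom W₀ ∧ (fun y : G => y⁻¹ * z⁻¹ * y * z)^[p - 1] x ∈ W₀.map W.subtype ∧ (fun y : G => y⁻¹ * z⁻¹ * y * z)^[p - 1] x ∉ ((frattini ↥W₀).map W₀.subtype).map W.subtype := by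
  have hS := isSylowIn_top S
  have hN : (S : Subgroup G) ≤ normalizer (W : Set G) := fun x hx =>
    mem_normalizer_iff_conj_eq.mpr (hW.2 x (conj_le_of_mem hW.1 hx))
  obtain ⟨H, M, ψ, z, v, a₁, a₂, a₃, a₄, a₅, a₆, a₇, a₈, a₉⟩ := Lib.Yoshida.yoshida hS hN hW.1 (fun x hx => by
    obtain ⟨m, hm, h⟩ := (hS.of_le hN le_top).exists_conj_le (Q := W ^ᶜ x⁻¹)
      (conj_le_iff.mpr fun r hr => by simpa using hx r hr) (isPGroup_conj (hS.isPGroup.to_le hW.1) _)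
    rw [conj_conj] at h
    simpa using mul_mem (inv_mem (mem_normalizer_iff_conj_eq.mpr (hW.2 _ h))) hm) h
  have hv : (v (p - 1) : G) ∈ W := by
    have h₁ := a₂ (a₃.le (v (p - 2)).2)
    rw [a₈, show p - 1 = p - 2 + 1 by have := (Fact.out : p.Prime).two_le; omega, Function.iterate_succ_apply', ← a₈]
    simpa using mul_mem ((mem_normalizer_iff.mp (hN (inv_mem h₁)) _).mp (inv_mem a₆)) a₆
  refine ⟨v 0, a₂ (a₃.le (v 0).2), z, a₆, M.subgroupOf W, ⟨fun e => a₇ (e.ge (mem_top (⟨z, a₆⟩ : W))), fun Y hY => ?_⟩,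
    a₈ _ ▸ ⟨⟨_, hv⟩, (v _).2, rfl⟩, ?_⟩
  · obtain ⟨y, hy, hyM⟩ := SetLike.exists_of_lt hY
    refine top_le_iff.mp fun w _ => ?_
    obtain ⟨i, s, hs, e⟩ := a₅ y (a₁ y.2) hyM w (a₁ w.2)
    rw [← mul_inv_cancel_left (y ^ i) w]
    refine mul_mem (pow_mem hy i) (hY.le ?_)
    change ((y : G) ^ i)⁻¹ * w ∈ M
    rwa [e, inv_mul_cancel_left]
  · rintro ⟨_, ⟨x, hx, rfl⟩, e⟩
    let χ := ψ.comp ((W.subtype.comp (M.subgroupOf W).subtype).codRestrict M fun x => x.2)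
    have h₁ : χ x = ψ (v (p - 1)) := congrArg ψ (Subtype.ext (e.trans (a₈ _).symm))
    haveI : Fact (Nat.card (Multiplicative (ZMod p))).Prime := ⟨by simpa using (Fact.out : p.Prime)⟩
    have h₂ := frattini_le_comap_frattini_of_surjective (MonoidHom.range_eq_top.mp
      (χ.range.eq_bot_or_eq_top_of_prime_card.resolve_left fun e => a₉ (h₁ ▸ mem_bot.mp (e.le ⟨x, rfl⟩)))) hx
    rw [(frattini _).eq_bot_or_eq_top_of_prime_card.resolve_right Lib.FrattiniFacts.frattini_ne_top] at h₂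
    exact a₉ (h₁ ▸ h₂)

end Cfsg.Agent.S2792
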