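import Cfsg.Statements.S2793
import Cfsg.Agent.Lib.ZJFail

set_option autoImplicit false
open Cfsg

namespace Cfsg.Agent.S2793

open Subgroup Cfsg.Agent.Lib Cfsg.Agent.Lib.PCoreConj Cfsg.Agent.Lib.PCore Cfsg.Agent.Lib.ThompsonJ



/-- Let p be an odd prime, S a Sylow p-subgroup of the finite group G, J(S) the subgroup generated by the abelian subgroups of S of largest order, and suppose Z(J(S)) does not control strong fusion in G. Put H = N_G(Z(J(S))). Then the group F(p) of upper triangular 3 × 3 matrices (a b c; 0 a⁻¹ d; 0 0 1) over the field with p elements is involved in H, and Z(J(S)) contains a subgroup C of order p with |N_H(C) : C_H(C)| = p − 1. -/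
theorem result {G : Type*} [Group G] [Finite G] {p : ℕ} [Fact p.Prime] (hp : p ≠ 2) (S : Sylow p G) (h : ¬ Cfsg.ControlsStrongFusion p (Cfsg.centerThompsonAOf (S : Subgroup G))) (H : Subgroup G) (hH : H = Subgroup.normalizer ((Cfsg.centerThompsonAOf (S : Subgroup G)) : Set G)) : Cfsg.Involves ↥(Cfsg.fOver (ZMod p)) ↥H ∧ ∃ C : Subgroup G, C ≤ (Cfsg.centerThompsonAOf (S : Subgroup G)) ∧ Nat.card C = p ∧ (H ⊓ Subgroup.centralizer (C : Set G)).relIndex (H ⊓ Subgroup.normalizer (C : Set G)) = p - 1 := by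

  have hpp : p.Prime := Fact.out
  subst hH
  rw [centerThompsonAOf_eq] at h ⊢
  obtain ⟨g, hg⟩ := IsCyclic.exists_monoid_generator (α := (ZMod p)ˣ)
  have hm : ∀ μ : ZMod p, μ ≠ 0 → ∃ k, (((g : ZMod p).val : ℕ) : ZMod p) ^ k = μ := fun μ hμ => by
    obtain ⟨k, hk⟩ := hg (Units.mk0 μ hμ)
    exact ⟨k, by simpa using congrArg Units.val hk⟩
  obtain ⟨⟨c, hc, c1, t, ht, e⟩, h2⟩ := ZJFail.main hp hm (by simp) G S (isSylowIn_top S)
    fun h' => h (FusionControl.controlsStrongFusion_iff.mpr ⟨S, ZJ_le _ _, h'⟩)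
  refine ⟨h2, ?_⟩
  set m := (g : ZMod p).val
  obtain ⟨x, hx, x1, xp⟩ := exists_mem_pow_eq_one (S.isPGroup'.to_le ((zpowers_le.mpr hc).trans (ZJ_le _ _)))
    (by simpa using c1)
  have e' : t * x * t⁻¹ = x ^ m := by
    obtain ⟨j, rfl⟩ := hx
    simp only
    rw [← conj_zpow, e, ← zpow_natCast, ← zpow_natCast, ← zpow_mul, ← zpow_mul, mul_comm]
  have ho : orderOf x = p := orderOf_eq_prime xp x1
  have hcard : Nat.card (zpowers x) = p := by rw [Nat.card_zpowers, ho]
  refine ⟨zpowers x, zpowers_le.mpr (zpowers_le.mpr hc hx), hcard, ?_⟩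
  set H := normalizer ((ZJ 0 (S : Subgroup G) : Subgroup G) : Set G)
  set C := zpowers x
  let φ : ↥(H ⊓ normalizer (C : Set G)) →* MulAut C := C.normalizerMonoidHom.comp (inclusion inf_le_right)
  have hk : (H ⊓ centralizer (C : Set G)).subgroupOf (H ⊓ normalizer (C : Set G)) = φ.ker := by
    rw [← MonoidHom.comap_ker, normalizerMonoidHom_ker]
    ext y
    simp only [mem_subgroupOf, mem_inf, mem_comap, coe_inclusion]
    exact and_iff_right y.2.1
  have htN : t ∈ normalizer (C : Set G) := mem_normalizer_of_conj_le (by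
    rw [conj_zpowers, e']; exact zpowers_le.mpr (pow_mem (mem_zpowers x) m))
  have hs : φ.range = ⊤ := eq_top_iff.mpr fun σ _ => by
    obtain ⟨j, hj⟩ := (mem_powers_iff_mem_zpowers.mpr (σ ⟨x, mem_zpowers x⟩).2)
    have hj0 : (j : ZMod p) ≠ 0 := fun h0 => by
      have : σ ⟨x, mem_zpowers x⟩ = 1 := Subtype.ext (hj.symm.trans
        (orderOf_dvd_iff_pow_eq_one.mp (ho ▸ (ZMod.natCast_eq_zero_iff j p).mp h0)))
      exact x1 (congrArg Subtype.val (σ.map_eq_one_iff.mp this))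
    obtain ⟨k, hk⟩ := hm _ hj0
    have e2 : ∀ k : ℕ, t ^ k * x * (t ^ k)⁻¹ = x ^ m ^ k := fun k => by
      induction k with
      | zero => simp
      | succ k ih => rw [pow_succ' t, show t * t ^ k * x * (t * t ^ k)⁻¹ = t * (t ^ k * x * (t ^ k)⁻¹) * t⁻¹ by group,
          ih, ← conj_pow, e', ← pow_mul, pow_succ']
    refine ⟨⟨t, ht, htN⟩ ^ k, MulEquiv.toMonoidHom_injective (MonoidHom.eq_of_eqOn_dense
      (s := {⟨x, mem_zpowers x⟩}) ?_ ?_)⟩
    · rw [← zpowers_eq_closure, eq_top_iff]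
      rintro ⟨_, i, rfl⟩ -
      exact ⟨i, rfl⟩
    · rintro _ rfl
      refine Subtype.ext ((e2 k).trans (Eq.trans ?_ hj))
      rw [pow_eq_pow_iff_modEq, ho, ← ZMod.natCast_eq_natCast_iff, Nat.cast_pow, hk]
  rw [relIndex, hk, index_ker, hs, card_top, IsCyclic.card_mulAut, hcard, Nat.totient_prime hpp]

end Cfsg.Agent.S2793
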