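import Cfsg.Statements.S2794
import Cfsg.Agent.Lib.QdFacts

set_option autoImplicit false
open Cfsg

namespace Cfsg.Agent.S2794

open Subgroup Cfsg.Agent.Lib Cfsg.Agent.Lib.PCoreConj Cfsg.Agent.Lib.PCore Cfsg.Agent.Lib.PCoreResidual Cfsg.Agent.Lib.ThompsonJ Cfsg.Agent.Lib.FusionControl Cfsg.Agent.Lib.ZJ Cfsg.Agent.Lib.Sections Cfsg.Agent.Lib.QuadPair



/-- For an odd prime p and a finite group G, the group Qd(p) is not involved in G if and only if in every section K/R of G, for every Sylow p-subgroup S* of K/R, the centre of J(S*) (J generated by the abelian subgroups of largest order) controls strong fusion in K/R. -/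
theorem result {G : Type*} [Group G] [Finite G] {p : ℕ} [Fact p.Prime] (hp : p ≠ 2) : ¬ Cfsg.Involves ↥(Cfsg.qd p) G ↔ ∀ (K R : Subgroup G) [hR : (R.subgroupOf K).Normal], ∀ T : Sylow p (K ⧸ R.subgroupOf K), Cfsg.ControlsStrongFusion p (Cfsg.centerThompsonAOf (T : Subgroup (K ⧸ R.subgroupOf K))) := by
  constructor
  · intro h K R _ T
    rw [centerThompsonAOf_eq]
    exact controlsStrongFusion_iff.mpr ⟨T, ZJ_le _ _, ctrl_ZJ_of_not_involves hp
      (fun h' => h (involves_trans h' (involves_section K R))) (isSylowIn_top T)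
      (isStronglyClosed_self _) (dvd_zero p)⟩
  · rintro h ⟨K, R, _, ⟨e⟩⟩
    obtain ⟨T⟩ := (Sylow.nonempty : Nonempty (Sylow p (K ⧸ R.subgroupOf K)))
    have h1 := h K R T
    rw [centerThompsonAOf_eq] at h1
    obtain ⟨T', -, h2⟩ := controlsStrongFusion_iff.mp h1
    have h3 := h2.map_equiv e
    have h4 : ∀ T : Sylow p (K ⧸ R.subgroupOf K),
        IsSylowIn p ((T : Subgroup _).map e.toMonoidHom) ⊤ := fun T => by
      have := (isSylowIn_top T).map e.toMonoidHom
      rwa [map_top_of_surjective _ e.surjective] at this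
    rw [map_top_of_surjective _ e.surjective, map_equiv_normalizer_eq,
      map_ZJ (inf_ker_of_injective e.injective _)] at h3
    exact QdFacts.not_ctrl (h4 T) (h4 T') h3

end Cfsg.Agent.S2794
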