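import Cfsg.Statements.S2807
import Cfsg.Agent.Lib.Yoshida

set_option autoImplicit false
open Cfsg

namespace Cfsg.Agent.S2807

open Subgroup Cfsg.Agent.Lib.PCore Cfsg.Agent.Lib.PCoreConj Cfsg.Agent.Lib.TrDeg

open scoped Pointwise commutatorElement

/-- Let S be a Sylow p-subgroup of the finite group G. If S ∩ G' ≠ S ∩ (N_G(S))' (derived subgroups), then the wreath product Z_p ≀ Z_p — realised as a Sylow p-subgroup of the symmetric group of degree p² — is a homomorphic image of S. -/
theorem result {G : Type*} [Group G] [Finite G] {p : ℕ} [Fact p.Prime] (S : Sylow p G) (h : (S : Subgroup G) ⊓ commutator G ≠ (S : Subgroup G) ⊓ ⁅Subgroup.normalizer ((S : Subgroup G) : Set G), Subgroup.normalizer ((S : Subgroup G) : Set G)⁆) : ∃ (P : Sylow p (Equiv.Perm (Fin (p ^ 2)))) (f : ↥(S : Subgroup G) →* ↥(P : Subgroup (Equiv.Perm (Fin (p ^ 2))))), Function.Surjective f := by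
  have hp : p.Prime := Fact.out
  have hS := isSylowIn_top S
  obtain ⟨H, M, ψ, z, v, a₁, a₂, a₃, a₄, a₅, a₆, a₇, a₈, a₉⟩ := Lib.Yoshida.yoshida hS le_normalizer le_rfl
    (fun x hx => by
      obtain ⟨m, hm, h⟩ := (hS.of_le le_normalizer le_top).exists_conj_le (Q := (S : Subgroup G) ^ᶜ x⁻¹)
        (conj_le_iff.mpr fun r hr => by simpa using hx r hr) (isPGroup_conj hS.isPGroup _)
      rw [conj_conj] at h
      simpa using mul_mem (inv_mem (mem_normalizer_of_conj_le h)) hm) h
  obtain rfl : H = S := le_antisymm a₂ a₁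
  set M₁ := M.subgroupOf (S : Subgroup G)
  have : M₁.Normal := normal_subgroupOf_of_le a₄
  have b₁ : M₁.index = p := by
    have := Lib.FrattiniFacts.index_prime_of_isCoatom_normal (M := M₁) ⟨fun e => a₇ (e.ge (mem_top ⟨z, a₆⟩)),
      fun Y hY => by
        obtain ⟨y, hy, hyM⟩ := SetLike.exists_of_lt hY
        refine top_le_iff.mp fun w _ => ?_
        obtain ⟨i, s, hs, e⟩ := a₅ y y.2 hyM w w.2
        rw [← mul_inv_cancel_left (y ^ i) w]
        refine mul_mem (pow_mem hy i) (hY.le ?_)
        change ((y : G) ^ i)⁻¹ * w ∈ M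
        rwa [e, inv_mul_cancel_left]⟩
    obtain ⟨n, hn⟩ := S.isPGroup'.index M₁
    exact (Nat.prime_dvd_prime_iff_eq this hp).mp (this.dvd_of_dvd_pow hn.dvd)
  set K := (ψ.ker.map M.subtype).subgroupOf (S : Subgroup G)
  have b₂ : K ≤ M₁ := comap_mono (map_subtype_le _)
  haveI : Fact (Nat.card (Multiplicative (ZMod p))).Prime := ⟨by simpa using hp⟩
  have b₃ : Nat.card (_ ⧸ K) = p ^ 2 := by
    rw [← index_eq_card, ← relIndex_mul_index b₂, b₁, relIndex_subgroupOf a₃.le, relIndex, map_subtype_subgroupOf,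
      index_ker, ψ.range.eq_bot_or_eq_top_of_prime_card.resolve_left fun e => a₉ (mem_bot.mp (e.le ⟨_, rfl⟩))]
    simp [sq]
  let f := (Finite.equivFinOfCardEq b₃).permCongrHom.toMonoidHom.comp (MulAction.toPermHom (S : Subgroup G) (_ ⧸ K))
  have b₄ : f.ker ≤ K := by
    rw [MonoidHom.ker_comp_of_injective _ _ (MulEquiv.injective _), ← normalCore_eq_ker]
    exact normalCore_le K
  have b₅ : IsPGroup p f.range := S.isPGroup'.of_surjective _ f.rangeRestrict_surjective
  obtain ⟨P, hP⟩ := b₅.exists_le_sylow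
  have st : ∀ X Y : Subgroup (Equiv.Perm (Fin (p ^ 2))), X < Y → Y ≤ f.range → p * Nat.card X ≤ Nat.card Y :=
    fun X Y h h' => by
      obtain ⟨n, hn⟩ := (b₅.to_le h').index (X.subgroupOf Y)
      rw [← card_mul_relIndex h.le, mul_comm, relIndex, hn]
      refine Nat.mul_le_mul_left _ (Nat.le_self_pow (fun e => h.not_ge ?_) p)
      rwa [e, pow_zero, index_eq_one, subgroupOf_eq_top] at hn
  set Z := zpowers (f ⟨z, a₆⟩)
  have hZ : Z ≤ f.range := zpowers_le.mpr ⟨_, rfl⟩
  have hn : Z ≤ normalizer (M₁.map f : Set _) := zpowers_le.mpr (Subgroup.le_normalizer_map f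
    (mem_map_of_mem f (normal_iff_top_le.mp inferInstance (mem_top _))))
  have hX : ∀ j, iterCommutator (M₁.map f) Z j ≤ f.range := fun j => (it_le hn j).trans (map_le_range _ _)
  have hv : ∀ j, f ⟨v j, a₃.le (v j).2⟩ ∈ iterCommutator (M₁.map f) Z j := fun j => by
    induction j with
    | zero => exact mem_map_of_mem f (v 0).2
    | succ j ih =>
      rw [it_succ]
      convert commutator_mem_commutator (inv_mem ih) (inv_mem (mem_zpowers (f ⟨z, a₆⟩))) using 1
      rw [← map_inv, ← map_inv, ← map_commutatorElement]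
      refine congrArg f (Subtype.ext ?_)
      simp [commutatorElement_def, a₈ (j + 1), a₈ j, Function.iterate_succ_apply', -Function.iterate_succ]
  have c₁ : ∀ j ≤ p, p ^ j * Nat.card (iterCommutator (M₁.map f) Z j) ≤ Nat.card (M₁.map f) := fun j hj => by
    induction j with
    | zero => simp [iterCommutator]
    | succ j ih =>
      refine le_trans ?_ (ih (by omega))
      rw [pow_succ, mul_assoc]
      refine Nat.mul_le_mul_left _ (st _ _ (commutator_lt (b₅.to_le hZ) (b₅.to_le (hX j))
        (le_normalizer_it hn le_normalizer j) fun e => a₉ ?_) (hX j))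
      obtain ⟨x, hx, e'⟩ := b₄ (mem_bot.mp (e.le (it_antitone hn (show j ≤ p - 1 by omega) (hv _))))
      rwa [← show x = v (p - 1) from Subtype.ext e']
  have c₂ := st (M₁.map f) _ (lt_of_le_not_ge (map_le_range _ _) fun e => a₇ (by
    have := e ⟨⟨z, a₆⟩, rfl⟩
    rwa [← mem_comap, comap_map_eq_self (b₄.trans b₂)] at this)) le_rfl
  have e : f.range = P := eq_of_le_of_card_le hP (by
    rw [P.card_eq_multiplicity, Nat.card_perm, Nat.card_eq_fintype_card, Fintype.card_fin,
      show (p ^ 2).factorial.factorization p = 1 + p by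
        rw [sq, Nat.factorization_factorial_mul hp]
        simpa using Nat.factorization_factorial_mul (n := 1) hp, pow_add, pow_one]
    exact (Nat.mul_le_mul_left _ ((Nat.le_mul_of_pos_right _ Nat.card_pos).trans (c₁ p le_rfl))).trans c₂)
  exact ⟨P, f.codRestrict _ fun x => e.le ⟨x, rfl⟩, fun y => (e.ge y.2).imp fun _ h => Subtype.ext h⟩

end Cfsg.Agent.S2807
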