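import Cfsg.Statements.S2856
import Cfsg.Agent.Lib.CosetGraph

set_option autoImplicit false
open Cfsg

namespace Cfsg.Agent.S2856

open Subgroup Cfsg.Agent.Lib.PCoreConj Cfsg.Agent.Lib.PCore Cfsg.Agent.Lib.PCoreResidual Cfsg.Agent.Lib.PCoreMod
open Cfsg.Agent.Lib.PReduced Cfsg.Agent.Lib.CosetGraph
open scoped Pointwise commutatorElement

/-- Let (M₁, M₂) be an amalgam pair in X satisfying the rank-two standing hypothesis (characteristic p, the normalizers in M₁ and in M₂ of a Sylow p-subgroup of M₁ ∩ M₂ equal and contained in M₁ ∩ M₂, and strongly p-embedded residues), λ a vertex of the coset graph, L_λ the subgroup of its stabilizer generated by the p-elements, Q_λ = O_p of the stabilizer, O^p(L_λ) the subgroup of L_λ generated by its elements of order prime to p, and V_λ^{(k)} the subgroup generated by the Z_μ over the vertices μ at distance at most k from λ (Z_μ being generated by the Ω₁(Z(S)), S a Sylow p-subgroup of the stabilizer of μ). If n ≥ 1 and V_λ^{(n)} ≤ Q_λ,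 then O^p(L_λ) does not centralize V_λ^{(n)}/[V_λ^{(n)}, Q_λ], that is, [V_λ^{(n)}, O^p(L_λ)] is not contained in [V_λ^{(n)}, Q_λ]. -/
theorem result {X : Type*} [Group X] {p : ℕ} [Fact p.Prime] (M₁ M₂ : Subgroup X) (h : Cfsg.IsSpeAmalgamPair p M₁ M₂) (lam : Cfsg.CosetVertex M₁ M₂) (n : ℕ) (hn : 1 ≤ n) (V : Subgroup X) (hV : V = Cfsg.vertexVIter p M₁ M₂ n lam) (hVQ : V ≤ Cfsg.vertexQ p lam) : ¬ ⁅V, ((Cfsg.pResidual p ↥(Cfsg.pElementClosure p (MulAction.stabilizer X lam))).map (Cfsg.pElementClosure p (MulAction.stabilizer X lam)).subtype)⁆ ≤ ⁅V, Cfsg.vertexQ p lam⁆ := by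
  intro hc
  rw [pResidualOf_def] at hc
  have hgen := h.1.1.1
  have := finite_stabilizer h.1 lam
  obtain ⟨μ, hμ⟩ := exists_adj lam
  obtain ⟨m, rfl⟩ : ∃ m, n = m + 1 := ⟨n - 1, by omega⟩
  set U := vertexVIter p M₁ M₂ m μ with hU
  have hQG : vertexQ p lam ≤ MulAction.stabilizer X lam := pCoreOf_le p _
  have := finite_of_le hQG
  have := finite_of_le hVQ
  have hGV : MulAction.stabilizer X lam ≤ normalizer (V : Set X) :=
    hV ▸ le_normalizer_vertexVIter _ _
  have hUV : U ≤ V := hV ▸ vertexVIter_le_iff.2 fun ν hν =>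
    vertexZ_le_vertexVIter ((dist_le_succ_of_adj hgen hμ ν).trans (Nat.succ_le_succ hν))
  have hGC : MulAction.stabilizer X lam ≤
      normalizer ((⁅V, vertexQ p lam⁆ : Subgroup X) : Set X) :=
    le_normalizer_commutator hGV (le_normalizer_pCoreOf p _)
  have hGW : MulAction.stabilizer X lam ≤
      normalizer ((U ⊔ ⁅V, vertexQ p lam⁆ : Subgroup X) : Set X) := by
    refine (stabilizer_le_pResidualOf_sup h hμ).trans (sup_le ?_ ?_)
    · exact le_normalizer_of_commutator_le_of_le (hc.trans le_sup_right)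
        (sup_le hUV (commutator_le_left_of_le_normalizer (hQG.trans hGV)))
    · exact le_normalizer_sup (inf_le_right.trans (le_normalizer_vertexVIter _ _))
        (inf_le_left.trans hGC)
  have hVW : V ≤ U ⊔ ⁅V, vertexQ p lam⁆ := by
    rw [hV]
    refine vertexVIter_le_iff.2 fun ν hν => ?_
    rw [← hV]
    by_cases e : lam = ν
    · subst e
      obtain ⟨T, hT⟩ := exists_isSylowIn p
        (MulAction.stabilizer X lam ⊓ MulAction.stabilizer X μ)
      obtain ⟨h1, h2⟩ := isSylowIn_of_adj h.1 hμ hT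
      rw [vertexZ, sylowCenterClosure_eq_nclIn h1]
      refine nclIn_le (le_trans ?_ le_sup_left) hGW
      exact (omegaOneCenter_le_sylowCenterClosure h2).trans (vertexZ_le_vertexVIter (by simp))
    · obtain ⟨β, hβ, hβd⟩ := exists_adj_dist_lt hgen e
      obtain ⟨g, hg, rfl⟩ := exists_smul_eq_of_adj hμ hβ
      refine (vertexZ_le_vertexVIter (n := m) (δ := g • μ) (by omega)).trans ?_
      rw [vertexVIter_smul]
      exact conj_le_of_mem_normalizer le_sup_left (hGW hg)
  have hQμ := vertexQ_le_of_adj h.1 hμ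
  have hVU : V = U := le_antisymm (le_of_le_sup_commutator (pCoreOf_isPGroup p _)
    ((pCoreOf_isPGroup p _).to_le hVQ) (hQG.trans hGV)
    (hQμ.trans (le_normalizer_vertexVIter _ _))
    ((hVQ.trans hQμ).trans (le_normalizer_vertexVIter _ _)) hVW) hUV
  have hb : V = ⊥ := eq_bot_of_le_normalizer h.1.1 hμ (hVQ.trans (le_inf hQG hQμ)) hGV
    (hVU ▸ le_normalizer_vertexVIter _ _)
  refine vertexZ_ne_bot h.1 lam (le_bot_iff.1 ?_)
  rw [← hb, hV]
  exact vertexZ_le_vertexVIter (by simp)

end Cfsg.Agent.S2856
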