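import Cfsg.Statements.S2857
import Cfsg.Agent.Lib.CosetGraph

set_option autoImplicit false
open Cfsg

namespace Cfsg.Agent.S2857

open Subgroup Cfsg.Agent.Lib.PCoreConj Cfsg.Agent.Lib.PCore Cfsg.Agent.Lib.PCoreResidual Cfsg.Agent.Lib.PCoreMod
open Cfsg.Agent.Lib.PReduced Cfsg.Agent.Lib.CosetGraph
open scoped Pointwise commutatorElement

/-- Let (M₁, M₂) be an amalgam pair in X satisfying the rank-two standing hypothesis (characteristic p, the normalizers in M₁ and in M₂ of a Sylow p-subgroup of M₁ ∩ M₂ equal and contained in M₁ ∩ M₂, and strongly p-embedded residues), λ a vertex of the coset graph, L_λ the subgroup of its stabilizer generated by the p-elements, Q_λ = O_p of the stabilizer, O^p(L_λ) the subgroup of L_λ generated by its elements of order prime to p, and V_λ^{(k)} the subgroup generated by the Z_μ over the vertices μ at distance at most k from λ (Z_μ being generated by the Ω₁(Z(S)), S a Sylow p-subgroup of the stabilizer of μ). If n ≥ 2 and V_λ^{(n)}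 ≤ Q_λ, then O^p(L_λ) does not centralize V_λ^{(n)}/V_λ^{(n-2)}, that is, [V_λ^{(n)}, O^p(L_λ)] is not contained in V_λ^{(n-2)}. -/
theorem result {X : Type*} [Group X] {p : ℕ} [Fact p.Prime] (M₁ M₂ : Subgroup X) (h : Cfsg.IsSpeAmalgamPair p M₁ M₂) (lam : Cfsg.CosetVertex M₁ M₂) (n : ℕ) (hn : 2 ≤ n) (hVQ : Cfsg.vertexVIter p M₁ M₂ n lam ≤ Cfsg.vertexQ p lam) : ¬ ⁅Cfsg.vertexVIter p M₁ M₂ n lam, ((Cfsg.pResidual p ↥(Cfsg.pElementClosure p (MulAction.stabilizer X lam))).map (Cfsg.pElementClosure p (MulAction.stabilizer X lam)).subtype)⁆ ≤ Cfsg.vertexVIter p M₁ M₂ (n - 2) lam := by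
  intro hc
  rw [pResidualOf_def] at hc
  have hgen := h.1.1.1
  have := finite_stabilizer h.1 lam
  obtain ⟨μ, hμ⟩ := exists_adj lam
  obtain ⟨m, rfl⟩ : ∃ m, n = m + 2 := ⟨n - 2, by omega⟩
  rw [Nat.add_sub_cancel] at hc
  set U := vertexVIter p M₁ M₂ (m + 1) μ with hU
  have hQG : vertexQ p lam ≤ MulAction.stabilizer X lam := pCoreOf_le p _
  have hUV : U ≤ vertexVIter p M₁ M₂ (m + 2) lam := vertexVIter_le_iff.2 fun ν hν =>
    vertexZ_le_vertexVIter ((dist_le_succ_of_adj hgen hμ ν).trans (Nat.succ_le_succ hν))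
  have hVU : vertexVIter p M₁ M₂ m lam ≤ U := vertexVIter_le_iff.2 fun ν hν =>
    vertexZ_le_vertexVIter ((dist_le_succ_of_adj hgen hμ.symm ν).trans (Nat.succ_le_succ hν))
  have hGU : MulAction.stabilizer X lam ≤ normalizer (U : Set X) := by
    refine (stabilizer_le_pResidualOf_sup h hμ).trans (sup_le ?_ ?_)
    · exact le_normalizer_of_commutator_le_of_le (hc.trans hVU) hUV
    · exact inf_le_right.trans (le_normalizer_vertexVIter _ _)
  have hQμ := vertexQ_le_of_adj h.1 hμ
  have hb : U = ⊥ := eq_bot_of_le_normalizer h.1.1 hμ ((hUV.trans hVQ).trans (le_inf hQG hQμ)) hGU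
    (le_normalizer_vertexVIter _ _)
  refine vertexZ_ne_bot h.1 μ (le_bot_iff.1 ?_)
  rw [← hb, hU]
  exact vertexZ_le_vertexVIter (by simp)

end Cfsg.Agent.S2857
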