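import Cfsg.Statements.S2947
import Cfsg.Agent.Lib.JMax

set_option autoImplicit false
open Cfsg

namespace Cfsg.Agent.S2947

open Subgroup Cfsg.Agent.Lib Cfsg.Agent.Lib.JComp Cfsg.Agent.Lib.ThompsonJ Cfsg.Agent.Lib.PCoreResidual
  Cfsg.Agent.Lib.PCoreConj Cfsg.Agent.Lib.PCore Cfsg.Agent.Lib.JGlobal Cfsg.Agent.Lib.JMax

/-- Let G be a finite group of characteristic 2 type in which every 2-local subgroup is solvable and the centralizer of Ω₁(Z(S)) lies in N_G(S) for every Sylow 2-subgroup S; suppose O₂(G) = 1, fix a Sylow 2-subgroup S and a 2-local subgroup M containing N_G(J(S)) (J the Thompson subgroup generated by the elementary abelian 2-subgroups of largest order). Then M is strongly embedded in G (a proper subgroup of even order whose intersection with each conjugate by an element outside M has odd order) if and only if no nontrivial 2-subgroup of M lies in a 2-local subgroup of G not contained in M. -/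
theorem result {G : Type*} [Group G] [Finite G] (hL : Cfsg.IsCharacteristicTwoType G) (hN : ∀ N : Subgroup G, Cfsg.IsTwoLocal N → Group.IsSolvable ↥N)
    (hZ : ∀ S : Sylow 2 G, Subgroup.centralizer (Cfsg.omegaCenterOf (S : Subgroup G) : Set G) ≤ Subgroup.normalizer ((S : Subgroup G) : Set G)) (hO : Cfsg.pCore 2 G = ⊥) (S : Sylow 2 G) (M : Subgroup G) (hM : Cfsg.IsTwoLocal M)
    (hMJ : Subgroup.normalizer (Cfsg.thompsonSubgroupOf 2 (S : Subgroup G) : Set G) ≤ M) :
    Cfsg.IsStronglyEmbedded M ↔ Cfsg.straddlingTwoSubgroups M = ∅ := by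
  constructor
  · rintro ⟨h1, h2, h3⟩
    have h4 : IsStronglyPEmbedded 2 M := by
      refine LocStrongEmb.of_normalizer_le h1 h2.two_dvd fun Q hQ hp hne g hg => ?_
      by_contra hn
      refine Nat.not_even_iff_odd.2 (h3 g hn) (even_iff_two_dvd.2
        ((dvd_card_of_isPGroup_of_ne_bot hp hne).trans (card_dvd_of_le (le_inf hQ ?_))))
      rw [← conj_eq_of_mem_normalizer hg]
      exact conj_mono g hQ
    refine Set.eq_empty_iff_forall_notMem.2 ?_
    rintro T ⟨h5, h6, h7, _, ⟨R, h8, h9, rfl⟩, h10, h11⟩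
    obtain ⟨T₁, h12, h13⟩ := exists_isSylowIn_ge (le_inf h7 h10) h5
    have h14 := LocStrongEmb.isSylowIn_of_inf h4 h12 fun e => h6 (le_bot_iff.1 (e ▸ h13))
    exact h11 (LocStrongEmb.normalizer_le h4 (((le_pCoreOf_normalizer h8).trans
      h14.pCoreOf_le).trans (h12.le.trans inf_le_left)) h8 h9)
  · intro h
    have h1 := stronglyEmbedded_of_empty hO hM h
    refine ⟨h1.2.1, even_iff_two_dvd.2 (LocStrongEmb.dvd_card h1), fun g hg => ?_⟩
    rw [← Nat.not_even_iff_odd, even_iff_two_dvd]
    exact fun h' => hg (LocStrongEmb.mem_of_dvd_card_inf_conj h1 h')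

end Cfsg.Agent.S2947
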