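import Cfsg.Statements.S2953
import Cfsg.Agent.Lib.JAmalg

set_option autoImplicit false
open Cfsg

namespace Cfsg.Agent.S2953

open Subgroup Cfsg.Agent.Lib Cfsg.Agent.Lib.JComp Cfsg.Agent.Lib.ThompsonJ Cfsg.Agent.Lib.PCoreResidual
  Cfsg.Agent.Lib.PCoreConj Cfsg.Agent.Lib.PCore Cfsg.Agent.Lib.JGlobal Cfsg.Agent.Lib.JMax
  Cfsg.Agent.Lib.JAmalg

/-- Let G be a finite group of characteristic 2 type in which every 2-local subgroup is solvable and the centralizer of Ω₁(Z(S)) lies in N_G(S) for every Sylow 2-subgroup S; suppose O₂(G) = 1, fix a Sylow 2-subgroup S and a 2-local subgroup M containing N_G(J(S)) (J the Thompson subgroup generated by the elementary abelian 2-subgroups of largest order). Let T be maximal (for the order of a largest elementary abelian subgroup, then the order of J(T), then the order of T) among the nontrivial 2-subgroups of M lying in a 2-local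 subgroup not inside M. Then there are two distinct J(T)-components K₁, K₂ such that, with Pᵢ = ⟨Kᵢ, T⟩: C_G(O₂(Pᵢ)) ≤ O₂(Pᵢ), T is a Sylow 2-subgroup of Pᵢ, O₂(Pᵢ) has index 6 in Pᵢ with Pᵢ/O₂(Pᵢ) non-abelian, [Ω₁(Z(T)), Pᵢ] ≠ 1, O₂(⟨P₁, P₂⟩) = 1, and each Pᵢ lies in exactly one maximal 2-local subgroup Lᵢ of G, in which T is a Sylow 2-subgroup. -/
theorem result {G : Type*} [Group G] [Finite G] (hL : Cfsg.IsCharacteristicTwoType G) (hN : ∀ N : Subgroup G, Cfsg.IsTwoLocal N → Group.IsSolvable ↥N)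
    (hZ : ∀ S : Sylow 2 G, Subgroup.centralizer (Cfsg.omegaCenterOf (S : Subgroup G) : Set G) ≤ Subgroup.normalizer ((S : Subgroup G) : Set G)) (hO : Cfsg.pCore 2 G = ⊥) (S : Sylow 2 G) (M : Subgroup G) (hM : Cfsg.IsTwoLocal M)
    (hMJ : Subgroup.normalizer (Cfsg.thompsonSubgroupOf 2 (S : Subgroup G) : Set G) ≤ M) (T : Subgroup G) (hT : T ∈ Cfsg.maxStraddlingTwoSubgroups M) :
    ∃ K₁ K₂ : Subgroup G, K₁ ≠ K₂ ∧ Cfsg.IsJComponent T K₁ ∧ Cfsg.IsJComponent T K₂ ∧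
      Cfsg.pCoreOf 2 ((K₁ ⊔ T) ⊔ (K₂ ⊔ T)) = ⊥ ∧
      ∀ P ∈ [K₁ ⊔ T, K₂ ⊔ T],
        Subgroup.centralizer (Cfsg.pCoreOf 2 P : Set G) ≤ Cfsg.pCoreOf 2 P ∧ Cfsg.IsSylowTwoIn T P ∧
        (Cfsg.pCoreOf 2 P).relIndex P = 6 ∧ ¬ ⁅P, P⁆ ≤ Cfsg.pCoreOf 2 P ∧ ⁅Cfsg.omegaCenterOf T, P⁆ ≠ ⊥ ∧
        ∃ L : Subgroup G, Cfsg.IsMaximalTwoLocal L ∧ P ≤ L ∧ Cfsg.IsSylowTwoIn T L ∧
          ∀ L' : Subgroup G, Cfsg.IsMaximalTwoLocal L' → P ≤ L' → L' = L := by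
  have h := zn hL hN hZ
  have hT' := mx_of_mem hT
  obtain ⟨K₁, L₁, K₂, L₂, h1, h2, h3⟩ := exists_pair h hO (hm_of S hMJ) hT'
  have key : ∀ K L : Subgroup G, Good T K L →
      centralizer (pCoreOf 2 (K ⊔ T) : Set G) ≤ pCoreOf 2 (K ⊔ T) ∧ IsSylowTwoIn T (K ⊔ T) ∧
      (pCoreOf 2 (K ⊔ T)).relIndex (K ⊔ T) = 6 ∧ ¬ ⁅K ⊔ T, K ⊔ T⁆ ≤ pCoreOf 2 (K ⊔ T) ∧
      ⁅omegaCenterOf T, K ⊔ T⁆ ≠ ⊥ ∧ ∃ L : Subgroup G, IsMaximalTwoLocal L ∧ K ⊔ T ≤ L ∧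
        IsSylowTwoIn T L ∧ ∀ L' : Subgroup G, IsMaximalTwoLocal L' → K ⊔ T ≤ L' → L' = L := by
    intro K L hK
    have hl := hK.loc h
    refine ⟨(hK.ov.of_le hl.syl (hK.ov.syl.pCoreOf_le.trans le_sup_right) hK.le).char,
      isSylowTwoIn_iff.2 hl.syl, hl.idx6, fun h4 => hK.jc.not_le (pCoreOf_isPGroup 2 _)
        (hK.jc.comm.ge.trans ((commutator_mono le_sup_left ((J_le 2 T).trans le_sup_right)).trans h4)),
      fun h4 => hl.nc (le_centralizer_iff.1 (commutator_eq_bot_iff_le_centralizer.1 h4)),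
      L, hK.uq.maximal, hK.le, isSylowTwoIn_iff.2 hK.ov.syl, fun L' h4 h5 =>
        uq_of_maximal hK.uq h4 ((sup_le_sup_left (J_le 2 T) K).trans h5)⟩
  refine ⟨K₁, K₂, fun e => h3 (e ▸ h1.uq.K_le), (isJComponent_iff hT'.pg).2 h1.jc,
    (isJComponent_iff hT'.pg).2 h2.jc, eq_bot_of_normal h1.uq h3 (pCoreOf_isPGroup 2 _)
      (le_sup_left.trans (le_normalizer_pCoreOf 2 _))
      (le_sup_right.trans (le_normalizer_pCoreOf 2 _)), fun P hP => ?_⟩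
  simp only [List.mem_cons, List.not_mem_nil, or_false] at hP
  rcases hP with rfl | rfl
  · exact key _ _ h1
  · exact key _ _ h2

end Cfsg.Agent.S2953
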