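import Cfsg.Statements.S3084
import Cfsg.Agent.Lib.FrattiniFacts
import Cfsg.Agent.Lib.PIrred

set_option autoImplicit false
open Cfsg

namespace Cfsg.Agent.S3084

open Matrix Subgroup Cfsg.Agent.Lib

theorem z2 (x : ZMod 2) : x = 0 ∨ x = 1 := by revert x; decide

theorem z2_add (x : ZMod 2) : x + x = 0 := by revert x; decide

/-- the sign character -/
noncomputable def ε (x : ZMod 2) : ℝ := if x = 0 then 1 else -1

theorem ε_zero : ε 0 = 1 := if_pos rfl

theorem ε_one : ε 1 = -1 := if_neg one_ne_zero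

theorem ε_add (x y : ZMod 2) : ε (x + y) = ε x * ε y := by
  rcases z2 x with rfl | rfl <;> rcases z2 y with rfl | rfl <;> simp [z2_add, ε_zero, ε_one]

theorem ε_mul_self (x : ZMod 2) : ε x * ε x = 1 := by rw [← ε_add, z2_add, ε_zero]

theorem ε_ne_zero (x : ZMod 2) : ε x ≠ 0 := left_ne_zero_of_mul_eq_one (ε_mul_self x)

theorem ε_inj {x y : ZMod 2} (h : ε x = ε y) : x = y := by
  rcases z2 x with rfl | rfl <;> rcases z2 y with rfl | rfl <;> simp only [ε_zero, ε_one] at h ⊢ <;> linarith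

section

variable {U : Type} [AddCommGroup U] [Module (ZMod 2) U] [Fintype U] [DecidableEq U]
variable (β : U →ₗ[ZMod 2] U →ₗ[ZMod 2] ZMod 2)

omit [Fintype U] [DecidableEq U] in
theorem add_add_self (u x : U) : u + (u + x) = x := by rw [← add_assoc, ZModModule.add_self, zero_add]

omit [Fintype U] [DecidableEq U] in
theorem eq_add_iff {u x y : U} : x = u + y ↔ y = u + x :=
  ⟨fun h => by rw [h, add_add_self], fun h => by rw [h, add_add_self]⟩

/-- left multiplication in the twisted group algebra -/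
noncomputable def L (u : U) : Matrix U U ℝ := Matrix.of fun x y => if x = u + y then ε (β u y) else 0

omit [Fintype U] in
theorem L_apply (u x y : U) : L β u x y = if x = u + y then ε (β u y) else 0 := rfl

theorem L_mul (u : U) (m : Matrix U U ℝ) (x y : U) : (L β u * m) x y = ε (β u (u + x)) * m (u + x) y := by
  simp only [mul_apply, L_apply, eq_add_iff (x := x), ite_mul, zero_mul, Finset.sum_ite_eq', Finset.mem_univ, if_true]

theorem mul_L (u : U) (m : Matrix U U ℝ) (x y : U) : (m * L β u) x y = m x (u + y) * ε (β u y) := by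
  simp only [mul_apply, L_apply, mul_ite, mul_zero, Finset.sum_ite_eq', Finset.mem_univ, if_true]

theorem L_mul_L (u v : U) : L β u * L β v = ε (β u v) • L β (u + v) := by
  ext x y
  rw [L_mul, Matrix.smul_apply, L_apply, L_apply, add_assoc]
  by_cases h : x = u + (v + y)
  · rw [if_pos h, h, add_add_self, if_pos rfl, smul_eq_mul, ← ε_add, ← ε_add, map_add, map_add, LinearMap.add_apply,
      add_assoc]
  · rw [if_neg h, if_neg fun e => h (by rw [← e, add_add_self])]; simp

omit [Fintype U] in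
theorem L_zero : L β 0 = 1 := by
  ext x y; simp [L_apply, one_apply, ε_zero]

omit [Fintype U] in
theorem L_transpose (u : U) : (L β u)ᵀ = ε (β u u) • L β u := by
  ext x y
  rw [transpose_apply, Matrix.smul_apply, L_apply, L_apply]
  by_cases h : x = u + y
  · rw [if_pos h, if_pos (eq_add_iff.mp h), h, smul_eq_mul, map_add, ε_add]
  · rw [if_neg h, if_neg (mt eq_add_iff.mpr h)]; simp

theorem L_comm (u v : U) : L β u * L β.flip v = L β.flip v * L β u := by
  ext x y
  rw [L_mul, mul_L, L_apply, L_apply, add_left_comm v]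
  by_cases h : x = u + (v + y)
  · rw [if_pos h, h, add_add_self, if_pos rfl, ← ε_add, ← ε_add]; congr 1; simp; ring
  · rw [if_neg h, if_neg fun e => h (by rw [← e, add_add_self])]; simp

theorem L_orth (a : ZMod 2) (u : U) : (ε a • L β u) * (ε a • L β u)ᵀ = 1 := by
  rw [transpose_smul, L_transpose, smul_mul_smul, mul_smul_comm, L_mul_L, ZModModule.add_self, L_zero, smul_smul,
    smul_smul, ε_mul_self, one_mul, ε_mul_self, one_smul]

omit [Fintype U] in
theorem smul_L_inj {a b : ZMod 2} {x y : U} (h : ε a • L β x = ε b • L β y) : a = b ∧ x = y := by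
  have := congrFun (congrFun h x) 0
  simp only [Matrix.smul_apply, L_apply, add_zero, if_true, map_zero, ε_zero, smul_eq_mul, mul_one] at this
  split_ifs at this with e
  · exact ⟨ε_inj (by rwa [mul_one] at this), e⟩
  · exact absurd (this.trans (mul_zero _)) (ε_ne_zero a)

variable {β}

theorem eq_smul (hnd : ∀ u, (∀ v, β u v = β v u) → u = 0) {g : Matrix U U ℝ} {s : U → ZMod 2}
    (hR : ∀ v, g * L β.flip v = L β.flip v * g) (hL : ∀ u, g * L β u = ε (s u) • L β u * g) :
    ∃ (w : U) (c : ℝ), g = c • L β w ∧ (c ≠ 0 → ∀ u, s u = β u w + β w u) := by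
  have h₁ : ∀ x u, g x u = ε (β (u + x) u) * g (u + x) 0 := fun x u => by
    simpa [L_mul, mul_L, ε_zero] using congrFun (congrFun (hR u) x) 0
  have h₂ : ∀ w, g w 0 ≠ 0 → ∀ u, s u = β u w + β w u := fun w hw u => by
    have := congrFun (congrFun (hL u) (u + w)) 0
    rw [mul_L, smul_mul_assoc, Matrix.smul_apply, L_mul, add_zero, h₁, add_add_self, map_zero, ε_zero, mul_one, smul_eq_mul,
      ← mul_assoc, ← ε_add] at this
    rw [ε_inj (mul_right_cancel₀ hw this), add_left_comm, z2_add, add_zero]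
  by_cases h : ∃ w, g w 0 ≠ 0
  · obtain ⟨w, hw⟩ := h
    refine ⟨w, g w 0, ext fun x u => ?_, fun _ => h₂ w hw⟩
    rw [h₁, Matrix.smul_apply, L_apply, add_comm w]
    split_ifs with e
    · rw [← eq_add_iff.mp e, smul_eq_mul, mul_comm]
    · rw [smul_zero, mul_eq_zero]
      refine Or.inr (by_contra fun h => e (eq_add_iff.mp (add_eq_zero_iff_eq_neg.mp (hnd _ fun v => ?_) |>.trans
        (ZModModule.neg_eq_self _))))
      have := (h₂ w hw v).symm.trans (h₂ _ h v)
      simp only [map_add, LinearMap.add_apply] at this ⊢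
      linear_combination this - z2_add (β v w) + z2_add (β u v) + z2_add (β x v)
  · push Not at h
    exact ⟨0, 0, ext fun x u => by rw [h₁, h, mul_zero, zero_smul, Matrix.zero_apply], fun e => absurd rfl e⟩

omit [Fintype U] [DecidableEq U] in
theorem exists_quad [Finite U] (B : U →ₗ[ZMod 2] U →ₗ[ZMod 2] ZMod 2) (h : ∀ u, B u u = 0) :
    ∃ s : U → ZMod 2, ∀ u v, s (u + v) = s u + s v + B u v := by
  let b := Module.finBasis (ZMod 2) U
  let γ : U →ₗ[ZMod 2] U →ₗ[ZMod 2] ZMod 2 := b.constr (ZMod 2) fun i => b.constr (ZMod 2) fun j =>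
    if i < j then B (b i) (b j) else 0
  have hs : ∀ u v, B u v = B v u := fun u v => by
    have := h (u + v)
    simp only [map_add, LinearMap.add_apply, h] at this
    linear_combination this - z2_add (B v u)
  have e : B = γ + γ.flip := b.ext fun i => b.ext fun j => by
    simp only [γ, LinearMap.add_apply, LinearMap.flip_apply, Module.Basis.constr_basis]
    rcases lt_trichotomy i j with h' | rfl | h'
    · rw [if_pos h', if_neg h'.asymm, add_zero]
    · rw [h, if_neg (lt_irrefl i), add_zero]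
    · rw [if_pos h', if_neg h'.asymm, zero_add, hs]
  refine ⟨fun u => γ u u, fun u v => ?_⟩
  simp only [e, map_add, LinearMap.add_apply, LinearMap.flip_apply]
  ring

theorem exists_orth (hnd : ∀ u, (∀ v, β u v = β v u) → u = 0) (f : U →ₗ[ZMod 2] U) (hf : ∀ u, β (f u) (f u) = β u u)
    (hi : Function.Injective f) : ∃ (g : Matrix U U ℝ) (s : U → ZMod 2), gᵀ * g = 1 ∧
      (∀ v, g * L β.flip v = L β.flip v * g) ∧ ∀ u, g * L β u = ε (s u) • L β (f u) * g := by
  obtain ⟨s, hs⟩ := exists_quad (β.compl₁₂ f f + β) fun u => by simp [hf, z2_add]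
  simp only [LinearMap.add_apply, LinearMap.compl₁₂_apply] at hs
  let T : U → Matrix U U ℝ := fun w => ∑ u, ε (s u) • L β (f u) * L β w * (L β u)ᵀ
  have hR : ∀ w v, T w * L β.flip v = L β.flip v * T w := fun w v => by
    simp only [T, Finset.sum_mul, Finset.mul_sum, L_transpose, smul_mul_assoc, mul_smul_comm]
    refine Finset.sum_congr rfl fun u _ => ?_
    rw [mul_assoc, L_comm, ← mul_assoc, mul_assoc (L β (f u)), L_comm, ← mul_assoc, L_comm]
    simp only [mul_assoc]
  have hL : ∀ w v, T w * L β v = ε (s v) • L β (f v) * T w := fun w v => by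
    simp only [T, Finset.sum_mul, Finset.mul_sum]
    refine (Finset.sum_equiv (Equiv.addLeft v) (by simp) fun u _ => ?_)
    rw [Equiv.coe_addLeft, L_transpose, L_transpose, mul_assoc _ _ (L β v), smul_mul_assoc (ε (β u u)), L_mul_L,
      ← mul_assoc, ← mul_assoc, smul_mul_smul, L_mul_L, ← map_add, add_add_self, add_comm u]
    simp only [smul_smul, smul_mul_assoc, mul_smul_comm, ← ε_add, hs, map_add, LinearMap.add_apply, hf]
    congr 2
    linear_combination - z2_add (s v) - z2_add (β (f v) (f u)) - z2_add (β v u) - z2_add (β v v)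
  obtain ⟨w, hw⟩ : ∃ w, T w ≠ 0 := by
    by_contra! h
    have e : ∑ w, (L β w)ᵀ * T w = ∑ u, (∑ w, ε (β (f u) w + β w (f u))) • (ε (s u) • L β (f u) * (L β u)ᵀ) := by
      simp only [T, Finset.mul_sum, Finset.sum_smul]
      refine Finset.sum_comm.trans (Finset.sum_congr rfl fun u _ => Finset.sum_congr rfl fun w _ => ?_)
      rw [← mul_assoc, ← mul_assoc, ← smul_mul_assoc, L_transpose β w, smul_mul_smul, L_mul_L, smul_smul,
        smul_mul_assoc _ _ (L β w), L_mul_L, add_comm w (f u), add_assoc, ZModModule.add_self, add_zero]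
      simp only [smul_smul, ← ε_add, map_add, LinearMap.add_apply]
      congr 3
      linear_combination z2_add (β w w)
    rw [eq_comm, Finset.sum_eq_single 0 (fun u _ hu => ?_) (by simp)] at e
    · have := congrFun (congrFun e 0) 0
      simp [h, L_zero, ε_zero, ε_ne_zero] at this
    · obtain ⟨v, hv⟩ := not_forall.mp fun e => hu (hi ((hnd _ e).trans f.map_zero.symm))
      have h₁ : β (f u) v + β v (f u) = 1 := (z2 _).resolve_left fun e =>
        hv ((add_eq_zero_iff_eq_neg.mp e).trans (ZMod.neg_eq_self_mod_two _))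
      have h₂ := Equiv.sum_comp (Equiv.addLeft v) fun w => ε (β (f u) w + β w (f u))
      simp only [Equiv.coe_addLeft, map_add, LinearMap.add_apply, add_add_add_comm (β (f u) v), h₁, ε_add 1, ε_one,
        neg_one_mul, Finset.sum_neg_distrib] at h₂
      rw [show ∑ w, ε (β (f u) w + β w (f u)) = 0 by linarith, zero_smul]
  obtain ⟨x, c, h₁, h₂⟩ := eq_smul hnd (g := (T w)ᵀ * T w) (s := 0) (fun v => by
    have := congrArg transpose (hR w v)
    rw [transpose_mul, transpose_mul, L_transpose, smul_mul_assoc, mul_smul_comm,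
      smul_right_inj (ε_ne_zero _)] at this
    rw [mul_assoc, hR, ← mul_assoc, ← this, mul_assoc]) fun v => by
      have := congrArg transpose (hL w v)
      rw [transpose_mul, transpose_mul, transpose_smul, L_transpose, L_transpose, hf, smul_comm, smul_mul_assoc,
        mul_smul_comm, smul_right_inj (ε_ne_zero _)] at this
      rw [mul_assoc, hL, ← mul_assoc, ← this, mul_assoc, Pi.zero_apply, ε_zero, one_smul]
  have h₃ : c ≠ 0 := fun e => hw (conjTranspose_mul_self_eq_zero.mp (by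
    rw [conjTranspose_eq_transpose_of_trivial, h₁, e, zero_smul]))
  obtain rfl : x = 0 := hnd x fun v =>
    (add_eq_zero_iff_eq_neg.mp (h₂ h₃ v).symm |>.trans (ZMod.neg_eq_self_mod_two _)).symm
  have h₄ : 0 ≤ c := by
    have := congrFun (congrFun h₁ 0) 0
    simp only [L_zero, mul_apply, transpose_apply, Matrix.smul_apply, one_apply_eq, smul_eq_mul, mul_one] at this
    exact this ▸ Finset.sum_nonneg fun i _ => mul_self_nonneg _
  refine ⟨(√c)⁻¹ • T w, s, ?_, fun v => by rw [smul_mul_assoc, mul_smul_comm, hR],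
    fun v => by rw [smul_mul_assoc, mul_smul_comm, hL]⟩
  rw [transpose_smul, smul_mul_smul, h₁, L_zero, smul_smul, ← mul_inv, Real.mul_self_sqrt h₄, inv_mul_cancel₀ h₃,
    one_smul]

omit [DecidableEq U] in
theorem extra [Nontrivial U] (hnd : ∀ u, (∀ v, β u v = β v u) → u = 0) {Q : Type} [Group Q] (t : ZMod 2 → U → Q)
    (ht : ∀ a u b v, t a u * t b v = t (a + b + β u v) (u + v)) (hi : ∀ a u b v, t a u = t b v → a = b ∧ u = v)
    (hs : ∀ x, ∃ a u, t a u = x) : ∃ χ : Q →* Multiplicative U, (∀ a u, χ (t a u) = .ofAdd u) ∧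
      IsExtraspecial 2 Q ∧ Nat.card Q = 2 * Nat.card U ∧ χ.ker = center Q ∧
      ∀ x, x * x = 1 ↔ β (χ x).toAdd (χ x).toAdd = 0 := by
  have h1 : t 0 0 = 1 := mul_left_cancel (a := t 0 0) (by simp [ht])
  let E : ZMod 2 × U ≃ Q := .ofBijective (fun x => t x.1 x.2)
    ⟨fun x y h => Prod.ext (hi _ _ _ _ h).1 (hi _ _ _ _ h).2, fun x => let ⟨a, u, h⟩ := hs x; ⟨(a, u), h⟩⟩
  have hE : ∀ a u, (E.symm (t a u)).2 = u := fun a u => congrArg Prod.snd (E.symm_apply_apply (a, u))
  let χ : Q →* Multiplicative U := .mk' (fun x => .ofAdd (E.symm x).2) fun x y => by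
    obtain ⟨a, u, rfl⟩ := hs x
    obtain ⟨b, v, rfl⟩ := hs y
    simp only [ht, hE, ofAdd_add]
  have hχ : ∀ a u, χ (t a u) = .ofAdd u := fun a u => congrArg Multiplicative.ofAdd (hE a u)
  have hc : Nat.card Q = 2 * Nat.card U := by rw [← Nat.card_congr E, Nat.card_prod, Nat.card_zmod]
  haveI : Finite Q := .of_equiv _ E
  have hk : χ.ker = center Q := Subgroup.ext fun x => by
    obtain ⟨a, u, rfl⟩ := hs x
    rw [MonoidHom.mem_ker, hχ, ofAdd_eq_one, mem_center_iff]
    refine ⟨fun h y => ?_, fun h => hnd u fun v => ?_⟩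
    · obtain ⟨b, v, rfl⟩ := hs y
      simp [ht, h, add_comm]
    · have := h (t 0 v)
      rw [ht, ht] at this
      simpa using (hi _ _ _ _ this).1.symm
  have hcm : _root_.commutator Q = center Q := by
    refine le_antisymm (hk ▸ Abelianization.commutator_subset_ker χ) fun x hx => ?_
    obtain ⟨a, u, rfl⟩ := hs x
    rw [← hk, MonoidHom.mem_ker, hχ, ofAdd_eq_one] at hx
    subst hx
    rcases z2 a with rfl | rfl
    · exact h1 ▸ one_mem _
    obtain ⟨u, hu⟩ := exists_ne (0 : U)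
    obtain ⟨v, hv⟩ := not_forall.mp (mt (hnd u) hu)
    have : t 0 u * t 0 v = t 1 0 * (t 0 v * t 0 u) := by
      rw [ht, ht, ht, add_comm v]
      congr 1
      · simp only [map_zero, LinearMap.zero_apply, zero_add, add_zero]
        generalize β u v = x, β v u = y at hv
        revert x y; decide
      · rw [zero_add]
    have e : t 1 0 = t 0 u * t 0 v * (t 0 u)⁻¹ * (t 0 v)⁻¹ := by rw [this]; group
    exact e ▸ commutator_mem_commutator (mem_top _) (mem_top _)
  have hp : IsPGroup 2 Q := fun x => ⟨2, by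
    obtain ⟨a, u, rfl⟩ := hs x
    simp [pow_succ, ht, ZModModule.add_self, z2_add, ← h1, add_assoc]⟩
  haveI := hp.isNilpotent
  refine ⟨χ, hχ, ⟨⟨hp, le_antisymm (PIrred.frattini_le_of_pow (p := 2) hcm.le fun x => ?_)
    (hcm ▸ FrattiniFacts.commutator_le_frattini), hcm⟩, ?_⟩, hc, hk, fun x => ?_⟩
  · obtain ⟨a, u, rfl⟩ := hs x
    rw [← hk, MonoidHom.mem_ker, sq, ht, hχ, ZModModule.add_self, ofAdd_zero]
  · have := χ.ker.card_mul_index
    rw [index_ker, MonoidHom.range_eq_top.mpr fun u => ⟨_, hχ 0 u.toAdd⟩, card_top, hc, hk] at this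
    exact mul_right_cancel₀ (Nat.card_pos (α := U)).ne' this
  · obtain ⟨a, u, rfl⟩ := hs x
    rw [hχ, ht, z2_add, zero_add, ZModModule.add_self, toAdd_ofAdd, ← h1]
    exact ⟨fun h => (hi _ _ _ _ h).1, fun h => by rw [h]⟩

variable (β) {K : Type*} [Group K] (ρ : Representation (ZMod 2) K U)

/-- `g` twists the left multiplications according to `k` -/
def Tw (g : orthogonalGroup U ℝ) (k : K) : Prop := ∃ s : U → ZMod 2, ∀ u, g.1 * L β u = ε (s u) • L β (ρ k u) * g.1

variable {β ρ}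

theorem mul_inv_val (g : orthogonalGroup U ℝ) : g.1 * (g⁻¹).1 = 1 := congrArg Subtype.val (mul_inv_cancel g)

theorem inv_mul_val (g : orthogonalGroup U ℝ) : (g⁻¹).1 * g.1 = 1 := congrArg Subtype.val (inv_mul_cancel g)

theorem inv_comm {g : orthogonalGroup U ℝ} {A B : Matrix U U ℝ} (h : g.1 * A = B * g.1) : (g⁻¹).1 * B = A * (g⁻¹).1 := by
  rw [← mul_one B, ← mul_inv_val g, ← mul_assoc B, ← h, ← mul_assoc, ← mul_assoc, inv_mul_val, one_mul]

theorem Tw.mul {g h : orthogonalGroup U ℝ} {k l : K} (a : Tw β ρ g k) (b : Tw β ρ h l) : Tw β ρ (g * h) (k * l) := by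
  obtain ⟨s, hs⟩ := a
  obtain ⟨r, hr⟩ := b
  refine ⟨fun u => r u + s (ρ l u), fun u => ?_⟩
  rw [Submonoid.coe_mul, mul_assoc, hr, ← mul_assoc, mul_smul_comm, hs, map_mul, Module.End.mul_apply, ε_add, mul_smul,
    ← smul_mul_assoc, mul_assoc]

theorem Tw.inv {g : orthogonalGroup U ℝ} {k : K} (a : Tw β ρ g k) : Tw β ρ g⁻¹ k⁻¹ := by
  obtain ⟨s, hs⟩ := a
  refine ⟨fun u => s (ρ k⁻¹ u), fun u => ?_⟩
  rw [smul_mul_assoc, ← inv_comm (hs _), ρ.self_inv_apply, ← mul_smul_comm, smul_smul, ε_mul_self, one_smul]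

theorem Tw.uniq (hρ : Function.Injective ρ) {g : orthogonalGroup U ℝ} {k l : K} (a : Tw β ρ g k) (b : Tw β ρ g l) :
    k = l := by
  obtain ⟨s, hs⟩ := a
  obtain ⟨r, hr⟩ := b
  refine hρ (LinearMap.ext fun u => (smul_L_inj β (a := s u) (b := r u) ?_).2)
  have := congrArg (· * (g⁻¹).1) ((hs u).symm.trans (hr u))
  simpa only [mul_assoc, mul_inv_val, mul_one] using this

theorem tw_L (a : ZMod 2) (w : U) : Tw β ρ ⟨ε a • L β w, (mem_orthogonalGroup_iff _ _).mpr (L_orth β a w)⟩ 1 :=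
  ⟨fun u => β u w + β w u, fun u => by
    simp only [smul_mul_assoc, mul_smul_comm, L_mul_L, map_one, Module.End.one_apply, smul_smul, ← ε_add, add_comm u]
    congr 2
    linear_combination - z2_add (β u w)⟩

variable (β ρ) in
/-- the extension -/
def Rg : Subgroup (orthogonalGroup U ℝ) where
  carrier := {g | (∀ v, g.1 * L β.flip v = L β.flip v * g.1) ∧ ∃ k, Tw β ρ g k}
  mul_mem' := fun ⟨a, _, b⟩ ⟨c, _, d⟩ => ⟨fun v => by
    rw [Submonoid.coe_mul, mul_assoc, c, ← mul_assoc, a, mul_assoc], _, b.mul d⟩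
  one_mem' := ⟨fun v => by simp, 1, 0, fun u => by simp [ε_zero]⟩
  inv_mem' := fun ⟨a, _, b⟩ => ⟨fun v => inv_comm (a v), _, b.inv⟩

theorem main [Nontrivial U] (hnd : ∀ u, (∀ v, β u v = β v u) → u = 0) (hρ : Function.Injective ρ)
    (hq : ∀ k u, β (ρ k u) (ρ k u) = β u u) : ∃ (R : Type) (_ : Group R) (_ : Finite R) (Q : Subgroup R) (hN : Q.Normal)
      (e : R ⧸ Q ≃* K) (χ : Q →* Multiplicative U), IsExtraspecial 2 Q ∧ Nat.card Q = 2 * Nat.card U ∧
      Function.Surjective χ ∧ χ.ker = center Q ∧ (∀ (r : R) (a : Q), χ ⟨r * a * r⁻¹, hN.conj_mem a a.2 r⟩ =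
        .ofAdd (ρ (e r) (χ a).toAdd)) ∧ ∀ x, x * x = 1 ↔ β (χ x).toAdd (χ x).toAdd = 0 := by
  choose p hp using fun g : Rg β ρ => g.2.2
  let π : Rg β ρ →* K := .mk' p fun x y => (hp _).uniq hρ ((hp x).mul (hp y))
  have hπ : Function.Surjective π := fun k => by
    obtain ⟨g, s, h₁, h₂, h₃⟩ := exists_orth hnd (ρ k) (hq k) fun x y h => by
      rw [← ρ.inv_self_apply k x, h, ρ.inv_self_apply]
    exact ⟨⟨⟨g, (mem_orthogonalGroup_iff' _ _).mpr h₁⟩, h₂, k, s, h₃⟩, (hp _).uniq hρ ⟨s, h₃⟩⟩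
  let t : ZMod 2 → U → π.ker := fun a u => ⟨⟨⟨ε a • L β u, (mem_orthogonalGroup_iff _ _).mpr (L_orth β a u)⟩,
    fun v => by simp only [smul_mul_assoc, mul_smul_comm, L_comm], 1, tw_L a u⟩, (hp _).uniq hρ (tw_L a u)⟩
  have hs : ∀ x, ∃ a u, t a u = x := fun x => by
    obtain ⟨s, hs⟩ := hp x.1
    rw [show p x.1 = 1 from x.2, map_one] at hs
    obtain ⟨w, c, h, -⟩ := eq_smul hnd x.1.2.1 hs
    have h₁ := (mem_orthogonalGroup_iff _ _).mp x.1.1.2
    have h₂ := L_orth β 0 w
    rw [ε_zero, one_smul] at h₂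
    rw [h, transpose_smul, smul_mul_smul, h₂] at h₁
    have h₃ : c * c = 1 := by simpa using congrFun (congrFun h₁ 0) 0
    obtain ⟨a, rfl⟩ : ∃ a, ε a = c := (mul_self_eq_one_iff.mp h₃).elim (fun e => ⟨0, e ▸ ε_zero⟩) fun e => ⟨1, e ▸ ε_one⟩
    exact ⟨a, w, Subtype.ext (Subtype.ext (Subtype.ext h.symm))⟩
  obtain ⟨χ, hχ, h₁, h₂, h₃, h₄⟩ := extra hnd t (fun a u b v => Subtype.ext (Subtype.ext (Subtype.ext (by
      change ε a • L β u * ε b • L β v = ε _ • L β _
      rw [smul_mul_smul, L_mul_L, smul_smul, ε_add, ε_add]))))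
    (fun a u b v h => smul_L_inj β (congrArg (fun x : π.ker => x.1.1.1) h)) hs
  haveI : Finite (U →ₗ[ZMod 2] U) := .of_injective _ DFunLike.coe_injective
  haveI : Finite K := .of_injective _ hρ
  haveI : Finite π.ker := Nat.finite_of_card_ne_zero (h₂ ▸ mul_ne_zero two_ne_zero Nat.card_pos.ne')
  let e := QuotientGroup.quotientKerEquivOfSurjective π hπ
  haveI : Finite (Rg β ρ ⧸ π.ker) := .of_equiv _ e.symm.toEquiv
  refine ⟨Rg β ρ, inferInstance, .of_equiv _ (groupEquivQuotientProdSubgroup (s := π.ker)).symm, π.ker, inferInstance,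
    e, χ, h₁, h₂, fun u => ⟨_, hχ 0 u.toAdd⟩, h₃, fun r x => ?_, h₄⟩
  obtain ⟨a, u, rfl⟩ := hs x
  obtain ⟨s, hr⟩ := hp r
  rw [hχ, toAdd_ofAdd, ← hχ (a + s u)]
  refine congrArg χ (Subtype.ext (Subtype.ext (Subtype.ext ?_)))
  change r.1.1 * ε a • L β u * (r.1⁻¹).1 = ε _ • L β (ρ (p r) u)
  rw [mul_smul_comm, hr, smul_mul_assoc, mul_assoc, mul_inv_val, mul_one, ε_add, mul_smul]

end

/-- Let K be a group acting faithfully and linearly on a finite-dimensional vector space U of dimension 2n ≥ 2 over the field with two elements, preserving a quadratic form q whose polar bilinear form is non-degenerate and which vanishes on some n-dimensional subspace (a non-singular form of plus type). Then there is a finite group R with a normal extraspecial 2-subgroup Q of order 2^(2n+1), an isomorphism of R/Q with K, and a surjective homomorphism χ from Q onto (the additive group of) U with kernel the centre of Q, such that χ carries conjugation by any r in R to the action of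 the image of r in K, and an element a of Q squares to the identity exactly when q vanishes at χ(a). -/
theorem result {K : Type*} [Group K] {U : Type*} [AddCommGroup U] [Module (ZMod 2) U] [Module.Finite (ZMod 2) U] (n : ℕ) (hn1 : 1 ≤ n) (hn : Module.finrank (ZMod 2) U = 2 * n) (ρ : Representation (ZMod 2) K U) (hρ : Function.Injective ρ) (q : QuadraticForm (ZMod 2) U) (hq : ∀ (k : K) (u : U), q (ρ k u) = q u) (hnd : (QuadraticMap.polarBilin q).Nondegenerate) (hplus : ∃ W : Submodule (ZMod 2) U, Module.finrank (ZMod 2) ↥W = n ∧ ∀ w ∈ W, q w = 0) : ∃ (R : Type) (_ : Group R) (_ : Finite R) (Q : Subgroup R) (hN : Q.Normal) (e : R ⧸ Q ≃* K) (χ : ↥Q →* Multiplicative U), Cfsg.IsExtraspecial 2 ↥Q ∧ Nat.card ↥Q = 2 ^ (2 * n + 1) ∧ Function.Surjective χ ∧ χ.ker = Subgroup.center ↥Q ∧ (∀ (r : R) (a : ↥Q), χ ⟨r * a * r⁻¹, hN.conj_mem (a : R) a.2 r⟩ = Multiplicative.ofAdd (ρ (e (r : R ⧸ Q)) (Multiplicative.toAdd (χ a)))) ∧ ∀ a : ↥Q, a * a = 1 ↔ q (Multiplicative.toAdd (χ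 a)) = 0 := by
  haveI : Fact (Nat.Prime 2) := Nat.fact_prime_two
  let φ : U ≃ₗ[ZMod 2] (Fin (2 * n) → ZMod 2) := (Module.finBasisOfFinrankEq (ZMod 2) U hn).equivFun
  obtain ⟨β, hβ⟩ := LinearMap.BilinMap.toQuadraticMap_surjective (q.comp φ.symm.toLinearMap)
  have hβ' : ∀ x, β x x = q (φ.symm x) := fun x => congrArg (fun r : QuadraticForm (ZMod 2) _ => r x) hβ
  haveI : Nonempty (Fin (2 * n)) := ⟨⟨0, by omega⟩⟩
  obtain ⟨R, _, _, Q, hN, e, χ, h₁, h₂, h₃, h₄, h₅, h₆⟩ := main (β := β)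
    (ρ := (φ.conjRingEquiv : _ →* _).comp ρ) (fun u hu => by
      refine φ.symm.map_eq_zero_iff.mp (hnd.1 _ fun v => ?_)
      obtain ⟨v, rfl⟩ := φ.symm.surjective v
      simp only [QuadraticMap.polarBilin_apply_apply, QuadraticMap.polar, ← map_add, ← hβ']
      simp only [map_add, LinearMap.add_apply, hu v]
      linear_combination z2_add (β v u))
    (φ.conjRingEquiv.injective.comp hρ) fun k u => by simp [hβ', hq]
  refine ⟨R, _, ‹_›, Q, hN, e, (φ.symm.toAddEquiv.toMultiplicative : _ →* _).comp χ, h₁, ?_,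
    φ.symm.surjective.comp h₃, ?_, fun r a => ?_, fun a => ?_⟩
  · rw [h₂, Nat.card_fun, Nat.card_zmod, Nat.card_fin, pow_succ']
  · rw [← h₄, MonoidHom.ker_comp_of_injective _ _ φ.symm.injective]
  · simp [h₅]
  · simp [h₆, hβ']

end Cfsg.Agent.S3084
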